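import Mathlib
import Cfsg.Agent.H3.Invol2
import Cfsg.Statements.S0219

set_option autoImplicit false
open Cfsg

namespace Cfsg.Agent.S0219

/-- If a finite group has even order and a cyclic Sylow 2-subgroup, then it has a subgroup of index 2 (consider the parity of permutations in the regular representation). -/
theorem result {G : Type*} [Group G] [Finite G] (heven : Even (Nat.card G)) (T : Sylow 2 G) (hT : IsCyclic (T : Subgroup G)) : ∃ H : Subgroup G, H.index = 2 := by
  have hmin : (Nat.card G).minFac = 2 := by
    rw [Nat.minFac_eq_two_iff]; exact heven.two_dvd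
  have hN : CfsgH3.HasNPC 2 G := CfsgH3.hasNPC_burnside T (IsCyclic.normalizer_le_centralizer hmin hT)
  obtain ⟨H, -, hH⟩ := hN.exists_index_eq heven.two_dvd
  exact ⟨H, hH⟩

end Cfsg.Agent.S0219
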