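import Cfsg.Statements.S0069
import Cfsg.Agent.H1.FrobCenter

set_option autoImplicit false
open Cfsg

namespace Cfsg.Agent.S0069

open scoped commutatorElement Pointwise

/-- A Frobenius complement has nontrivial centre: if H ≠ 1 complements a nontrivial normal subgroup K and every nonidentity element of H has trivial centraliser in K, then the centre of H is nontrivial. -/
theorem result {G : Type*} [Group G] [Finite G] (K H : Subgroup G) [K.Normal]
    (hc : Subgroup.IsComplement' K H) (hK : K ≠ ⊥) (hH : H ≠ ⊥) (hfpf : ∀ h ∈ H, h ≠ 1 → K ⊓ Subgroup.centralizer {h} = ⊥) :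
    Subgroup.center H ≠ ⊥ := by
  have h1 : ∃ s ∈ Subgroup.center H, s ≠ 1 := by
    by_cases h2 : 2 ∣ Nat.card H
    · exact CfsgH1.frob_center_even hK hfpf h2
    · have hcop := CfsgH1.card_coprime_of_fpf hc hK hfpf
      have hn := CfsgH1.le_normalizer_of_normal H K
      have hf := CfsgH1.fpf_commute hfpf
      exact CfsgH1.frob_center_odd hn hK hcop hf hH (CfsgH1.frob_isZGroup_of_odd hn hK hcop hf h2)
  obtain ⟨s, hs, hs1⟩ := h1
  intro h
  rw [h, Subgroup.mem_bot] at hs
  exact hs1 hs

end Cfsg.Agent.S0069
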