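import Mathlib
import Cfsg.Agent.H3.Puig
import Cfsg.Statements.S1466

set_option autoImplicit false
open Cfsg

namespace Cfsg.Agent.S1466

/-- Let p be a prime and R a nontrivial finite p-group. Then for every i > 0, Z(R) ≤ C_R(L_i(R)) ≤ L_i(R); likewise Z(R) ≤ C_R(L_*(R)) ≤ L_*(R) and Z(R) ≤ C_R(L(R)) ≤ L(R); and L(R) ≠ 1, L_*(R) ≠ 1. -/
theorem result {R : Type*} [Group R] [Finite R] (p : ℕ) [Fact p.Prime] (hR : IsPGroup p R) [Nontrivial R] :
    (∀ i : ℕ, 0 < i → Subgroup.center R ≤ Subgroup.centralizer ((Cfsg.puigSeq R i : Subgroup R) : Set R) ∧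
        Subgroup.centralizer ((Cfsg.puigSeq R i : Subgroup R) : Set R) ≤ Cfsg.puigSeq R i) ∧
      (Subgroup.center R ≤ Subgroup.centralizer ((Cfsg.puigLower R : Subgroup R) : Set R) ∧ Subgroup.centralizer ((Cfsg.puigLower R : Subgroup R) : Set R) ≤ Cfsg.puigLower R) ∧
      (Subgroup.center R ≤ Subgroup.centralizer ((Cfsg.puigSubgroup R : Subgroup R) : Set R) ∧ Subgroup.centralizer ((Cfsg.puigSubgroup R : Subgroup R) : Set R) ≤ Cfsg.puigSubgroup R) ∧
      Cfsg.puigSubgroup R ≠ ⊥ ∧ Cfsg.puigLower R ≠ ⊥ := by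
  haveI := hR.isNilpotent
  obtain ⟨A, hAn, hAc, hAA⟩ := CfsgH3.exists_selfcent (G := R)
  have key : ∀ L : Subgroup R, A ≤ L → Subgroup.center R ≤ Subgroup.centralizer (L : Set R) ∧ Subgroup.centralizer (L : Set R) ≤ L := by
    intro L hL
    refine ⟨Subgroup.center_le_centralizer _, ?_⟩
    exact (Subgroup.centralizer_le hL).trans (hAA.le.trans hL)
  have h1 : ∀ i : ℕ, 0 < i → A ≤ Cfsg.puigSeq R i := by
    intro i hi
    obtain ⟨j, rfl⟩ := Nat.exists_eq_succ_of_ne_zero hi.ne'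
    exact CfsgH3.le_puigSeq hAn hAc j
  have h2 : A ≤ Cfsg.puigLower R := (h1 2 (by norm_num)).trans (le_iSup (fun n => Cfsg.puigSeq R (2 * n)) 1)
  have h3 : A ≤ Cfsg.puigSubgroup R := le_iInf fun n => h1 _ (by omega)
  have hA1 : A ≠ ⊥ := by
    rintro rfl
    have : (⊤ : Subgroup R) = ⊥ := by
      rw [← hAA, eq_comm, eq_top_iff]
      intro x _
      rw [Subgroup.mem_centralizer_iff]
      intro y hy
      rw [Subgroup.mem_bot.1 hy, one_mul, mul_one]
    exact top_ne_bot this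
  refine ⟨fun i hi => key _ (h1 i hi), key _ h2, key _ h3, ?_, ?_⟩
  · intro h
    exact hA1 (eq_bot_iff.2 (h3.trans h.le))
  · intro h
    exact hA1 (eq_bot_iff.2 (h2.trans h.le))

end Cfsg.Agent.S1466
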