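import Mathlib
import Cfsg.Agent.H3.Puig
import Cfsg.Statements.S1467

set_option autoImplicit false
open Cfsg

namespace Cfsg.Agent.S1467

/-- Let G be a finite group with Puig series L_n(G). Then L_0 = 1, L_1 = G; L_{2n} ≤ L_{2n+2} ≤ L_{2m+3} ≤ L_{2m+1} for all n, m; there is k with L_{2n}(G) = L_*(G) and L_{2n+1}(G) = L(G) for all n ≥ k; L_*(G) ≤ L(G); and applying one Puig step to L_*(G) gives L(G) and to L(G) gives L_*(G). -/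
theorem result {G : Type*} [Group G] [Finite G] :
    Cfsg.puigSeq G 0 = ⊥ ∧ Cfsg.puigSeq G 1 = ⊤ ∧
      (∀ n m : ℕ, Cfsg.puigSeq G (2 * n) ≤ Cfsg.puigSeq G (2 * n + 2) ∧ Cfsg.puigSeq G (2 * n) ≤ Cfsg.puigSeq G (2 * m + 1) ∧
        Cfsg.puigSeq G (2 * m + 3) ≤ Cfsg.puigSeq G (2 * m + 1)) ∧
      (∃ k : ℕ, ∀ n : ℕ, k ≤ n → Cfsg.puigSeq G (2 * n) = Cfsg.puigLower G ∧ Cfsg.puigSeq G (2 * n + 1) = Cfsg.puigSubgroup G) ∧
      Cfsg.puigLower G ≤ Cfsg.puigSubgroup G ∧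
      Cfsg.puigStep (Cfsg.puigLower G) = Cfsg.puigSubgroup G ∧ Cfsg.puigStep (Cfsg.puigSubgroup G) = Cfsg.puigLower G := by
  refine ⟨rfl, CfsgH3.puig_one, fun n m => ⟨(CfsgH3.puig_mono n).1, CfsgH3.puig_even_le_odd n m, (CfsgH3.puig_mono m).2⟩,
    CfsgH3.puig_stable, ?_, ?_, ?_⟩
  · obtain ⟨k, hk⟩ := CfsgH3.puig_stable (G := G)
    rw [← (hk k le_rfl).1, ← (hk k le_rfl).2]
    exact CfsgH3.puig_even_le_odd k k
  · obtain ⟨k, hk⟩ := CfsgH3.puig_stable (G := G)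
    rw [← (hk k le_rfl).1, ← (hk k le_rfl).2, CfsgH3.puig_succ]
  · obtain ⟨k, hk⟩ := CfsgH3.puig_stable (G := G)
    rw [← (hk (k + 1) (by omega)).1, ← (hk k le_rfl).2, ← CfsgH3.puig_succ]
    rfl

end Cfsg.Agent.S1467
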