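import Cfsg.Statements.S0034
import Cfsg.Agent.H1.FrobKer

set_option autoImplicit false
open Cfsg

namespace Cfsg.Agent.S0034

open scoped commutatorElement Pointwise

/-- For a Frobenius complement H, the set of elements lying in no conjugate of H, together with 1, has exactly as many elements as the index of H, and that index is congruent to 1 modulo the order of H. -/
theorem result {G : Type*} [Group G] [Finite G] (H : Subgroup G) (hH : Cfsg.IsFrobeniusComplement H) :
    Nat.card (Cfsg.frobeniusKernel H) = H.index ∧ H.index % Nat.card H = 1 % Nat.card H := by
  exact ⟨CfsgH1.card_frobKer hH.2.2, CfsgH1.index_mod_frob hH.2.2⟩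

end Cfsg.Agent.S0034
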