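import Cfsg.Statements.S0805
import Cfsg.Agent.H9.Dk15

set_option autoImplicit false
open Cfsg

namespace Cfsg.Agent.S0805

/-- Subfield subgroups: let F be a finite field of odd order q and K a finite field with |K|^m = q, m ≥ 1. Then PSL_2(F) has a subgroup isomorphic to PSL_2(K), and has a subgroup isomorphic to PGL_2(K) if and only if m is even. -/
theorem result {F K : Type*} [Field F] [Fintype F] [Field K] [Fintype K] {q : ℕ} (hF : Fintype.card F = q) (hodd : Odd q) (m : ℕ) (hm : 1 ≤ m) (hK : Fintype.card K ^ m = q) : (∃ H : Subgroup (Matrix.ProjectiveSpecialLinearGroup (Fin 2) F), Nonempty (H ≃* Matrix.ProjectiveSpecialLinearGroup (Fin 2) K)) ∧ ((∃ H : Subgroup (Matrix.ProjectiveSpecialLinearGroup (Fin 2) F), Nonempty (H ≃* Matrix.ProjGenLinGroup (Fin 2) K)) ↔ Even m) := by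
  subst hF
  obtain ⟨f⟩ := CfsgH9.Dk.exists_hom hK
  have hm0 : m ≠ 0 := by omega
  have hQodd : Odd (Fintype.card K) := by
    have h := hodd
    rw [← hK] at h
    exact (Nat.odd_pow_iff hm0).1 h
  refine ⟨CfsgH9.Dk.exists_PS f, ?_, fun he => CfsgH9.Dk.exists_PG f (CfsgH9.Dk.sq_of_even hK he hodd f)⟩
  rintro ⟨H, ⟨e⟩⟩
  by_contra hne
  rw [Nat.not_even_iff_odd] at hne
  have h1 : Nat.card H = Fintype.card K * (Fintype.card K - 1) * (Fintype.card K + 1) := by
    rw [Nat.card_congr e.toEquiv]; exact CfsgH9.Dk.card_PG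
  have h2 : Nat.gcd 2 (Fintype.card F - 1) * Nat.card (Matrix.ProjectiveSpecialLinearGroup (Fin 2) F) = Fintype.card F * (Fintype.card F - 1) * (Fintype.card F + 1) := CfsgH9.Dk.card_psl
  rw [CfsgH9.Dk.d_odd hodd] at h2
  obtain ⟨t, ht⟩ : Nat.card H ∣ Nat.card (Matrix.ProjectiveSpecialLinearGroup (Fin 2) F) := Subgroup.card_subgroup_dvd_card _
  obtain ⟨s, hs⟩ := hQodd
  have e1 : (Fintype.card K ^ 2) = (Fintype.card K - 1) * (Fintype.card K + 1) + 1 := by
    rw [hs, Nat.add_sub_cancel]; ring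
  obtain ⟨S, hS, hS2⟩ := CfsgH9.Dk.geom_par ((Fintype.card K - 1) * (Fintype.card K + 1)) (by
    rw [hs, Nat.add_sub_cancel]
    exact ⟨s * (2 * s + 1 + 1), by ring⟩) m
  rw [← e1, ← pow_mul, mul_comm 2 m, pow_mul, hK] at hS
  obtain ⟨r, hr⟩ := hodd
  have e2 : (Fintype.card F - 1) * (Fintype.card F + 1) = (Fintype.card K - 1) * (Fintype.card K + 1) * S := by
    rw [hr, Nat.add_sub_cancel]
    rw [hr] at hS
    have : (2 * r + 1) ^ 2 = 2 * r * (2 * r + 1 + 1) + 1 := by ring
    omega
  have e3 : 2 * Fintype.card K * t = Fintype.card F * S := by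
    have hpos : 0 < (Fintype.card K - 1) * (Fintype.card K + 1) := by
      have : 1 < Fintype.card K := Fintype.one_lt_card
      exact Nat.mul_pos (by omega) (by omega)
    apply Nat.eq_of_mul_eq_mul_left hpos
    calc (Fintype.card K - 1) * (Fintype.card K + 1) * (2 * Fintype.card K * t) = 2 * (Fintype.card K * (Fintype.card K - 1) * (Fintype.card K + 1) * t) := by ring
      _ = Fintype.card F * (Fintype.card F - 1) * (Fintype.card F + 1) := by rw [← h1, ← ht, h2]
      _ = Fintype.card F * ((Fintype.card F - 1) * (Fintype.card F + 1)) := by ring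
      _ = _ := by rw [e2]; ring
  have e4 : (Fintype.card F * S) % 2 = 1 := by
    rw [Nat.mul_mod, hS2]
    rw [Nat.odd_iff] at hne
    rw [hne, hr]
    omega
  rw [← e3] at e4
  have : 2 * Fintype.card K * t = 2 * (Fintype.card K * t) := by ring
  omega

end Cfsg.Agent.S0805
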