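import Cfsg.Statements.S0768
import Cfsg.Agent.H9.SpBridge
import Cfsg.Agent.H9.MaxRedSp

set_option autoImplicit false
open scoped LinearAlgebra.Projectivization
open Cfsg

namespace Cfsg.Agent.S0768

open Matrix in
lemma aux_mem {F : Type*} [Field F] {ι : Type} [Fintype ι] [DecidableEq ι] (g : Matrix.GeneralLinearGroup ι F) (v : ι → F) (hv : v ≠ 0) :
    g ∈ Cfsg.Geo.subspaceStabilizer (Submodule.span F {v}) ↔
      g • (Projectivization.mk F v hv) = Projectivization.mk F v hv := by
  rw [Projectivization.smul_mk, Projectivization.mk_eq_mk_iff']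
  have hgv : g • v = (g : Matrix ι ι F).mulVec v := rfl
  constructor
  · intro h
    have h1 : (g : Matrix ι ι F).mulVec v ∈ Submodule.span F {v} := by
      have := (CfsgH9.MaxRedSL.mem_stab_iff _ _).1 h v
      exact this.1 (Submodule.mem_span_singleton_self v)
    obtain ⟨c, hc⟩ := Submodule.mem_span_singleton.1 h1
    exact ⟨c, hc⟩
  · rintro ⟨c, hc⟩
    apply CfsgH9.MaxRedSL.mem_stab_of
    intro x hx
    obtain ⟨d, rfl⟩ := Submodule.mem_span_singleton.1 hx
    rw [Matrix.mulVec_smul]
    apply Submodule.smul_mem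
    rw [← hgv, ← hc]
    exact Submodule.smul_mem _ _ (Submodule.mem_span_singleton_self v)

/-- Primitivity: for m ≥ 1 and F finite, the symplectic group of the form sympForm (as a subgroup of the general linear group) acts primitively on the projective space of F^(2m). -/
theorem result {F : Type*} [Field F] [Finite F] (m : ℕ) (hm : 1 ≤ m) : MulAction.IsPreprimitive ↥(Cfsg.spGL m F) (ℙ F (Fin m ⊕ Fin m → F)) := by
  have hf := CfsgH9.SpGen.sympForm_isSymplectic (F := F) m
  have hb := hf.bilinear
  have hsingle : ∀ v : Fin m ⊕ Fin m → F, v ≠ 0 → ∃ w, Cfsg.sympForm m F v w = 1 := by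
    intro v hv
    obtain ⟨-, w, hw⟩ := hf.nondegenerate v hv
    exact ⟨(Cfsg.sympForm m F v w)⁻¹ • w, by rw [hb.smul_right, inv_mul_cancel₀ hw]⟩
  haveI hpt : MulAction.IsPretransitive ↥(Cfsg.spGL m F) (ℙ F (Fin m ⊕ Fin m → F)) := by
    refine ⟨fun p q => ?_⟩
    induction p using Projectivization.ind with | h v hv => ?_
    induction q using Projectivization.ind with | h v' hv' => ?_
    obtain ⟨w, hw⟩ := hsingle v hv
    obtain ⟨w', hw'⟩ := hsingle v' hv'
    obtain ⟨A, hA, -⟩ := CfsgH9.SpBridge.exists_pair hw hw'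
    refine ⟨⟨CfsgH9.SpBridge.toGL m F A, ?_⟩, ?_⟩
    · intro x y
      exact (CfsgH9.SpBridge.mem_iff _).1 A.2 x y
    · show (CfsgH9.SpBridge.toGL m F A) • (Projectivization.mk F v hv) = _
      rw [Projectivization.smul_mk, Projectivization.mk_eq_mk_iff']
      exact ⟨1, by rw [one_smul]; exact hA.symm⟩
  haveI hnt : Nontrivial (ℙ F (Fin m ⊕ Fin m → F)) := by
    let i : Fin m := ⟨0, hm⟩
    have h1 : (Pi.single (Sum.inl i) 1 : Fin m ⊕ Fin m → F) ≠ 0 := by
      intro h
      have := congrFun h (Sum.inl i)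
      simp at this
    have h2 : (Pi.single (Sum.inr i) 1 : Fin m ⊕ Fin m → F) ≠ 0 := by
      intro h
      have := congrFun h (Sum.inr i)
      simp at this
    refine ⟨Projectivization.mk F _ h1, Projectivization.mk F _ h2, ?_⟩
    rw [Ne, Projectivization.mk_eq_mk_iff']
    rintro ⟨c, hc⟩
    have := congrFun hc (Sum.inl i)
    simp at this
  obtain ⟨p⟩ : Nonempty (ℙ F (Fin m ⊕ Fin m → F)) := inferInstance
  induction p using Projectivization.ind with | h v hv => ?_
  rw [← MulAction.isCoatom_stabilizer_iff_preprimitive _ (Projectivization.mk F v hv)]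
  have hmax := CfsgH9.MaxRedSp.isotropic_max hf (K := Cfsg.spGL m F) (fun g => Iff.rfl) (Submodule.span F {v})
    (by rw [Ne, Submodule.span_singleton_eq_bot]; exact hv) (by
      intro x hx y hy
      obtain ⟨c, rfl⟩ := Submodule.mem_span_singleton.1 hx
      obtain ⟨d, rfl⟩ := Submodule.mem_span_singleton.1 hy
      rw [hb.smul_left, hb.smul_right, hf.alternating, mul_zero, mul_zero])
  have hstab : (MulAction.stabilizer ↥(Cfsg.spGL m F) (Projectivization.mk F v hv)).map (Cfsg.spGL m F).subtype =
      Cfsg.Geo.subspaceStabilizer (Submodule.span F {v}) ⊓ Cfsg.spGL m F := by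
    ext g
    constructor
    · rintro ⟨g, hg, rfl⟩
      refine ⟨?_, g.2⟩
      exact (aux_mem _ v hv).2 hg
    · rintro ⟨h1, h2⟩
      exact ⟨⟨g, h2⟩, (aux_mem _ v hv).1 h1, rfl⟩
  constructor
  · intro htop
    rw [htop, ← MonoidHom.range_eq_map, Subgroup.range_subtype] at hstab
    exact hmax.1.ne hstab.symm
  · intro M hM
    have h1 := hmax.2 (M.map (Cfsg.spGL m F).subtype) (by
      rw [← hstab]
      exact Subgroup.map_mono hM.le) (by
      rintro _ ⟨g, -, rfl⟩
      exact g.2)
    rcases h1 with h1 | h1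
    · exfalso
      rw [← hstab] at h1
      exact hM.ne (Subgroup.map_injective (Subgroup.subtype_injective _) h1).symm
    · rw [eq_top_iff]
      intro g _
      have h3 : (g : Matrix.GeneralLinearGroup (Fin m ⊕ Fin m) F) ∈ M.map (Cfsg.spGL m F).subtype := by
        rw [h1]; exact g.2
      obtain ⟨g', hg', h4⟩ := h3
      have h5 : g' = g := Subtype.ext h4
      rwa [← h5]

end Cfsg.Agent.S0768
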