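import Cfsg.Statements.S1166
import Cfsg.Agent.H9.R1c

set_option autoImplicit false
open Cfsg

namespace Cfsg.Agent.S1166

open MulAction CfsgH9.R1

/-- In the rank-one set-up (`G` finite and doubly transitive on `Ω`, `t` an involution moving `a`, `Q` normal in `G_a` with `G_a = Q D`, `Q ⊓ D = 1` for the two-point stabiliser `D = G_a ⊓ G_{t • a}`, `|Q|` even, `|D|` odd), with `t x t = g_x h_x t f_x` and `t y t = g_y h_y t f_y` (`g, f ∈ Q`, `h ∈ D`) for `x, y ∈ Q ∖ 1` with `x y ≠ 1`: then `z = f_x g_y ≠ 1`, and if `t z t = g_z h_z t f_z` and `t (x y) t = g' h' t f'` then `f' = (t h_y t)⁻¹ f_z (t h_y t) f_y` and `h' = h_x h_z h_y` (H6). -/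
theorem result {G Ω : Type*} [Group G] [Finite G] [MulAction G Ω] {a : Ω} {t : G} {Q : Subgroup G}
    (hS : Cfsg.IsRankOneSetup G Ω a t Q)
    (x y gx hx fx gy hy fy : G) (hxQ : x ∈ Q) (hx1 : x ≠ 1) (hyQ : y ∈ Q) (hy1 : y ≠ 1) (hxy : x * y ≠ 1)
    (hgx : gx ∈ Q) (hhx : hx ∈ (MulAction.stabilizer G a ⊓ MulAction.stabilizer G (t • a))) (hfx : fx ∈ Q) (ex : t * x * t = gx * hx * t * fx)
    (hgy : gy ∈ Q) (hhy : hy ∈ (MulAction.stabilizer G a ⊓ MulAction.stabilizer G (t • a))) (hfy : fy ∈ Q) (ey : t * y * t = gy * hy * t * fy) :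
    fx * gy ≠ 1 ∧
      ∀ gz hz fz g' h' f' : G, gz ∈ Q → hz ∈ (MulAction.stabilizer G a ⊓ MulAction.stabilizer G (t • a)) → fz ∈ Q → t * (fx * gy) * t = gz * hz * t * fz →
        g' ∈ Q → h' ∈ (MulAction.stabilizer G a ⊓ MulAction.stabilizer G (t • a)) → f' ∈ Q → t * (x * y) * t = g' * h' * t * f' →
          f' = (t * hy * t)⁻¹ * fz * (t * hy * t) * fy ∧ h' = hx * hz * hy := by
  have htf : t * t = 1 := hS.mul_self
  have hxyt : t * (x * y) * t = (t * x * t) * (t * y * t) := by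
    have : (t * x * t) * (t * y * t) = t * x * (t * t) * y * t := by group
    rw [this, htf]; group
  refine ⟨?_, ?_⟩
  · intro h1
    -- then t (x y) t ∈ G_a, so xy fixes t a
    have h2 : t * (x * y) * t = gx * hx * (t * hy * t) * fy := by
      rw [hxyt, ex, ey]
      have : gx * hx * t * fx * (gy * hy * t * fy) = gx * hx * t * (fx * gy) * hy * t * fy := by group
      rw [this, h1]; group
    have h3 : (t * (x * y) * t) • a = a := by
      rw [h2, mul_smul, qa hS hfy, mul_smul, (conj_t hS hhy).1, mul_smul, hhx.1, qa hS hgx]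
    have h4 : (x * y) • t • a = t • a := by
      rw [mul_smul, mul_smul] at h3
      have h5 : t • t • (x * y) • t • a = t • a := by rw [h3]
      rwa [← mul_smul t t, htf, one_smul] at h5
    exact hxy (q_fix hS (Q.mul_mem hxQ hyQ) h4)
  · intro gz hz fz g' h' f' hgz hhz hfz ez hg' hh' hf' e'
    have hyD := conj_t hS hhy
    have e1 : t * (x * y) * t = (gx * (hx * gz * hx⁻¹)) * (hx * hz * hy) * t * (((t * hy * t)⁻¹ * fz * (t * hy * t)) * fy) := by
      rw [hxyt, ex, ey]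
      have e2 : gx * hx * t * fx * (gy * hy * t * fy) = gx * hx * (t * (fx * gy) * t) * (t * hy * t) * fy := by
        have : gx * hx * (t * (fx * gy) * t) * (t * hy * t) * fy = gx * hx * t * (fx * gy) * (t * t) * hy * t * fy := by group
        rw [this, htf]; group
      rw [e2, ez]
      have e3 : (t * hy * t)⁻¹ = t * hy⁻¹ * t := by
        have : (t * hy * t)⁻¹ = t⁻¹ * hy⁻¹ * t⁻¹ := by group
        rw [this, tinv hS]
      rw [e3]
      have e4 : (gx * (hx * gz * hx⁻¹)) * (hx * hz * hy) * t * (((t * hy⁻¹ * t) * fz * (t * hy * t)) * fy) =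
        gx * hx * gz * hz * (hy * (t * t) * hy⁻¹) * t * fz * (t * hy * t) * fy := by group
      rw [e4, htf]; group
    have hm : (t * hy * t)⁻¹ * fz * (t * hy * t) ∈ Q := conj_mem' hS hyD.1 hfz
    have h2 := canon_unique hS hg' hh' hf' (Q.mul_mem hgx (hS.conj_mem hx hhx.1 gz hgz))
      ((DD a t).mul_mem ((DD a t).mul_mem hhx hhz) hhy) (Q.mul_mem hm hfy) (e'.symm.trans e1)
    exact ⟨h2.2.2, h2.2.1⟩

end Cfsg.Agent.S1166
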