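import Cfsg.Statements.S0003
import Cfsg.Agent.H1.SetMul

set_option autoImplicit false
open Cfsg

namespace Cfsg.Agent.S0003

open scoped commutatorElement Pointwise

/-- Hall's Theorem, existence: a finite solvable group of order m * n with m and n coprime has a subgroup of order m. -/
theorem result {G : Type*} [Group G] [Finite G] [Group.IsSolvable G] (m n : ℕ)
    (hG : Nat.card G = m * n) (hmn : m.Coprime n) : ∃ H : Subgroup G, Nat.card H = m := by
  obtain ⟨H, h1, h2, -⟩ := CfsgH1.hallD_of_solvable (G := G) {p | p ∣ m}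
  refine ⟨H, ?_⟩
  have e : Nat.card H * H.index = m * n := by rw [H.card_mul_index, hG]
  exact (CfsgH1.eq_of_mul_eq_mul_coprime e (h1.coprime (CfsgH1.piNum_compl_of_coprime hmn)) 
    (CfsgH1.piNum_primes_of_dvd.coprime h2)).1

end Cfsg.Agent.S0003
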