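import Cfsg.Statements.S0004
import Cfsg.Agent.H1.SetMul

set_option autoImplicit false
open Pointwise
open Cfsg

namespace Cfsg.Agent.S0004

open scoped commutatorElement Pointwise

/-- Hall's Theorem, conjugacy: in a finite solvable group of order m * n with m and n coprime, any two subgroups of order m are conjugate. -/
theorem result {G : Type*} [Group G] [Finite G] [Group.IsSolvable G] (m n : ℕ)
    (hG : Nat.card G = m * n) (hmn : m.Coprime n) (H K : Subgroup G)
    (hH : Nat.card H = m) (hK : Nat.card K = m) : ∃ g : G, MulAut.conj g • H = K := by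
  have key : ∀ H : Subgroup G, Nat.card H = m → H.index = n := by
    intro H hH
    have e := H.card_mul_index
    rw [hH, hG] at e
    exact Nat.eq_of_mul_eq_mul_left (by rw [← hH]; exact Nat.card_pos) e
  apply (CfsgH1.hallD_of_solvable (G := G) {p | p ∣ m}).conj
  · rw [hH]; exact CfsgH1.piNum_primes_of_dvd
  · rw [key H hH]; exact CfsgH1.piNum_compl_of_coprime hmn
  · rw [hK]; exact CfsgH1.piNum_primes_of_dvd
  · rw [key K hK]; exact CfsgH1.piNum_compl_of_coprime hmn

end Cfsg.Agent.S0004
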