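import Cfsg.Statements.S0005
import Cfsg.Agent.H1.SetMul

set_option autoImplicit false
open Cfsg

namespace Cfsg.Agent.S0005

open scoped commutatorElement Pointwise

/-- Hall's Theorem, containment: in a finite solvable group of order m * n with m and n coprime, every subgroup of order coprime to n is contained in a subgroup of order m. -/
theorem result {G : Type*} [Group G] [Finite G] [Group.IsSolvable G] (m n : ℕ)
    (hG : Nat.card G = m * n) (hmn : m.Coprime n) (K : Subgroup G) (hK : (Nat.card K).Coprime n) :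
    ∃ H : Subgroup G, Nat.card H = m ∧ K ≤ H := by
  obtain ⟨H, h1, h2, h3⟩ := (CfsgH1.hallD_of_solvable (G := G) {p | p ∣ m}).exists_ge (K := K) (by
    intro p hp hd
    have h4 : p ∣ m * n := hG ▸ hd.trans (Subgroup.card_subgroup_dvd_card K)
    rcases hp.dvd_mul.1 h4 with h5 | h5
    · exact h5
    · exact absurd hK (Nat.Prime.not_coprime_iff_dvd.2 ⟨p, hp, hd, h5⟩))
  refine ⟨H, ?_, h3⟩
  have e : Nat.card H * H.index = m * n := by rw [H.card_mul_index, hG]
  exact (CfsgH1.eq_of_mul_eq_mul_coprime e (h1.coprime (CfsgH1.piNum_compl_of_coprime hmn)) 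
    (CfsgH1.piNum_primes_of_dvd.coprime h2)).1

end Cfsg.Agent.S0005
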