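import Cfsg.Statements.S0010
import Cfsg.Agent.H1.Fit

set_option autoImplicit false
open Cfsg

namespace Cfsg.Agent.S0010

open scoped commutatorElement Pointwise

/-- The largest normal p-subgroup of a finite group is the intersection of all its Sylow p-subgroups. -/
theorem result {G : Type*} [Group G] [Finite G] (p : ℕ) [Fact p.Prime] :
    Cfsg.pCore p G = ⨅ P : Sylow p G, (P : Subgroup G) := by
  apply le_antisymm
  · exact le_iInf fun P => CfsgH1.pCore_le_sylow P
  · obtain ⟨P⟩ := (inferInstance : Nonempty (Sylow p G))
    apply CfsgH2.le_pCore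
    · refine ⟨fun x hx g => ?_⟩
      rw [Subgroup.mem_iInf] at hx ⊢
      intro Q
      have := hx (g⁻¹ • Q)
      rw [Sylow.coe_subgroup_smul, CfsgH1.mem_conj_smul, inv_inv] at this
      exact this
    · exact P.isPGroup'.to_le (iInf_le _ P)

end Cfsg.Agent.S0010
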