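import Cfsg.Statements.S0013
import Cfsg.Agent.H1.Frat

set_option autoImplicit false
open Cfsg

namespace Cfsg.Agent.S0013

open scoped commutatorElement Pointwise

/-- In a finite p-group the Frattini subgroup is the smallest normal subgroup with elementary abelian quotient: it lies below any normal subgroup containing all commutators and all p-th powers. -/
theorem result {G : Type*} [Group G] [Finite G] (p : ℕ) [Fact p.Prime]
    (hG : IsPGroup p G) (N : Subgroup G) [N.Normal] (hcomm : commutator G ≤ N) (hpow : ∀ x : G, x ^ p ∈ N) :
    frattini G ≤ N := by
  exact CfsgH1.frattini_le_of_elementary hcomm hpow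

end Cfsg.Agent.S0013
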