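import Cfsg.Statements.S0014
import Cfsg.Agent.H1.PGrp2

set_option autoImplicit false
open Cfsg

namespace Cfsg.Agent.S0014

open scoped commutatorElement Pointwise

open Subgroup in
theorem card_closure_le {G : Type*} [Group G] [Finite G] (p : ℕ) [hp : Fact p.Prime]
    (hG : IsPGroup p G) [DecidableEq G] (U : Finset G) : 
    Nat.card (closure (U : Set G) ⊔ frattini G : Subgroup G) ≤ p ^ U.card * Nat.card (frattini G) := by
  haveI := hG.isNilpotent
  induction U using Finset.induction_on with
  | empty => simp
  | insert t U ht ih =>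
    rw [Finset.card_insert_of_notMem ht, pow_succ]
    set H := closure (U : Set G) ⊔ frattini G with hH
    haveI hHn : H.Normal := Subgroup.Normal.of_commutator_le _ (CfsgH1.commutator_le_frattini.trans le_sup_right)
    have e : closure ((insert t U : Finset G) : Set G) ⊔ frattini G = zpowers t ⊔ H := by
      rw [Finset.coe_insert, Set.insert_eq, Subgroup.closure_union, hH, ← Subgroup.zpowers_eq_closure, sup_assoc]
    rw [e]
    have h1 := CfsgH1.card_sup_mul_card_inf (H := zpowers t) (K := H) (CfsgH1.le_normalizer_of_normal _ H)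
    -- |zpowers t : zpowers t ⊓ H| ≤ p
    have h2 : Nat.card (zpowers t) ≤ p * Nat.card (zpowers t ⊓ H : Subgroup G) := by
      have h3 : zpowers (t ^ p) ≤ zpowers t ⊓ H := by
        rw [Subgroup.zpowers_le]
        exact ⟨(zpowers t).pow_mem (mem_zpowers t) p, (le_sup_right : frattini G ≤ H) (CfsgH1.pow_mem_frattini hG t)⟩
      have h4 := Nat.le_of_dvd Nat.card_pos (CfsgH1.card_dvd_card_of_le h3)
      rw [Nat.card_zpowers] at h4 ⊢
      have h5 : orderOf t ≤ p * orderOf (t ^ p) := by
        rw [orderOf_pow]
        have h6 := Nat.gcd_le_right (n := p) (orderOf t) hp.out.pos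
        have h7 : orderOf t / (orderOf t).gcd p * (orderOf t).gcd p = orderOf t := Nat.div_mul_cancel (Nat.gcd_dvd_left _ _)
        calc orderOf t = orderOf t / (orderOf t).gcd p * (orderOf t).gcd p := h7.symm
          _ ≤ orderOf t / (orderOf t).gcd p * p := Nat.mul_le_mul_left _ h6
          _ = _ := mul_comm _ _
      calc orderOf t ≤ p * orderOf (t ^ p) := h5
        _ ≤ p * Nat.card (zpowers t ⊓ H : Subgroup G) := by
          apply Nat.mul_le_mul_left
          rw [← Nat.card_zpowers (t ^ p)]
          exact Nat.le_of_dvd Nat.card_pos (CfsgH1.card_dvd_card_of_le h3)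
    have hpos : 0 < Nat.card (zpowers t ⊓ H : Subgroup G) := Nat.card_pos
    have h8 : Nat.card (zpowers t ⊔ H : Subgroup G) * Nat.card (zpowers t ⊓ H : Subgroup G) ≤ 
        (p ^ U.card * p * Nat.card (frattini G)) * Nat.card (zpowers t ⊓ H : Subgroup G) := by
      rw [h1]
      calc Nat.card (zpowers t) * Nat.card H ≤ (p * Nat.card (zpowers t ⊓ H : Subgroup G)) * (p ^ U.card * Nat.card (frattini G)) := 
            Nat.mul_le_mul h2 ih
        _ = _ := by ring
    exact Nat.le_of_mul_le_mul_right h8 hpos

open Subgroup in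
theorem le_card_closure {G : Type*} [Group G] [Finite G] (p : ℕ) [hp : Fact p.Prime]
    (hG : IsPGroup p G) [DecidableEq G] (T : Finset G) (hT : closure (T : Set G) = ⊤) 
    (hmin : ∀ S ⊆ T, closure (S : Set G) = ⊤ → S = T) (U : Finset G) (hU : U ⊆ T) : 
    p ^ U.card * Nat.card (frattini G) ≤ Nat.card (closure (U : Set G) ⊔ frattini G : Subgroup G) := by
  induction U using Finset.induction_on with
  | empty => simp
  | insert t U ht ih =>
    have hUT : U ⊆ T := (Finset.subset_insert t U).trans hU
    have htT : t ∈ T := hU (Finset.mem_insert_self t U)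
    rw [Finset.card_insert_of_notMem ht, pow_succ]
    refine le_trans ?_ (CfsgH1.mul_card_le_of_lt_pgroup (p := p) (P := closure ((insert t U : Finset G) : Set G) ⊔ frattini G)
      (H := closure (U : Set G) ⊔ frattini G) (hG.to_subgroup _) ?_)
    · calc p ^ U.card * p * Nat.card (frattini G) = p * (p ^ U.card * Nat.card (frattini G)) := by ring
        _ ≤ _ := Nat.mul_le_mul_left _ (ih hUT)
    · refine lt_of_le_of_ne (sup_le_sup_right (Subgroup.closure_mono (by simp)) _) fun h => ?_
      -- t ∈ closure (T \ {t}) ⊔ Φ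
      have h1 : t ∈ closure ((T.erase t : Finset G) : Set G) ⊔ frattini G := by
        have h2 : t ∈ closure (U : Set G) ⊔ frattini G := by
          rw [h]; exact mem_sup_left (subset_closure (by simp))
        refine (sup_le_sup_right (Subgroup.closure_mono ?_) _ : closure (U : Set G) ⊔ frattini G ≤ _) h2
        intro x hx
        rw [Finset.mem_coe] at hx ⊢
        exact Finset.mem_erase.2 ⟨fun hxt => ht (hxt ▸ hx), hUT hx⟩
      have h3 : closure ((T.erase t : Finset G) : Set G) ⊔ frattini G = ⊤ := by
        rw [eq_top_iff, ← hT, closure_le]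
        intro x hx
        by_cases hxt : x = t
        · rw [hxt]; exact h1
        · exact mem_sup_left (subset_closure (by simp [hxt]; exact_mod_cast hx))
      have h4 := frattini_nongenerating h3
      have h5 := hmin _ (Finset.erase_subset t T) h4
      exact (Finset.erase_ssubset htT).ne h5

/-- Burnside's basis Theorem: in a finite p-group whose Frattini quotient has order p ^ n, every generating set contains n elements that already generate, and no set with fewer than n elements generates. -/
theorem result {G : Type*} [Group G] [Finite G] (p n : ℕ) [Fact p.Prime]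
    (hG : IsPGroup p G) (hn : (frattini G).index = p ^ n) :
    (∀ S : Finset G, Subgroup.closure (S : Set G) = ⊤ → ∃ T : Finset G, T ⊆ S ∧ T.card = n ∧ Subgroup.closure (T : Set G) = ⊤) ∧
    (∀ T : Finset G, Subgroup.closure (T : Set G) = ⊤ → n ≤ T.card) := by

  classical
  have hF : Nat.card G = p ^ n * Nat.card (frattini G) := by
    rw [← hn, mul_comm]; exact ((frattini G).card_mul_index).symm
  have hFpos : 0 < Nat.card (frattini G) := Nat.card_pos
  have hp1 : 1 < p := (Fact.out : p.Prime).one_lt
  have h2 : ∀ T : Finset G, Subgroup.closure (T : Set G) = ⊤ → n ≤ T.card := by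
    intro T hT
    have h1 := card_closure_le p hG T
    rw [hT, top_sup_eq, Subgroup.card_top, hF] at h1
    exact (Nat.pow_le_pow_iff_right hp1).1 (Nat.le_of_mul_le_mul_right h1 hFpos)
  refine ⟨?_, h2⟩
  intro S hS
  -- minimal generating subset
  have hex : ∃ T : Finset G, T ⊆ S ∧ Subgroup.closure (T : Set G) = ⊤ ∧ 
      ∀ U ⊆ T, Subgroup.closure (U : Set G) = ⊤ → U = T := by
    have hfin : (S.powerset.filter fun T : Finset G => Subgroup.closure (T : Set G) = ⊤).Nonempty := 
      ⟨S, by rw [Finset.mem_filter, Finset.mem_powerset]; exact ⟨Finset.Subset.refl S, hS⟩⟩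
    obtain ⟨T, hT, hmin⟩ := Finset.exists_min_image _ Finset.card hfin
    rw [Finset.mem_filter, Finset.mem_powerset] at hT
    refine ⟨T, hT.1, hT.2, fun U hU hUc => ?_⟩
    apply Finset.eq_of_subset_of_card_le hU
    exact hmin U (by rw [Finset.mem_filter, Finset.mem_powerset]; exact ⟨hU.trans hT.1, hUc⟩)
  obtain ⟨T, hTS, hT, hmin⟩ := hex
  refine ⟨T, hTS, le_antisymm ?_ (h2 T hT), hT⟩
  have h3 := le_card_closure p hG T hT hmin T (Finset.Subset.refl T)
  rw [hT, top_sup_eq, Subgroup.card_top, hF] at h3
  exact (Nat.pow_le_pow_iff_right hp1).1 (Nat.le_of_mul_le_mul_right h3 hFpos)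

end Cfsg.Agent.S0014
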