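import Cfsg.Statements.S0015
import Cfsg.Agent.H1.PGrp2

set_option autoImplicit false
open Cfsg

namespace Cfsg.Agent.S0015

open scoped commutatorElement Pointwise

/-- In a finite nilpotent group, an abelian normal subgroup that is maximal among abelian normal subgroups equals its own centralizer. -/
theorem result {G : Type*} [Group G] [Finite G] [Group.IsNilpotent G]
    (N : Subgroup G) [N.Normal] [IsMulCommutative N]
    (hmax : ∀ M : Subgroup G, M.Normal → IsMulCommutative M → N ≤ M → M = N) :
    Subgroup.centralizer (N : Set G) = N := by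
  refine CfsgH1.centralizer_eq_of_max_abelian_normal (fun x hx y hy => 
    congrArg Subtype.val ((inferInstance : IsMulCommutative N).is_comm.comm (⟨x, hx⟩ : N) ⟨y, hy⟩)) ?_
  intro M hM hab hle
  exact hmax M hM ⟨⟨fun a b => Subtype.ext (hab a a.2 b b.2)⟩⟩ hle

end Cfsg.Agent.S0015
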