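import Cfsg.Statements.S0018
import Cfsg.Agent.H1.Fit

set_option autoImplicit false
open Cfsg

namespace Cfsg.Agent.S0018

open scoped commutatorElement Pointwise

/-- A finite solvable group whose Sylow p-subgroups are abelian has p-length one: a Sylow p-subgroup together with the largest normal subgroup of order prime to p generates a normal subgroup. -/
theorem result {G : Type*} [Group G] [Finite G] [Group.IsSolvable G]
    (p : ℕ) [Fact p.Prime] (P : Sylow p G) (hP : IsMulCommutative P) :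
    ((P : Subgroup G) ⊔ Cfsg.pPrimeCore p G).Normal := by
  set O := Cfsg.pPrimeCore p G with hO
  have hs : Group.IsSolvable (G ⧸ O) := inferInstance
  have h1 := CfsgH1.centralizer_pCore_le_of_solvable (G := G ⧸ O) (CfsgH2.pPrimeCore_quotient_pPrimeCore p)
  -- image of P
  have hPs : CfsgH1.IsSylowOf p ((P : Subgroup G).map (QuotientGroup.mk' O)) ⊤ := by
    have := CfsgH1.isSylowOf_map (QuotientGroup.mk' O) (CfsgH1.sylow_isSylowOf P)
    rwa [← MonoidHom.range_eq_map, (MonoidHom.range_eq_top.2 (QuotientGroup.mk'_surjective O))] at this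
  obtain ⟨Q, hQ⟩ := CfsgH1.isSylowOf_top_iff.1 hPs
  have h2 := CfsgH1.pCore_le_sylow Q
  have h3 : (Q : Subgroup (G ⧸ O)) ≤ Subgroup.centralizer (Cfsg.pCore p (G ⧸ O) : Set (G ⧸ O)) := by
    intro x hx
    rw [Subgroup.mem_centralizer_iff]
    intro y hy
    have hy' := h2 hy
    rw [hQ] at hx hy'
    obtain ⟨a, ha, rfl⟩ := hx
    obtain ⟨b, hb, rfl⟩ := hy'
    rw [← map_mul, ← map_mul]
    congr 1
    exact congrArg Subtype.val (hP.is_comm.comm (⟨b, hb⟩ : (P : Subgroup G)) ⟨a, ha⟩)
  have h4 : (P : Subgroup G).map (QuotientGroup.mk' O) = Cfsg.pCore p (G ⧸ O) := by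
    rw [← hQ]; exact le_antisymm (h3.trans h1) h2
  have h5 : (P : Subgroup G) ⊔ O = (Cfsg.pCore p (G ⧸ O)).comap (QuotientGroup.mk' O) := by
    rw [← h4, Subgroup.comap_map_eq, QuotientGroup.ker_mk']
  rw [h5]; infer_instance

end Cfsg.Agent.S0018
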