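import Cfsg.Statements.S0020
import Cfsg.Agent.H1.SylSys

set_option autoImplicit false
open Pointwise
open Cfsg

namespace Cfsg.Agent.S0020

open scoped commutatorElement Pointwise

/-- A finite solvable group admits a Sylow system: Sylow subgroups, one for each prime, that pairwise permute as sets. -/
theorem result {G : Type*} [Group G] [Finite G] [Group.IsSolvable G] :
    ∃ S : (p : Nat.Primes) → Sylow (p : ℕ) G,
      ∀ p q : Nat.Primes, (S p : Set G) * (S q : Set G) = (S q : Set G) * (S p : Set G) := by
  classical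
  -- Hall complements
  have hK : ∀ q : ℕ, ∃ K : Subgroup G, q.Prime → K.index = q ^ (Nat.card G).factorization q := by
    intro q
    by_cases hq : q.Prime
    · obtain ⟨H, h1, h2, -⟩ := CfsgH1.hallD_of_solvable (G := G) {r | r ≠ q}
      refine ⟨H, fun _ => ?_⟩
      have hnd : ¬ q ∣ Nat.card H := fun hd => (h1 q hq hd) rfl
      have h4 : ∀ r : ℕ, r.Prime → r ∣ H.index → r = q := fun r hr hd => by
        have := h2 r hr hd
        simpa using this
      have h5 : H.index = q ^ H.index.factorization q := by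
        have h0 : H.index ≠ 0 := Subgroup.FiniteIndex.index_ne_zero
        conv_lhs => rw [← Nat.prod_factorization_pow_eq_self h0]
        rw [Finsupp.prod_of_support_subset _ (s := {q}) (by
          rw [Nat.support_factorization]
          intro r hr
          rw [Finset.mem_singleton]
          exact h4 r (Nat.prime_of_mem_primeFactors hr) (Nat.dvd_of_mem_primeFactors hr)) _ (by simp)]
        simp
      have h6 : (Nat.card G).factorization q = H.index.factorization q := by
        rw [← H.card_mul_index, Nat.factorization_mul Nat.card_pos.ne' Subgroup.FiniteIndex.index_ne_zero, Finsupp.add_apply,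
          Nat.factorization_eq_zero_of_not_dvd hnd, zero_add]
      rw [h6]; exact h5
    · exact ⟨⊤, fun h => absurd h hq⟩
  choose K hK using hK
  set π := (Nat.card G).primeFactors with hπ
  have hπp : ∀ q ∈ π, q.Prime := fun q hq => Nat.prime_of_mem_primeFactors hq
  have hprod : ∀ T : Finset ℕ, T ⊆ π → (⨅ q ∈ T, K q : Subgroup G).index = ∏ q ∈ T, q ^ (Nat.card G).factorization q := by
    intro T hT
    rw [CfsgH1.index_iInf_coprime K T (by
      intro q hq r hr hqr
      rw [hK q (hπp q (hT hq)), hK r (hπp r (hT hr))]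
      exact Nat.coprime_pow_primes _ _ (hπp q (hT hq)) (hπp r (hT hr)) hqr)]
    exact Finset.prod_congr rfl fun q hq => hK q (hπp q (hT hq))
  have hG : Nat.card G = ∏ q ∈ π, q ^ (Nat.card G).factorization q := by
    conv_lhs => rw [← Nat.prod_factorization_pow_eq_self (Nat.card_pos (α := G)).ne']
    rw [Finsupp.prod, Nat.support_factorization]
  have hcard : ∀ T : Finset ℕ, T ⊆ π → Nat.card (⨅ q ∈ π \ T, K q : Subgroup G) = ∏ q ∈ T, q ^ (Nat.card G).factorization q := by
    intro T hT
    have h1 := (⨅ q ∈ π \ T, K q : Subgroup G).card_mul_index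
    rw [hprod (π \ T) Finset.sdiff_subset] at h1
    have h2 : Nat.card G = (∏ q ∈ T, q ^ (Nat.card G).factorization q) * ∏ q ∈ π \ T, q ^ (Nat.card G).factorization q := by
      conv_lhs => rw [hG]
      rw [mul_comm, Finset.prod_sdiff hT]
    have hpos : 0 < ∏ q ∈ π \ T, q ^ (Nat.card G).factorization q := 
      Finset.prod_pos fun q hq => pow_pos (hπp q (Finset.mem_sdiff.1 hq).1).pos _
    exact Nat.eq_of_mul_eq_mul_right hpos (h1.trans h2)
  -- the Sylow subgroups
  have hSyl : ∀ p : Nat.Primes, ∃ P : Sylow (p : ℕ) G, (P : Subgroup G) = ⨅ q ∈ π \ {(p : ℕ)}, K q := by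
    intro p
    haveI : Fact (p : ℕ).Prime := ⟨p.2⟩
    have hc : Nat.card (⨅ q ∈ π \ {(p : ℕ)}, K q : Subgroup G) = (p : ℕ) ^ (Nat.card G).factorization (p : ℕ) := by
      by_cases hp : (p : ℕ) ∈ π
      · rw [hcard {(p : ℕ)} (by simpa using hp), Finset.prod_singleton]
      · have e : π \ {(p : ℕ)} = π \ ∅ := by
          rw [Finset.sdiff_empty, Finset.sdiff_singleton_eq_erase, Finset.erase_eq_of_notMem hp]
        have h0 : (Nat.card G).factorization (p : ℕ) = 0 := by
          rw [← Finsupp.notMem_support_iff, Nat.support_factorization]; exact hp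
        rw [e, hcard ∅ (Finset.empty_subset _), Finset.prod_empty, h0, pow_zero]
    exact ⟨Sylow.ofCard _ hc, rfl⟩
  choose S hS using hSyl
  refine ⟨S, ?_⟩
  have key : ∀ p q : Nat.Primes, p ≠ q → ((S p : Subgroup G) : Set G) * ((S q : Subgroup G) : Set G) = 
      ((⨅ r ∈ π \ ({(p : ℕ), (q : ℕ)} ∩ π), K r : Subgroup G) : Set G) := by
    intro p q hpq
    have hpq' : (p : ℕ) ≠ (q : ℕ) := fun h => hpq (Subtype.ext h)
    set L := (⨅ r ∈ π \ ({(p : ℕ), (q : ℕ)} ∩ π), K r : Subgroup G) with hL
    have hp : (S p : Subgroup G) ≤ L := by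
      rw [hS p, hL]
      apply le_iInf₂
      intro r hr
      apply iInf₂_le
      rw [Finset.mem_sdiff] at hr ⊢
      refine ⟨hr.1, fun h => hr.2 ?_⟩
      rw [Finset.mem_singleton] at h
      rw [Finset.mem_inter]
      exact ⟨by rw [h]; simp, hr.1⟩
    have hq : (S q : Subgroup G) ≤ L := by
      rw [hS q, hL]
      apply le_iInf₂
      intro r hr
      apply iInf₂_le
      rw [Finset.mem_sdiff] at hr ⊢
      refine ⟨hr.1, fun h => hr.2 ?_⟩
      rw [Finset.mem_singleton] at h
      rw [Finset.mem_inter]
      exact ⟨by rw [h]; simp, hr.1⟩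
    have hcS : ∀ p : Nat.Primes, Nat.card (S p : Subgroup G) = (p : ℕ) ^ (Nat.card G).factorization (p : ℕ) := by
      intro p
      haveI : Fact (p : ℕ).Prime := ⟨p.2⟩
      exact (S p).card_eq_multiplicity
    have hcL : Nat.card L = (p : ℕ) ^ (Nat.card G).factorization (p : ℕ) * (q : ℕ) ^ (Nat.card G).factorization (q : ℕ) := by
      rw [hL, hcard _ Finset.inter_subset_right]
      have h0 : ∀ r : ℕ, r ∉ π → r ^ (Nat.card G).factorization r = 1 := by
        intro r hr
        have h0 : (Nat.card G).factorization r = 0 := by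
          rw [← Finsupp.notMem_support_iff, Nat.support_factorization]; exact hr
        rw [h0, pow_zero]
      rw [← Finset.prod_pair (f := fun r : ℕ => r ^ (Nat.card G).factorization r) hpq']
      apply Finset.prod_subset Finset.inter_subset_left
      intro r hr hr2
      exact h0 r (fun h => hr2 (Finset.mem_inter.2 ⟨hr, h⟩))
    have h1 := CfsgH1.card_setMul_mul_card_inf (S p : Subgroup G) (S q : Subgroup G)
    have h2 : (S p : Subgroup G) ⊓ (S q : Subgroup G) = ⊥ := by
      apply CfsgH1.inf_eq_bot_of_coprime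
      rw [hcS, hcS]
      exact Nat.coprime_pow_primes _ _ p.2 q.2 hpq'
    rw [h2, Subgroup.card_bot, mul_one, hcS, hcS, ← hcL] at h1
    refine Set.eq_of_subset_of_ncard_le ?_ ?_ (Set.toFinite _)
    · rintro _ ⟨a, ha, b, hb, rfl⟩
      exact L.mul_mem (hp ha) (hq hb)
    · rw [Nat.card_coe_set_eq] at h1
      exact h1.ge
  intro p q
  by_cases hpq : p = q
  · rw [hpq]
  · have h1 := key p q hpq
    have h2 := key q p (Ne.symm hpq)
    rw [Finset.pair_comm] at h2
    exact h1.trans h2.symm

end Cfsg.Agent.S0020
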