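import Cfsg.Statements.S0021
import Cfsg.Agent.H1.SylSys

set_option autoImplicit false
open Pointwise
open Cfsg

namespace Cfsg.Agent.S0021

open scoped commutatorElement Pointwise

/-- A finite group with a family of pairwise permuting Sylow subgroups, one for each prime, is solvable (this direction rests on Burnside's two-prime Theorem). -/
theorem result {G : Type*} [Group G] [Finite G]
    (S : (p : Nat.Primes) → Sylow (p : ℕ) G)
    (hS : ∀ p q : Nat.Primes, (S p : Set G) * (S q : Set G) = (S q : Set G) * (S p : Set G)) :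
    Group.IsSolvable G := by
  classical
  apply CfsgH1.solvable_of_hall_complements _ G rfl
  intro p hp
  let S' : ℕ → Subgroup G := fun q => if h : q.Prime then (S ⟨q, h⟩ : Subgroup G) else ⊥
  have hS' : ∀ (q : ℕ) (h : q.Prime), S' q = (S ⟨q, h⟩ : Subgroup G) := fun q h => dif_pos h
  have hcard : ∀ q : ℕ, q.Prime → Nat.card (S' q) = q ^ (Nat.card G).factorization q := by
    intro q hq
    haveI : Fact q.Prime := ⟨hq⟩
    rw [hS' q hq]
    exact (S ⟨q, hq⟩).card_eq_multiplicity
  set T := (Nat.card G).primeFactors.erase p with hT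
  have hTp : ∀ q ∈ T, q.Prime := fun q hq => Nat.prime_of_mem_primeFactors (Finset.mem_of_mem_erase hq)
  obtain ⟨h1, -⟩ := CfsgH1.card_iSup_permute S' T (by
    intro q hq r hr
    rw [hS' q (hTp q hq), hS' r (hTp r hr)]
    exact hS _ _) (by
    intro q hq r hr hqr
    rw [hcard q (hTp q hq), hcard r (hTp r hr)]
    exact Nat.coprime_pow_primes _ _ (hTp q hq) (hTp r hr) hqr)
  refine ⟨⨆ q ∈ T, S' q, ?_⟩
  set H := (⨆ q ∈ T, S' q : Subgroup G) with hH
  rw [Finset.prod_congr rfl (fun q hq => hcard q (hTp q hq))] at h1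
  have h2 : Nat.card G = (∏ q ∈ T, q ^ (Nat.card G).factorization q) * p ^ (Nat.card G).factorization p := by
    conv_lhs => rw [← Nat.prod_factorization_pow_eq_self (Nat.card_pos (α := G)).ne']
    rw [Finsupp.prod, Nat.support_factorization]
    by_cases hpm : p ∈ (Nat.card G).primeFactors
    · rw [← Finset.mul_prod_erase _ _ hpm, mul_comm]
    · rw [hT, Finset.erase_eq_of_notMem hpm]
      have : (Nat.card G).factorization p = 0 := by
        rw [← Finsupp.notMem_support_iff, Nat.support_factorization]; exact hpm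
      rw [this, pow_zero, mul_one]
  have h3 := H.card_mul_index
  rw [h1] at h3
  have hpos : 0 < ∏ q ∈ T, q ^ (Nat.card G).factorization q := Finset.prod_pos fun q hq => pow_pos (hTp q hq).pos _
  exact Nat.eq_of_mul_eq_mul_left hpos (h3.trans h2)

end Cfsg.Agent.S0021
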