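import Cfsg.Statements.S0029
import Cfsg.Agent.H1.CopExtra

set_option autoImplicit false
open Cfsg

namespace Cfsg.Agent.S0029

open scoped commutatorElement Pointwise

/-- An action that is trivial on the Frattini quotient and coprime on the Frattini subgroup is trivial: if A normalises K, the orders of A and of the Frattini subgroup of K are coprime, and every commutator of an element of A with an element of K lies in the Frattini subgroup of K, then A centralises K. -/
theorem result {G : Type*} [Group G] [Finite G] (A K : Subgroup G)
    (hAK : A ≤ Subgroup.normalizer (K : Set G))
    (hcop : (Nat.card A).Coprime (Nat.card (frattini K)))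
    (htriv : ∀ a ∈ A, ∀ k ∈ K, a * k * a⁻¹ * k⁻¹ ∈ (frattini K).map K.subtype) :
    A ≤ Subgroup.centralizer (K : Set G) := by
  exact CfsgH1.coprime_trivial_of_frattini hAK hcop htriv

end Cfsg.Agent.S0029
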