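import Cfsg.Statements.S0031
import Cfsg.Agent.H1.PGrp2

set_option autoImplicit false
open Cfsg

namespace Cfsg.Agent.S0031

open scoped commutatorElement Pointwise

/-- A fixed-point-free automorphism of a finite group maps some Sylow p-subgroup to itself. -/
theorem result {G : Type*} [Group G] [Finite G] (φ : G ≃* G)
    (hφ : MonoidHom.FixedPointFree (φ : G →* G)) (p : ℕ) [Fact p.Prime] :
    ∃ P : Sylow p G, (P : Subgroup G).map (φ : G →* G) = P := by
  obtain ⟨P⟩ := (inferInstance : Nonempty (Sylow p G))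
  have hmap : IsPGroup p ((P : Subgroup G).map (φ : G →* G)) := P.isPGroup'.map _
  have hidx : ((P : Subgroup G).map (φ : G →* G)).index = (P : Subgroup G).index := Subgroup.index_map_equiv _ φ
  let Q : Sylow p G := hmap.toSylow (by rw [hidx]; exact P.not_dvd_index)
  have hQ : (Q : Subgroup G) = (P : Subgroup G).map (φ : G →* G) := rfl
  obtain ⟨h, hh⟩ := MulAction.exists_smul_eq G P Q
  have hPQ : MulAut.conj h • (P : Subgroup G) = (P : Subgroup G).map (φ : G →* G) := by
    rw [← hQ, ← hh]; rfl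
  obtain ⟨y, hy⟩ := hφ.commutatorMap_surjective h⁻¹
  have hy' : y * (φ y)⁻¹ = h⁻¹ := by rw [← div_eq_mul_inv]; exact hy
  refine ⟨y⁻¹ • P, ?_⟩
  have e1 : ((y⁻¹ • P : Sylow p G) : Subgroup G) = MulAut.conj y⁻¹ • (P : Subgroup G) := rfl
  rw [e1]
  have e2 : (MulAut.conj y⁻¹ • (P : Subgroup G)).map (φ : G →* G) = MulAut.conj (φ y⁻¹) • ((P : Subgroup G).map (φ : G →* G)) := by
    rw [CfsgH1.conj_smul_eq_map, CfsgH1.conj_smul_eq_map, Subgroup.map_map, Subgroup.map_map]
    congr 1
    ext x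
    simp
  rw [e2, ← hPQ, ← mul_smul, ← map_mul]
  congr 2
  rw [map_inv]
  have : h = (φ y) * y⁻¹ := by rw [← inv_inv h, ← hy']; group
  rw [this]; group

end Cfsg.Agent.S0031
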