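import Cfsg.Statements.S0033
import Cfsg.Agent.H1.FpfAut

set_option autoImplicit false
open Cfsg

namespace Cfsg.Agent.S0033

open scoped commutatorElement Pointwise

/-- Thompson's Theorem on fixed-point-free automorphisms: a finite group with an automorphism of prime order fixing only the identity is nilpotent. -/
theorem result {G : Type*} [Group G] [Finite G] (φ : G ≃* G)
    (hφ : MonoidHom.FixedPointFree (φ : G →* G)) (p : ℕ) (hp : p.Prime) (hord : orderOf φ = p) :
    Group.IsNilpotent G := by
  refine CfsgH1.fpf_prime_nilpotent G (φ : G →* G) p hp hφ ?_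
  funext x
  have h1 : ∀ k : ℕ, (φ : G →* G)^[k] x = (φ ^ k) x := by
    intro k
    induction k with
    | zero => rfl
    | succ k ih => rw [Function.iterate_succ_apply', ih, pow_succ']; rfl
  rw [h1, ← hord, pow_orderOf_eq_one]
  rfl

end Cfsg.Agent.S0033
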