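import Cfsg.Statements.S0038
import Cfsg.Agent.H1.FrobSub

set_option autoImplicit false
open Pointwise
open Cfsg

namespace Cfsg.Agent.S0038

open scoped commutatorElement Pointwise

/-- All Frobenius complements of a finite group are conjugate to one another. -/
theorem result {G : Type*} [Group G] [Finite G] (H H₀ : Subgroup G)
    (hH : Cfsg.IsFrobeniusComplement H) (hH₀ : Cfsg.IsFrobeniusComplement H₀) :
    ∃ g : G, MulAut.conj g • H₀ = H := by
  have key : ∀ H H₀ : Subgroup G, Cfsg.IsFrobeniusComplement H → Cfsg.IsFrobeniusComplement H₀ → Nat.card H₀ ≤ Nat.card H → 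
      ∃ g : G, MulAut.conj g • H₀ = H := by
    intro H H₀ hH hH₀ hle
    obtain ⟨g, hg⟩ := CfsgH1.frob_le_conj hH.2.2 hH₀.2.2 hle hH₀.1
    have hle2 : MulAut.conj g⁻¹ • H₀ ≤ H := by
      intro x hx
      rw [CfsgH1.mem_conj_smul] at hx
      have := hg _ hx
      have e : g⁻¹ * (g⁻¹⁻¹ * x * g⁻¹) * g = x := by group
      rwa [e] at this
    refine ⟨g⁻¹, CfsgH1.frob_sub_eq hH.2.2 hH.2.1 ?_ ?_ hle2⟩
    · intro y hy
      have h1 : g * y * g⁻¹ ∉ H₀ := by
        intro h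
        apply hy
        rw [CfsgH1.mem_conj_smul, inv_inv]; exact h
      have h2 := hH₀.2.2 _ h1
      rw [eq_bot_iff]
      rintro x ⟨hx1, hx2⟩
      change x ∈ MulAut.conj g⁻¹ • H₀ at hx1
      change x ∈ MulAut.conj y • MulAut.conj g⁻¹ • H₀ at hx2
      rw [CfsgH1.mem_conj_smul] at hx1
      rw [CfsgH1.mem_conj_smul, CfsgH1.mem_conj_smul] at hx2
      rw [inv_inv] at hx1 hx2
      have h3 : g * x * g⁻¹ ∈ H₀ ⊓ (MulAut.conj (g * y * g⁻¹) • H₀) := by
        refine ⟨hx1, ?_⟩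
        change g * x * g⁻¹ ∈ MulAut.conj (g * y * g⁻¹) • H₀
        rw [CfsgH1.mem_conj_smul]
        have : (g * y * g⁻¹)⁻¹ * (g * x * g⁻¹) * (g * y * g⁻¹) = g * (y⁻¹ * x * y) * g⁻¹ := by group
        rw [this]; exact hx2
      rw [h2, Subgroup.mem_bot] at h3
      rw [Subgroup.mem_bot]
      have : x = g⁻¹ * (g * x * g⁻¹) * g := by group
      rw [this, h3]; group
    · intro h
      apply hH₀.1
      rw [eq_bot_iff]
      intro x hx
      have : g⁻¹ * x * g ∈ MulAut.conj g⁻¹ • H₀ := by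
        rw [CfsgH1.mem_conj_smul]
        have e : g⁻¹⁻¹ * (g⁻¹ * x * g) * g⁻¹ = x := by group
        rw [e]; exact hx
      rw [h, Subgroup.mem_bot] at this
      rw [Subgroup.mem_bot]
      have e : x = g * (g⁻¹ * x * g) * g⁻¹ := by group
      rw [e, this]; group
  rcases le_total (Nat.card H₀) (Nat.card H) with h | h
  · exact key H H₀ hH hH₀ h
  · obtain ⟨g, hg⟩ := key H₀ H hH₀ hH h
    refine ⟨g⁻¹, ?_⟩
    rw [← hg, ← mul_smul, ← map_mul, inv_mul_cancel, map_one, one_smul]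

end Cfsg.Agent.S0038
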