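import Cfsg.Statements.S0041
import Cfsg.Agent.H1.CopExtra

set_option autoImplicit false
open Cfsg

namespace Cfsg.Agent.S0041

open scoped commutatorElement Pointwise

/-- A group acting on a nontrivial abelian group so that no nonidentity element has a nonidentity fixed point is cyclic, provided it is abelian or its order is a product of two (possibly equal) primes. -/
theorem result {G : Type*} [Group G] [Finite G] (A V : Subgroup G) [IsMulCommutative V]
    (hV : V ≠ ⊥) (hAV : A ≤ Subgroup.normalizer (V : Set G)) (hfpf : ∀ a ∈ A, a ≠ 1 → V ⊓ Subgroup.centralizer {a} = ⊥)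
    (hA : IsMulCommutative A ∨ ∃ p q : ℕ, p.Prime ∧ q.Prime ∧ Nat.card A = p * q) : IsCyclic A := by
  letI : CommGroup V := { (inferInstance : Group V) with 
    mul_comm := fun a b => (inferInstance : IsMulCommutative V).is_comm.comm a b }
  letI : MulDistribMulAction A V := CfsgH1.conjMDMA hAV
  haveI : Nontrivial V := (Subgroup.nontrivial_iff_ne_bot V).2 hV
  refine CfsgH1.isCyclic_of_fpf (A := A) (V := V) (hA.imp (fun h a b => h.is_comm.comm a b) id) ?_
  intro a ha v hv
  have h1 := hfpf a a.2 (fun h => ha (Subtype.ext h))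
  have h2 : (a : G) * v * (a : G)⁻¹ = v := congrArg Subtype.val hv
  have h3 : (v : G) ∈ V ⊓ Subgroup.centralizer {(a : G)} := ⟨v.2, by
    change (v : G) ∈ Subgroup.centralizer {(a : G)}
    rw [Subgroup.mem_centralizer_iff]
    intro x hx
    rw [Set.mem_singleton_iff.1 hx]
    exact mul_inv_eq_iff_eq_mul.1 h2⟩
  rw [h1, Subgroup.mem_bot] at h3
  exact Subtype.ext h3

end Cfsg.Agent.S0041
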