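import Cfsg.Statements.S0042
import Cfsg.Agent.H1.FpfAut
import Cfsg.Agent.H1.FrobThm

set_option autoImplicit false
open Cfsg

namespace Cfsg.Agent.S0042

open scoped commutatorElement Pointwise

/-- In a finite Frobenius group, the Frobenius kernel is (the carrier of) a normal subgroup which is nilpotent. -/
theorem result {G : Type*} [Group G] [Finite G] (H : Subgroup G) (hH : Cfsg.IsFrobeniusComplement H) :
    ∃ N : Subgroup G, (N : Set G) = Cfsg.frobeniusKernel H ∧ N.Normal ∧ Group.IsNilpotent N := by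
  obtain ⟨hne, hnt, hTI⟩ := hH
  obtain ⟨N, hN, hNn, hc⟩ := CfsgH1.frobenius_kernel hTI
  refine ⟨N, hN, hNn, ?_⟩
  obtain ⟨r, hr, hrd⟩ := Nat.exists_prime_and_dvd (n := Nat.card H) (by
    intro h; exact hne (Subgroup.card_eq_one.1 h))
  haveI : Fact r.Prime := ⟨hr⟩
  obtain ⟨h, hh⟩ := exists_prime_orderOf_dvd_card' r hrd
  have hh1 : (h : G) ≠ 1 := by
    intro h1
    have : h = 1 := Subtype.ext h1
    rw [this, orderOf_one] at hh
    exact hr.ne_one hh.symm
  have hinv : ∀ x ∈ N, (MulAut.conj (h : G) : G →* G) x ∈ N := fun x hx => hNn.conj_mem x hx h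
  let φ : N →* N := ((MulAut.conj (h : G) : G →* G).comp N.subtype).codRestrict N (fun x => hinv x x.2)
  have hφc : ∀ x : N, ((φ x : N) : G) = h * x * (h : G)⁻¹ := fun _ => rfl
  have hiter : ∀ (k : ℕ) (x : N), ((φ^[k] x : N) : G) = (h : G) ^ k * x * ((h : G) ^ k)⁻¹ := by
    intro k
    induction k with
    | zero => intro x; simp
    | succ k ih =>
      intro x
      rw [Function.iterate_succ_apply, ih, hφc, pow_succ]
      group
  refine CfsgH1.fpf_prime_nilpotent N φ r hr ?_ ?_
  · intro x hx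
    have h1 : (h : G) * x * (h : G)⁻¹ = x := congrArg Subtype.val hx
    have h2 : (x : G) ∈ H := by
      by_contra hxH
      have h3 := hTI x hxH
      have h4 : (h : G) ∈ H ⊓ (MulAut.conj (x : G) • H) := by
        refine ⟨h.2, ?_⟩
        change (h : G) ∈ MulAut.conj (x : G) • H
        rw [Subgroup.mem_pointwise_smul_iff_inv_smul_mem]
        have h5 : (MulAut.conj (x : G))⁻¹ • (h : G) = h := by
          rw [MulAut.smul_def, MulAut.inv_def, MulAut.conj_symm_apply]
          have h6 : (h : G) * x = x * h := mul_inv_eq_iff_eq_mul.1 h1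
          rw [mul_assoc, h6, inv_mul_cancel_left]
        rw [h5]
        exact h.2
      rw [h3, Subgroup.mem_bot] at h4
      exact hh1 h4
    have h7 : (x : G) ∈ N ⊓ H := ⟨x.2, h2⟩
    rw [hc.isCompl.inf_eq_bot, Subgroup.mem_bot] at h7
    exact Subtype.ext h7
  · funext x
    apply Subtype.ext
    rw [hiter]
    have h8 : (h : G) ^ r = 1 := by
      rw [← Subgroup.coe_pow, ← hh, pow_orderOf_eq_one]; rfl
    rw [h8]; simp

end Cfsg.Agent.S0042
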