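import Cfsg.Statements.S0048
import Cfsg.Agent.H1.Frat

set_option autoImplicit false
open Cfsg

namespace Cfsg.Agent.S0048

open scoped commutatorElement Pointwise


universe u_1

theorem aux (n : ℕ) : ∀ (G : Type u_1) [Group G] [Finite G] [Group.IsSolvable G], Nat.card G = n → 
    ∀ M : Subgroup G, IsCoatom M → IsPrimePow M.index := by
  induction n using Nat.strongRecOn with
  | ind n ih =>
    intro G _ _ _ hn M hM
    haveI : Nontrivial G := by
      by_contra h
      rw [not_nontrivial_iff_subsingleton] at h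
      exact hM.1 (Subsingleton.elim _ _)
    obtain ⟨N, h1, h2, h3, h4, p, hp, h5, h6⟩ := CfsgH1.exists_minNormal_pgroup (G := G)
    haveI : Fact p.Prime := ⟨hp⟩
    by_cases hNM : N ≤ M
    · have := ih (Nat.card (G ⧸ N)) (by rw [← hn]; exact CfsgH1.card_quotient_lt h2) (G ⧸ N) rfl _ 
        (CfsgH1.isCoatom_map_of_le hM hNM)
      rwa [CfsgH1.index_map_mk hNM] at this
    · have hsup := CfsgH1.sup_eq_top_of_isCoatom hM hNM
      have e := CfsgH1.index_eq_of_sup hsup
      obtain ⟨k, hk⟩ := IsPGroup.iff_card.1 h6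
      have hd : M.index ∣ p ^ k := by rw [← hk, ← e]; exact Dvd.intro _ rfl
      obtain ⟨j, -, hj⟩ := (Nat.dvd_prime_pow hp).1 hd
      rw [isPrimePow_nat_iff]
      refine ⟨p, j, hp, Nat.pos_of_ne_zero ?_, hj.symm⟩
      rintro rfl
      rw [pow_zero] at hj
      exact hM.1 (Subgroup.index_eq_one.1 hj)

/-- In a finite solvable group every maximal subgroup has index a prime power. -/
theorem result {G : Type*} [Group G] [Finite G] [Group.IsSolvable G]
    (M : Subgroup G) (hM : IsCoatom M) : IsPrimePow M.index := by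

  exact aux (Nat.card G) G rfl M hM

end Cfsg.Agent.S0048
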