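import Cfsg.Statements.S0049
import Cfsg.Agent.H1.Frat

set_option autoImplicit false
open Cfsg

namespace Cfsg.Agent.S0049

open scoped commutatorElement Pointwise

/-- A prime divisor of the order of a finite group also divides the index of the Frattini subgroup. -/
theorem result {G : Type*} [Group G] [Finite G] (p : ℕ) (hp : p.Prime) (hdvd : p ∣ Nat.card G) :
    p ∣ (frattini G).index := by
  haveI : Fact p.Prime := ⟨hp⟩
  by_contra hnd
  obtain ⟨P⟩ := (inferInstance : Nonempty (Sylow p G))
  -- `P ≤ Φ`
  have hPΦ : (P : Subgroup G) ≤ frattini G := by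
    -- index of P ⊓ Φ in P divides index of Φ
    have h1 : (frattini G).relIndex (P : Subgroup G) ∣ (frattini G).index := Subgroup.relIndex_dvd_index_of_normal _ _
    have h2 : (frattini G).relIndex (P : Subgroup G) ∣ Nat.card (P : Subgroup G) := Subgroup.relIndex_dvd_card _ _
    obtain ⟨k, hk⟩ := IsPGroup.iff_card.1 P.isPGroup'
    rw [hk] at h2
    obtain ⟨j, -, hj⟩ := (Nat.dvd_prime_pow hp).1 h2
    have hj0 : j = 0 := by
      by_contra hj0
      exact hnd ((dvd_pow_self p hj0).trans (hj ▸ h1))
    rw [hj0, pow_zero, Subgroup.relIndex_eq_one] at hj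
    exact hj
  have hPn : (P : Subgroup G).Normal := CfsgH1.normal_of_nilpotent_sylow (K := frattini G) frattini_nilpotent 
    (CfsgH1.isSylowOf_of_le (CfsgH1.sylow_isSylowOf P) hPΦ le_top)
  obtain ⟨K, hK⟩ := Subgroup.exists_right_complement'_of_coprime (N := (P : Subgroup G)) P.card_coprime_index
  have hKt := CfsgH1.eq_top_of_frattini_sup hPΦ hK.sup_eq_top
  have hP1 : (P : Subgroup G) = ⊥ := by
    have := hK.disjoint.eq_bot
    rwa [hKt, inf_top_eq] at this
  have hind := P.not_dvd_index
  rw [hP1, Subgroup.index_bot] at hind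
  exact hind hdvd

end Cfsg.Agent.S0049
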