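import Cfsg.Statements.S0050
import Cfsg.Agent.H1.PGrp2

set_option autoImplicit false
open Cfsg

namespace Cfsg.Agent.S0050

open scoped commutatorElement Pointwise

/-- Frattini argument for Hall subgroups: if L is a solvable normal subgroup and H a subgroup of L of order coprime to its index in L, then L together with the normaliser of H generates the whole group. -/
theorem result {G : Type*} [Group G] [Finite G] (L : Subgroup G) [L.Normal] (hL : Group.IsSolvable L)
    (H : Subgroup G) (hHL : H ≤ L) (hHall : (Nat.card H).Coprime (H.relIndex L)) :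
    L ⊔ Subgroup.normalizer (H : Set G) = ⊤ := by
  rw [eq_top_iff]
  intro g _
  haveI := hL
  have hg : g ∈ Subgroup.normalizer (L : Set G) := by
    rw [Subgroup.normalizer_eq_top_iff.2 ‹_›]; trivial
  have hLg : MulAut.conj g • L = L := CfsgH1.conj_smul_eq_self_iff.2 hg
  set K := MulAut.conj g • H with hK
  have hKL : K ≤ L := by rw [← hLg]; exact CfsgH1.conj_smul_mono g hHL
  have hKc : Nat.card K = Nat.card H := CfsgH1.card_conj_smul _ _
  have hr : ∀ X : Subgroup G, X ≤ L → Nat.card X * X.relIndex L = Nat.card L := by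
    intro X hX
    have := (X.subgroupOf L).card_mul_index
    rwa [CfsgH1.card_subgroupOf hX] at this
  have hKr : K.relIndex L = H.relIndex L := by
    have h1 := hr K hKL
    rw [hKc, ← hr H hHL] at h1
    exact Nat.eq_of_mul_eq_mul_left Nat.card_pos h1
  obtain ⟨l, hl⟩ := (CfsgH1.hallD_of_solvable (G := L) {p | p ∣ Nat.card H}).conj (H := K.subgroupOf L) (K := H.subgroupOf L)
    (by rw [CfsgH1.card_subgroupOf hKL, hKc]; exact CfsgH1.piNum_primes_of_dvd)
    (by 
      change CfsgH1.PiNum _ (K.relIndex L)
      rw [hKr]; exact CfsgH1.piNum_compl_of_coprime hHall)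
    (by rw [CfsgH1.card_subgroupOf hHL]; exact CfsgH1.piNum_primes_of_dvd)
    (by 
      change CfsgH1.PiNum _ (H.relIndex L)
      exact CfsgH1.piNum_compl_of_coprime hHall)
  have h2 : MulAut.conj (l : G) • K = H := by
    rw [CfsgH1.conj_smul_subgroupOf] at hl
    have h3 : MulAut.conj (l : G) • K ≤ L := (CfsgH1.conj_smul_mono _ hKL).trans 
      (le_of_eq (CfsgH1.conj_smul_eq_self_iff.2 (Subgroup.le_normalizer l.2)))
    exact CfsgH1.eq_of_subgroupOf_eq h3 hHL hl
  have h4 : (l : G) * g ∈ Subgroup.normalizer (H : Set G) := by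
    rw [← CfsgH1.conj_smul_eq_self_iff, map_mul, mul_smul]
    exact h2
  have : g = (l : G)⁻¹ * ((l : G) * g) := by group
  rw [this]
  exact Subgroup.mul_mem _ (Subgroup.mem_sup_left (L.inv_mem l.2)) (Subgroup.mem_sup_right h4)

end Cfsg.Agent.S0050
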