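import Cfsg.Statements.S0053
import Cfsg.Agent.H1.PGrp2

set_option autoImplicit false
open Cfsg

namespace Cfsg.Agent.S0053

open scoped commutatorElement Pointwise

/-- An abelian minimal normal subgroup N of a finite group is complemented exactly when N is not inside the Frattini subgroup. -/
theorem result {G : Type*} [Group G] [Finite G]
    (N : Subgroup G) [N.Normal] [IsMulCommutative N] (hN : N ≠ ⊥)
    (hmin : ∀ M : Subgroup G, M.Normal → M ≤ N → M = ⊥ ∨ M = N) :
    (∃ H : Subgroup G, Subgroup.IsComplement' N H) ↔ ¬ N ≤ frattini G := by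
  have hab : ∀ x ∈ N, ∀ y ∈ N, x * y = y * x := fun x hx y hy => 
    congrArg Subtype.val ((inferInstance : IsMulCommutative N).is_comm.comm (⟨x, hx⟩ : N) ⟨y, hy⟩)
  constructor
  · rintro ⟨H, hH⟩ hle
    have h1 := CfsgH1.eq_top_of_frattini_sup hle hH.sup_eq_top
    have h2 := hH.disjoint.eq_bot
    rw [h1, inf_top_eq] at h2
    exact hN h2
  · intro h
    obtain ⟨M, hM, hNM, hsup⟩ := CfsgH1.exists_isCoatom_not_le h
    have h1 : N ⊓ M = ⊥ := by
      rcases hmin (N ⊓ M) (CfsgH1.inf_normal_of_abelian hab hsup) inf_le_left with h1 | h1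
      · exact h1
      · exact absurd (inf_eq_left.1 h1) hNM
    refine ⟨M, ?_⟩
    apply Subgroup.isComplement'_of_card_mul_and_disjoint
    · have h2 := CfsgH1.card_sup_of_disjoint (CfsgH1.le_normalizer_of_normal M N) (by rw [inf_comm]; exact h1)
      rw [sup_comm, hsup, Subgroup.card_top] at h2
      rw [h2, mul_comm]
    · exact disjoint_iff.2 h1

end Cfsg.Agent.S0053
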