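import Cfsg.Statements.S0054
import Cfsg.Agent.H1.PGrp2

set_option autoImplicit false
open Cfsg

namespace Cfsg.Agent.S0054

open scoped commutatorElement Pointwise

/-- A regular normal subgroup of a finite 2-transitive group is elementary abelian: it is commutative and all its elements have order dividing one prime. -/
theorem result {G : Type*} [Group G] [Finite G]
    {X : Type*} [Nonempty X] [MulAction G X] (h2 : MulAction.IsMultiplyPretransitive G X 2)
    (N : Subgroup G) [N.Normal] (htrans : MulAction.IsPretransitive N X) (hreg : ∀ x : X, MulAction.stabilizer N x = ⊥) :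
    IsMulCommutative N ∧ ∃ p : ℕ, p.Prime ∧ ∀ n ∈ N, n ^ p = 1 := by
  classical
  obtain ⟨x⟩ := (inferInstance : Nonempty X)
  have hinj : ∀ m ∈ N, ∀ n ∈ N, m • x = n • x → m = n := by
    intro m hm n hn h
    have h1 : (⟨n⁻¹ * m, N.mul_mem (N.inv_mem hn) hm⟩ : N) ∈ MulAction.stabilizer N x := by
      change (n⁻¹ * m) • x = x
      rw [mul_smul, h, inv_smul_smul]
    rw [hreg x, Subgroup.mem_bot] at h1
    have h3 : n⁻¹ * m = 1 := congrArg Subtype.val h1
    exact (inv_mul_eq_one.1 h3).symm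
  -- all nonidentity elements conjugate
  have hconj : ∀ m ∈ N, ∀ n ∈ N, m ≠ 1 → n ≠ 1 → ∃ g : G, g * m * g⁻¹ = n := by
    intro m hm n hn hm1 hn1
    have hmx : x ≠ m • x := fun h => hm1 (hinj m hm 1 N.one_mem (by rw [one_smul]; exact h.symm))
    have hnx : x ≠ n • x := fun h => hn1 (hinj n hn 1 N.one_mem (by rw [one_smul]; exact h.symm))
    obtain ⟨g, hg1, hg2⟩ := MulAction.is_two_pretransitive_iff.1 h2 hmx hnx
    refine ⟨g, hinj _ ((inferInstance : N.Normal).conj_mem m hm g) n hn ?_⟩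
    rw [mul_smul, mul_smul]
    have : g⁻¹ • x = x := by rw [inv_smul_eq_iff]; exact hg1.symm
    rw [this, hg2]
  by_cases hN : N = ⊥
  · subst hN
    refine ⟨⟨⟨fun a b => Subtype.ext ?_⟩⟩, 2, Nat.prime_two, ?_⟩
    · have ha := Subgroup.mem_bot.1 a.2; have hb := Subgroup.mem_bot.1 b.2
      change (a : G) * b = b * a
      rw [ha, hb]
    · intro n hn; rw [Subgroup.mem_bot.1 hn, one_pow]
  have hc : Nat.card N ≠ 1 := by rw [Ne, Subgroup.card_eq_one]; exact hN
  obtain ⟨p, hp, hpd⟩ := Nat.exists_prime_and_dvd hc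
  haveI : Fact p.Prime := ⟨hp⟩
  obtain ⟨m, hm⟩ := exists_prime_orderOf_dvd_card' (G := N) p hpd
  have hm' : orderOf (m : G) = p := by rw [Subgroup.orderOf_coe]; exact hm
  have hm1 : (m : G) ≠ 1 := by
    intro h; rw [h, orderOf_one] at hm'; exact hp.one_lt.ne hm'
  have hexp : ∀ n ∈ N, n ^ p = 1 := by
    intro n hn
    by_cases hn1 : n = 1
    · rw [hn1, one_pow]
    · obtain ⟨g, rfl⟩ := hconj m m.2 n hn hm1 hn1
      rw [conj_pow, ← hm', pow_orderOf_eq_one, mul_one, mul_inv_cancel]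
  have hNp : IsPGroup p N := CfsgH1.isPGroup_of_forall_pow_eq_one hexp
  haveI : Nontrivial N := (Subgroup.nontrivial_iff_ne_bot N).2 hN
  have hZ := hNp.center_nontrivial
  obtain ⟨z, hz⟩ := exists_ne (1 : Subgroup.center N)
  refine ⟨⟨⟨fun a b => Subtype.ext ?_⟩⟩, p, hp, hexp⟩
  change (a : G) * b = b * a
  by_cases ha : (a : G) = 1
  · rw [ha, one_mul, mul_one]
  obtain ⟨g, hg⟩ := hconj ((z : N) : G) (z : N).2 a a.2 (fun h => hz (Subtype.ext (Subtype.ext h))) ha
  have h3 := Subgroup.mem_center_iff.1 z.2 ⟨g⁻¹ * b * g, by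
    have := (inferInstance : N.Normal).conj_mem b b.2 g⁻¹
    rwa [inv_inv] at this⟩
  have h4 : (g⁻¹ * b * g) * ((z : N) : G) = ((z : N) : G) * (g⁻¹ * b * g) := congrArg Subtype.val h3
  rw [← hg]
  calc g * ((z : N) : G) * g⁻¹ * b = g * (((z : N) : G) * (g⁻¹ * b * g)) * g⁻¹ := by group
    _ = g * ((g⁻¹ * b * g) * ((z : N) : G)) * g⁻¹ := by rw [h4]
    _ = b * (g * ((z : N) : G) * g⁻¹) := by group

end Cfsg.Agent.S0054
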