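import Cfsg.Statements.S0057
import Cfsg.Agent.H1.PGrp2

set_option autoImplicit false
open Cfsg

namespace Cfsg.Agent.S0057

open scoped commutatorElement Pointwise

/-- Under coprime action, if the centraliser of A in K has prime index p in K then the commutator subgroup [K, A] has order exactly p. -/
theorem result {G : Type*} [Group G] [Finite G] (A K : Subgroup G) (hAK : A ≤ Subgroup.normalizer (K : Set G))
    (hcop : (Nat.card A).Coprime (Nat.card K)) (hsolv : Group.IsSolvable A ∨ Group.IsSolvable K)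
    (p : ℕ) (hp : p.Prime) (hidx : (K ⊓ Subgroup.centralizer (A : Set G)).relIndex K = p) :
    Nat.card (⁅K, A⁆ : Subgroup G) = p := by
  haveI : Fact p.Prime := ⟨hp⟩
  obtain ⟨⟨P, hP, hAP⟩, -⟩ := CfsgH1.coprime_sylow hAK hcop hsolv p
  have hPK := CfsgH1.isSylowOf_le hP
  have hPp := CfsgH1.isSylowOf_isPGroup hP
  set C := K ⊓ Subgroup.centralizer (A : Set G) with hC
  have hcopP : (Nat.card A).Coprime (Nat.card P) := Nat.Coprime.coprime_dvd_right (CfsgH1.card_dvd_card_of_le hPK) hcop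
  -- K = P C
  have hfact : CfsgH1.IsFact (P.subgroupOf K) (C.subgroupOf K) := by
    apply CfsgH1.isFact_of_coprime
    have h1 : (C.subgroupOf K).index = p := hidx
    rw [h1]
    exact ((Nat.Prime.coprime_iff_not_dvd hp).2 (CfsgH1.isSylowOf_iff.1 hP).2.2).symm
  have hPC : ∀ k ∈ K, ∃ x ∈ P, ∃ c ∈ Subgroup.centralizer (A : Set G), k = x * c := by
    intro k hk
    obtain ⟨x, hx, c, hc, h⟩ := hfact ⟨k, hk⟩
    exact ⟨x, hx, c, hc.2, congrArg Subtype.val h⟩
  rw [CfsgH1.commutator_eq_of_mul_centralizer hPK hPC]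
  -- index of C_P(A) in P
  set C0 := P ⊓ Subgroup.centralizer (A : Set G) with hC0
  have hidx0 : C0.relIndex P = p := by
    have h1 := (CfsgH1.isFact_iff_index.1 hfact.symm)
    have h2 : (C.subgroupOf K).relIndex (P.subgroupOf K) = C.relIndex P := by
      rw [Subgroup.relIndex_subgroupOf hPK]
    have h3 : C0.relIndex P = C.relIndex P := by
      rw [← Subgroup.inf_relIndex_right C, hC0, hC]
      congr 1
      rw [inf_assoc, inf_comm (Subgroup.centralizer _) P, ← inf_assoc, inf_eq_right.2 hPK]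
    rw [h3, ← h2, h1]; exact hidx
  have hAs : Group.IsSolvable A ∨ Group.IsSolvable P := Or.inr (CfsgH1.isSolvable_of_isPGroup hPp)
  set D := ⁅P, A⁆ with hD
  have hDP : D ≤ P := by rw [hD, ← Subgroup.le_normalizer_iff_commutator_le_left]; exact hAP
  have hAD : A ≤ Subgroup.normalizer (D : Set G) := CfsgH1.normalizer_commutator hAP Subgroup.le_normalizer
  have hidem : ⁅D, A⁆ = D := CfsgH1.coprime_commutator_idem hAP hcopP hAs
  have hC0P : C0 ≤ P := inf_le_left
  have hC0n : P ≤ Subgroup.normalizer (C0 : Set G) := by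
    exact CfsgH1.le_normalizer_of_relIndex_prime_pgroup hPp hC0P hidx0
  -- D centralizes C0
  have hDC : ⁅D, C0⁆ = ⊥ := by
    have e1 : ⁅⁅P, C0⁆, A⁆ = ⊥ := by
      have : ⁅P, C0⁆ ≤ C0 := by
        rw [← Subgroup.le_normalizer_iff_commutator_le_right]; exact hC0n
      rw [← CfsgH1.le_centralizer_iff_commutator]
      exact this.trans inf_le_right
    have e2 : ⁅⁅C0, A⁆, P⁆ = ⊥ := by
      rw [CfsgH1.le_centralizer_iff_commutator.1 (inf_le_right : C0 ≤ _), Subgroup.commutator_bot_left]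
    have e3 : ⁅⁅A, P⁆, C0⁆ = ⊥ := Subgroup.commutator_commutator_eq_bot_of_rotate e1 e2
    rwa [Subgroup.commutator_comm A P] at e3
  -- D is abelian: D/(D ∩ C0) has order p
  have hPeq : ∀ x ∈ P, ∃ n ∈ D, ∃ c ∈ C0, x = n * c := fun x hx => CfsgH1.coprime_eq_commutator_mul hAP hcopP hAs hx
  have hfact2 : CfsgH1.IsFact (D.subgroupOf P) (C0.subgroupOf P) := by
    rintro ⟨x, hx⟩
    obtain ⟨n, hn, c, hc, rfl⟩ := hPeq x hx
    exact ⟨⟨n, hDP hn⟩, hn, ⟨c, hC0P hc⟩, hc, rfl⟩
  have hDC0 : (C0 ⊓ D).relIndex D = p := by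
    have h1 := (CfsgH1.isFact_iff_index.1 hfact2.symm)
    rw [Subgroup.relIndex_subgroupOf hDP] at h1
    rw [Subgroup.inf_relIndex_right, h1]; exact hidx0
  have hDab : ∀ x ∈ D, ∀ y ∈ D, x * y = y * x := by
    have hcent : (C0 ⊓ D).subgroupOf D ≤ Subgroup.center D := by
      rintro ⟨x, hx⟩ hxC
      rw [Subgroup.mem_center_iff]
      rintro ⟨y, hy⟩
      apply Subtype.ext
      have h1 : y ∈ Subgroup.centralizer (C0 : Set G) := CfsgH1.le_centralizer_iff_commutator.2 hDC hy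
      exact (Subgroup.mem_centralizer_iff.1 h1 x hxC.1).symm
    haveI hn : ((C0 ⊓ D).subgroupOf D).Normal := by
      refine ⟨fun n hn g => ?_⟩
      have := (Subgroup.mem_center_iff.1 (hcent hn)) g
      rw [this, mul_inv_cancel_right]; exact hn
    haveI : IsCyclic (D ⧸ (C0 ⊓ D).subgroupOf D) := by
      have : Nat.card (D ⧸ (C0 ⊓ D).subgroupOf D) = p := hDC0
      exact isCyclic_of_prime_card this
    have h1 := commutative_of_cyclic_center_quotient (QuotientGroup.mk' ((C0 ⊓ D).subgroupOf D)) (by rw [QuotientGroup.ker_mk']; exact hcent)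
    intro x hx y hy
    exact congrArg Subtype.val (h1 ⟨x, hx⟩ ⟨y, hy⟩)
  have hcopD : (Nat.card A).Coprime (Nat.card D) := Nat.Coprime.coprime_dvd_right (CfsgH1.card_dvd_card_of_le hDP) hcopP
  have h5 := CfsgH1.coprime_abelian_inf hDab hAD hcopD
  rw [hidem] at h5
  have h6 : C0 ⊓ D = ⊥ := by
    rw [eq_bot_iff, ← h5]
    intro x hx
    exact ⟨⟨hx.2, hx.1.2⟩, hx.2⟩
  rw [h6, Subgroup.relIndex_bot_left] at hDC0
  exact hDC0

end Cfsg.Agent.S0057
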