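import Cfsg.Statements.S0059
import Cfsg.Agent.H1.Coprime

set_option autoImplicit false
open Cfsg

namespace Cfsg.Agent.S0059

/-- Let a finite group act on a set on which a normal subgroup K of coprime order and index is transitive, with K or the quotient solvable. Then any complement H of K has a fixed point, and any two H-fixed points are interchanged by an element of K centralising H. -/
theorem result {G : Type*} [Group G] [Finite G] {X : Type*} [Nonempty X] [MulAction G X]
    (K H : Subgroup G) [K.Normal] (hc : Subgroup.IsComplement' K H) (hcop : (Nat.card K).Coprime K.index)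
    (hsolv : Group.IsSolvable K ∨ Group.IsSolvable (G ⧸ K)) (htrans : MulAction.IsPretransitive K X) :
    (∃ x : X, ∀ h ∈ H, h • x = x) ∧
    ∀ x y : X, (∀ h ∈ H, h • x = x) → (∀ h ∈ H, h • y = y) → ∃ k ∈ K ⊓ Subgroup.centralizer (H : Set G), k • x = y := by
  have h1 := CfsgH1.index_of_isComplement' hc
  have hs : Group.IsSolvable H ∨ Group.IsSolvable K :=
    (hsolv.imp id (CfsgH1.isSolvable_of_isComplement' hc)).symm
  obtain ⟨x₀⟩ := (inferInstance : Nonempty X)
  obtain ⟨h2, h3⟩ := CfsgH1.glauberman_lemma (X := X) (A := H) (K := K)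
    (by rw [Subgroup.normalizer_eq_top]; exact le_top) (by rw [← h1]; exact hcop.symm) hs
    (S := Set.univ) ⟨x₀, trivial⟩ (fun _ _ _ _ => trivial) (fun _ _ _ _ => trivial)
    (fun x _ y _ => by
      obtain ⟨k, hk⟩ := htrans.exists_smul_eq x y
      exact ⟨k, k.2, hk⟩)
  obtain ⟨x, -, hx⟩ := h2
  exact ⟨⟨x, hx⟩, fun x y hx hy => h3 x trivial y trivial hx hy⟩

end Cfsg.Agent.S0059
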