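import Cfsg.Statements.S0063
import Cfsg.Agent.H1.PGrp2

set_option autoImplicit false
open Cfsg

namespace Cfsg.Agent.S0063

open scoped commutatorElement Pointwise

universe u_1

theorem aux (p : ℕ) [hp : Fact p.Prime] (n : ℕ) : ∀ (m : ℕ) (G : Type u_1) [Group G] [Finite G], m = n → 
    Nat.card G = p ^ m → 1 < m → Group.nilpotencyClass G ≤ m - 1 := by
  induction n using Nat.strongRecOn with
  | ind n ih =>
    rintro m G _ _ rfl hG hm
    have hpG : IsPGroup p G := IsPGroup.of_card hG
    haveI := hpG.isNilpotent
    haveI : Nontrivial G := by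
      rw [← Finite.one_lt_card_iff_nontrivial, hG]
      exact Nat.one_lt_pow (by omega) hp.out.one_lt
    obtain ⟨k, hk⟩ := IsPGroup.iff_card.1 (hpG.to_subgroup (Subgroup.center G))
    have hk0 : 0 < k := by
      have := hpG.center_nontrivial
      rw [← Finite.one_lt_card_iff_nontrivial, hk] at this
      exact Nat.pos_of_ne_zero (by rintro rfl; simp at this)
    have hcard : Nat.card (G ⧸ Subgroup.center G) * p ^ k = p ^ m := by
      rw [← hk, ← hG]
      exact (Subgroup.card_eq_card_quotient_mul_card_subgroup _).symm
    have hkm : k ≤ m := by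
      have : p ^ k ∣ p ^ m := Dvd.intro_left _ hcard
      exact (Nat.pow_dvd_pow_iff_le_right hp.out.one_lt).1 this
    have hQ : Nat.card (G ⧸ Subgroup.center G) = p ^ (m - k) := by
      have : p ^ m = p ^ (m - k) * p ^ k := by rw [← pow_add]; congr 1; omega
      rw [this] at hcard
      exact Nat.eq_of_mul_eq_mul_right (pow_pos hp.out.pos _) hcard
    rw [Group.nilpotencyClass_eq_quotient_center_plus_one]
    by_cases h1 : 1 < m - k
    · have := ih (m - k) (by omega) (m - k) (G ⧸ Subgroup.center G) rfl hQ h1
      omega
    · -- quotient cyclic, so G abelian, quotient trivial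
      have hQ1 : Nat.card (G ⧸ Subgroup.center G) ∣ p := by
        rw [hQ]
        have : m - k ≤ 1 := by omega
        calc p ^ (m - k) ∣ p ^ 1 := pow_dvd_pow p this
          _ = p := pow_one p
      haveI : IsCyclic (G ⧸ Subgroup.center G) := isCyclic_of_card_dvd_prime hQ1
      have hab := commutative_of_cyclic_center_quotient (QuotientGroup.mk' (Subgroup.center G)) (by rw [QuotientGroup.ker_mk'])
      have hc : Subgroup.center G = ⊤ := by
        rw [eq_top_iff]
        intro x _
        rw [Subgroup.mem_center_iff]
        exact fun g => hab g x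
      haveI : Subsingleton (G ⧸ Subgroup.center G) := by
        rw [hc]; exact QuotientGroup.subsingleton_quotient_top
      rw [Group.nilpotencyClass_zero_iff_subsingleton.2 this]
      omega

/-- A finite group of prime-power order p ^ m with m > 1 is nilpotent of class at most m - 1. -/
theorem result {G : Type*} [Group G] [Finite G] (p m : ℕ) [Fact p.Prime]
    (hG : Nat.card G = p ^ m) (hm : 1 < m) : Group.nilpotencyClass G ≤ m - 1 := by

  exact aux p m m G rfl hG hm

end Cfsg.Agent.S0063
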