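import Cfsg.Statements.S0064
import Cfsg.Agent.H1.PGrp2

set_option autoImplicit false
open Cfsg

namespace Cfsg.Agent.S0064

open scoped commutatorElement Pointwise

/-- A finite group is nilpotent exactly when each of its subgroups is subnormal. -/
theorem result {G : Type*} [Group G] [Finite G] :
    Group.IsNilpotent G ↔ ∀ H : Subgroup G, H.IsSubnormal := by
  constructor
  · intro hG H
    -- induction on index
    have key : ∀ (n : ℕ) (H : Subgroup G), H.index = n → H.IsSubnormal := by
      intro n
      induction n using Nat.strongRecOn with
      | ind n ih =>
        intro H hn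
        by_cases hH : H = ⊤
        · rw [hH]; exact Subgroup.IsSubnormal.top
        have h1 := CfsgH1.lt_inf_normalizer_of_nilpotent (Group.isNilpotent_top.2 hG) le_top hH
        rw [top_inf_eq] at h1
        have h2 : (Subgroup.normalizer (H : Set G)).index < n := by
          rw [← hn]
          have e1 := H.card_mul_index
          have e2 := (Subgroup.normalizer (H : Set G)).card_mul_index
          have e3 := CfsgH1.card_lt_card_of_lt h1
          have e4 : 0 < (Subgroup.normalizer (H : Set G)).index := Nat.pos_of_ne_zero Subgroup.FiniteIndex.index_ne_zero
          by_contra h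
          push Not at h
          have : Nat.card H * H.index < Nat.card (Subgroup.normalizer (H : Set G)) * (Subgroup.normalizer (H : Set G)).index := 
            Nat.mul_lt_mul_of_lt_of_le e3 h e4
          omega
        have h3 := ih _ h2 (Subgroup.normalizer (H : Set G)) rfl
        exact Subgroup.IsSubnormal.step H _ h1.le h3 (CfsgH1.normal_subgroupOf_of_le_normalizer le_rfl)
    exact key _ H rfl
  · intro h
    have h0 := (Group.isNilpotent_of_finite_tfae (G := G)).out 0 2 rfl rfl
    rw [h0]
    intro M hM
    rcases (h M).lt_normal with h1 | ⟨K, hK, h2, h3⟩
    · exact absurd h1 hM.1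
    · rcases hM.le_iff.1 h2 with h4 | h4
      · exact absurd h4 h3.ne
      · rwa [h4] at hK

end Cfsg.Agent.S0064
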