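import Cfsg.Statements.S0068
import Cfsg.Agent.H1.FrobEven

set_option autoImplicit false
open Cfsg

namespace Cfsg.Agent.S0068

open scoped commutatorElement Pointwise

/-- Frobenius complements of even order: if H complements a nontrivial normal subgroup K, each nonidentity element of H has trivial centraliser in K, and H has even order, then H contains a unique involution s, K is abelian, and s inverts every element of K. -/
theorem result {G : Type*} [Group G] [Finite G] (K H : Subgroup G) [K.Normal]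
    (hc : Subgroup.IsComplement' K H) (hK : K ≠ ⊥) (hfpf : ∀ h ∈ H, h ≠ 1 → K ⊓ Subgroup.centralizer {h} = ⊥)
    (heven : 2 ∣ Nat.card H) :
    (∃ s ∈ H, orderOf s = 2 ∧ (∀ t ∈ H, orderOf t = 2 → t = s) ∧ ∀ k ∈ K, s * k * s⁻¹ = k⁻¹) ∧ IsMulCommutative K := by
  obtain ⟨s, hs⟩ := exists_prime_orderOf_dvd_card' (G := H) 2 heven
  have hs2 : (s : G) * s = 1 := by
    have h1 : s * s = 1 := by
      have := pow_orderOf_eq_one s
      rw [hs, pow_two] at this; exact this
    exact_mod_cast congrArg (Subtype.val) h1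
  have hs1 : (s : G) ≠ 1 := by
    intro h
    have h1 : s = 1 := Subtype.ext h
    rw [h1, orderOf_one] at hs
    exact absurd hs (by norm_num)
  have key : ∀ t ∈ H, orderOf t = 2 → ∀ k ∈ K, t * k * t⁻¹ = k⁻¹ := by
    intro t ht hto
    have ht2 : t * t = 1 := by
      have := pow_orderOf_eq_one t
      rw [hto, pow_two] at this; exact this
    have ht1 : t ≠ 1 := by
      rintro rfl
      rw [orderOf_one] at hto
      exact absurd hto (by norm_num)
    exact CfsgH1.inverts_of_fpf_involution ht2 (hfpf t ht ht1)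
  have hso : orderOf (s : G) = 2 := by rw [Subgroup.orderOf_coe]; exact hs
  refine ⟨⟨s, s.2, hso, ?_, key s s.2 hso⟩, ?_⟩
  · intro t ht hto
    by_contra hne
    have h1 : (s : G)⁻¹ * t ≠ 1 := fun h => hne (inv_mul_eq_one.1 h).symm
    have h2 := hfpf _ (H.mul_mem (H.inv_mem s.2) ht) h1
    apply hK
    rw [eq_bot_iff, ← h2]
    intro k hk
    refine ⟨hk, Subgroup.mem_centralizer_iff.2 ?_⟩
    intro y hy
    rw [Set.mem_singleton_iff] at hy
    subst hy
    have e1 := key t ht hto k hk
    have e2 := key s s.2 hso k hk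
    have e3 : k = (s : G)⁻¹ * k⁻¹ * s := by rw [← e2]; group
    calc (s : G)⁻¹ * t * k = (s : G)⁻¹ * (t * k * t⁻¹) * s * ((s : G)⁻¹ * t) := by group
      _ = (s : G)⁻¹ * k⁻¹ * s * ((s : G)⁻¹ * t) := by rw [e1]
      _ = k * ((s : G)⁻¹ * t) := by rw [← e3]
  · refine ⟨⟨fun a b => Subtype.ext ?_⟩⟩
    have e1 := key s s.2 hso a a.2
    have e2 := key s s.2 hso b b.2
    have e3 := key s s.2 hso _ (K.mul_mem b.2 a.2)
    change (a : G) * b = b * a
    have e4 : (s : G) * ((b : G) * a) * (s : G)⁻¹ = (s * b * (s : G)⁻¹) * (s * a * (s : G)⁻¹) := by group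
    rw [e4, e1, e2, mul_inv_rev] at e3
    have := congrArg (·⁻¹) e3
    simpa using this

end Cfsg.Agent.S0068
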