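import Cfsg.Statements.S0070
import Cfsg.Agent.H1.Fit

set_option autoImplicit false
open Cfsg

namespace Cfsg.Agent.S0070

open scoped commutatorElement Pointwise

/-- The Fitting subgroup commutes with passing to the Frattini quotient: the Fitting subgroup of G modulo its Frattini subgroup is the image of the Fitting subgroup of G. -/
theorem result {G : Type*} [Group G] [Finite G] :
    Cfsg.fittingSubgroup (G ⧸ frattini G) = (Cfsg.fittingSubgroup G).map (QuotientGroup.mk' (frattini G)) := by
  have hsurj := QuotientGroup.mk'_surjective (frattini G)
  apply le_antisymm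
  · -- preimage of F(G/Φ) is nilpotent
    set L := (Cfsg.fittingSubgroup (G ⧸ frattini G)).comap (QuotientGroup.mk' (frattini G)) with hL
    haveI : L.Normal := inferInstance
    have h1 : L.map (QuotientGroup.mk' (frattini G)) = Cfsg.fittingSubgroup (G ⧸ frattini G) := 
      Subgroup.map_comap_eq_self_of_surjective hsurj _
    have h2 : Group.IsNilpotent L := CfsgH1.isNilpotent_of_map_quotient le_rfl (by
      rw [h1]; exact CfsgH2.isNilpotent_fittingSubgroup)
    rw [← h1]
    exact Subgroup.map_mono (CfsgH2.le_fittingSubgroup inferInstance h2)
  · apply CfsgH2.le_fittingSubgroup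
    · exact (inferInstance : (Cfsg.fittingSubgroup G).Normal).map _ hsurj
    · exact CfsgH1.isNilpotent_map _ CfsgH2.isNilpotent_fittingSubgroup

end Cfsg.Agent.S0070
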