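import Mathlib
import Cfsg.Agent.H3.Fusion
import Cfsg.Statements.S0071

set_option autoImplicit false
open Cfsg

namespace Cfsg.Agent.S0071

/-- The Frobenius normal p-complement Theorem states that a Sylow p-subgroup has a normal complement exactly when, for each of its subgroups Q, every element of the normalizer of Q of order prime to p centralizes Q. -/
theorem result {G : Type*} [Group G] [Finite G] {p : ℕ} [Fact p.Prime] (P : Sylow p G) : (∃ N : Subgroup G, N.Normal ∧ N.IsComplement' (P : Subgroup G)) ↔ ∀ Q : Subgroup G, Q ≤ (P : Subgroup G) → ∀ g ∈ Subgroup.normalizer (Q : Set G), Nat.Coprime (orderOf g) p → g ∈ Subgroup.centralizer (Q : Set G) := by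
  constructor
  · rintro ⟨N, hN, hc⟩ Q hQ g hg hgc
    have h : CfsgH3.HasNPC p G := CfsgH3.hasNPC_iff.1 ⟨P, N, hN, hc⟩
    exact h.centralizes (P.2.to_le hQ) hg hgc
  · intro h
    apply CfsgH3.HasNPC.exists_complement
    apply CfsgH3.hasNPC_frobenius
    intro X hX g hg hgc
    obtain ⟨S, hS⟩ := hX.exists_le_sylow
    obtain ⟨a, ha⟩ := MulAction.exists_smul_eq G S P
    have hmem : ∀ x, x ∈ X.map (MulAut.conj a).toMonoidHom ↔ a⁻¹ * x * a ∈ X := fun x => CfsgH3.mem_map_conj_iff
    have h1 := h (X.map (MulAut.conj a).toMonoidHom) (by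
      intro x hx
      rw [← ha, CfsgH3.mem_smul_sylow_iff']
      exact hS ((hmem x).1 hx)) (a * g * a⁻¹) (by
        rw [Subgroup.mem_normalizer_iff]
        intro x
        rw [hmem, hmem]
        have h2 := (Subgroup.mem_normalizer_iff.1 hg) (a⁻¹ * x * a)
        rw [h2]
        have e : a⁻¹ * (a * g * a⁻¹ * x * (a * g * a⁻¹)⁻¹) * a = g * (a⁻¹ * x * a) * g⁻¹ := by group
        rw [e]) (by rw [CfsgH3.orderOf_conj]; exact hgc)
    rw [Subgroup.mem_centralizer_iff] at h1 ⊢
    intro x hx
    have h2 := h1 (a * x * a⁻¹) ((hmem _).2 (by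
      have e : a⁻¹ * (a * x * a⁻¹) * a = x := by group
      rw [e]; exact hx))
    have e1 : a * x * a⁻¹ * (a * g * a⁻¹) = a * (x * g) * a⁻¹ := by group
    have e2 : a * g * a⁻¹ * (a * x * a⁻¹) = a * (g * x) * a⁻¹ := by group
    rw [e1, e2] at h2
    exact mul_left_cancel (mul_right_cancel h2)

end Cfsg.Agent.S0071
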