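import Mathlib
import Cfsg.Agent.H3.NoAct
import Cfsg.Statements.S0073

set_option autoImplicit false
open Cfsg

namespace Cfsg.Agent.S0073

/-- For a finite non-abelian simple group, either the cube of the least prime divisor of the order divides the order, or 12 does. -/
theorem result {G : Type*} [Group G] [Finite G] [IsSimpleGroup G] (hG : ∃ x y : G, x * y ≠ y * x) : (Nat.card G).minFac ^ 3 ∣ Nat.card G ∨ 12 ∣ Nat.card G := by
  by_contra hcon
  push Not at hcon
  obtain ⟨h3, h12⟩ := hcon
  have hcard1 : Nat.card G ≠ 1 := by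
    intro h
    obtain ⟨x, y, hxy⟩ := hG
    haveI := (Nat.card_eq_one_iff_unique.1 h).1
    exact hxy (Subsingleton.elim _ _)
  set p := (Nat.card G).minFac with hp
  have hpp : p.Prime := Nat.minFac_prime hcard1
  haveI : Fact p.Prime := ⟨hpp⟩
  have hpd : p ∣ Nat.card G := Nat.minFac_dvd _
  obtain ⟨P⟩ : Nonempty (Sylow p G) := inferInstance
  obtain ⟨n, hn⟩ := IsPGroup.iff_card.1 P.2
  have hn' : Nat.card P = p ^ n := hn
  have hn2 : n ≤ 2 := by
    by_contra h
    apply h3
    refine (pow_dvd_pow p (show 3 ≤ n by omega)).trans ?_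
    rw [← hn']
    exact Subgroup.card_subgroup_dvd_card (P : Subgroup G)
  have hcomm : IsMulCommutative P := by
    have : n = 0 ∨ n = 1 ∨ n = 2 := by omega
    rcases this with rfl | rfl | rfl
    · haveI : Subsingleton P := by
        rw [pow_zero] at hn'
        exact (Nat.card_eq_one_iff_unique.1 hn').1
      exact ⟨⟨fun a b => Subsingleton.elim _ _⟩⟩
    · rw [pow_one] at hn'
      haveI : IsCyclic P := isCyclic_of_prime_card hn'
      infer_instance
    · exact ⟨⟨IsPGroup.commutative_of_card_eq_prime_sq hn'⟩⟩
  have hle := CfsgH3.normalizer_le_centralizer_of P hcomm hn' (by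
    intro q hq hqp hqd j hj hdvd
    have hpq : p < q := lt_of_le_of_ne (Nat.minFac_le_of_dvd hq.two_le hqd) hqp.symm
    have h2 := hpp.two_le
    have : (n = 1 ∧ j = 0) ∨ (n = 2 ∧ j = 0) ∨ (n = 2 ∧ j = 1) := by omega
    rcases this with ⟨rfl, rfl⟩ | ⟨rfl, rfl⟩ | ⟨rfl, rfl⟩
    · rw [pow_one, pow_zero] at hdvd
      have := Nat.le_of_dvd (by omega) hdvd
      omega
    · have e : p ^ 2 - p ^ 0 = (p + 1) * (p - 1) := by
        rw [pow_zero]
        obtain ⟨r, hr⟩ : ∃ r, p = r + 1 := ⟨p - 1, by omega⟩
        rw [hr]
        simp only [Nat.add_sub_cancel]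
        have : (r + 1) ^ 2 = (r + 1 + 1) * r + 1 := by ring
        rw [this, Nat.add_sub_cancel]
      rw [e] at hdvd
      rcases (Nat.Prime.dvd_mul hq).1 hdvd with h | h
      · have h5 := Nat.le_of_dvd (by omega) h
        have h6 : q = p + 1 := by omega
        have hp2 : p = 2 := by
          rcases hpp.eq_two_or_odd' with h7 | h7
          · exact h7
          · exfalso
            have h8 : Even q := by rw [h6]; exact h7.add_one
            have := (Nat.Prime.even_iff hq).1 h8
            omega
        apply h12
        have h9 : q = 3 := by omega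
        have h10 : 4 ∣ Nat.card G := by
          have h11 : Nat.card P ∣ Nat.card G := Subgroup.card_subgroup_dvd_card (P : Subgroup G)
          rw [hn', hp2] at h11
          exact h11
        rw [h9] at hqd
        exact Nat.Coprime.mul_dvd_of_dvd_of_dvd (by norm_num) hqd h10
      · have := Nat.le_of_dvd (by omega) h
        omega
    · have e : p ^ 2 - p ^ 1 = p * (p - 1) := by
        rw [pow_one, sq, Nat.mul_sub, mul_one]
      rw [e] at hdvd
      rcases (Nat.Prime.dvd_mul hq).1 hdvd with h | h
      · have := Nat.le_of_dvd (by omega) h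
        omega
      · have := Nat.le_of_dvd (by omega) h
        omega)
  rcases (CfsgH3.hasNPC_burnside P hle).simple with h | h
  · exact h hpd
  · haveI : IsCyclic G := isCyclic_of_prime_card h
    obtain ⟨x, y, hxy⟩ := hG
    haveI : IsMulCommutative G := inferInstance
    exact hxy (mul_comm' x y)

end Cfsg.Agent.S0073
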