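import Mathlib
import Cfsg.Agent.H3.Fusion
import Cfsg.Statements.S0076

set_option autoImplicit false
open Cfsg

namespace Cfsg.Agent.S0076

theorem mem_stab_iff {G : Type*} [Group G] (Y : Set G) (x : G) :
    (fun y => x * y * x⁻¹) '' Y = Y ↔ x ∈ Subgroup.normalizer Y := by
  rw [Subgroup.mem_normalizer_iff_conj_image_eq]
  rfl

/-- Two P-invariant subsets of a Sylow p-subgroup P that are conjugate in G are conjugate under the normalizer of P. -/
theorem result {G : Type*} [Group G] [Finite G] {p : ℕ} [Fact p.Prime] (P : Sylow p G) (X Y : Set G) (hXP : X ⊆ P) (hYP : Y ⊆ P) (hX : ∀ x ∈ P, (fun y => x * y * x⁻¹) '' X = X) (hY : ∀ x ∈ P, (fun y => x * y * x⁻¹) '' Y = Y) (g : G) (hg : (fun y => g * y * g⁻¹) '' X = Y) : ∃ n ∈ Subgroup.normalizer (P : Set G), (fun y => n * y * n⁻¹) '' X = Y := by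
  have hXn : (P : Subgroup G) ≤ Subgroup.normalizer X := fun x hx => (mem_stab_iff X x).1 (hX x hx)
  have hYn : (P : Subgroup G) ≤ Subgroup.normalizer Y := fun x hx => (mem_stab_iff Y x).1 (hY x hx)
  have hgP : ((g • P : Sylow p G) : Subgroup G) ≤ Subgroup.normalizer Y := by
    intro x hx
    rw [CfsgH3.mem_smul_sylow_iff'] at hx
    have h1 := (mem_stab_iff X _).2 (hXn hx)
    rw [← mem_stab_iff, ← hg]
    conv_rhs => rw [← h1]
    rw [← Set.image_comp, ← Set.image_comp]
    congr 1
    ext y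
    simp only [Function.comp_apply]
    group
  obtain ⟨h, hh⟩ := MulAction.exists_smul_eq (Subgroup.normalizer Y) ((g • P).subtype hgP) (P.subtype hYn)
  have h5 : ((h : G) * g) • P = P := by
    rw [mul_smul]
    rw [Sylow.smul_subtype] at hh
    exact Sylow.subtype_injective hh
  refine ⟨(h : G) * g, Sylow.smul_eq_iff_mem_normalizer.1 h5, ?_⟩
  have h6 := (mem_stab_iff Y (h : G)).2 h.2
  calc (fun y => (h : G) * g * y * ((h : G) * g)⁻¹) '' X
      = (fun y => (h : G) * y * (h : G)⁻¹) '' ((fun y => g * y * g⁻¹) '' X) := by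
        rw [← Set.image_comp]
        congr 1
        ext y
        simp only [Function.comp_apply]
        group
    _ = (fun y => (h : G) * y * (h : G)⁻¹) '' Y := by rw [hg]
    _ = Y := h6

end Cfsg.Agent.S0076
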