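import Mathlib
import Cfsg.Agent.H3.Fusion
import Cfsg.Statements.S0078

set_option autoImplicit false
open Cfsg

namespace Cfsg.Agent.S0078

/-- In a p-normal group, a Sylow p-subgroup P meets O^p(G) exactly where it meets O^p(V), for any subgroup V containing the normalizer of the centre of P. -/
theorem result {G : Type*} [Group G] [Finite G] {p : ℕ} [Fact p.Prime] (P : Sylow p G) (hn : ∀ Q : Sylow p G, (P : Subgroup G) ⊓ Subgroup.centralizer (P : Set G) ≤ (Q : Subgroup G) → (Q : Subgroup G) ⊓ Subgroup.centralizer (Q : Set G) = (P : Subgroup G) ⊓ Subgroup.centralizer (P : Set G)) (V : Subgroup G) (hV : Subgroup.normalizer (((P : Subgroup G) ⊓ Subgroup.centralizer (P : Set G) : Subgroup G) : Set G) ≤ V) : (P : Subgroup G) ⊓ Cfsg.pResidual p G = (P : Subgroup G) ⊓ (Cfsg.pResidual p V).map V.subtype := by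
  set Z : Subgroup G := (P : Subgroup G) ⊓ Subgroup.centralizer (P : Set G) with hZdef
  have hPN : (P : Subgroup G) ≤ Subgroup.normalizer (Z : Set G) := by
    intro x hx
    rw [Subgroup.mem_normalizer_iff]
    have key : ∀ z ∈ Z, x * z * x⁻¹ = z := by
      intro z hz
      have := (Subgroup.mem_centralizer_iff.1 hz.2) x hx
      rw [this]; group
    intro z
    constructor
    · intro hz; rw [key z hz]; exact hz
    · intro hz
      have h1 := key _ hz
      have h2 : x * z * x⁻¹ = z := mul_left_cancel (mul_right_cancel h1)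
      rwa [h2] at hz
  apply CfsgH3.controls_residual P (hPN.trans hV)
  intro x hx g hgx
  set y := g * x * g⁻¹ with hy
  set C := Subgroup.centralizer ({y} : Set G) with hC
  -- centre of a conjugate
  have hZconj : ∀ (a : G), ((a • P : Sylow p G) : Subgroup G) ⊓ Subgroup.centralizer ((a • P : Sylow p G) : Set G) = Z.map (MulAut.conj a).toMonoidHom := by
    intro a
    ext z
    rw [CfsgH3.mem_map_conj_iff, Subgroup.mem_inf, CfsgH3.mem_smul_sylow_iff', hZdef, Subgroup.mem_inf]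
    apply and_congr Iff.rfl
    rw [Subgroup.mem_centralizer_iff, Subgroup.mem_centralizer_iff]
    constructor
    · intro h w hw
      have h1 := h (a * w * a⁻¹) (by
        change a * w * a⁻¹ ∈ (a • P : Sylow p G)
        rw [CfsgH3.mem_smul_sylow_iff]
        have e : a⁻¹ * (a * w * a⁻¹) * a = w := by group
        rw [e]; exact hw)
      calc w * (a⁻¹ * z * a) = a⁻¹ * (a * w * a⁻¹ * z) * a := by group
        _ = a⁻¹ * (z * (a * w * a⁻¹)) * a := by rw [h1]
        _ = _ := by group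
    · intro h w hw
      have hw' : a⁻¹ * w * a ∈ P := CfsgH3.mem_smul_sylow_iff.1 hw
      have h1 := h _ hw'
      calc w * z = a * (a⁻¹ * w * a * (a⁻¹ * z * a)) * a⁻¹ := by group
        _ = a * (a⁻¹ * z * a * (a⁻¹ * w * a)) * a⁻¹ := by rw [h1]
        _ = _ := by group
  have hZC : Z ≤ C := by
    intro z hz
    rw [hC, Subgroup.mem_centralizer_singleton_iff]
    exact ((Subgroup.mem_centralizer_iff.1 hz.2) y hgx).symm
  have hZC' : Z.map (MulAut.conj g).toMonoidHom ≤ C := by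
    rintro _ ⟨z, hz, rfl⟩
    rw [hC, Subgroup.mem_centralizer_singleton_iff]
    have h1 : x * z = z * x := (Subgroup.mem_centralizer_iff.1 hz.2) x hx
    simp only [MulEquiv.coe_toMonoidHom, MulAut.conj_apply, hy]
    calc g * z * g⁻¹ * (g * x * g⁻¹) = g * (z * x) * g⁻¹ := by group
      _ = g * (x * z) * g⁻¹ := by rw [h1]
      _ = _ := by group
  have hZp : IsPGroup p Z := P.2.to_le inf_le_left
  have hp1 : IsPGroup p (Z.subgroupOf C) := hZp.comap_of_injective C.subtype C.subtype_injective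
  have hp2 : IsPGroup p ((Z.map (MulAut.conj g).toMonoidHom).subgroupOf C) :=
    (hZp.map _).comap_of_injective C.subtype C.subtype_injective
  obtain ⟨S1, hS1⟩ := hp1.exists_le_sylow
  obtain ⟨S2, hS2⟩ := hp2.exists_le_sylow
  obtain ⟨c, hc⟩ := MulAction.exists_smul_eq C S2 S1
  obtain ⟨R, hR⟩ := (S1.2.map C.subtype).exists_le_sylow
  have hwc : ∀ b : G, Z.map (MulAut.conj b).toMonoidHom ≤ R → Z.map (MulAut.conj b).toMonoidHom = (R : Subgroup G) ⊓ Subgroup.centralizer (R : Set G) := by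
    intro b hb
    have h1 := hn (b⁻¹ • R) (by
      intro z hz
      rw [CfsgH3.mem_smul_sylow_iff', inv_inv]
      exact hb ⟨z, hz, rfl⟩)
    obtain ⟨a, ha⟩ := MulAction.exists_smul_eq G P R
    rw [← ha] at h1 ⊢
    rw [← mul_smul, hZconj] at h1
    rw [hZconj]
    ext z
    rw [CfsgH3.mem_map_conj_iff, CfsgH3.mem_map_conj_iff]
    conv_lhs => rw [← h1, CfsgH3.mem_map_conj_iff]
    have e : (b⁻¹ * a)⁻¹ * (b⁻¹ * z * b) * (b⁻¹ * a) = a⁻¹ * z * a := by group
    rw [e]
  have hone : Z.map (MulAut.conj (1 : G)).toMonoidHom = Z := by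
    ext x; rw [CfsgH3.mem_map_conj_iff]; simp
  have e1 : Z.map (MulAut.conj (1 : G)).toMonoidHom = (R : Subgroup G) ⊓ Subgroup.centralizer (R : Set G) := by
    apply hwc
    rw [hone]
    intro z hz
    exact hR ⟨⟨z, hZC hz⟩, hS1 (show (⟨z, hZC hz⟩ : C) ∈ Z.subgroupOf C from hz), rfl⟩
  have e2 : Z.map (MulAut.conj ((c : G) * g)).toMonoidHom = (R : Subgroup G) ⊓ Subgroup.centralizer (R : Set G) := by
    apply hwc
    rintro _ ⟨z, hz, rfl⟩
    have h1 : g * z * g⁻¹ ∈ Z.map (MulAut.conj g).toMonoidHom := ⟨z, hz, rfl⟩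
    have h2 : (⟨g * z * g⁻¹, hZC' h1⟩ : C) ∈ S2 := hS2 (show (⟨g * z * g⁻¹, hZC' h1⟩ : C) ∈ (Z.map (MulAut.conj g).toMonoidHom).subgroupOf C from h1)
    have h3 : c * ⟨g * z * g⁻¹, hZC' h1⟩ * c⁻¹ ∈ S1 := by
      rw [← hc, CfsgH3.mem_smul_sylow_iff]
      have e : c⁻¹ * (c * ⟨g * z * g⁻¹, hZC' h1⟩ * c⁻¹) * c = (⟨g * z * g⁻¹, hZC' h1⟩ : C) := by group
      rw [e]; exact h2
    have h4 := hR ⟨_, h3, rfl⟩
    have e : (MulAut.conj ((c : G) * g)).toMonoidHom z = C.subtype (c * ⟨g * z * g⁻¹, hZC' h1⟩ * c⁻¹) := by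
      simp only [MulEquiv.coe_toMonoidHom, MulAut.conj_apply, Subgroup.coe_subtype, Subgroup.coe_mul, Subgroup.coe_inv]; group
    rw [e]; exact h4
  rw [← e1, hone] at e2
  refine ⟨(c : G) * g, hV ?_, ?_⟩
  · rw [Subgroup.mem_normalizer_iff]
    intro z
    conv_rhs => rw [← e2, CfsgH3.mem_map_conj_iff]
    have e : ((c : G) * g)⁻¹ * ((c : G) * g * z * ((c : G) * g)⁻¹) * ((c : G) * g) = z := by group
    rw [e]
  · have h1 : (c : G) * y = y * c :=
      Subgroup.mem_centralizer_singleton_iff.1 (show (c : G) ∈ Subgroup.centralizer ({y} : Set G) from c.2)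
    calc (c : G) * g * x * ((c : G) * g)⁻¹ = (c : G) * y * (c : G)⁻¹ := by rw [hy]; group
      _ = y := by rw [h1]; group

end Cfsg.Agent.S0078
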