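import Mathlib
import Cfsg.Agent.H3.Nilp
import Cfsg.Agent.H3.Hall
import Cfsg.Statements.S0079

set_option autoImplicit false
open Cfsg

namespace Cfsg.Agent.S0079

/-- A nilpotent Hall subgroup has a normal complement exactly when elements of it that are conjugate in the whole group are already conjugate inside it. -/
theorem result {G : Type*} [Group G] [Finite G] (H : Subgroup G) (hH : Group.IsNilpotent H) (hHall : Nat.Coprime (Nat.card H) H.index) : (∃ N : Subgroup G, N.Normal ∧ N.IsComplement' H) ↔ ∀ x ∈ H, ∀ y ∈ H, (∃ g : G, g * x * g⁻¹ = y) → ∃ h ∈ H, h * x * h⁻¹ = y := by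
  constructor
  · rintro ⟨N, hN, hc⟩ x hx y hy ⟨g, hg⟩
    obtain ⟨⟨n, u⟩, hnu⟩ := hc.2 g
    simp only at hnu
    refine ⟨u, u.2, ?_⟩
    have h1 : y * ((u : G) * x * (u : G)⁻¹)⁻¹ ∈ N := by
      have e : y * ((u : G) * x * (u : G)⁻¹)⁻¹ = (n : G) * (((u : G) * x * (u : G)⁻¹) * (n : G)⁻¹ * ((u : G) * x * (u : G)⁻¹)⁻¹) := by
        rw [← hg, ← hnu]; group
      rw [e]
      exact mul_mem n.2 (hN.conj_mem _ (inv_mem n.2) _)
    have h2 : y * ((u : G) * x * (u : G)⁻¹)⁻¹ ∈ H := mul_mem hy (inv_mem (mul_mem (mul_mem u.2 hx) (inv_mem u.2)))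
    have h3 := Subgroup.disjoint_def.1 hc.disjoint h1 h2
    rw [mul_inv_eq_one] at h3
    exact h3.symm
  · intro hctrl
    apply CfsgH3.exists_complement_of_npc H hHall
    intro p hp hpd
    haveI : Fact p.Prime := ⟨hp⟩
    obtain ⟨Q⟩ : Nonempty (Sylow p H) := inferInstance
    have hQn : (Q : Subgroup H).Normal := Sylow.normal_of_normalizerCondition Group.normalizerCondition_of_isNilpotent Q
    obtain ⟨P, hP⟩ := CfsgH3.exists_sylow_of_hall H hHall Q
    apply CfsgH3.hasNPC_of_controls P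
    intro x hx g hgx
    have hPH : (P : Subgroup G) ≤ H := by rw [hP]; rintro _ ⟨y, -, rfl⟩; exact y.2
    obtain ⟨h, hh, hhx⟩ := hctrl x (hPH hx) (g * x * g⁻¹) (hPH hgx) ⟨g, rfl⟩
    obtain ⟨a, ha, b, hb, hab, hacop, k, hbk⟩ := CfsgH3.exists_pPart (p := p) h (orderOf_pos h).ne'
    have haH : a ∈ H := by
      obtain ⟨j, rfl⟩ := Subgroup.mem_zpowers_iff.1 ha; exact zpow_mem hh j
    have hbH : b ∈ H := by
      obtain ⟨j, rfl⟩ := Subgroup.mem_zpowers_iff.1 hb; exact zpow_mem hh j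
    have hbP : b ∈ (P : Subgroup G) := by
      have h1 : IsPGroup p (Subgroup.zpowers (⟨b, hbH⟩ : H)) := by
        rw [IsPGroup.iff_orderOf]
        rintro ⟨c, hc⟩
        obtain ⟨j, rfl⟩ := Subgroup.mem_zpowers_iff.1 hc
        rw [Subgroup.orderOf_mk]
        have h2 : ((⟨b, hbH⟩ : H) ^ j) ^ p ^ k = 1 := by
          rw [← zpow_natCast, ← zpow_mul, mul_comm, zpow_mul, zpow_natCast]
          have : (⟨b, hbH⟩ : H) ^ p ^ k = 1 := Subtype.ext hbk
          rw [this, one_zpow]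
        obtain ⟨i, -, hi⟩ := (Nat.dvd_prime_pow Fact.out).1 (orderOf_dvd_of_pow_eq_one h2)
        exact ⟨i, hi⟩
      obtain ⟨T, hT⟩ := h1.exists_le_sylow
      haveI := Sylow.unique_of_normal Q hQn
      have hTQ : T = Q := Subsingleton.elim _ _
      rw [hTQ] at hT
      rw [hP]
      exact ⟨⟨b, hbH⟩, hT (Subgroup.mem_zpowers _), rfl⟩
    refine ⟨b, hbP, ?_⟩
    rw [← hhx, hab]
    have hbx : b * x * b⁻¹ ∈ (P : Subgroup G) := mul_mem (mul_mem hbP hx) (inv_mem hbP)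
    obtain ⟨j, hj⟩ := P.2 ⟨_, hbx⟩
    have hj' : (b * x * b⁻¹) ^ p ^ j = 1 := by
      have := congrArg Subtype.val hj
      rwa [Subgroup.coe_pow, Subgroup.coe_one] at this
    have hcomm := CfsgH3.commute_of_nilpotent_mem (H := H) (hPH hbx) haH hj' (pow_orderOf_eq_one a)
      (Nat.Coprime.pow_left j hacop.symm)
    calc b * x * b⁻¹ = (b * x * b⁻¹ * a) * a⁻¹ := by group
      _ = a * (b * x * b⁻¹) * a⁻¹ := by rw [hcomm]
      _ = _ := by group

end Cfsg.Agent.S0079
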