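import Mathlib
import Cfsg.Agent.H3.Fusion
import Cfsg.Statements.S0080

set_option autoImplicit false
open Cfsg

namespace Cfsg.Agent.S0080

/-- When the index of H is prime to the order of H/H', the focal subgroup of H is G' ∩ H, and H/(G' ∩ H) has a normal complement. -/
theorem result {G : Type*} [Group G] [Finite G] (H : Subgroup G) (h : Nat.Coprime H.index (⁅H, H⁆.relIndex H)) : Subgroup.focalSubgroup H = commutator G ⊓ H ∧ ∃ N : Subgroup G, N.Normal ∧ N ⊓ H = commutator G ⊓ H ∧ N ⊔ H = ⊤ := by
  set V := H.transferFocal with hV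
  have hfc : H.focalSubgroup ≤ commutator G := H.focalSubgroup_le_commutator
  have hcop : Nat.Coprime (Nat.card (H ⧸ H.focalSubgroupOf)) H.index := by
    have h1 : Nat.card (H ⧸ H.focalSubgroupOf) ∣ ⁅H, H⁆.relIndex H := by
      change H.focalSubgroupOf.index ∣ (⁅H, H⁆.subgroupOf H).index
      apply Subgroup.index_dvd_of_le
      intro x hx
      exact H.commutator_le_focalSubgroup hx
    exact Nat.Coprime.coprime_dvd_left h1 h.symm
  have hbij : Function.Bijective (fun y : H ⧸ H.focalSubgroupOf => y ^ H.index) := (powCoprime hcop).bijective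
  have hker : V.ker ⊓ H = H.focalSubgroup := by
    apply le_antisymm
    · rintro x ⟨hx1, hx2⟩
      have h1 := H.transferFocal_eq_pow ⟨x, hx2⟩
      have h2 : V x = 1 := hx1
      rw [hV] at h2
      simp only at h1
      rw [h2] at h1
      have h3 : ((⟨x, hx2⟩ : H) : H ⧸ H.focalSubgroupOf) = 1 := by
        apply hbij.1
        simp only
        rw [← h1, one_pow]
      rw [QuotientGroup.eq_one_iff] at h3
      exact h3
    · refine le_inf ?_ H.focalSubgroup_le
      intro x hx
      have h1 := H.transferFocal_eq_pow ⟨x, H.focalSubgroup_le hx⟩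
      have h3 : ((⟨x, H.focalSubgroup_le hx⟩ : H) : H ⧸ H.focalSubgroupOf) = 1 := by
        rw [QuotientGroup.eq_one_iff]; exact hx
      rw [h3, one_pow] at h1
      exact h1
  have hGk : commutator G ≤ V.ker := by
    rw [commutator_def, Subgroup.commutator_le]
    intro a _ b _
    rw [MonoidHom.mem_ker, map_commutatorElement, commutatorElement_eq_one_iff_mul_comm]
    exact mul_comm' _ _
  have hfoc : H.focalSubgroup = commutator G ⊓ H := by
    apply le_antisymm
    · exact le_inf hfc H.focalSubgroup_le
    · rw [← hker]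
      exact inf_le_inf_right _ hGk
  refine ⟨hfoc, V.ker, inferInstance, by rw [hker, hfoc], ?_⟩
  rw [eq_top_iff]
  intro g _
  obtain ⟨y, hy⟩ := hbij.2 (V g)
  obtain ⟨x, rfl⟩ := QuotientGroup.mk_surjective y
  have h1 := H.transferFocal_eq_pow x
  have h2 : V x = V g := by rw [← hy]; exact h1
  have h3 : g * (x : G)⁻¹ ∈ V.ker := by
    rw [MonoidHom.mem_ker, map_mul, map_inv, h2, mul_inv_cancel]
  have h4 : g = g * (x : G)⁻¹ * x := by group
  rw [h4]
  exact mul_mem (Subgroup.mem_sup_left h3) (Subgroup.mem_sup_right x.2)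

end Cfsg.Agent.S0080
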