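import Mathlib
import Cfsg.Agent.H3.Nilp
import Cfsg.Agent.H1.Coprime
import Cfsg.Statements.S0082

set_option autoImplicit false
open Cfsg

namespace Cfsg.Agent.S0082

/-- With a cyclic Sylow p-subgroup, either there is a normal p-complement or the elements of order prime to p generate the whole group. -/
theorem result {G : Type*} [Group G] [Finite G] {p : ℕ} [Fact p.Prime] (P : Sylow p G) (hP : IsCyclic P) : Cfsg.HasNormalPComplement p G ∨ Cfsg.pResidual p G = ⊤ := by
  rw [CfsgH3.hasNPC_iff]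
  by_cases hN : Subgroup.normalizer (P : Set G) ≤ Subgroup.centralizer (P : Set G)
  · exact Or.inl (CfsgH3.hasNPC_burnside P hN)
  right
  have hc : IsMulCommutative P := inferInstance
  rw [SetLike.not_le_iff_exists] at hN
  obtain ⟨g, hgN, hgC⟩ := hN
  obtain ⟨a, haz, b, hbz, hab, ha, k, hk⟩ := CfsgH3.exists_pPart (p := p) g (orderOf_pos g).ne'
  have haN : a ∈ Subgroup.normalizer (P : Set G) := by
    obtain ⟨j, rfl⟩ := Subgroup.mem_zpowers_iff.1 haz; exact zpow_mem hgN j
  have hbN : b ∈ Subgroup.normalizer (P : Set G) := by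
    obtain ⟨j, rfl⟩ := Subgroup.mem_zpowers_iff.1 hbz; exact zpow_mem hgN j
  have hbP : b ∈ P := by
    have h1 : IsPGroup p (Subgroup.zpowers b) := by
      rw [IsPGroup.iff_orderOf]
      rintro ⟨c, hc⟩
      obtain ⟨j, rfl⟩ := Subgroup.mem_zpowers_iff.1 hc
      rw [Subgroup.orderOf_mk]
      have h2 : (b ^ j) ^ p ^ k = 1 := by
        rw [← zpow_natCast, ← zpow_mul, mul_comm, zpow_mul, zpow_natCast, hk, one_zpow]
      obtain ⟨i, -, hi⟩ := (Nat.dvd_prime_pow Fact.out).1 (orderOf_dvd_of_pow_eq_one h2)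
      exact ⟨i, hi⟩
    have h2 := IsPGroup.inf_normalizer_sylow h1 P
    have h3 : b ∈ Subgroup.zpowers b ⊓ Subgroup.normalizer (P : Set G) := ⟨Subgroup.mem_zpowers b, hbN⟩
    rw [h2] at h3
    exact h3.2
  have hbC : b ∈ Subgroup.centralizer (P : Set G) := P.le_centralizer hbP
  have haC : a ∉ Subgroup.centralizer (P : Set G) := by
    intro h
    apply hgC
    rw [hab]; exact mul_mem h hbC
  have hAN : Subgroup.zpowers a ≤ Subgroup.normalizer ((P : Subgroup G) : Set G) := by
    rw [Subgroup.zpowers_le]; exact haN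
  obtain ⟨n, hn⟩ := IsPGroup.iff_card.1 P.2
  have hcop : (Nat.card (Subgroup.zpowers a)).Coprime (Nat.card (P : Subgroup G)) := by
    rw [Nat.card_zpowers]
    have hn' : Nat.card (P : Subgroup G) = p ^ n := hn
    rw [hn']
    exact Nat.Coprime.pow_right n ha
  have hsup := CfsgH1.coprime_commutator_sup hAN hcop (Or.inr (by
    haveI : Group.IsNilpotent (P : Subgroup G) := P.2.isNilpotent
    infer_instance))
  have hle1 : ⁅(P : Subgroup G), Subgroup.zpowers a⁆ ≤ (P : Subgroup G) := by
    exact le_sup_left.trans_eq hsup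
  have hsup' : (⁅(P : Subgroup G), Subgroup.zpowers a⁆).subgroupOf (P : Subgroup G) ⊔
      ((P : Subgroup G) ⊓ Subgroup.centralizer (Subgroup.zpowers a : Set G)).subgroupOf (P : Subgroup G) = ⊤ := by
    rw [← Subgroup.subgroupOf_sup hle1 inf_le_left, hsup, Subgroup.subgroupOf_self]
  haveI hcyc : IsCyclic ↥(P : Subgroup G) := hP
  rcases CfsgH3.cyclic_sup_eq_top (C := ↥(P : Subgroup G)) P.2 hsup' with h | h
  · rw [Subgroup.subgroupOf_eq_top] at h
    have h1 : (P : Subgroup G) ≤ Cfsg.pResidual p G := by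
      have h2 := CfsgH3.abelian_inf_pResidual P hc
      rw [CfsgH3.abelian_focal P hc] at h2
      have h3 : (P : Subgroup G) ≤ ⁅(P : Subgroup G), Subgroup.normalizer (P : Set G)⁆ :=
        h.trans (Subgroup.commutator_mono le_rfl hAN)
      rw [← h2] at h3
      exact h3.trans inf_le_right
    haveI := CfsgH3.pResidual_normal' p G
    have h4 := CfsgH3.sylow_sup_eq_top (Cfsg.pResidual p G) (fun g hg => CfsgH3.mem_pResidual hg) P
    rwa [sup_eq_right.2 h1] at h4
  · exfalso
    rw [Subgroup.subgroupOf_eq_top] at h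
    apply haC
    rw [Subgroup.mem_centralizer_iff]
    intro x hx
    exact ((Subgroup.mem_centralizer_iff.1 (h hx).2) a (Subgroup.mem_zpowers a)).symm

end Cfsg.Agent.S0082
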