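import Mathlib
import Cfsg.Agent.H3.Fusion
import Cfsg.Statements.S0083

set_option autoImplicit false
open Cfsg

namespace Cfsg.Agent.S0083

/-- For an abelian Sylow p-subgroup P, a normal p-complement exists exactly when the normalizer of P is an internal direct product of P with some subgroup. -/
theorem result {G : Type*} [Group G] [Finite G] {p : ℕ} [Fact p.Prime] (P : Sylow p G) (hP : IsMulCommutative P) : Cfsg.HasNormalPComplement p G ↔ ∃ Q : Subgroup G, Q ≤ Subgroup.centralizer (P : Set G) ∧ Q ⊓ (P : Subgroup G) = ⊥ ∧ Q ⊔ (P : Subgroup G) = Subgroup.normalizer (P : Set G) := by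
  rw [CfsgH3.hasNPC_iff]
  set N := Subgroup.normalizer (P : Set G) with hN
  have hPN : (P : Subgroup G) ≤ N := Subgroup.le_normalizer
  constructor
  · intro h
    have hNN := h.subgroup N
    obtain ⟨Q, hQn, hQc⟩ := hNN.exists_complement (P.subtype hPN)
    have hcomp : (Q.map N.subtype) ⊓ (P : Subgroup G) = ⊥ := by
      rw [eq_bot_iff]
      rintro _ ⟨⟨y, hy, rfl⟩, hyP⟩
      have h1 : y ∈ ((P.subtype hPN : Sylow p N) : Subgroup N) := hyP
      have h2 := Subgroup.disjoint_def.1 hQc.disjoint hy h1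
      rw [h2]; simp
    refine ⟨Q.map N.subtype, ?_, hcomp, ?_⟩
    · rintro _ ⟨y, hy, rfl⟩
      rw [Subgroup.mem_centralizer_iff]
      intro x hx
      have hxN : x ∈ N := hPN hx
      have hcomm : (y : N) * ⟨x, hxN⟩ * y⁻¹ * (⟨x, hxN⟩ : N)⁻¹ = 1 := by
        apply Subgroup.disjoint_def.1 hQc.disjoint
        · have h3 : (⟨x, hxN⟩ : N) * y⁻¹ * (⟨x, hxN⟩ : N)⁻¹ ∈ Q := hQn.conj_mem _ (inv_mem hy) _
          have h4 := mul_mem hy h3
          have e : y * ((⟨x, hxN⟩ : N) * y⁻¹ * (⟨x, hxN⟩ : N)⁻¹) = y * ⟨x, hxN⟩ * y⁻¹ * (⟨x, hxN⟩ : N)⁻¹ := by group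
          rwa [e] at h4
        · change (y : G) * x * (y : G)⁻¹ * x⁻¹ ∈ (P : Subgroup G)
          exact mul_mem (((Subgroup.mem_normalizer_iff.1 (show (y : G) ∈ Subgroup.normalizer ((P : Subgroup G) : Set G) from y.2)) x).1 hx) (inv_mem hx)
      have h5 := congrArg Subtype.val hcomm
      simp only [Subgroup.coe_mul, Subgroup.coe_inv, Subgroup.coe_one] at h5
      rw [mul_inv_eq_one, mul_inv_eq_iff_eq_mul] at h5
      exact h5.symm
    · have h1 := hQc.sup_eq_top
      have h2 := congrArg (Subgroup.map N.subtype) h1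
      rw [Subgroup.map_sup, ← MonoidHom.range_eq_map, Subgroup.range_subtype] at h2
      refine Eq.trans ?_ h2
      congr 1
      ext x
      constructor
      · intro hx
        exact ⟨⟨x, hPN hx⟩, hx, rfl⟩
      · rintro ⟨y, hy, rfl⟩
        exact hy
  · rintro ⟨Q, hQC, hQP, hsup⟩
    apply CfsgH3.hasNPC_burnside P
    rw [← hN, ← hsup]
    exact sup_le hQC P.le_centralizer

end Cfsg.Agent.S0083
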