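import Mathlib
import Cfsg.Agent.H3.NoAct
import Cfsg.Statements.S0084

set_option autoImplicit false
open Cfsg

namespace Cfsg.Agent.S0084

/-- A group whose Sylow 2-subgroups are Klein four-groups and whose order is prime to 3 has a normal 2-complement. -/
theorem result {G : Type*} [Group G] [Finite G] (T : Sylow 2 G) (hT : IsKleinFour T) (h3 : ¬ 3 ∣ Nat.card G) : Cfsg.HasNormalPComplement 2 G := by
  rw [CfsgH3.hasNPC_iff]
  apply CfsgH3.hasNPC_burnside T
  have hc : IsMulCommutative T := hT.isMulCommutative
  have hn : Nat.card T = 2 ^ 2 := hT.card_four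
  apply CfsgH3.normalizer_le_centralizer_of T hc hn
  intro q hq hq2 hqd j hj hdvd
  interval_cases j
  · have : q = 3 := (Nat.prime_dvd_prime_iff_eq hq (by norm_num)).1 (by simpa using hdvd)
    subst this
    exact h3 hqd
  · have : q = 2 := (Nat.prime_dvd_prime_iff_eq hq (by norm_num)).1 (by simpa using hdvd)
    exact hq2 this

end Cfsg.Agent.S0084
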