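import Mathlib
import Cfsg.Agent.H3.NoAct
import Cfsg.Statements.S0085

set_option autoImplicit false
open Cfsg

namespace Cfsg.Agent.S0085

/-- A group whose Sylow 2-subgroups are elementary abelian of order 8 and whose order is prime to 3 and to 7 has a normal 2-complement. -/
theorem result {G : Type*} [Group G] [Finite G] (T : Sylow 2 G) (h8 : Nat.card T = 8) (he : ∀ x : T, x * x = 1) (h3 : ¬ 3 ∣ Nat.card G) (h7 : ¬ 7 ∣ Nat.card G) : Cfsg.HasNormalPComplement 2 G := by
  rw [CfsgH3.hasNPC_iff]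
  apply CfsgH3.hasNPC_burnside T
  have hc : IsMulCommutative T := by
    refine ⟨⟨fun a b => ?_⟩⟩
    have ha := he a
    have hb := he b
    have hab := he (a * b)
    calc a * b = (a * b)⁻¹ := (eq_inv_of_mul_eq_one_left hab)
      _ = b⁻¹ * a⁻¹ := mul_inv_rev _ _
      _ = b * a := by rw [← eq_inv_of_mul_eq_one_left ha, ← eq_inv_of_mul_eq_one_left hb]
  have hn : Nat.card T = 2 ^ 3 := h8
  apply CfsgH3.normalizer_le_centralizer_of T hc hn
  intro q hq hq2 hqd j hj hdvd
  interval_cases j
  · have : q = 7 := (Nat.prime_dvd_prime_iff_eq hq (by norm_num)).1 (by simpa using hdvd)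
    subst this
    exact h7 hqd
  · have h6 : q ∣ 2 * 3 := by simpa using hdvd
    rcases (Nat.Prime.dvd_mul hq).1 h6 with h | h
    · exact hq2 ((Nat.prime_dvd_prime_iff_eq hq (by norm_num)).1 h)
    · have : q = 3 := (Nat.prime_dvd_prime_iff_eq hq (by norm_num)).1 h
      subst this
      exact h3 hqd
  · have h4 : q ∣ 2 ^ 2 := by simpa using hdvd
    exact hq2 ((Nat.prime_dvd_prime_iff_eq hq (by norm_num)).1 (hq.dvd_of_dvd_pow h4))

end Cfsg.Agent.S0085
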