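import Mathlib
import Cfsg.Agent.H3.Fusion
import Cfsg.Statements.S0086

set_option autoImplicit false
open Cfsg

namespace Cfsg.Agent.S0086

/-- A normal complement to a Sylow p-subgroup is exactly the set of elements of order prime to p. -/
theorem result {G : Type*} [Group G] [Finite G] {p : ℕ} [Fact p.Prime] (P : Sylow p G) (N : Subgroup G) [N.Normal] (hN : N.IsComplement' (P : Subgroup G)) (x : G) : x ∈ N ↔ Nat.Coprime (orderOf x) p := by
  constructor
  · intro hx
    have h1 : orderOf x ∣ Nat.card N := by
      have := orderOf_dvd_natCard (⟨x, hx⟩ : N)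
      rwa [Subgroup.orderOf_mk] at this
    rw [← hN.index_eq_card] at h1
    exact Nat.Coprime.coprime_dvd_left h1 ((Nat.Prime.coprime_iff_not_dvd Fact.out).2 P.not_dvd_index).symm
  · intro hx
    have hq : IsPGroup p (G ⧸ N) := by
      obtain ⟨n, hn⟩ := IsPGroup.iff_card.1 P.2
      apply IsPGroup.of_card (n := n)
      rw [← hn]
      exact hN.symm.index_eq_card
    have := CfsgH3.map_eq_one_of_coprime hq (QuotientGroup.mk' N) hx
    rwa [QuotientGroup.mk'_apply, QuotientGroup.eq_one_iff] at this

end Cfsg.Agent.S0086
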