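import Mathlib
import Cfsg.Agent.H3.Fusion
import Cfsg.Statements.S0088

set_option autoImplicit false
open Cfsg

namespace Cfsg.Agent.S0088

/-- An abelian Hall subgroup meets G' ∩ Z(G) trivially. -/
theorem result {G : Type*} [Group G] [Finite G] (H : Subgroup G) (hc : IsMulCommutative H) (hHall : Nat.Coprime (Nat.card H) H.index) : H ⊓ commutator G ⊓ Subgroup.center G = ⊥ := by
  rw [eq_bot_iff]
  rintro x ⟨⟨hxH, hxG⟩, hxZ⟩
  rw [Subgroup.mem_bot]
  open scoped IsMulCommutative in
  have hV := MonoidHom.transfer_eq_pow (MonoidHom.id H) x (fun k g₀ _ => by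
    have h1 : x ^ k ∈ Subgroup.center G := pow_mem hxZ k
    have h2 := (Subgroup.mem_center_iff.1 h1) g₀⁻¹
    rw [h2, inv_mul_cancel_right])
  open scoped IsMulCommutative in
  have h1 : MonoidHom.transfer (MonoidHom.id H) x = 1 :=
    (Abelianization.commutator_subset_ker (MonoidHom.transfer (MonoidHom.id H))) hxG
  rw [h1] at hV
  have h2 : x ^ H.index = 1 := (congrArg Subtype.val hV).symm
  have h3 : orderOf x ∣ Nat.card H := by
    have := orderOf_dvd_natCard (⟨x, hxH⟩ : H)
    rwa [Subgroup.orderOf_mk] at this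
  rw [← orderOf_eq_one_iff]
  exact Nat.Coprime.eq_one_of_dvd (Nat.Coprime.coprime_dvd_left h3 hHall) (orderOf_dvd_of_pow_eq_one h2)

end Cfsg.Agent.S0088
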