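import Mathlib
import Cfsg.Agent.S0088
import Cfsg.Agent.H3.Fusion
import Cfsg.Statements.S0089

set_option autoImplicit false
open Cfsg

namespace Cfsg.Agent.S0089

/-- When all Sylow subgroups are abelian, the derived subgroup meets the centre trivially. -/
theorem result {G : Type*} [Group G] [Finite G] (h : ∀ p : ℕ, p.Prime → ∀ P : Sylow p G, IsMulCommutative P) : commutator G ⊓ Subgroup.center G = ⊥ := by
  rw [eq_bot_iff]
  rintro x ⟨hxG, hxZ⟩
  rw [Subgroup.mem_bot]
  by_contra hx1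
  have ho : orderOf x ≠ 1 := by rwa [Ne, orderOf_eq_one_iff]
  obtain ⟨p, hp, hpd⟩ := Nat.exists_prime_and_dvd ho
  haveI : Fact p.Prime := ⟨hp⟩
  obtain ⟨m, hm⟩ := hpd
  have hmpos : 0 < m := by
    rcases Nat.eq_zero_or_pos m with h0 | h0
    · rw [h0, mul_zero] at hm
      exact absurd hm (orderOf_pos x).ne'
    · exact h0
  have hy : orderOf (x ^ m) = p := by
    rw [orderOf_pow' _ hmpos.ne', hm, Nat.gcd_eq_right (dvd_mul_left m p), Nat.mul_div_cancel _ hmpos]
  have hyp : IsPGroup p (Subgroup.zpowers (x ^ m)) := IsPGroup.of_card (n := 1) (by rw [Nat.card_zpowers, hy, pow_one])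
  obtain ⟨P, hP⟩ := hyp.exists_le_sylow
  have h1 := Cfsg.Agent.S0088.result (P : Subgroup G) (h p hp P) P.card_coprime_index
  have h2 : x ^ m ∈ (P : Subgroup G) ⊓ commutator G ⊓ Subgroup.center G :=
    ⟨⟨hP (Subgroup.mem_zpowers _), pow_mem hxG m⟩, pow_mem hxZ m⟩
  rw [h1, Subgroup.mem_bot] at h2
  rw [h2, orderOf_one] at hy
  exact hp.one_lt.ne hy

end Cfsg.Agent.S0089
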