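import Mathlib
import Cfsg.Agent.H3.Nilp
import Cfsg.Agent.H1.Coprime
import Cfsg.Agent.S0080
import Cfsg.Agent.S0088
import Cfsg.Statements.S0090

set_option autoImplicit false
open Cfsg

namespace Cfsg.Agent.S0090

/-- An abelian normal Hall subgroup A splits as the internal direct product of G' ∩ A and Z(G) ∩ A, and [A, G] = G' ∩ A. -/
theorem result {G : Type*} [Group G] [Finite G] (A : Subgroup G) [A.Normal] (hc : IsMulCommutative A) (hHall : Nat.Coprime (Nat.card A) A.index) : ⁅A, (⊤ : Subgroup G)⁆ = commutator G ⊓ A ∧ (commutator G ⊓ A) ⊓ (Subgroup.center G ⊓ A) = ⊥ ∧ (commutator G ⊓ A) ⊔ (Subgroup.center G ⊓ A) = A := by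
  have h88 := Cfsg.Agent.S0088.result A hc hHall
  have hfoc : A.focalSubgroup = commutator G ⊓ A := by
    refine (Cfsg.Agent.S0080.result A ?_).1
    refine Nat.Coprime.coprime_dvd_right ?_ hHall.symm
    change (⁅A, A⁆.subgroupOf A).index ∣ Nat.card A
    exact Subgroup.index_dvd_card _
  have hAG : ⁅A, (⊤ : Subgroup G)⁆ ≤ commutator G ⊓ A := by
    apply le_inf
    · exact Subgroup.commutator_mono le_top le_rfl
    · exact Subgroup.commutator_le_left A ⊤
  have h1 : ⁅A, (⊤ : Subgroup G)⁆ = commutator G ⊓ A := by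
    apply le_antisymm hAG
    rw [← hfoc, Subgroup.focalSubgroup_def, Subgroup.closure_le]
    rintro _ ⟨-, x, hx, u, rfl⟩
    exact Subgroup.commutator_mem_commutator hx (Subgroup.mem_top u)
  refine ⟨h1, ?_, ?_⟩
  · rw [eq_bot_iff, ← h88]
    rintro x ⟨⟨h2, h3⟩, ⟨h4, -⟩⟩
    exact ⟨⟨h3, h2⟩, h4⟩
  · obtain ⟨K, hK⟩ := Subgroup.exists_right_complement'_of_coprime hHall
    have hcardK : Nat.card K = A.index := hK.symm.index_eq_card.symm
    have hKA : K ≤ Subgroup.normalizer (A : Set G) := by
      rw [Subgroup.normalizer_eq_top_iff.2 inferInstance]; exact le_top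
    have hcop : (Nat.card K).Coprime (Nat.card A) := by rw [hcardK]; exact hHall.symm
    have hsolv : Group.IsSolvable A := by
      exact Group.isSolvable_of_comm (fun a b => hc.is_comm.comm a b)
    have hsup := CfsgH1.coprime_commutator_sup hKA hcop (Or.inr hsolv)
    apply le_antisymm
    · exact sup_le inf_le_right inf_le_right
    · have h5 : ⁅A, K⁆ ≤ commutator G ⊓ A := (Subgroup.commutator_mono le_rfl le_top).trans hAG
      have h6 : A ⊓ Subgroup.centralizer (K : Set G) ≤ Subgroup.center G ⊓ A := by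
        rintro x ⟨hxA, hxK⟩
        refine Subgroup.mem_inf.2 ⟨?_, hxA⟩
        rw [Subgroup.mem_center_iff]
        intro g
        obtain ⟨⟨a, k⟩, hak⟩ := hK.2 g
        simp only at hak
        have h7 : (a : G) * x = x * a := congrArg Subtype.val (hc.is_comm.comm a ⟨x, hxA⟩)
        have h8 : (k : G) * x = x * k := (Subgroup.mem_centralizer_iff.1 hxK) k k.2
        rw [← hak, mul_assoc, h8, ← mul_assoc, h7, mul_assoc]
      conv_lhs => rw [← hsup]
      exact sup_le_sup h5 h6

end Cfsg.Agent.S0090
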