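import Mathlib
import Cfsg.Agent.H3.Fusion
import Cfsg.Statements.S0091

set_option autoImplicit false
open Cfsg

namespace Cfsg.Agent.S0091

/-- If a nontrivial Sylow p-subgroup controls its own fusion then it is not contained in the derived subgroup. -/
theorem result {G : Type*} [Group G] [Finite G] {p : ℕ} [Fact p.Prime] (P : Sylow p G) (hp : p ∣ Nat.card G) (h : ∀ x ∈ P, ∀ y ∈ P, (∃ g : G, g * x * g⁻¹ = y) → ∃ z ∈ P, z * x * z⁻¹ = y) : ¬ (P : Subgroup G) ≤ commutator G := by
  intro hle
  have h1 := CfsgH3.controls_commutator P le_rfl (fun x hx g hg => h x hx _ hg ⟨g, rfl⟩)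
  rw [inf_eq_right.2 hle] at h1
  haveI : Group.IsNilpotent (P : Subgroup G) := P.2.isNilpotent
  have h2 : (P : Subgroup G) = ⊥ := by
    apply CfsgH3.eq_bot_of_le_commutator (P := (P : Subgroup G)) le_rfl
    exact h1.le.trans inf_le_left
  exact P.ne_bot_of_dvd_card hp h2

end Cfsg.Agent.S0091
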