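import Mathlib
import Cfsg.Agent.H7.Critical
import Cfsg.Agent.H1.Frat
import Cfsg.Statements.S0093

set_option autoImplicit false
open Cfsg

namespace Cfsg.Agent.S0093

/-- Every finite p-group has a critical subgroup: a characteristic subgroup H whose Frattini subgroup and whose commutator with the whole group lie in the centre of H, and whose centralizer is contained in H. -/
theorem result {P : Type*} [Group P] [Finite P] {p : ℕ} [Fact p.Prime] (hP : IsPGroup p P) : ∃ H : Subgroup P, H.Characteristic ∧ (frattini H).map H.subtype ≤ Subgroup.centralizer (H : Set P) ∧ ⁅H, (⊤ : Subgroup P)⁆ ≤ H ⊓ Subgroup.centralizer (H : Set P) ∧ Subgroup.centralizer (H : Set P) ≤ H := by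
  obtain ⟨A, h1, h2, h3, h4, h5, -⟩ := CfsgH7.exists_critical hP
  refine ⟨A, h1, ?_, ?_, h5⟩
  · have hle : frattini A ≤ (Subgroup.centralizer (A : Set P)).subgroupOf A := by
      haveI : ((Subgroup.centralizer (A : Set P)).subgroupOf A).Normal := by
        constructor
        rintro ⟨n, hn⟩ hnc ⟨g, hg⟩
        rw [Subgroup.mem_subgroupOf] at hnc ⊢
        have : g * n * g⁻¹ = n := by
          have := Subgroup.mem_centralizer_iff.1 hnc g hg
          rw [this]; group
        show g * n * g⁻¹ ∈ _
        rw [this]; exact hnc
      apply CfsgH1.frattini_le_of_elementary (p := p)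
      · have h6 := Subgroup.map_subtype_commutator A
        intro x hx
        rw [Subgroup.mem_subgroupOf]
        apply h3
        rw [← h6]
        exact ⟨x, hx, rfl⟩
      · rintro ⟨x, hx⟩
        rw [Subgroup.mem_subgroupOf]
        exact (Subgroup.mem_inf.1 (h2 x hx)).2
    rintro _ ⟨x, hx, rfl⟩
    exact hle hx
  · rw [Subgroup.commutator_comm]; exact h4

end Cfsg.Agent.S0093
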