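import Mathlib
import Cfsg.Agent.H3.Cl3
import Cfsg.Agent.H3.PGroup
import Cfsg.Statements.S0094

set_option autoImplicit false
open Cfsg

namespace Cfsg.Agent.S0094

open scoped commutatorElement in
theorem special_comm_pow {P : Type*} [Group P] [Finite P] {p : ℕ} [Fact p.Prime] (h : Cfsg.IsSpecial p P) {z : P} (hz : z ∈ commutator P) : z ^ p = 1 := by
  obtain ⟨hP, hf, hc⟩ := h
  have hcent : ∀ x ∈ commutator P, ∀ y, Commute x y := by
    intro x hx y
    rw [hc, Subgroup.mem_center_iff] at hx
    exact (hx y).symm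
  unfold commutator at hz
  rw [Subgroup.commutator_def] at hz
  have : ∀ w ∈ Subgroup.closure {g : P | ∃ g₁ ∈ (⊤ : Subgroup P), ∃ g₂ ∈ (⊤ : Subgroup P), ⁅g₁, g₂⁆ = g}, w ∈ commutator P ∧ w ^ p = 1 := by
    intro w hw
    induction hw using Subgroup.closure_induction with
    | mem x hx =>
      obtain ⟨a, -, b, -, rfl⟩ := hx
      have hab : ⁅a, b⁆ ∈ commutator P := Subgroup.commutator_mem_commutator (Subgroup.mem_top a) (Subgroup.mem_top b)
      refine ⟨hab, ?_⟩
      rw [CfsgH3.comm_pow_of_cl2 (fun z => hcent _ hab z)]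
      have h1 : a ^ p ∈ Subgroup.center P := by rw [← hf]; exact CfsgH3.pow_mem_frattini hP a
      rw [Subgroup.mem_center_iff] at h1
      rw [commutatorElement_eq_one_iff_mul_comm]
      exact (h1 b).symm
    | one => exact ⟨one_mem _, one_pow _⟩
    | mul x y _ _ hx hy =>
      exact ⟨mul_mem hx.1 hy.1, by rw [(hcent x hx.1 y).mul_pow, hx.2, hy.2, one_mul]⟩
    | inv x _ hx => exact ⟨inv_mem hx.1, by rw [inv_pow, hx.2, inv_one]⟩
  exact (this z hz).2

/-- In a special p-group every central element has order dividing p. -/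
theorem result {P : Type*} [Group P] [Finite P] {p : ℕ} [Fact p.Prime] (h : Cfsg.IsSpecial p P) (z : P) (hz : z ∈ Subgroup.center P) : z ^ p = 1 := by
  apply special_comm_pow h
  rw [h.2.2]; exact hz

end Cfsg.Agent.S0094
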