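import Mathlib
import Cfsg.Agent.S0094
import Cfsg.Statements.S0097

set_option autoImplicit false
open Cfsg

namespace Cfsg.Agent.S0097

/-- For odd p and E extraspecial, the subgroup generated by the elements of order dividing p has exponent dividing p and index at most p. -/
theorem result {E : Type*} [Group E] [Finite E] {p : ℕ} [Fact p.Prime] (hp : p ≠ 2) (h : Cfsg.IsExtraspecial p E) : (Subgroup.closure {x : E | x ^ p = 1}).index ≤ p ∧ ∀ g ∈ Subgroup.closure {x : E | x ^ p = 1}, g ^ p = 1 := by
  obtain ⟨⟨hP, hf, hc⟩, hcard⟩ := h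
  have hspec : Cfsg.IsSpecial p E := ⟨hP, hf, hc⟩
  have hcl : ⁅commutator E, (⊤ : Subgroup E)⁆ = ⊥ := by
    rw [hc, Subgroup.commutator_eq_bot_iff_le_centralizer, Subgroup.coe_top, Subgroup.centralizer_univ]
  have hsm : CfsgH3.SmallCl p E := Or.inl ⟨hp, hcl⟩
  have hpow : ∀ x y : E, (x * y) ^ p = x ^ p * y ^ p := 
    CfsgH3.pow_mul_of Fact.out hsm (fun c hc => Cfsg.Agent.S0094.special_comm_pow hspec hc)
  refine ⟨?_, fun g hg => CfsgH3.closure_pow_one Fact.out hsm hg⟩
  let f : E →* E := { toFun := fun x => x ^ p, map_one' := one_pow _, map_mul' := hpow }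
  have h1 : Subgroup.closure {x : E | x ^ p = 1} = f.ker := by
    apply le_antisymm
    · rw [Subgroup.closure_le]
      intro x hx
      exact hx
    · intro x hx
      exact Subgroup.subset_closure hx
  rw [h1, Subgroup.index_ker]
  have h2 : f.range ≤ Subgroup.center E := by
    rintro _ ⟨x, rfl⟩
    show x ^ p ∈ _
    rw [← hf]; exact CfsgH3.pow_mem_frattini hP x
  rw [← hcard]
  exact Nat.card_le_card_of_injective _ (Subgroup.inclusion_injective h2)

end Cfsg.Agent.S0097
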