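import Mathlib
import Cfsg.Agent.H3.Rank2
import Cfsg.Statements.S0100

set_option autoImplicit false
open Cfsg

namespace Cfsg.Agent.S0100

/-- For odd p, a p-group without normal elementary abelian subgroups of order p^3 has p-rank at most 2. -/
theorem result {P : Type*} [Group P] [Finite P] {p : ℕ} [Fact p.Prime] (hp : p ≠ 2) (hP : IsPGroup p P) (h : ∀ A : Subgroup P, A.Normal → IsMulCommutative A → (∀ a ∈ A, a ^ p = 1) → Nat.card A ≠ p ^ 3) (E : Subgroup P) (hE : IsMulCommutative E) (hEe : ∀ e ∈ E, e ^ p = 1) : Nat.card E ≤ p ^ 2 := by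
  have hcm : ∀ B : Subgroup P, IsMulCommutative B ↔ ∀ a ∈ B, ∀ b ∈ B, a * b = b * a := by
    intro B
    constructor
    · intro h a ha b hb
      exact congrArg Subtype.val (h.is_comm.comm (⟨a, ha⟩ : B) ⟨b, hb⟩)
    · intro h
      exact ⟨⟨fun a b => Subtype.ext (h a a.2 b b.2)⟩⟩
  exact CfsgH3.rank_le_two_of_normal hp hP (fun A h1 h2 h3 => h A h1 ((hcm A).2 h2) h3) E ((hcm E).1 hE) hEe

end Cfsg.Agent.S0100
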