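import Mathlib
import Cfsg.Agent.H3.PGroup
import Cfsg.Statements.S0101

set_option autoImplicit false
open Cfsg

namespace Cfsg.Agent.S0101

/-- In a perfect central extension, the kernel meets each Sylow p-subgroup P inside the Frattini subgroup of P. -/
theorem result {H : Type*} {G : Type*} [Group H] [Group G] [Finite H] (σ : H →* G) (hσ : Function.Surjective σ) (hc : σ.ker ≤ Subgroup.center H) (hH : commutator H = ⊤) {p : ℕ} [Fact p.Prime] (P : Sylow p H) : σ.ker ⊓ (P : Subgroup H) ≤ (frattini P).map (P : Subgroup H).subtype := by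
  rintro x ⟨hxk, hxP⟩
  refine ⟨⟨x, hxP⟩, ?_, rfl⟩
  refine CfsgH3.mem_frattini_iff.2 ?_
  intro M hM
  haveI hMn : M.Normal := CfsgH3.coatom_normal P.2 hM
  haveI hMc : IsMulCommutative (P ⧸ M) := CfsgH3.isMulCommutative_quotient_coatom P.2 hM
  have hxZ : x ∈ Subgroup.center H := hc hxk
  open scoped IsMulCommutative in
  have hV := MonoidHom.transfer_eq_pow (QuotientGroup.mk' M) x (fun k g₀ _ => by
    have h1 : x ^ k ∈ Subgroup.center H := pow_mem hxZ k
    have h2 := (Subgroup.mem_center_iff.1 h1) g₀⁻¹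
    rw [h2, inv_mul_cancel_right])
  open scoped IsMulCommutative in
  have h1 : MonoidHom.transfer (QuotientGroup.mk' M) x = 1 :=
    (Abelianization.commutator_subset_ker (MonoidHom.transfer (QuotientGroup.mk' M))) (by rw [hH]; trivial)
  rw [h1] at hV
  have h2 : (⟨x, hxP⟩ : P) ^ (P : Subgroup H).index ∈ M := by
    have h3 := hV.symm
    rw [QuotientGroup.mk'_apply, QuotientGroup.eq_one_iff] at h3
    exact h3
  -- the index is prime to the order of x
  obtain ⟨k, hk⟩ := P.2 ⟨x, hxP⟩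
  have hcop : Nat.Coprime (P : Subgroup H).index (p ^ k) :=
    (Nat.Coprime.pow_left k ((Nat.Prime.coprime_iff_not_dvd Fact.out).2 P.not_dvd_index)).symm
  have hb : (((P : Subgroup H).index : ℤ) * Nat.gcdA (P : Subgroup H).index (p ^ k) + ((p ^ k : ℕ) : ℤ) * Nat.gcdB (P : Subgroup H).index (p ^ k)) = 1 := by
    rw [← Nat.gcd_eq_gcd_ab, hcop]; rfl
  have e : (⟨x, hxP⟩ : P) = ((⟨x, hxP⟩ : P) ^ (P : Subgroup H).index) ^ (Nat.gcdA (P : Subgroup H).index (p ^ k)) := by
    conv_lhs => rw [← zpow_one (⟨x, hxP⟩ : P), ← hb, zpow_add, zpow_mul, zpow_mul, zpow_natCast, zpow_natCast, hk, one_zpow, mul_one]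
  rw [e]
  exact zpow_mem h2 _

end Cfsg.Agent.S0101
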