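import Mathlib
import Cfsg.Agent.S0088
import Cfsg.Agent.H3.Fusion
import Cfsg.Statements.S0102

set_option autoImplicit false
open Cfsg

namespace Cfsg.Agent.S0102

/-- A finite perfect group with cyclic Sylow p-subgroups has no perfect central extension whose kernel has order divisible by p. -/
theorem result {G : Type*} {H : Type*} [Group G] [Group H] [Finite G] [Finite H] (hG : commutator G = ⊤) {p : ℕ} [Fact p.Prime] (hcyc : ∀ P : Sylow p G, IsCyclic P) (σ : H →* G) (hσ : Function.Surjective σ) (hz : σ.ker ≤ Subgroup.center H) (hH : commutator H = ⊤) : ¬ p ∣ Nat.card σ.ker := by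
  intro hdvd
  obtain ⟨P⟩ : Nonempty (Sylow p H) := inferInstance
  haveI := hcyc (P.mapSurjective hσ)
  -- P is abelian
  have hcomm : IsMulCommutative P := by
    let f : P →* (P.mapSurjective hσ : Sylow p G) :=
      (σ.comp (P : Subgroup H).subtype).codRestrict _ (fun x => ⟨x, x.2, rfl⟩)
    have hf : f.ker ≤ Subgroup.center P := by
      intro x hx
      rw [Subgroup.mem_center_iff]
      intro y
      have h1 : σ x = 1 := congrArg Subtype.val hx
      have h2 := Subgroup.mem_center_iff.1 (hz (show (x : H) ∈ σ.ker from h1)) y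
      exact Subtype.ext h2
    exact ⟨⟨fun a b => commutative_of_cyclic_center_quotient f hf a b⟩⟩
  obtain ⟨z, hzo⟩ := exists_prime_orderOf_dvd_card' p hdvd
  have hzo' : orderOf (z : H) = p := by rw [Subgroup.orderOf_coe, hzo]
  have hzc : (z : H) ∈ Subgroup.center H := hz z.2
  -- z lies in P
  have hzP : (z : H) ∈ P := by
    have h1 : IsPGroup p (Subgroup.zpowers (z : H)) := IsPGroup.of_card (n := 1) (by rw [Nat.card_zpowers, hzo', pow_one])
    obtain ⟨T, hT⟩ := h1.exists_le_sylow
    obtain ⟨c, hc⟩ := MulAction.exists_smul_eq H T P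
    rw [← hc, CfsgH3.mem_smul_sylow_iff]
    have h2 := Subgroup.mem_center_iff.1 hzc c⁻¹
    rw [h2, inv_mul_cancel_right]
    exact hT (Subgroup.mem_zpowers _)
  have h1 := Cfsg.Agent.S0088.result (P : Subgroup H) hcomm P.card_coprime_index
  have h2 : (z : H) ∈ (P : Subgroup H) ⊓ commutator H ⊓ Subgroup.center H :=
    ⟨⟨hzP, by rw [hH]; trivial⟩, hzc⟩
  rw [h1, Subgroup.mem_bot] at h2
  rw [h2, orderOf_one] at hzo'
  exact (Fact.out : p.Prime).one_lt.ne hzo'

end Cfsg.Agent.S0102
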