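import Mathlib
import Cfsg.Agent.H3.Fusion
import Cfsg.Statements.S0103

set_option autoImplicit false
open Cfsg

namespace Cfsg.Agent.S0103

/-- If a Sylow p-subgroup P intersects every distinct conjugate trivially, then its normalizer controls fusion in P. -/
theorem result {G : Type*} [Group G] [Finite G] {p : ℕ} [Fact p.Prime] (P : Sylow p G) (hTI : ∀ g : G, (P : Subgroup G).map (MulAut.conj g).toMonoidHom ≠ (P : Subgroup G) → (P : Subgroup G) ⊓ (P : Subgroup G).map (MulAut.conj g).toMonoidHom = ⊥) (x y : G) (hx : x ∈ P) (hy : y ∈ P) (hc : ∃ g : G, g * x * g⁻¹ = y) : ∃ n ∈ Subgroup.normalizer (P : Set G), n * x * n⁻¹ = y := by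
  obtain ⟨g, hg⟩ := hc
  by_cases hx1 : x = 1
  · refine ⟨1, one_mem _, ?_⟩
    rw [← hg, hx1]; group
  refine ⟨g, ?_, hg⟩
  by_cases h : (P : Subgroup G).map (MulAut.conj g).toMonoidHom = (P : Subgroup G)
  · change g ∈ Subgroup.normalizer ((P : Subgroup G) : Set G)
    rw [Subgroup.mem_normalizer_iff]
    intro z
    constructor
    · intro hz
      have : (MulAut.conj g).toMonoidHom z ∈ (P : Subgroup G).map (MulAut.conj g).toMonoidHom := ⟨z, hz, rfl⟩
      rw [h] at this
      exact this
    · intro hz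
      have h2 : g * z * g⁻¹ ∈ (P : Subgroup G).map (MulAut.conj g).toMonoidHom := by rw [h]; exact hz
      rw [CfsgH3.mem_map_conj_iff] at h2
      have e : g⁻¹ * (g * z * g⁻¹) * g = z := by group
      rwa [e] at h2
  · exfalso
    have h1 := hTI g h
    have h2 : y ∈ (P : Subgroup G) ⊓ (P : Subgroup G).map (MulAut.conj g).toMonoidHom := by
      refine Subgroup.mem_inf.2 ⟨hy, CfsgH3.mem_map_conj_iff.2 ?_⟩
      rw [← hg]
      have e : g⁻¹ * (g * x * g⁻¹) * g = x := by group
      rw [e]; exact hx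
    rw [h1, Subgroup.mem_bot] at h2
    apply hx1
    have e : x = g⁻¹ * (g * x * g⁻¹) * g := by group
    rw [e, hg, h2]; group

end Cfsg.Agent.S0103
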