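import Mathlib
import Cfsg.Agent.H3.Fusion
import Cfsg.Statements.S0104

set_option autoImplicit false
open Cfsg

namespace Cfsg.Agent.S0104

/-- A subgroup Z of a Sylow p-subgroup P that is normalized by N_G(P) is weakly closed in P exactly when it is normal in every Sylow p-subgroup containing it. -/
theorem result {G : Type*} [Group G] [Finite G] {p : ℕ} [Fact p.Prime] (P : Sylow p G) (Z : Subgroup G) (hZP : Z ≤ (P : Subgroup G)) (hZN : Subgroup.normalizer (P : Set G) ≤ Subgroup.normalizer (Z : Set G)) : Cfsg.IsWeaklyClosed Z P ↔ ∀ R : Sylow p G, Z ≤ (R : Subgroup G) → (R : Subgroup G) ≤ Subgroup.normalizer (Z : Set G) := by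
  have hPN : (P : Subgroup G) ≤ Subgroup.normalizer (Z : Set G) := Subgroup.le_normalizer.trans hZN
  have hmemN : ∀ g : G, g ∈ Subgroup.normalizer (Z : Set G) ↔ Z.map (MulAut.conj g).toMonoidHom = Z := by
    intro g
    exact Subgroup.mem_normalizer_iff_map_conj_eq
  constructor
  · rintro ⟨-, hw⟩ R hR
    obtain ⟨a, ha⟩ := MulAction.exists_smul_eq G R P
    have h1 : Z.map (MulAut.conj a).toMonoidHom ≤ (P : Subgroup G) := by
      rintro _ ⟨z, hz, rfl⟩
      rw [← ha, CfsgH3.mem_smul_sylow_iff']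
      have e : a⁻¹ * ((MulAut.conj a).toMonoidHom z) * a = z := by
        simp only [MulEquiv.coe_toMonoidHom, MulAut.conj_apply]; group
      rw [e]; exact hR hz
    have h2 : a ∈ Subgroup.normalizer (Z : Set G) := (hmemN a).2 (hw a h1)
    intro r hr
    have h3 : a * r * a⁻¹ ∈ (P : Subgroup G) := by
      rw [← ha, CfsgH3.mem_smul_sylow_iff']
      have e : a⁻¹ * (a * r * a⁻¹) * a = r := by group
      rw [e]; exact hr
    have h4 := mul_mem (mul_mem (inv_mem h2) (hPN h3)) h2
    have e : a⁻¹ * (a * r * a⁻¹) * a = r := by group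
    rwa [e] at h4
  · intro h
    refine ⟨hZP, fun g hg => ?_⟩
    have hgP : ((g⁻¹ • P : Sylow p G) : Subgroup G) ≤ Subgroup.normalizer (Z : Set G) := by
      apply h
      intro z hz
      rw [CfsgH3.mem_smul_sylow_iff', inv_inv]
      exact hg ⟨z, hz, rfl⟩
    obtain ⟨b, hb⟩ := MulAction.exists_smul_eq (Subgroup.normalizer (Z : Set G)) ((g⁻¹ • P).subtype hgP) (P.subtype hPN)
    have h5 : ((b : G) * g⁻¹) • P = P := by
      rw [mul_smul]
      rw [Sylow.smul_subtype] at hb
      exact Sylow.subtype_injective hb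
    have h6 : (b : G) * g⁻¹ ∈ Subgroup.normalizer (Z : Set G) := hZN (Sylow.smul_eq_iff_mem_normalizer.1 h5)
    have h7 : g ∈ Subgroup.normalizer (Z : Set G) := by
      have e : g = ((b : G) * g⁻¹)⁻¹ * b := by group
      rw [e]
      exact mul_mem (inv_mem h6) b.2
    exact (hmemN g).1 h7

end Cfsg.Agent.S0104
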