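import Mathlib
import Cfsg.Agent.S0090
import Cfsg.Agent.H3.Fusion
import Cfsg.Statements.S0105

set_option autoImplicit false
open Cfsg

namespace Cfsg.Agent.S0105

/-- With an abelian Sylow p-subgroup P, some quotient of G is isomorphic to the part of P central in N_G(P). -/
theorem result {G : Type*} [Group G] [Finite G] {p : ℕ} [Fact p.Prime] (P : Sylow p G) (hP : IsMulCommutative P) : ∃ (N : Subgroup G) (hN : N.Normal), Nonempty (G ⧸ N ≃* ((P : Subgroup G) ⊓ Subgroup.centralizer (Subgroup.normalizer (P : Set G) : Set G) : Subgroup G)) := by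
  set N := Subgroup.normalizer (P : Set G) with hN
  have hPN : (P : Subgroup G) ≤ N := Subgroup.le_normalizer
  set A : Subgroup N := (P : Subgroup G).subgroupOf N with hA
  haveI hAn : A.Normal := (inferInstance : ((P : Subgroup G).subgroupOf (Subgroup.normalizer ((P : Subgroup G) : Set G))).Normal)
  have hAc : IsMulCommutative A := by
    refine ⟨⟨fun a b => ?_⟩⟩
    apply Subtype.ext; apply Subtype.ext
    have h0 := hP.is_comm.comm (⟨((a : N) : G), a.2⟩ : P) ⟨((b : N) : G), b.2⟩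
    have h1 := congrArg Subtype.val h0
    exact h1
  have hHall : Nat.Coprime (Nat.card A) A.index := (P.subtype hPN).card_coprime_index
  obtain ⟨-, h1, h2⟩ := Cfsg.Agent.S0090.result A hAc hHall
  set C : Subgroup G := (P : Subgroup G) ⊓ Subgroup.centralizer (Subgroup.normalizer (P : Set G) : Set G) with hC
  set F := (P : Subgroup G).focalSubgroup with hF
  -- F = N' ∩ P
  have hFN : F = ⁅N, N⁆ ⊓ (P : Subgroup G) := by
    rw [hF, ← Subgroup.commutator_inf_eq_focalSubgroup]
    exact CfsgH3.controls_commutator P hPN (CfsgH3.normalizer_controls P hP)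
  have hcommN : (commutator N).map N.subtype = ⁅N, N⁆ := Subgroup.map_subtype_commutator N
  have hinf : ∀ x, x ∈ F → x ∈ C → x = 1 := by
    intro x hxF hxC
    have hxP : x ∈ (P : Subgroup G) := hxC.1
    rw [hFN, ← hcommN] at hxF
    obtain ⟨⟨y, hy, rfl⟩, -⟩ := hxF
    have h3 : y ∈ (commutator N ⊓ A) ⊓ (Subgroup.center N ⊓ A) := by
      refine Subgroup.mem_inf.2 ⟨Subgroup.mem_inf.2 ⟨hy, hxP⟩, Subgroup.mem_inf.2 ⟨?_, hxP⟩⟩
      rw [Subgroup.mem_center_iff]
      intro g
      apply Subtype.ext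
      exact (Subgroup.mem_centralizer_iff.1 hxC.2) g g.2
    rw [h1, Subgroup.mem_bot] at h3
    rw [h3]; rfl
  have hsup : ∀ x ∈ (P : Subgroup G), ∃ f ∈ F, ∃ c ∈ C, x = f * c := by
    intro x hx
    have h3 : (⟨x, hPN hx⟩ : N) ∈ (commutator N ⊓ A) ⊔ (Subgroup.center N ⊓ A) := by rw [h2]; exact hx
    obtain ⟨f, hf, c, hc, hfc⟩ := Subgroup.mem_sup_of_normal_left.1 h3
    refine ⟨f, ?_, c, ?_, (congrArg Subtype.val hfc).symm⟩
    · rw [hFN, ← hcommN]
      exact ⟨⟨f, hf.1, rfl⟩, hf.2⟩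
    · refine Subgroup.mem_inf.2 ⟨hc.2, ?_⟩
      rw [Subgroup.mem_centralizer_iff]
      intro g hg
      exact congrArg Subtype.val (Subgroup.mem_center_iff.1 hc.1 ⟨g, hg⟩)
  -- the isomorphism
  let φ : C →* (P ⧸ (P : Subgroup G).focalSubgroupOf) :=
    (QuotientGroup.mk' (P : Subgroup G).focalSubgroupOf).comp (Subgroup.inclusion inf_le_left)
  have hφ : Function.Bijective φ := by
    constructor
    · rw [injective_iff_map_eq_one]
      rintro ⟨x, hx⟩ hx1
      have h3 : (Subgroup.inclusion inf_le_left (⟨x, hx⟩ : C) : (P : Subgroup G)) ∈ (P : Subgroup G).focalSubgroupOf := by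
        rwa [← QuotientGroup.eq_one_iff]
      exact Subtype.ext (hinf x h3 hx)
    · intro y
      obtain ⟨x, rfl⟩ := QuotientGroup.mk_surjective y
      obtain ⟨f, hf, c, hc, hfc⟩ := hsup x x.2
      refine ⟨⟨c, hc⟩, ?_⟩
      change ((Subgroup.inclusion inf_le_left (⟨c, hc⟩ : C) : (P : Subgroup G)) : P ⧸ (P : Subgroup G).focalSubgroupOf) = x
      rw [QuotientGroup.eq]
      change ((c : G)⁻¹ * (x : G)) ∈ F
      have hfP : f ∈ (P : Subgroup G) := Subgroup.focalSubgroup_le _ hf
      have h7 : f * c = c * f := congrArg Subtype.val (hP.is_comm.comm (⟨f, hfP⟩ : P) ⟨c, hc.1⟩)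
      rw [hfc, h7, ← mul_assoc, inv_mul_cancel, one_mul]
      exact hf
  exact ⟨(P : Subgroup G).transferFocal.ker, inferInstance,
    ⟨(Subgroup.transferFocal.quotientKerMulEquivQuotientFocalSubroupOf P).trans (MulEquiv.ofBijective φ hφ).symm⟩⟩

end Cfsg.Agent.S0105
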