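import Mathlib
import Cfsg.Agent.H3.Fusion
import Cfsg.Agent.H3.Klein
import Cfsg.Statements.S0107

set_option autoImplicit false
open Cfsg

namespace Cfsg.Agent.S0107

/-- A finite group with no nontrivial 2-group quotient and dihedral Sylow 2-subgroups of order at least 8 has a single class of involutions. -/
theorem result {G : Type*} [Group G] [Finite G] (T : Sylow 2 G) (n : ℕ) (hn : 2 ≤ n) (hT : Nonempty ((T : Subgroup G) ≃* DihedralGroup (2 ^ n))) (hO : Cfsg.pResidual 2 G = ⊤) (x y : G) (hx : orderOf x = 2) (hy : orderOf y = 2) : ∃ g : G, g * x * g⁻¹ = y := by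
  obtain ⟨e⟩ := hT
  -- no normal subgroup of index two
  have hno : ∀ M : Subgroup G, M.Normal → M.index ≠ 2 := by
    intro M hM hi
    have h1 := CfsgH3.pResidual_le (p := 2) M (CfsgH3.isPGroup_quotient_of_index (p := 2) (k := 1) (by rw [hi, pow_one]))
    rw [hO, top_le_iff] at h1
    rw [h1, Subgroup.index_top] at hi
    omega
  have hcard : Nat.card (T : Subgroup G) = 2 * 2 ^ n := by
    rw [Nat.card_congr e.toEquiv, DihedralGroup.nat_card]
  -- the cyclic subgroup
  set c : (T : Subgroup G) := e.symm (DihedralGroup.r 1) with hc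
  have hco : orderOf (c : G) = 2 ^ n := by
    rw [Subgroup.orderOf_coe, hc]
    have := orderOf_injective e.symm.toMonoidHom e.symm.injective (DihedralGroup.r (1 : ZMod (2 ^ n)))
    have h2 : e.symm.toMonoidHom (DihedralGroup.r (1 : ZMod (2 ^ n))) = e.symm (DihedralGroup.r 1) := rfl
    rw [h2] at this
    rw [this, DihedralGroup.orderOf_r_one]
  set Q : Subgroup G := Subgroup.zpowers (c : G) with hQ
  have hQP : Q ≤ (T : Subgroup G) := by rw [hQ, Subgroup.zpowers_le]; exact c.2
  have hQi : Q.relIndex (T : Subgroup G) = 2 := by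
    have h1 := Subgroup.card_mul_index (Q.subgroupOf (T : Subgroup G))
    have h2 : Nat.card (Q.subgroupOf (T : Subgroup G)) = 2 ^ n := by
      rw [Nat.card_congr (Subgroup.subgroupOfEquivOfLe hQP).toEquiv, hQ, Nat.card_zpowers, hco]
    rw [h2, hcard] at h1
    have h3 : 0 < 2 ^ n := by positivity
    have h4 : 2 ^ n * (Q.subgroupOf (T : Subgroup G)).index = 2 ^ n * 2 := by rw [h1]; ring
    exact Nat.eq_of_mul_eq_mul_left h3 h4
  -- every involution is conjugate to the involution of Q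
  have key : ∀ u : G, orderOf u = 2 → ∃ g : G, g * u * g⁻¹ ∈ Q := by
    intro u hu
    obtain ⟨v, hv, huv⟩ := CfsgH3.exists_conj_mem_sylow T hu
    obtain ⟨a, ha⟩ := isConj_iff.1 huv
    have hvo : orderOf v = 2 := by rw [← ha, CfsgH3.orderOf_conj, hu]
    by_contra hcon
    push Not at hcon
    obtain ⟨M, hM, hMi, -⟩ := CfsgH3.thompson_transfer_invol T Q hQi v hvo hv (by
      intro g hg
      apply hcon (g * a)
      have e : g * a * u * (g * a)⁻¹ = g * v * g⁻¹ := by rw [← ha]; group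
      rw [e]; exact hg)
    exact hno M hM hMi
  obtain ⟨g, hg⟩ := key x hx
  obtain ⟨h, hh⟩ := key y hy
  have h5 := CfsgH3.cyclic_invol_unique (C := Q) (x := ⟨_, hg⟩) (y := ⟨_, hh⟩)
    (by rw [Subgroup.orderOf_mk, CfsgH3.orderOf_conj, hx]) (by rw [Subgroup.orderOf_mk, CfsgH3.orderOf_conj, hy])
  have h6 : g * x * g⁻¹ = h * y * h⁻¹ := congrArg Subtype.val h5
  refine ⟨h⁻¹ * g, ?_⟩
  calc h⁻¹ * g * x * (h⁻¹ * g)⁻¹ = h⁻¹ * (g * x * g⁻¹) * h := by group
    _ = h⁻¹ * (h * y * h⁻¹) * h := by rw [h6]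
    _ = y := by group

end Cfsg.Agent.S0107
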