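import Mathlib
import Cfsg.Agent.H3.Extra
import Cfsg.Statements.S0110

set_option autoImplicit false
open Cfsg

namespace Cfsg.Agent.S0110

open Subgroup CfsgH3 in
theorem cent_index {G : Type*} [Group G] [Finite G] {p : ℕ} [hp : Fact p.Prime] (hG : IsPGroup p G) (E Z : Subgroup G) (hZE : Z ≤ E) (hZp : Nat.card Z = p)
    (hZc : ∀ z ∈ Z, ∀ g : G, g * z = z * g) (hEZ : ∀ g : G, ∀ e ∈ E, g * e * g⁻¹ * e⁻¹ ∈ Z) (n : ℕ) :
    ∀ F : Subgroup G, Nat.card F = n → Z ≤ F → F ≤ E → (centralizer (F : Set G)).index * p ≤ Nat.card F := by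
  induction n using Nat.strong_induction_on with
  | _ n ih =>
  intro F hn hZF hFE
  by_cases hFZ : F = Z
  · have : centralizer (F : Set G) = ⊤ := by
      rw [hFZ, eq_top_iff]
      intro g _
      rw [mem_centralizer_iff]
      intro z hz
      exact (hZc z hz g).symm
    rw [this, index_top, one_mul, hFZ, hZp]
  · have hlt : Z < F := lt_of_le_of_ne hZF (Ne.symm hFZ)
    obtain ⟨F0, hF0⟩ := (Set.toFinite {F0 : Subgroup G | Z ≤ F0 ∧ F0 < F}).exists_maximal ⟨Z, le_rfl, hlt⟩
    obtain ⟨hZF0, hF0F⟩ := hF0.prop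
    obtain ⟨x, hxF, hxF0⟩ := SetLike.exists_of_lt hF0F
    have hsup : F0 ⊔ zpowers x = F := by
      by_contra hne
      have h1 : F0 ⊔ zpowers x < F := lt_of_le_of_ne (sup_le hF0F.le (by rw [zpowers_le]; exact hxF)) hne
      have h2 := hF0.2 ⟨hZF0.trans le_sup_left, h1⟩ le_sup_left
      exact hxF0 (h2 (mem_sup_right (mem_zpowers x)))
    have hcl := card_lt_card_of_lt hF0F
    have h1 := ih _ (by rw [← hn]; exact hcl) F0 rfl hZF0 (hF0F.le.trans hFE)
    have h2 : centralizer (F : Set G) = centralizer ({x} : Set G) ⊓ centralizer (F0 : Set G) := by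
      apply le_antisymm
      · apply le_inf
        · exact centralizer_le (by intro y hy; rw [Set.mem_singleton_iff] at hy; rw [hy]; exact hxF)
        · exact centralizer_le hF0F.le
      · intro g hg
        obtain ⟨hg1, hg2⟩ := mem_inf.1 hg
        rw [mem_centralizer_singleton_iff] at hg1
        have h3 : F ≤ centralizer ({g} : Set G) := by
          rw [← hsup, sup_le_iff, zpowers_le, mem_centralizer_singleton_iff]
          refine ⟨?_, hg1.symm⟩
          intro y hy
          rw [mem_centralizer_singleton_iff]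
          exact mem_centralizer_iff.1 hg2 y hy
        rw [mem_centralizer_iff]
        intro y hy
        have := h3 hy
        rw [mem_centralizer_singleton_iff] at this
        exact this
    have h3 : (centralizer (F : Set G)).index ≤ (centralizer (F0 : Set G)).index * p := by
      have h4 : (centralizer (F : Set G)).relIndex (centralizer (F0 : Set G)) ≤ p := by
        rw [h2, inf_relIndex_right, ← hZp]
        exact cent_relIndex_le _ Z x (fun g _ => hEZ g x (hFE hxF))
      rw [← relIndex_mul_index (show centralizer (F : Set G) ≤ centralizer (F0 : Set G) from centralizer_le hF0F.le), mul_comm]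
      exact Nat.mul_le_mul_left _ h4
    have h4 : Nat.card F0 * p ≤ Nat.card F := by
      have h5 := relIndex_mul_relIndex (⊥ : Subgroup G) F0 F bot_le hF0F.le
      rw [relIndex_bot_left, relIndex_bot_left] at h5
      rw [← h5]
      apply Nat.mul_le_mul_left
      obtain ⟨m, hm⟩ := IsPGroup.iff_card.1 (hG.to_subgroup F)
      have h6 : F0.relIndex F ∣ p ^ m := by rw [← hm]; exact relIndex_dvd_card F0 F
      obtain ⟨k, -, hk⟩ := (Nat.dvd_prime_pow hp.out).1 h6
      rw [hk]
      apply Nat.le_self_pow
      rintro rfl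
      rw [pow_zero, relIndex_eq_one] at hk
      exact absurd hk (not_le_of_gt hF0F)
    calc (centralizer (F : Set G)).index * p ≤ ((centralizer (F0 : Set G)).index * p) * p := Nat.mul_le_mul_right _ h3
      _ ≤ Nat.card F0 * p := Nat.mul_le_mul_right _ h1
      _ ≤ Nat.card F := h4

/-- In a p-group G, an extraspecial subgroup E with [G, E] ≤ Z(E) satisfies G = E C_G(E). -/
theorem result {G : Type*} [Group G] [Finite G] {p : ℕ} [Fact p.Prime] (hG : IsPGroup p G) (E : Subgroup G) (hE : Cfsg.IsExtraspecial p E) (h : ⁅(⊤ : Subgroup G), E⁆ ≤ E ⊓ Subgroup.centralizer (E : Set G)) : E ⊔ Subgroup.centralizer (E : Set G) = ⊤ := by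
  open Subgroup CfsgH3 in
  set Z := E ⊓ Subgroup.centralizer (E : Set G) with hZ
  have hmap : Z = (Subgroup.center E).map E.subtype := by
    ext x
    constructor
    · rintro ⟨h1, h2⟩
      refine ⟨⟨x, h1⟩, ?_, rfl⟩
      rw [SetLike.mem_coe, Subgroup.mem_center_iff]
      intro g
      exact Subtype.ext (Subgroup.mem_centralizer_iff.1 h2 g g.2)
    · rintro ⟨y, hy, rfl⟩
      refine Subgroup.mem_inf.2 ⟨y.2, ?_⟩
      rw [Subgroup.mem_centralizer_iff]
      intro g hg
      rw [SetLike.mem_coe, Subgroup.mem_center_iff] at hy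
      exact congrArg Subtype.val (hy ⟨g, hg⟩)
  have hZp : Nat.card Z = p := by
    rw [hmap, Nat.card_congr ((Subgroup.center E).equivMapOfInjective E.subtype E.subtype_injective).symm.toEquiv, hE.2]
  have hEZ : ∀ g : G, ∀ e ∈ E, g * e * g⁻¹ * e⁻¹ ∈ Z := fun g e he => h (Subgroup.commutator_mem_commutator (Subgroup.mem_top g) he)
  have hEn : E.Normal := by
    constructor
    intro e he g
    have : g * e * g⁻¹ = (g * e * g⁻¹ * e⁻¹) * e := by group
    rw [this]; exact mul_mem (Subgroup.mem_inf.1 (hEZ g e he)).1 he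
  haveI hZn : Z.Normal := by
    have : (Subgroup.centralizer (E : Set G)).Normal := inferInstance
    rw [hZ]; infer_instance
  have hZcen := CfsgH3.le_center_of_card_le hG hZp.le
  have hZc : ∀ z ∈ Z, ∀ g : G, g * z = z * g := fun z hz g => Subgroup.mem_center_iff.1 (hZcen hz) g
  have h1 := cent_index hG E Z inf_le_left hZp hZc hEZ _ E rfl inf_le_left le_rfl
  apply Subgroup.eq_top_of_le_card
  have h2 := CfsgH1.card_sup_mul_card_inf (H := E) (K := Subgroup.centralizer (E : Set G)) (by rw [Subgroup.normalizer_eq_top]; exact le_top)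
  rw [← hZ, hZp] at h2
  have h3 := (Subgroup.centralizer (E : Set G)).card_mul_index
  have hpp : 0 < p := (Fact.out : p.Prime).pos
  have h4 : Nat.card G * p ≤ Nat.card ↥(E ⊔ Subgroup.centralizer (E : Set G)) * p := by
    rw [h2, ← h3]
    calc Nat.card (Subgroup.centralizer (E : Set G)) * (Subgroup.centralizer (E : Set G)).index * p 
        = Nat.card (Subgroup.centralizer (E : Set G)) * ((Subgroup.centralizer (E : Set G)).index * p) := by ring
      _ ≤ Nat.card (Subgroup.centralizer (E : Set G)) * Nat.card E := Nat.mul_le_mul_left _ h1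
      _ = Nat.card E * Nat.card (Subgroup.centralizer (E : Set G)) := mul_comm _ _
  exact Nat.le_of_mul_le_mul_right h4 hpp

end Cfsg.Agent.S0110
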