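import Mathlib
import Cfsg.Agent.H3.MaxCl2
import Cfsg.Statements.S0114

set_option autoImplicit false
open Cfsg

namespace Cfsg.Agent.S0114

/-- The central quotient of a 2-group of maximal class is dihedral. -/
theorem result {X : Type*} [Group X] [Finite X] (n : ℕ) (hn : 3 ≤ n) (hX : Nat.card X = 2 ^ n) (hc : Group.nilpotencyClass X = n - 1) : Nonempty (X ⧸ Subgroup.center X ≃* DihedralGroup (2 ^ (n - 2))) := by
  haveI : Fact (Nat.Prime 2) := ⟨Nat.prime_two⟩
  have hi : (commutator X).index = 4 := CfsgH3.index_commutator_of_maxcl (p := 2) n hn hX hc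
  obtain ⟨c, x, hoc, hxc, htop, hi2, h1, h2, hZ⟩ := CfsgH3.maxcl_structure n hn hX hi
  obtain ⟨j, rfl⟩ : ∃ j, n = j + 3 := ⟨n - 3, by omega⟩
  have e1 : j + 3 - 1 = j + 2 := by omega
  have e2 : j + 3 - 2 = j + 1 := by omega
  rw [e1] at hoc
  rw [e2] at h1 h2 hZ ⊢
  set Z := Subgroup.center X with hZd
  set t := c ^ 2 ^ (j + 1) with ht
  have htZ : t ∈ Z := by rw [hZ]; exact Subgroup.mem_zpowers t
  have hmt : (QuotientGroup.mk' Z) t = 1 := by
    rw [← MonoidHom.mem_ker, QuotientGroup.ker_mk']; exact htZ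
  have hoc' : orderOf ((QuotientGroup.mk' Z) c) = 2 ^ (j + 1) := by
    apply Nat.dvd_antisymm
    · apply orderOf_dvd_of_pow_eq_one
      rw [← map_pow]; exact hmt
    · have h3 : (QuotientGroup.mk' Z) (c ^ orderOf ((QuotientGroup.mk' Z) c)) = 1 := by
        rw [map_pow, pow_orderOf_eq_one]
      rw [← MonoidHom.mem_ker, QuotientGroup.ker_mk'] at h3
      replace h3 := hZ.le h3
      have h4 : (c ^ orderOf ((QuotientGroup.mk' Z) c)) ^ 2 = 1 := by
        obtain ⟨k, hk⟩ := h3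
        have hk' : t ^ k = c ^ orderOf ((QuotientGroup.mk' Z) c) := hk
        rw [← hk', ← zpow_natCast, ← zpow_mul, mul_comm, zpow_mul]
        have : t ^ ((2 : ℕ) : ℤ) = 1 := by
          rw [zpow_natCast, ht, ← pow_mul, ← pow_succ, ← hoc, pow_orderOf_eq_one]
        rw [this, one_zpow]
      rw [← pow_mul] at h4
      have h5 := orderOf_dvd_of_pow_eq_one h4
      rw [hoc, pow_succ 2 (j + 1)] at h5
      exact Nat.dvd_of_mul_dvd_mul_right (by norm_num) h5
  have hxx : (QuotientGroup.mk' Z) x * (QuotientGroup.mk' Z) x = 1 := by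
    rw [← map_mul]
    rcases h2 with h | h
    · rw [h, map_one]
    · rw [h]; exact hmt
  have hxc' : (QuotientGroup.mk' Z) x * (QuotientGroup.mk' Z) c * ((QuotientGroup.mk' Z) x)⁻¹ = ((QuotientGroup.mk' Z) c)⁻¹ := by
    rw [← map_mul, ← map_inv, ← map_mul, ← map_inv]
    rcases h1 with h | h
    · rw [h]
    · rw [h, map_mul, hmt, mul_one]
  have hxn : (QuotientGroup.mk' Z) x ∉ Subgroup.zpowers ((QuotientGroup.mk' Z) c) := by
    rintro ⟨k, hk⟩
    have hk' : (QuotientGroup.mk' Z) (c ^ k) = (QuotientGroup.mk' Z) x := by rw [map_zpow]; exact hk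
    rw [QuotientGroup.mk'_eq_mk'] at hk'
    obtain ⟨z, hz, hzx⟩ := hk'
    apply hxc
    rw [← hzx]
    apply mul_mem (Subgroup.zpow_mem_zpowers c k)
    replace hz := hZ.le hz
    exact (Subgroup.zpowers_le.2 (Subgroup.npow_mem_zpowers c _)) hz
  obtain ⟨e⟩ := CfsgH3.nonempty_dihedral_equiv (2 ^ (j + 1)) _ _ hoc' hxx hxc' hxn
  have htop2 : Subgroup.closure {(QuotientGroup.mk' Z) c, (QuotientGroup.mk' Z) x} = ⊤ := by
    rw [eq_top_iff]
    intro q _
    obtain ⟨y, rfl⟩ := QuotientGroup.mk'_surjective Z q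
    have hy : y ∈ Subgroup.zpowers c ⊔ Subgroup.zpowers x := by rw [htop]; exact Subgroup.mem_top y
    have h3 : Subgroup.zpowers c ⊔ Subgroup.zpowers x ≤ (Subgroup.closure {(QuotientGroup.mk' Z) c, (QuotientGroup.mk' Z) x}).comap (QuotientGroup.mk' Z) := by
      apply sup_le
      · rw [Subgroup.zpowers_le, Subgroup.mem_comap]; exact Subgroup.subset_closure (by simp)
      · rw [Subgroup.zpowers_le, Subgroup.mem_comap]; exact Subgroup.subset_closure (by simp)
    exact h3 hy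
  rw [htop2] at e
  exact ⟨Subgroup.topEquiv.symm.trans e⟩

end Cfsg.Agent.S0114
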