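import Mathlib
import Cfsg.Agent.H3.AlpFus
import Cfsg.Statements.S0116

set_option autoImplicit false
open Cfsg

namespace Cfsg.Agent.S0116

universe u
open Subgroup CfsgH1 CfsgH3
open scoped Pointwise

/-- conjugation of sets -/
abbrev cs {G : Type u} [Group G] (g : G) (A : Set G) : Set G := (fun a => g⁻¹ * a * g) '' A

theorem cs_cs {G : Type u} [Group G] (g h : G) (A : Set G) : cs h (cs g A) = cs (g * h) A := by
  unfold cs
  rw [Set.image_image]
  congr 1
  funext a
  group

def Tame {G : Type u} [Group G] {p : ℕ} (P Q : Sylow p G) : Prop := 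
  ¬ p ∣ ((P : Subgroup G) ⊓ Subgroup.normalizer ((((P : Subgroup G) ⊓ (Q : Subgroup G)) : Subgroup G) : Set G)).relIndex (Subgroup.normalizer ((((P : Subgroup G) ⊓ (Q : Subgroup G)) : Subgroup G) : Set G)) ∧ 
  ¬ p ∣ ((Q : Subgroup G) ⊓ Subgroup.normalizer ((((P : Subgroup G) ⊓ (Q : Subgroup G)) : Subgroup G) : Set G)).relIndex (Subgroup.normalizer ((((P : Subgroup G) ⊓ (Q : Subgroup G)) : Subgroup G) : Set G))

inductive Good {G : Type u} [Group G] {p : ℕ} (P : Sylow p G) : Set G → G → Prop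
  | nil (A : Set G) : Good P A 1
  | cons (A : Set G) (x g : G) (Q : Sylow p G) (hx : x ∈ Subgroup.normalizer ((((P : Subgroup G) ⊓ (Q : Subgroup G)) : Subgroup G) : Set G))
      (ht : Tame P Q) (hA : A ⊆ (((P : Subgroup G) ⊓ (Q : Subgroup G) : Subgroup G) : Set G)) (h : Good P (cs x A) g) : Good P A (x * g)

theorem Good.append {G : Type u} [Group G] {p : ℕ} {P : Sylow p G} {A : Set G} {g h : G} (h1 : Good P A g) (h2 : Good P (cs g A) h) :
    Good P A (g * h) := by
  induction h1 with
  | nil A => 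
    rw [one_mul]
    have : cs (1 : G) A = A := by unfold cs; simp
    rwa [this] at h2
  | cons A x g Q hx ht hA h3 ih =>
    rw [mul_assoc]
    apply Good.cons A x _ Q hx ht hA
    apply ih
    rw [cs_cs]; exact h2

theorem Good.mono {G : Type u} [Group G] {p : ℕ} {P : Sylow p G} {A B : Set G} {g : G} (h1 : Good P A g) (hBA : B ⊆ A) :
    Good P B g := by
  induction h1 generalizing B with
  | nil A => exact Good.nil B
  | cons A x g Q hx ht hA h3 ih => 
    exact Good.cons B x g Q hx ht (hBA.trans hA) (ih (Set.image_mono hBA))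

theorem Good.single {G : Type u} [Group G] {p : ℕ} {P : Sylow p G} {A : Set G} {x : G} (Q : Sylow p G) 
    (hx : x ∈ Subgroup.normalizer ((((P : Subgroup G) ⊓ (Q : Subgroup G)) : Subgroup G) : Set G))
    (ht : Tame P Q) (hA : A ⊆ (((P : Subgroup G) ⊓ (Q : Subgroup G) : Subgroup G) : Set G)) : Good P A x := by
  have := Good.cons A x 1 Q hx ht hA (Good.nil _)
  rwa [mul_one] at this

theorem Good.toFin {G : Type u} [Group G] {p : ℕ} {P : Sylow p G} {A : Set G} {g : G} (h : Good P A g) :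
    ∃ (n : ℕ) (Q : Fin n → Sylow p G) (x : Fin n → G), (List.ofFn x).prod = g ∧ 
      (∀ i : Fin n, x i ∈ Subgroup.normalizer ((((P : Subgroup G) ⊓ (Q i : Subgroup G)) : Subgroup G) : Set G) ∧ Tame P (Q i)) ∧ 
      (∀ h : 0 < n, A ⊆ (((P : Subgroup G) ⊓ (Q ⟨0, h⟩ : Subgroup G) : Subgroup G) : Set G)) ∧ 
      ∀ i : Fin n, ∀ h : i.val + 1 < n, cs (((List.ofFn x).take (i.val + 1)).prod) A ⊆ (((P : Subgroup G) ⊓ (Q ⟨i.val + 1, h⟩ : Subgroup G) : Subgroup G) : Set G) := by
  induction h with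
  | nil A => 
    refine ⟨0, Fin.elim0, Fin.elim0, by simp, fun i => i.elim0, fun h => absurd h (lt_irrefl _), fun i => i.elim0⟩
  | cons A x g Q hx ht hA h3 ih =>
    obtain ⟨n, Q', x', h4, h5, h6, h7⟩ := ih
    refine ⟨n + 1, Fin.cons Q Q', Fin.cons x x', ?_, ?_, ?_, ?_⟩
    · rw [List.ofFn_succ]
      simp only [Fin.cons_zero, Fin.cons_succ, List.prod_cons]
      rw [h4]
    · intro i
      refine Fin.cases ?_ (fun j => ?_) i
      · exact ⟨hx, ht⟩
      · exact h5 j
    · intro _; exact hA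
    · intro i
      refine Fin.cases ?_ (fun j => ?_) i
      · intro h
        have hn : 0 < n := by simpa using h
        have h8 := h6 hn
        rw [List.ofFn_succ]
        simp only [Fin.cons_zero, Fin.cons_succ, Fin.val_zero, zero_add, List.take_succ_cons, List.take_zero, List.prod_cons, List.prod_nil, mul_one]
        exact h8
      · intro h
        have hn : j.val + 1 < n := by simpa using h
        have h8 := h7 j hn
        rw [List.ofFn_succ]
        simp only [Fin.cons_zero, Fin.cons_succ, Fin.val_succ, List.take_succ_cons, List.prod_cons]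
        rw [← cs_cs]
        exact h8

theorem cs_eq {G : Type u} [Group G] (g : G) (A : Subgroup G) : cs g (A : Set G) = ((MulAut.conj g⁻¹ • A : Subgroup G) : Set G) := by
  ext x
  rw [SetLike.mem_coe, mem_conj_smul, inv_inv]
  constructor
  · rintro ⟨a, ha, rfl⟩
    have : g * (g⁻¹ * a * g) * g⁻¹ = a := by group
    show g * (g⁻¹ * a * g) * g⁻¹ ∈ A
    rw [this]; exact ha
  · intro h
    exact ⟨_, h, by group⟩

theorem good_all {G : Type u} [Group G] [Finite G] {p : ℕ} [Fact p.Prime] (P : Sylow p G) (A : Subgroup G) (g : G) (hA : A ≤ (P : Subgroup G)) 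
    (hg : MulAut.conj g • A ≤ (P : Subgroup G)) : Good P (A : Set G) g⁻¹ := by
  refine fusion_core P (fun A g => Good P (A : Set G) g⁻¹) ?_ ?_ ?_ ?_ _ A g rfl hA hg
  · intro g hg
    have hS : IsSylowOf p ((P : Subgroup G) ⊓ normalizer ((P : Subgroup G) : Set G)) (normalizer ((P : Subgroup G) : Set G)) := by
      rw [inf_eq_left.2 le_normalizer]
      exact isSylowOf_of_le (sylow_isSylowOf P) le_normalizer le_top
    apply Good.single P
    · rw [inf_idem]; exact inv_mem hg
    · unfold Tame; rw [inf_idem]; exact ⟨(isSylowOf_iff.1 hS).2.2, (isSylowOf_iff.1 hS).2.2⟩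
    · rw [inf_idem]
  · intro A g h hA hg hhg h1 h2
    show Good P (A : Set G) (h * g)⁻¹
    rw [mul_inv_rev]
    apply Good.append h1
    rw [cs_eq, inv_inv]; exact h2
  · intro A B g hBA _ _ h1
    exact h1.mono hBA
  · intro C hCP hfull IH n hn
    show Good P (C : Set G) n⁻¹
    by_cases hex : ∃ m ∈ normalizer (C : Set G), ((P : Subgroup G) ⊓ normalizer (C : Set G)) ⊓ MulAut.conj m • ((P : Subgroup G) ⊓ normalizer (C : Set G)) = C
    · obtain ⟨m, hm, heq⟩ := hex
      obtain ⟨Q, hQ, hQf⟩ := tame_or P hCP.le hfull m hm heq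
      apply Good.single Q
      · rw [hQ]; exact inv_mem hn
      · unfold Tame; rw [hQ]
        exact ⟨(isSylowOf_iff.1 hfull).2.2, (isSylowOf_iff.1 hQf).2.2⟩
      · rw [hQ]
    · push Not at hex
      have h1 := hex n⁻¹ (inv_mem hn)
      set T := (P : Subgroup G) ⊓ normalizer (C : Set G) with hT
      have hCT : C ≤ T ⊓ MulAut.conj n⁻¹ • T := by
        refine le_inf (le_inf hCP.le le_normalizer) ?_
        have h2 : MulAut.conj n⁻¹ • C = C := conj_smul_eq_self_iff.2 (inv_mem hn)
        rw [← h2]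
        exact conj_smul_mono _ (le_inf hCP.le le_normalizer)
      have h2 := IH (T ⊓ MulAut.conj n⁻¹ • T) n (inf_le_left.trans inf_le_left) ?_ (card_lt_card_of_lt (lt_of_le_of_ne hCT (Ne.symm h1)))
      · exact h2.mono hCT
      · refine (conj_smul_mono n inf_le_right).trans ?_
        rw [← mul_smul, ← map_mul, mul_inv_cancel, map_one, one_smul]
        exact inf_le_left

/-- The Alperin fusion Theorem states that conjugation between subsets of a Sylow p-subgroup P factors through normalizers of tame intersections P ∩ Q_i with other Sylow p-subgroups, carrying the subset along step by step. -/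
theorem result {G : Type*} [Group G] [Finite G] {p : ℕ} [Fact p.Prime] (P : Sylow p G) (A : Set G) (g : G) (hA : A ⊆ (P : Set G)) (hAg : (fun a => g⁻¹ * a * g) '' A ⊆ (P : Set G)) : ∃ (n : ℕ) (Q : Fin n → Sylow p G) (x : Fin n → G), (List.ofFn x).prod = g ∧ (∀ i : Fin n, x i ∈ Subgroup.normalizer ((((P : Subgroup G) ⊓ (Q i : Subgroup G)) : Subgroup G) : Set G) ∧ ¬ p ∣ ((P : Subgroup G) ⊓ Subgroup.normalizer ((((P : Subgroup G) ⊓ (Q i : Subgroup G)) : Subgroup G) : Set G)).relIndex (Subgroup.normalizer ((((P : Subgroup G) ⊓ (Q i : Subgroup G)) : Subgroup G) : Set G)) ∧ ¬ p ∣ ((Q i : Subgroup G) ⊓ Subgroup.normalizer ((((P : Subgroup G) ⊓ (Q i : Subgroup G)) : Subgroup G) : Set G)).relIndex (Subgroup.normalizer ((((P : Subgroup G) ⊓ (Q i : Subgroup G)) : Subgroup G) : Set G))) ∧ (∀ h : 0 < n, A ⊆ (((P : Subgroup G) ⊓ (Q ⟨0, h⟩ : Subgroup G) : Subgroup G) : Set G)) ∧ ∀ i : Fin n, ∀ h : i.val + 1 < n, (fun a => (((List.ofFn x).take (i.val + 1)).prod)⁻¹ * a * ((List.ofFn x).take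 (i.val + 1)).prod) '' A ⊆ (((P : Subgroup G) ⊓ (Q ⟨i.val + 1, h⟩ : Subgroup G) : Subgroup G) : Set G) := by
  have h1 : Subgroup.closure A ≤ (P : Subgroup G) := (Subgroup.closure_le _).2 hA
  have h2 : MulAut.conj g⁻¹ • Subgroup.closure A ≤ (P : Subgroup G) := by
    rw [CfsgH3.conj_smul_le_iff]
    intro a ha
    have h3 : Subgroup.closure A ≤ MulAut.conj g • (P : Subgroup G) := by
      rw [Subgroup.closure_le]
      intro b hb
      rw [SetLike.mem_coe, CfsgH1.mem_conj_smul]
      exact hAg ⟨b, hb, rfl⟩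
    have h4 := h3 ha
    rw [CfsgH1.mem_conj_smul] at h4
    rw [inv_inv]; exact h4
  have h3 := good_all P _ _ h1 h2
  rw [inv_inv] at h3
  exact (h3.mono Subgroup.subset_closure).toFin

end Cfsg.Agent.S0116
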