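import Mathlib
import Cfsg.Agent.H3.ZJE
import Cfsg.Agent.H7.DFus3
import Cfsg.Statements.S0118

set_option autoImplicit false
open Cfsg

namespace Cfsg.Agent.S0118

/-- Glauberman's ZJ-Theorem, in the case of groups with no section isomorphic to SL(2,p), p odd: conjugation of subsets of a Sylow p-subgroup P inside P is always induced from the normalizer of Z(J(P)). -/
theorem result {G : Type*} [Group G] [Finite G] {p : ℕ} [Fact p.Prime] (hp : p ≠ 2) (hfree : ¬ ∃ (H K : Subgroup G) (hK : (K.subgroupOf H).Normal), Nonempty ((H ⧸ K.subgroupOf H) ≃* Matrix.SpecialLinearGroup (Fin 2) (ZMod p))) (P : Sylow p G) (A : Set G) (hA : A ⊆ (P : Set G)) (g : G) (hAg : (fun a => g⁻¹ * a * g) '' A ⊆ (P : Set G)) : ∃ n ∈ Subgroup.normalizer (Cfsg.centerThompsonOf p (P : Subgroup G) : Set G), ∀ a ∈ A, n⁻¹ * a * n = g⁻¹ * a * g := by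
  have h1 : ¬ Cfsg.Involves ↥(Cfsg.qd p) G := by
    intro h
    apply hfree
    have h2 : Cfsg.Involves (Matrix.SpecialLinearGroup (Fin 2) (ZMod p)) ↥(Cfsg.qd p) := by
      refine CfsgH7.involves_of_surjective CfsgH7.qProj ?_
      intro s
      exact ⟨CfsgH7.qA 0 s, CfsgH7.qProj_qA 0 s⟩
    have h3 := CfsgH7.Involves.trans' h2 h
    obtain ⟨H, K, hK, ⟨e⟩⟩ := h3
    exact ⟨H, K, hK, ⟨e⟩⟩
  have h2 := fun A' g' => CfsgH3.zje_ctl hp ((CfsgH7.pstable_sections_iff hp).1 h1) P A' g'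
  rw [CfsgH3.ZE_eq]
  have h3 := CfsgH7.controlsOf_of_ct (P := (P : Subgroup G)) (M := Subgroup.normalizer ((CfsgH3.ZE p (P : Subgroup G) : Subgroup G) : Set G)) h2 A hA
  obtain ⟨x, hx, hxa⟩ := h3.2 g⁻¹ (by
    rintro _ ⟨a, ha, rfl⟩
    have := hAg ⟨a, ha, rfl⟩
    simpa using this)
  refine ⟨x⁻¹, inv_mem hx, fun a ha => ?_⟩
  have := hxa a ha
  simpa using this.symm

end Cfsg.Agent.S0118
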