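import Mathlib
import Cfsg.Agent.H7.Critical
import Cfsg.Statements.S0121

set_option autoImplicit false
open Cfsg

namespace Cfsg.Agent.S0121

/-- A p'-automorphism of a p-group acting trivially on a critical subgroup is trivial. -/
theorem result {G : Type*} [Group G] [Finite G] {p : ℕ} [Fact p.Prime] (hG : IsPGroup p G) (H : Subgroup G) (hH : H.Characteristic) (h1 : (frattini H).map H.subtype ≤ Subgroup.centralizer (H : Set G)) (h2 : ⁅H, (⊤ : Subgroup G)⁆ ≤ H ⊓ Subgroup.centralizer (H : Set G)) (h3 : Subgroup.centralizer (H : Set G) ≤ H) (a : MulAut G) (ha : Nat.Coprime (orderOf a) p) (h : ∀ x ∈ H, a x = x) : a = 1 := by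
  ext x
  rw [MulAut.one_apply]
  apply CfsgH7.aut_fix_of_mul hG ha (z := x⁻¹ * a x) (by group)
  have hxc : x⁻¹ * a x ∈ Subgroup.centralizer (H : Set G) := by
    rw [Subgroup.mem_centralizer_iff]
    intro t ht
    have hn : H.Normal := inferInstance
    have e1 : a (x * t * x⁻¹) = x * t * x⁻¹ := h _ (hn.conj_mem t ht x)
    rw [map_mul, map_mul, h t ht, map_inv] at e1
    calc t * (x⁻¹ * a x) = x⁻¹ * (x * t * x⁻¹) * a x := by group
      _ = x⁻¹ * (a x * t * (a x)⁻¹) * a x := by rw [e1]
      _ = x⁻¹ * a x * t := by group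
  exact h _ (h3 hxc)

end Cfsg.Agent.S0121
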