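import Mathlib
import Cfsg.Agent.H3.Fusion
import Cfsg.Statements.S0125

set_option autoImplicit false
open Cfsg

namespace Cfsg.Agent.S0125

/-- The centralizer of a self-centralizing normal subgroup A of a Sylow p-subgroup is the direct product of A with a normal p'-subgroup. -/
theorem result {G : Type*} [Group G] [Finite G] {p : ℕ} [Fact p.Prime] (R : Sylow p G) (A : Subgroup G) (hAR : A ≤ (R : Subgroup G)) (hAn : (R : Subgroup G) ≤ Subgroup.normalizer (A : Set G)) (hC : (R : Subgroup G) ⊓ Subgroup.centralizer (A : Set G) = A) : ∃ H : Subgroup G, H ≤ Subgroup.centralizer (A : Set G) ∧ Nat.Coprime (Nat.card H) p ∧ Subgroup.centralizer (A : Set G) ≤ Subgroup.normalizer (H : Set G) ∧ H ⊓ A = ⊥ ∧ H ⊔ A = Subgroup.centralizer (A : Set G) := by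
  set C := Subgroup.centralizer (A : Set G) with hCdef
  set N := Subgroup.normalizer (A : Set G) with hN
  have hCN : C ≤ N := by
    intro c hc
    rw [hN, Subgroup.mem_normalizer_iff]
    have key : ∀ a ∈ A, c * a * c⁻¹ = a := by
      intro a ha
      have := (Subgroup.mem_centralizer_iff.1 hc) a ha
      rw [← this]; group
    intro a
    constructor
    · intro ha; rw [key a ha]; exact ha
    · intro ha
      have h1 := key _ ha
      have h2 : c * a * c⁻¹ = a := mul_left_cancel (mul_right_cancel h1)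
      rwa [h2] at ha
  haveI hCn : (C.subgroupOf N).Normal := by rw [hCdef, hN]; infer_instance
  have hAC : A ≤ C := by rw [← hC]; exact inf_le_right
  -- index of A in C is prime to p
  have hidx : ¬ p ∣ A.relIndex C := by
    intro h
    have h1 : ((R : Subgroup G).subgroupOf N).relIndex (C.subgroupOf N) ∣ ((R : Subgroup G).subgroupOf N).index :=
      CfsgH3.relIndex_dvd_index_of_normal_right _ _
    rw [Subgroup.relIndex_subgroupOf hCN] at h1
    have h2 : (R : Subgroup G).relIndex C = A.relIndex C := by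
      rw [← Subgroup.inf_relIndex_right, hC]
    rw [h2] at h1
    exact (R.subtype hAn).not_dvd_index (h.trans h1)
  have hAp : IsPGroup p (A.subgroupOf C) := (R.2.to_le hAR).comap_of_injective C.subtype C.subtype_injective
  let S : Sylow p C := hAp.toSylow hidx
  have hS : (S : Subgroup C) = A.subgroupOf C := rfl
  have hcent : Subgroup.normalizer ((S : Subgroup C) : Set C) ≤ Subgroup.centralizer ((S : Subgroup C) : Set C) := by
    intro c _
    rw [Subgroup.mem_centralizer_iff]
    intro a ha
    apply Subtype.ext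
    have ha' : (a : G) ∈ A := ha
    exact (Subgroup.mem_centralizer_iff.1 c.2) a ha'
  obtain ⟨M, hMn, hMc⟩ := (CfsgH3.hasNPC_burnside S hcent).exists_complement S
  refine ⟨M.map C.subtype, ?_, ?_, ?_, ?_, ?_⟩
  · rintro _ ⟨y, -, rfl⟩; exact y.2
  · rw [Subgroup.card_map_of_injective C.subtype_injective, ← hMc.index_eq_card]
    exact ((Nat.Prime.coprime_iff_not_dvd Fact.out).2 S.not_dvd_index).symm
  · have hconj : ∀ c ∈ C, ∀ m ∈ M.map C.subtype, c * m * c⁻¹ ∈ M.map C.subtype := by
      rintro c hc _ ⟨m, hm, rfl⟩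
      exact ⟨⟨c, hc⟩ * m * ⟨c, hc⟩⁻¹, hMn.conj_mem m hm ⟨c, hc⟩, rfl⟩
    intro c hc
    rw [Subgroup.mem_normalizer_iff]
    intro m
    refine ⟨hconj c hc m, fun h => ?_⟩
    have := hconj c⁻¹ (inv_mem hc) _ h
    simpa [mul_assoc] using this
  · rw [eq_bot_iff]
    rintro _ ⟨⟨y, hy, rfl⟩, hyA⟩
    have h2 := Subgroup.disjoint_def.1 hMc.disjoint hy (show y ∈ (S : Subgroup C) from hyA)
    rw [h2]; simp
  · have h1 := hMc.sup_eq_top
    have h2 := congrArg (Subgroup.map C.subtype) h1
    rw [Subgroup.map_sup, ← MonoidHom.range_eq_map, Subgroup.range_subtype, hS, Subgroup.subgroupOf_map_subtype,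
      inf_eq_left.2 hAC] at h2
    exact h2

end Cfsg.Agent.S0125
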