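import Mathlib
import Cfsg.Agent.H3.Rank2
import Cfsg.Statements.S0127

set_option autoImplicit false
open Cfsg

namespace Cfsg.Agent.S0127

/-- For odd p, in a non-cyclic p-group with a cyclic subgroup of index p, the elements of order dividing p generate an elementary abelian subgroup of order p^2. -/
theorem result {R : Type*} [Group R] [Finite R] {p : ℕ} [Fact p.Prime] (hp : p ≠ 2) (hR : IsPGroup p R) (hnc : ¬ IsCyclic R) (C : Subgroup R) (hC : IsCyclic C) (hCi : C.index = p) : Cfsg.IsElementaryAbelian p (Subgroup.closure {x : R | x ^ p = 1}) ∧ Nat.card (Subgroup.closure {x : R | x ^ p = 1}) = p ^ 2 := by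
  obtain ⟨h1, h2⟩ := CfsgH3.cyclic_index hp hR hnc C hC hCi
  refine ⟨?_, h2⟩
  rw [CfsgH3.isElementaryAbelian_iff']
  refine ⟨?_, h1⟩
  intro a ha b hb
  have h3 : ∀ x y : Subgroup.closure {x : R | x ^ p = 1}, x * y = y * x := IsPGroup.commutative_of_card_eq_prime_sq h2
  exact congrArg Subtype.val (h3 ⟨a, ha⟩ ⟨b, hb⟩)

end Cfsg.Agent.S0127
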