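import Mathlib
import Cfsg.Agent.H3.Extra
import Cfsg.Agent.H1.CopExtra
import Cfsg.Statements.S0128

set_option autoImplicit false
open Cfsg

namespace Cfsg.Agent.S0128

universe u
open Subgroup CfsgH3 in
theorem card_le_of_exp {A : Type*} [Group A] [Finite A] {p : ℕ} [hp : Fact p.Prime] (hp2 : p ≠ 2) (he : ∀ a : A, a ^ p = 1)
    (hrk : ∀ E : Subgroup A, (∀ a ∈ E, ∀ b ∈ E, a * b = b * a) → Nat.card E ≤ p ^ 2) : Nat.card A ≤ p ^ 3 := by
  have hA : IsPGroup p A := fun a => ⟨1, by rw [pow_one]; exact he a⟩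
  obtain ⟨B, -, hBn, hBc, hBe, hBC⟩ := exists_max_elem hp2 hA ⊥ inferInstance (by
    intro a ha b hb; rw [mem_bot] at ha hb; rw [ha, hb]) (by intro b hb; rw [mem_bot] at hb; rw [hb, one_pow])
  have hC : centralizer (B : Set A) ≤ B := fun x hx => hBC x hx (he x)
  have h1 := hrk B hBc
  have h2 := centralizer_index_le hA hBc h1
  rw [← (centralizer (B : Set A)).card_mul_index]
  calc Nat.card (centralizer (B : Set A)) * (centralizer (B : Set A)).index ≤ p ^ 2 * p := 
        Nat.mul_le_mul ((Nat.card_le_card_of_injective _ (inclusion_injective hC)).trans h1) h2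
    _ = p ^ 3 := by ring

open Subgroup CfsgH3 in
theorem omega_rank2 {p : ℕ} [hp : Fact p.Prime] (hp3 : 3 < p) (n : ℕ) : ∀ (R : Type u) [Group R] [Finite R], Nat.card R = n → IsPGroup p R →
    (∀ E : Subgroup R, (∀ a ∈ E, ∀ b ∈ E, a * b = b * a) → (∀ a ∈ E, a ^ p = 1) → Nat.card E ≤ p ^ 2) → ∀ x y : R, x ^ p = 1 → y ^ p = 1 → (x * y) ^ p = 1 := by
  have hp2 : p ≠ 2 := by omega
  induction n using Nat.strong_induction_on with
  | _ n ih =>
  intro R _ _ hn hR hrk x y hx hy
  -- for a proper subgroup M, the elements of order p form a subgroup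
  have key : ∀ M : Subgroup R, M ≠ ⊤ → ∀ a ∈ M, ∀ b ∈ M, a ^ p = 1 → b ^ p = 1 → (a * b) ^ p = 1 := by
    intro M hM a ha b hb hap hbp
    have hMc : Nat.card M < n := by
      rw [← hn]; exact lt_of_lt_of_eq (card_lt_card_of_lt (lt_top_iff_ne_top.2 hM)) (by rw [card_top])
    have := ih _ hMc M rfl (hR.to_subgroup M) (by
      intro E hEc hEe
      have h1 := hrk (E.map M.subtype) (by
        rintro _ ⟨u, hu, rfl⟩ _ ⟨v, hv, rfl⟩
        exact congrArg Subtype.val (hEc u hu v hv)) (by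
        rintro _ ⟨u, hu, rfl⟩
        exact congrArg Subtype.val (hEe u hu))
      rwa [Nat.card_congr (E.equivMapOfInjective M.subtype M.subtype_injective).symm.toEquiv] at h1) ⟨a, ha⟩ ⟨b, hb⟩ (Subtype.ext hap) (Subtype.ext hbp)
    exact congrArg Subtype.val this
  by_cases hxt : zpowers x = ⊤
  · obtain ⟨k, hk⟩ : y ∈ zpowers x := by rw [hxt]; trivial
    have : Commute x y := by rw [← hk]; exact (Commute.refl x).zpow_right k
    rw [this.mul_pow, hx, hy, one_mul]
  by_cases hyt : zpowers y = ⊤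
  · obtain ⟨k, hk⟩ : x ∈ zpowers y := by rw [hyt]; trivial
    have : Commute x y := by rw [← hk]; exact (Commute.refl y).zpow_left k
    rw [this.mul_pow, hx, hy, one_mul]
  have hex : ∀ z : R, zpowers z ≠ ⊤ → z ^ p = 1 → ∃ A : Subgroup R, A.Normal ∧ z ∈ A ∧ (∀ a ∈ A, a ^ p = 1) ∧ A ≠ ⊤ := by
    intro z hz hzp
    obtain ⟨M, hM, hzM⟩ : ∃ M : Subgroup R, IsCoatom M ∧ zpowers z ≤ M := by
      rcases eq_top_or_exists_le_coatom (zpowers z) with h | ⟨M, hM, hzM⟩
      · exact absurd h hz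
      · exact ⟨M, hM, hzM⟩
    have hMn := coatom_normal hR hM
    refine ⟨{ carrier := {a | a ∈ M ∧ a ^ p = 1}, one_mem' := ⟨one_mem _, one_pow _⟩, mul_mem' := ?_, inv_mem' := ?_}, ?_, ?_, ?_, ?_⟩
    · rintro a b ⟨ha, hap⟩ ⟨hb, hbp⟩
      exact ⟨mul_mem ha hb, key M hM.1 a ha b hb hap hbp⟩
    · rintro a ⟨ha, hap⟩
      exact ⟨inv_mem ha, by rw [inv_pow, hap, inv_one]⟩
    · constructor
      rintro a ⟨ha, hap⟩ g
      exact ⟨hMn.conj_mem a ha g, by rw [conj_pow, hap]; group⟩
    · exact ⟨hzM (mem_zpowers z), hzp⟩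
    · rintro a ⟨ha, hap⟩; exact hap
    · intro h
      apply hM.1
      rw [eq_top_iff, ← h]
      rintro a ⟨ha, -⟩
      exact ha
  obtain ⟨A, hAn, hxA, hAe, hAt⟩ := hex x hxt hx
  obtain ⟨B, hBn, hyB, hBe, hBt⟩ := hex y hyt hy
  by_cases hgen : closure {x, y} = ⊤
  swap
  · exact key _ hgen x (Subgroup.subset_closure (by simp)) y (Subgroup.subset_closure (by simp)) hx hy
  have hcardA : ∀ C : Subgroup R, (∀ a ∈ C, a ^ p = 1) → Nat.card C ≤ p ^ 3 := by
    intro C hCe
    apply card_le_of_exp hp2 (fun a => Subtype.ext (hCe a a.2))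
    intro E hEc
    have h1 := hrk (E.map C.subtype) (by
        rintro _ ⟨u, hu, rfl⟩ _ ⟨v, hv, rfl⟩
        exact congrArg Subtype.val (hEc u hu v hv)) (by
        rintro _ ⟨u, hu, rfl⟩
        exact hCe u u.2)
    rwa [Nat.card_congr (E.equivMapOfInjective C.subtype C.subtype_injective).symm.toEquiv] at h1
  -- commutator R ≤ A ⊓ B
  have hcomA : ∀ C : Subgroup R, C.Normal → (x ∈ C ∨ y ∈ C) → _root_.commutator R ≤ C := by
    intro C hCn hxy
    haveI := hCn
    have h1 : ∃ z : R, ∀ w : R ⧸ C, w ∈ zpowers (QuotientGroup.mk z : R ⧸ C) := by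
      rcases hxy with hxC | hyC
      · refine ⟨y, ?_⟩
        intro w
        obtain ⟨w, rfl⟩ := QuotientGroup.mk_surjective w
        have h2 : closure {x, y} ≤ (zpowers (QuotientGroup.mk y : R ⧸ C)).comap (QuotientGroup.mk' C) := by
          rw [closure_le]
          rintro v (rfl | rfl)
          · show (QuotientGroup.mk v : R ⧸ C) ∈ zpowers (QuotientGroup.mk y : R ⧸ C)
            rw [(QuotientGroup.eq_one_iff v).2 hxC]; exact one_mem _
          · exact mem_zpowers _
        exact h2 (by rw [hgen]; trivial)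
      · refine ⟨x, ?_⟩
        intro w
        obtain ⟨w, rfl⟩ := QuotientGroup.mk_surjective w
        have h2 : closure {x, y} ≤ (zpowers (QuotientGroup.mk x : R ⧸ C)).comap (QuotientGroup.mk' C) := by
          rw [closure_le]
          rintro v (rfl | rfl)
          · exact mem_zpowers _
          · show (QuotientGroup.mk v : R ⧸ C) ∈ zpowers (QuotientGroup.mk x : R ⧸ C)
            rw [(QuotientGroup.eq_one_iff v).2 hyC]; exact one_mem _
        exact h2 (by rw [hgen]; trivial)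
    obtain ⟨z, hz⟩ := h1
    have h3 : ∀ a b : R ⧸ C, a * b = b * a := by
      intro a b
      obtain ⟨i, rfl⟩ := hz a
      obtain ⟨j, rfl⟩ := hz b
      exact ((Commute.refl _).zpow_zpow i j).eq
    unfold _root_.commutator
    rw [commutator_le]
    intro a _ b _
    rw [← QuotientGroup.eq_one_iff, commutatorElement_def, QuotientGroup.mk_mul, QuotientGroup.mk_mul, QuotientGroup.mk_mul, h3 (QuotientGroup.mk a) (QuotientGroup.mk b), 
      QuotientGroup.mk_inv, QuotientGroup.mk_inv]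
    group
  have hcAB : _root_.commutator R ≤ A ⊓ B := le_inf (hcomA A hAn (Or.inl hxA)) (hcomA B hBn (Or.inr hyB))
  have hABlt : A ⊓ B < A := by
    refine lt_of_le_of_ne inf_le_left ?_
    intro h
    have hxB : x ∈ B := by
      have : A ≤ B := by rw [← h]; exact inf_le_right
      exact this hxA
    apply hBt
    rw [eq_top_iff, ← hgen, closure_le]
    rintro v (rfl | rfl)
    · exact hxB
    · exact hyB
  have hc2 : Nat.card (_root_.commutator R) < p ^ 3 := by
    calc Nat.card (_root_.commutator R) ≤ Nat.card (A ⊓ B : Subgroup R) := Nat.card_le_card_of_injective _ (inclusion_injective hcAB)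
      _ < Nat.card A := card_lt_card_of_lt hABlt
      _ ≤ p ^ 3 := hcardA A hAe
  -- descending
  have hdesc : ∀ (N : Subgroup R) (k : ℕ), N.Normal → Nat.card N < p ^ (k + 1) → Nat.card ↥⁅N, (⊤ : Subgroup R)⁆ < p ^ k ∨ ⁅N, (⊤ : Subgroup R)⁆ = ⊥ := by
    intro N k hN hNc
    by_cases hNb : N = ⊥
    · right; rw [hNb]; exact commutator_bot_left _
    left
    have h1 := CfsgH1.commutator_lt_of_pgroup (p := p) (hR.to_subgroup N) (hR.to_subgroup ⊤) (by rw [normalizer_eq_top]) hNb
    have h2 := card_lt_card_of_lt h1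
    obtain ⟨i, hi⟩ := IsPGroup.iff_card.1 (hR.to_subgroup N)
    obtain ⟨j, hj⟩ := IsPGroup.iff_card.1 (hR.to_subgroup ⁅N, (⊤ : Subgroup R)⁆)
    rw [hi] at h2 hNc
    rw [hj] at h2 ⊢
    have h3 := (Nat.pow_lt_pow_iff_right hp.out.one_lt).1 h2
    have h4 := (Nat.pow_lt_pow_iff_right hp.out.one_lt).1 hNc
    exact (Nat.pow_lt_pow_iff_right hp.out.one_lt).2 (by omega)
  have hcl : ⁅⁅_root_.commutator R, (⊤ : Subgroup R)⁆, (⊤ : Subgroup R)⁆ = ⊥ := by
    rcases hdesc (_root_.commutator R) 2 inferInstance hc2 with h1 | h1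
    · rcases hdesc _ 1 (commutator_normal _ _) h1 with h2 | h2
      · rw [← card_eq_one]
        have h3 : 0 < Nat.card ↥⁅⁅_root_.commutator R, (⊤ : Subgroup R)⁆, (⊤ : Subgroup R)⁆ := Nat.card_pos
        obtain ⟨j, hj⟩ := IsPGroup.iff_card.1 (hR.to_subgroup ⁅⁅_root_.commutator R, (⊤ : Subgroup R)⁆, (⊤ : Subgroup R)⁆)
        rw [hj, pow_one] at h2
        have : j = 0 := by
          by_contra hj0
          have : p ^ 1 ≤ p ^ j := Nat.pow_le_pow_right hp.out.pos (by omega)
          rw [pow_one] at this; omega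
        rw [hj, this, pow_zero]
      · exact h2
    · rw [h1]; exact commutator_bot_left _
  exact mul_pow_one hp.out (Or.inr ⟨hp3, hcl⟩) hx hy

/-- For p > 3, in a p-group of p-rank at most 2 the elements of order dividing p generate a subgroup of exponent dividing p. -/
theorem result {R : Type*} [Group R] [Finite R] {p : ℕ} [Fact p.Prime] (hp : 3 < p) (hR : IsPGroup p R) (hrk : ∀ E : Subgroup R, Cfsg.IsElementaryAbelian p E → Nat.card E ≤ p ^ 2) (g : R) (hg : g ∈ Subgroup.closure {x : R | x ^ p = 1}) : g ^ p = 1 := by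
  have key := omega_rank2 hp _ R rfl hR (fun E h1 h2 => hrk E (CfsgH3.isElementaryAbelian_iff'.2 ⟨h1, h2⟩))
  induction hg using Subgroup.closure_induction with
  | mem x hx => exact hx
  | one => simp
  | mul x y _ _ hx hy => exact key x y hx hy
  | inv x _ hx => rw [inv_pow, hx, inv_one]

end Cfsg.Agent.S0128
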