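import Mathlib
import Cfsg.Agent.H3.Extra
import Cfsg.Statements.S0129

set_option autoImplicit false
open Cfsg

namespace Cfsg.Agent.S0129

open Subgroup CfsgH3 in
theorem cent_bound {G : Type*} [Group G] [Finite G] {p : ℕ} [hp : Fact p.Prime] (hG : IsPGroup p G) (a : ℕ) :
    ∀ N : Subgroup G, N.Normal → Nat.card N = p ^ a → (centralizer (N : Set G)).index ≤ p ^ (a * (a - 1) / 2) := by
  induction a with
  | zero =>
    intro N _ hN
    have h1 : N = ⊥ := card_eq_one.1 (by rw [hN, pow_zero])
    have : centralizer (N : Set G) = ⊤ := by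
      rw [h1, eq_top_iff]
      intro g _
      rw [mem_centralizer_iff]
      intro z hz
      rw [SetLike.mem_coe, mem_bot] at hz
      rw [hz]; simp
    rw [this, index_top]; simp
  | succ a ih =>
    intro N hNn hN
    obtain ⟨M, hMN, hMn, hMc⟩ := exists_normal_card hG N a (by rw [hN]; exact Nat.pow_le_pow_right hp.out.pos (Nat.le_succ a))
    have h1 := ih M hMn hMc
    have hlt : M < N := by
      refine lt_of_le_of_ne hMN ?_
      rintro rfl
      rw [hMc] at hN
      exact absurd (Nat.pow_right_injective hp.out.two_le hN) (by omega)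
    obtain ⟨x, hxN, hxM⟩ := SetLike.exists_of_lt hlt
    have hNgen : N = M ⊔ zpowers x := by
      symm
      apply eq_of_le_of_card_ge
      · exact sup_le hMN (by rw [zpowers_le]; exact hxN)
      · have h1 : M < M ⊔ zpowers x := by
          refine lt_of_le_of_ne le_sup_left ?_
          intro h0
          apply hxM; rw [h0]; exact mem_sup_right (mem_zpowers x)
        have h2 := card_lt_card_of_lt h1
        obtain ⟨j, hj⟩ := IsPGroup.iff_card.1 (hG.to_subgroup (M ⊔ zpowers x))
        rw [hN, hj]
        apply Nat.pow_le_pow_right hp.out.pos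
        rw [hMc, hj] at h2
        exact (Nat.pow_lt_pow_iff_right hp.out.one_lt).1 h2
    have hxc : ∀ g : G, g * x * g⁻¹ * x⁻¹ ∈ M := by
      intro g
      have hQ : IsPGroup p (G ⧸ M) := hG.to_quotient M
      have hAn' : (N.map (QuotientGroup.mk' M)).Normal := hNn.map _ (QuotientGroup.mk'_surjective M)
      have hcd : Nat.card (N.map (QuotientGroup.mk' M)) ≤ p := by
        have h5 : Nat.card ((N.map (QuotientGroup.mk' M)).comap (QuotientGroup.mk' M)) = _ := CfsgH2.card_comap_mk' M _
        rw [comap_map_eq, QuotientGroup.ker_mk', sup_eq_left.2 hMN, hN, hMc, pow_succ, mul_comm] at h5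
        exact (Nat.eq_of_mul_eq_mul_right (pow_pos hp.out.pos a) h5).ge
      have h6 := le_center_of_card_le hQ hcd
      have h7 : (QuotientGroup.mk x : G ⧸ M) ∈ center (G ⧸ M) := h6 ⟨x, hxN, rfl⟩
      rw [mem_center_iff] at h7
      have h8 := h7 (QuotientGroup.mk g)
      rw [← QuotientGroup.eq_one_iff, QuotientGroup.mk_mul, QuotientGroup.mk_mul, QuotientGroup.mk_mul, h8, QuotientGroup.mk_inv, QuotientGroup.mk_inv]
      group
    have h2 : centralizer (N : Set G) = centralizer ({x} : Set G) ⊓ centralizer (M : Set G) := by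
      apply le_antisymm
      · apply le_inf
        · exact centralizer_le (by intro y hy; rw [Set.mem_singleton_iff] at hy; rw [hy]; exact hxN)
        · exact centralizer_le hMN
      · intro g hg
        obtain ⟨hg1, hg2⟩ := mem_inf.1 hg
        rw [mem_centralizer_singleton_iff] at hg1
        have h3 : N ≤ centralizer ({g} : Set G) := by
          rw [hNgen, sup_le_iff, zpowers_le, mem_centralizer_singleton_iff]
          refine ⟨?_, hg1.symm⟩
          intro y hy
          rw [mem_centralizer_singleton_iff]
          exact mem_centralizer_iff.1 hg2 y hy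
        rw [mem_centralizer_iff]
        intro y hy
        have := h3 hy
        rw [mem_centralizer_singleton_iff] at this
        exact this
    have h4 : (centralizer (N : Set G)).relIndex (centralizer (M : Set G)) ≤ p ^ a := by
      rw [h2, inf_relIndex_right, ← hMc]
      exact cent_relIndex_le _ M x (fun g _ => hxc g)
    rw [← relIndex_mul_index (show centralizer (N : Set G) ≤ centralizer (M : Set G) from centralizer_le hMN)]
    calc (centralizer (N : Set G)).relIndex (centralizer (M : Set G)) * (centralizer (M : Set G)).index ≤ p ^ a * p ^ (a * (a - 1) / 2) := 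
          Nat.mul_le_mul h4 h1
      _ = p ^ (a + a * (a - 1) / 2) := by rw [pow_add]
      _ = _ := by
        congr 1
        rcases Nat.eq_zero_or_pos a with rfl | ha
        · simp
        · obtain ⟨b, rfl⟩ : ∃ b, a = b + 1 := ⟨a - 1, by omega⟩
          simp only [Nat.add_sub_cancel]
          have : (b + 1 + 1) * (b + 1) = (b + 1) * b + (b + 1) * 2 := by ring
          rw [this, Nat.add_mul_div_right _ _ (by norm_num : 0 < 2), add_comm]

/-- The order of a p-group is bounded by p^(a(a+1)/2) when it has a maximal normal abelian subgroup of order p^a. -/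
theorem result {G : Type*} [Group G] [Finite G] {p : ℕ} [Fact p.Prime] (hG : IsPGroup p G) (A : Subgroup G) [A.Normal] (hA : IsMulCommutative A) (hmax : ∀ B : Subgroup G, B.Normal → IsMulCommutative B → A ≤ B → B = A) (a : ℕ) (ha : Nat.card A = p ^ a) : Nat.card G ≤ p ^ (a * (a + 1) / 2) := by
  open Subgroup CfsgH3 in
  have hAc : ∀ x ∈ A, ∀ y ∈ A, x * y = y * x := by
    intro x hx y hy
    exact congrArg Subtype.val (hA.is_comm.comm (⟨x, hx⟩ : A) ⟨y, hy⟩)
  have hAC : A ≤ Subgroup.centralizer (A : Set G) := by
    intro x hx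
    rw [Subgroup.mem_centralizer_iff]
    intro y hy
    exact hAc y hy x hx
  have hCA : Subgroup.centralizer (A : Set G) = A := by
    by_contra hne
    have hCn : ((Subgroup.centralizer (A : Set G)).map (QuotientGroup.mk' A)).Normal := 
      (inferInstance : (Subgroup.centralizer (A : Set G)).Normal).map _ (QuotientGroup.mk'_surjective A)
    obtain ⟨z, hz1, hz2, hz3⟩ := CfsgH3.exists_center_mem (hG.to_quotient A) ((Subgroup.centralizer (A : Set G)).map (QuotientGroup.mk' A)) (by
      intro h0
      rw [Subgroup.map_eq_bot_iff, QuotientGroup.ker_mk'] at h0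
      exact hne (le_antisymm h0 hAC))
    obtain ⟨c, hc, rfl⟩ := hz1
    have hcomm : ∀ b ∈ A, b * c = c * b := Subgroup.mem_centralizer_iff.1 hc
    have hcA : c ∉ A := by
      intro h
      have : (QuotientGroup.mk' A) c = 1 := (QuotientGroup.eq_one_iff c).2 h
      rw [this, orderOf_one] at hz3
      exact (Fact.out : p.Prime).one_lt.ne hz3
    have hB := hmax (A ⊔ Subgroup.zpowers c) ?_ ?_ le_sup_left
    · apply hcA
      rw [← hB]; exact Subgroup.mem_sup_right (Subgroup.mem_zpowers c)
    · constructor
      intro w hw g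
      rw [Subgroup.mem_sup_of_normal_left] at hw
      obtain ⟨b, hb, _, ⟨k, rfl⟩, rfl⟩ := hw
      have h1 : g * c ^ k * g⁻¹ ∈ A ⊔ Subgroup.zpowers c := by
        rw [← conj_zpow]
        apply zpow_mem
        have : g * c * g⁻¹ = (g * c * g⁻¹ * c⁻¹) * c := by group
        rw [this]
        refine mul_mem (Subgroup.mem_sup_left ?_) (Subgroup.mem_sup_right (Subgroup.mem_zpowers c))
        rw [← QuotientGroup.eq_one_iff]
        have h2 := Subgroup.mem_center_iff.1 hz2 (QuotientGroup.mk g)
        rw [QuotientGroup.mk'_apply] at h2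
        rw [QuotientGroup.mk_mul, QuotientGroup.mk_mul, QuotientGroup.mk_mul, h2, QuotientGroup.mk_inv, QuotientGroup.mk_inv]
        group
      have h2 : g * (b * c ^ k) * g⁻¹ = (g * b * g⁻¹) * (g * c ^ k * g⁻¹) := by group
      show g * (b * c ^ k) * g⁻¹ ∈ _
      rw [h2]
      exact mul_mem (Subgroup.mem_sup_left (‹A.Normal›.conj_mem b hb g)) h1
    · constructor
      constructor
      rintro ⟨x, hx⟩ ⟨y, hy⟩
      apply Subtype.ext
      show x * y = y * x
      rw [Subgroup.mem_sup_of_normal_left] at hx hy
      obtain ⟨a1, ha1, _, ⟨k, rfl⟩, rfl⟩ := hx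
      obtain ⟨b1, hb1, _, ⟨l, rfl⟩, rfl⟩ := hy
      have c1 : Commute a1 b1 := hAc a1 ha1 b1 hb1
      have c2 : Commute a1 c := hcomm a1 ha1
      have c3 : Commute b1 c := hcomm b1 hb1
      have c4 : Commute (a1 * c ^ k) (b1 * c ^ l) := by
        apply Commute.mul_left
        · exact c1.mul_right (c2.zpow_right l)
        · exact (c3.symm.zpow_left k).mul_right ((Commute.refl c).zpow_zpow k l)
      exact c4.eq
  have h1 := cent_bound hG a A inferInstance ha
  rw [hCA] at h1
  have h2 := A.card_mul_index
  rw [← h2, ha]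
  calc p ^ a * A.index ≤ p ^ a * p ^ (a * (a - 1) / 2) := Nat.mul_le_mul_left _ h1
    _ = p ^ (a + a * (a - 1) / 2) := by rw [pow_add]
    _ = _ := by
      congr 1
      rcases Nat.eq_zero_or_pos a with rfl | ha
      · simp
      · obtain ⟨b, rfl⟩ : ∃ b, a = b + 1 := ⟨a - 1, by omega⟩
        simp only [Nat.add_sub_cancel]
        have : (b + 1) * (b + 1 + 1) = (b + 1) * b + (b + 1) * 2 := by ring
        rw [this, Nat.add_mul_div_right _ _ (by norm_num : 0 < 2), add_comm]

end Cfsg.Agent.S0129
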