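import Mathlib
import Cfsg.Agent.H3.Fusion
import Cfsg.Statements.S0131

set_option autoImplicit false
open Cfsg

namespace Cfsg.Agent.S0131

/-- P/P' has a normal complement in G exactly when the focal subgroup G' ∩ P is as small as possible, namely P'. -/
theorem result {G : Type*} [Group G] [Finite G] {p : ℕ} [Fact p.Prime] (P : Sylow p G) : (∃ N : Subgroup G, N.Normal ∧ N ⊓ (P : Subgroup G) = ⁅(P : Subgroup G), (P : Subgroup G)⁆ ∧ N ⊔ (P : Subgroup G) = ⊤) ↔ commutator G ⊓ (P : Subgroup G) = ⁅(P : Subgroup G), (P : Subgroup G)⁆ := by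
  constructor
  · rintro ⟨N, hN, h1, h2⟩
    apply le_antisymm
    · rw [← h1]
      apply inf_le_inf_right
      rw [commutator_def, Subgroup.commutator_le]
      intro a _ b _
      have ha : a ∈ N ⊔ (P : Subgroup G) := by rw [h2]; trivial
      have hb : b ∈ N ⊔ (P : Subgroup G) := by rw [h2]; trivial
      obtain ⟨m, hm, s, hs, rfl⟩ := Subgroup.mem_sup_of_normal_left.1 ha
      obtain ⟨m', hm', s', hs', rfl⟩ := Subgroup.mem_sup_of_normal_left.1 hb
      rw [← QuotientGroup.eq_one_iff, ← QuotientGroup.mk'_apply, map_commutatorElement]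
      have e1 : (QuotientGroup.mk' N) (m * s) = (QuotientGroup.mk' N) s := by
        rw [map_mul, QuotientGroup.mk'_apply, (QuotientGroup.eq_one_iff m).2 hm, one_mul]
      have e2 : (QuotientGroup.mk' N) (m' * s') = (QuotientGroup.mk' N) s' := by
        rw [map_mul, QuotientGroup.mk'_apply, (QuotientGroup.eq_one_iff m').2 hm', one_mul]
      rw [e1, e2, ← map_commutatorElement, QuotientGroup.mk'_apply, QuotientGroup.eq_one_iff]
      have h3 := Subgroup.commutator_mem_commutator hs hs'
      rw [← h1] at h3
      exact h3.1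
    · apply le_inf
      · exact Subgroup.commutator_mono le_top le_top
      · exact Subgroup.commutator_le_self _
  · intro h
    refine ⟨(P : Subgroup G).transferFocal.ker, inferInstance, ?_, ?_⟩
    · rw [Subgroup.ker_transferFocal_inf_eq_focalSubgroup, ← Subgroup.commutator_inf_eq_focalSubgroup, h]
    · rw [eq_top_iff]
      intro g _
      obtain ⟨y, hy⟩ := Subgroup.focalSubgroupOf.pow_index_surjective P ((P : Subgroup G).transferFocal g)
      obtain ⟨x, rfl⟩ := QuotientGroup.mk_surjective y
      have h1 := (P : Subgroup G).transferFocal_eq_pow x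
      have h2 : (P : Subgroup G).transferFocal x = (P : Subgroup G).transferFocal g := by rw [← hy]; exact h1
      have h3 : g * (x : G)⁻¹ ∈ (P : Subgroup G).transferFocal.ker := by
        rw [MonoidHom.mem_ker, map_mul, map_inv, h2, mul_inv_cancel]
      have h4 : g = g * (x : G)⁻¹ * x := by group
      rw [h4]
      exact mul_mem (Subgroup.mem_sup_left h3) (Subgroup.mem_sup_right x.2)

end Cfsg.Agent.S0131
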