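import Mathlib
import Cfsg.Agent.H3.Extra
import Cfsg.Agent.H3.Frob
import Cfsg.Agent.H3.Fusion
import Cfsg.Agent.H3.NilNPC
import Cfsg.Agent.H1.Fit
import Cfsg.Statements.S0132

set_option autoImplicit false
open Cfsg

namespace Cfsg.Agent.S0132

/-- A minimal non-p-nilpotent finite group is a minimal non-nilpotent group with a normal Sylow p-subgroup. -/
theorem result {G : Type*} [Group G] [Finite G] {p : ℕ} [Fact p.Prime] (h1 : ¬ Cfsg.HasNormalPComplement p G) (h2 : ∀ H : Subgroup G, H ≠ ⊤ → Cfsg.HasNormalPComplement p H) : (∀ H : Subgroup G, H ≠ ⊤ → Group.IsNilpotent H) ∧ ¬ Group.IsNilpotent G ∧ ∀ P : Sylow p G, (P : Subgroup G).Normal := by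
  classical
  have h1' : ¬ CfsgH3.HasNPC p G := fun h => h1 (CfsgH3.hasNPC_iff.2 h)
  have h2' : ∀ H : Subgroup G, H ≠ ⊤ → CfsgH3.HasNPC p H := fun H hH => CfsgH3.hasNPC_iff.1 (h2 H hH)
  obtain ⟨X, hX, g, hgN, hgc, hgC⟩ : ∃ X : Subgroup G, IsPGroup p X ∧ ∃ g ∈ Subgroup.normalizer (X : Set G), (orderOf g).Coprime p ∧ 
      g ∉ Subgroup.centralizer (X : Set G) := by
    by_contra hno
    push Not at hno
    exact h1' (CfsgH3.hasNPC_frobenius hno)
  -- X ⊔ zpowers g = ⊤
  have hgX : Subgroup.zpowers g ≤ Subgroup.normalizer (X : Set G) := by rwa [Subgroup.zpowers_le]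
  have htop : X ⊔ Subgroup.zpowers g = ⊤ := by
    by_contra hne
    have h3 := h2' _ hne
    apply hgC
    have hgH : g ∈ X ⊔ Subgroup.zpowers g := Subgroup.mem_sup_right (Subgroup.mem_zpowers g)
    have hXH : X ≤ X ⊔ Subgroup.zpowers g := le_sup_left
    have hn : (X.subgroupOf (X ⊔ Subgroup.zpowers g)).Normal := by
      apply CfsgH1.normal_subgroupOf_of_le_normalizer
      exact sup_le Subgroup.le_normalizer hgX
    have h4 := h3.centralizes (X := X.subgroupOf (X ⊔ Subgroup.zpowers g)) hX.comap_subtype (g := ⟨g, hgH⟩) (by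
      rw [Subgroup.normalizer_eq_top]; trivial) (by rw [Subgroup.orderOf_mk]; exact hgc)
    rw [Subgroup.mem_centralizer_iff] at h4 ⊢
    intro x hx
    exact congrArg Subtype.val (h4 ⟨x, hXH hx⟩ (by rw [SetLike.mem_coe, Subgroup.mem_subgroupOf]; exact hx))
  haveI hXn : X.Normal := by
    rw [← Subgroup.normalizer_eq_top_iff, eq_top_iff, ← htop]
    exact sup_le Subgroup.le_normalizer hgX
  -- G/X cyclic of order prime to p
  have hidx : X.index ∣ orderOf g := by
    have h3 : X.relIndex (X ⊔ Subgroup.zpowers g) = X.relIndex (Subgroup.zpowers g) := by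
      rw [sup_comm]; exact Subgroup.relIndex_sup_right (Subgroup.zpowers g) X
    rw [htop, Subgroup.relIndex_top_right] at h3
    rw [h3, ← Nat.card_zpowers]
    exact Subgroup.relIndex_dvd_card X _
  have hXS : ∀ P : Sylow p G, (P : Subgroup G) = X := by
    intro P
    have hXP : X ≤ P := (CfsgH2.le_pCore hXn hX).trans (CfsgH1.pCore_le_sylow P)
    obtain ⟨k, hk⟩ := IsPGroup.iff_card.1 P.isPGroup'
    have h3 : X.relIndex (P : Subgroup G) ∣ p ^ k := by rw [← hk]; exact Subgroup.relIndex_dvd_card _ _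
    have h4 : X.relIndex (P : Subgroup G) ∣ orderOf g := (Dvd.intro _ (Subgroup.relIndex_mul_index hXP)).trans hidx
    have h5 : X.relIndex (P : Subgroup G) = 1 := by
      apply Nat.eq_one_of_dvd_coprimes (hgc.pow_right k) h4 h3
    rw [Subgroup.relIndex_eq_one] at h5
    exact le_antisymm h5 hXP
  refine ⟨?_, ?_, ?_⟩
  · intro M hM
    obtain ⟨N, hN, hNc, k, hk⟩ := h2' M hM
    have h3 : IsPGroup p (M ⧸ N) := CfsgH3.isPGroup_quotient_of_index hk
    haveI : Group.IsNilpotent (M ⧸ N) := h3.isNilpotent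
    have hcyc : IsCyclic (G ⧸ X) := by
      refine ⟨QuotientGroup.mk g, ?_⟩
      intro y
      obtain ⟨y, rfl⟩ := QuotientGroup.mk_surjective y
      have hy : y ∈ X ⊔ Subgroup.zpowers g := by rw [htop]; trivial
      rw [Subgroup.mem_sup_of_normal_left] at hy
      obtain ⟨x, hx, _, ⟨j, rfl⟩, rfl⟩ := hy
      refine ⟨j, ?_⟩
      show (QuotientGroup.mk g : G ⧸ X) ^ j = QuotientGroup.mk (x * g ^ j)
      rw [QuotientGroup.mk_mul, (QuotientGroup.eq_one_iff x).2 hx, one_mul, QuotientGroup.mk_zpow]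
    haveI : Group.IsNilpotent (G ⧸ X) := by
      letI : CommGroup (G ⧸ X) := IsCyclic.commGroup
      infer_instance
    let f : M →* (M ⧸ N) × (G ⧸ X) := (QuotientGroup.mk' N).prod ((QuotientGroup.mk' X).comp M.subtype)
    have hf : Function.Injective f := by
      rw [injective_iff_map_eq_one]
      intro m hm
      have e1 : m ∈ N := (QuotientGroup.eq_one_iff m).1 (congrArg Prod.fst hm)
      have e2 : (m : G) ∈ X := (QuotientGroup.eq_one_iff (m : G)).1 (congrArg Prod.snd hm)
      obtain ⟨j, hj⟩ := hX ⟨_, e2⟩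
      apply Subtype.ext
      apply CfsgH3.eq_one_of_coprime_of_pow (p := p) (k := j) _ (congrArg Subtype.val hj)
      show (orderOf (m : G)).Coprime p
      rw [Subgroup.orderOf_coe m]
      have h6 := orderOf_dvd_natCard (⟨_, e1⟩ : N)
      rw [Subgroup.orderOf_mk] at h6
      exact Nat.Coprime.coprime_dvd_left h6 hNc
    exact Subgroup.isNilpotent_of_ker_le_center f (by rw [(MonoidHom.ker_eq_bot_iff f).2 hf]; exact bot_le)
  · intro hnil
    exact h1' CfsgH3.hasNPC_of_isNilpotent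
  · intro P
    rw [hXS P]; exact hXn

end Cfsg.Agent.S0132
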