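import Cfsg.Statements.S0138
import Cfsg.Agent.H4.RepEquiv

set_option autoImplicit false
open Cfsg

namespace Cfsg.Agent.S0138

/-- A character value has absolute value equal to the degree exactly when the group element acts by a scalar. -/
theorem result {G : Type*} [Group G] [Finite G] {V : Type*} [AddCommGroup V] [Module ℂ V] [FiniteDimensional ℂ V] (ρ : Representation ℂ G V) (g : G) : ‖ρ.character g‖ = (Module.finrank ℂ V : ℝ) ↔ ∃ ω : ℂ, ρ g = ω • (LinearMap.id : V →ₗ[ℂ] V) := by
  constructor
  · exact CfsgH4.exists_scalar_of_norm ρ g
  · rintro ⟨ω, hω⟩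
    by_cases hn : Module.finrank ℂ V = 0
    · haveI := Module.finrank_zero_iff.1 hn
      have : ρ g = 0 := by apply LinearMap.ext; intro v; exact Subsingleton.elim _ _
      simp [Representation.character, this, hn]
    · have h1 : ω ^ orderOf g = 1 := by
        have h2 := CfsgH4.rep_pow_orderOf ρ g
        have hnt : Nontrivial V := Module.nontrivial_of_finrank_pos (R := ℂ) (Nat.pos_of_ne_zero hn)
        obtain ⟨v, hv⟩ := exists_ne (0 : V)
        have h3 : ∀ k : ℕ, (ρ g ^ k) v = ω ^ k • v := by
          intro k
          induction k with
          | zero => simp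
          | succ k ih =>
            rw [pow_succ', Module.End.mul_apply, ih, map_smul, hω]
            simp [smul_smul, pow_succ]
        have h4 := h3 (orderOf g)
        rw [h2] at h4
        have h5 : (ω ^ orderOf g - 1) • v = 0 := by
          rw [sub_smul, ← h4]; simp
        rcases smul_eq_zero.1 h5 with h6 | h6
        · exact sub_eq_zero.1 h6
        · exact absurd h6 hv
      have h2 : ‖ω‖ = 1 := CfsgH4.norm_of_pow_orderOf h1
      simp [Representation.character, hω, h2]

end Cfsg.Agent.S0138
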