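import Cfsg.Statements.S0167
import Cfsg.Agent.H4.Mono

set_option autoImplicit false
open Cfsg

namespace Cfsg.Agent.S0167

theorem card_comm_pairs {G : Type*} [Group G] [Fintype G] (g : G) :
    (Nat.card {p : G × G // g = p.1 * p.2 * p.1⁻¹ * p.2⁻¹} : ℂ) =
      (Nat.card G : ℂ) * ∑ χ : IrrCharacter G, (χ : G → ℂ) g / (χ : G → ℂ) 1 := by
  classical
  have hcf : IsClassFunction G
      (fun g => (Nat.card {p : G × G // g = p.1 * p.2 * p.1⁻¹ * p.2⁻¹} : ℂ)) := by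
    intro x y
    have : Nat.card {p : G × G // y * x * y⁻¹ = p.1 * p.2 * p.1⁻¹ * p.2⁻¹} =
        Nat.card {p : G × G // x = p.1 * p.2 * p.1⁻¹ * p.2⁻¹} := by
      refine Nat.card_congr ⟨fun s => ⟨(y⁻¹ * s.1.1 * y, y⁻¹ * s.1.2 * y), ?_⟩,
        fun s => ⟨(y * s.1.1 * y⁻¹, y * s.1.2 * y⁻¹), ?_⟩, ?_, ?_⟩
      · have h1 := s.2
        have h2 : x = y⁻¹ * (y * x * y⁻¹) * y := by group
        refine h2.trans ?_
        refine (congrArg (fun z => y⁻¹ * z * y) h1).trans ?_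
        simp only; group
      · have h1 := s.2
        refine (congrArg (fun z => y * z * y⁻¹) h1).trans ?_
        simp only; group
      · intro s; apply Subtype.ext; apply Prod.ext
        · show y * (y⁻¹ * s.1.1 * y) * y⁻¹ = s.1.1; group
        · show y * (y⁻¹ * s.1.2 * y) * y⁻¹ = s.1.2; group
      · intro s; apply Subtype.ext; apply Prod.ext
        · show y⁻¹ * (y * s.1.1 * y⁻¹) * y = s.1.1; group
        · show y⁻¹ * (y * s.1.2 * y⁻¹) * y = s.1.2; group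
    simp only [this]
  rw [CfsgH4.classFun_expand_apply hcf g, Finset.mul_sum]
  refine Finset.sum_congr rfl fun χ _ => ?_
  have hχ := χ.2
  have hone := CfsgH4.IsIrr.one_ne_zero hχ
  have hG := CfsgH4.card_ne_zero G
  have h2 : ∑ g : G, (Nat.card {p : G × G // g = p.1 * p.2 * p.1⁻¹ * p.2⁻¹} : ℂ) *
      (starRingEnd ℂ) ((χ : G → ℂ) g) = ∑ p : G × G, (starRingEnd ℂ) ((χ : G → ℂ)
        (p.1 * p.2 * p.1⁻¹ * p.2⁻¹)) := by
    rw [← Finset.sum_fiberwise (s := (Finset.univ : Finset (G × G)))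
      (g := fun p : G × G => p.1 * p.2 * p.1⁻¹ * p.2⁻¹)]
    refine Finset.sum_congr rfl fun x _ => ?_
    rw [Finset.sum_congr rfl (g := fun _ => (starRingEnd ℂ) ((χ : G → ℂ) x))
      (fun p hp => by rw [(Finset.mem_filter.1 hp).2]), Finset.sum_const, nsmul_eq_mul]
    congr 2
    rw [Nat.card_eq_fintype_card, Fintype.card_subtype]
    congr 1
    ext p; simp [eq_comm]
  have h3 : ∑ p : G × G, (χ : G → ℂ) (p.1 * p.2 * p.1⁻¹ * p.2⁻¹) =
      (Nat.card G : ℂ) * Nat.card G / (χ : G → ℂ) 1 := by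
    rw [Fintype.sum_prod_type, Finset.sum_comm]
    have h4 : ∀ b : G, ∑ a : G, (χ : G → ℂ) (a * b * a⁻¹ * b⁻¹) =
        (Nat.card G : ℂ) * ((χ : G → ℂ) b⁻¹ * (χ : G → ℂ) b) / (χ : G → ℂ) 1 := by
      intro b
      rw [eq_div_iff hone, ← CfsgH4.irr_mul hχ b⁻¹ b, mul_comm]
      congr 1
      refine Finset.sum_congr rfl fun a _ => ?_
      have := CfsgH4.IsIrr.isClassFunction hχ (a * b * a⁻¹ * b⁻¹) b⁻¹
      rw [← this]
      congr 1; group
    rw [Finset.sum_congr rfl (fun b _ => h4 b), ← Finset.sum_div, ← Finset.mul_sum,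
      CfsgH4.irr_sum_self hχ]
  rw [CfsgH4.classInner_def, h2]
  have h5 : ∑ p : G × G, (starRingEnd ℂ) ((χ : G → ℂ) (p.1 * p.2 * p.1⁻¹ * p.2⁻¹)) =
      (Nat.card G : ℂ) * Nat.card G / (χ : G → ℂ) 1 := by
    rw [← map_sum, h3]
    obtain ⟨n, hn⟩ := CfsgH4.IsCharacter.one_nat (CfsgH4.IsIrr.isCharacter hχ)
    rw [hn]; simp
  rw [h5]
  field_simp

/-- An element g of a finite group is a commutator if and only if the sum over the irreducible characters χ of χ g / χ 1 is nonzero. -/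
theorem result {G : Type*} [Group G] [Finite G] (g : G) : (∃ a b : G, g = a * b * a⁻¹ * b⁻¹) ↔ ∑ᶠ χ : Cfsg.IrrCharacter G, (χ : G → ℂ) g / (χ : G → ℂ) 1 ≠ 0 := by
  haveI := Fintype.ofFinite G
  rw [finsum_eq_sum_of_fintype]
  have h := card_comm_pairs g
  have hG := CfsgH4.card_ne_zero G
  constructor
  · rintro ⟨a, b, hab⟩ h0
    rw [h0, mul_zero] at h
    have : Nonempty {p : G × G // g = p.1 * p.2 * p.1⁻¹ * p.2⁻¹} := ⟨⟨(a, b), hab⟩⟩
    have h1 : 0 < Nat.card {p : G × G // g = p.1 * p.2 * p.1⁻¹ * p.2⁻¹} := Nat.card_pos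
    have h2 : Nat.card {p : G × G // g = p.1 * p.2 * p.1⁻¹ * p.2⁻¹} = 0 := by exact_mod_cast h
    omega
  · intro h0
    have h1 : (Nat.card {p : G × G // g = p.1 * p.2 * p.1⁻¹ * p.2⁻¹} : ℂ) ≠ 0 := by
      rw [h]; exact mul_ne_zero hG h0
    have h2 : Nat.card {p : G × G // g = p.1 * p.2 * p.1⁻¹ * p.2⁻¹} ≠ 0 := by
      exact_mod_cast h1
    obtain ⟨⟨⟨a, b⟩, hab⟩⟩ := (Nat.card_ne_zero.1 h2).1
    exact ⟨a, b, hab⟩

end Cfsg.Agent.S0167
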