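import Cfsg.Statements.S0168
import Cfsg.Agent.H4.Mono

set_option autoImplicit false
open Cfsg

namespace Cfsg.Agent.S0168

/-- The Burnside–Brauer Theorem. Let χ be the character of a faithful complex representation of a finite group, taking m distinct values. Then every irreducible character has nonzero inner product with χ ^ i for some i < m. -/
theorem result {G : Type*} [Group G] [Fintype G] {V : Type*} [AddCommGroup V] [Module ℂ V] [FiniteDimensional ℂ V] (ρ : Representation ℂ G V) (hfaithful : Function.Injective ρ) (ψ : G → ℂ) (hψ : Cfsg.IsIrrCharacter G ψ) : ∃ i : ℕ, i < Nat.card (Set.range ρ.character) ∧ Cfsg.classInner (fun g => ρ.character g ^ i) ψ ≠ 0 := by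
  classical
  by_contra hc
  push Not at hc
  have hG := CfsgH4.card_ne_zero G
  have hfin : (Set.range ρ.character).Finite := Set.finite_range _
  set S := hfin.toFinset with hS
  have hm : Nat.card (Set.range ρ.character) = S.card := by
    rw [Nat.card_coe_set_eq, Set.ncard_eq_toFinset_card _ hfin]
  have h1 : ∀ p : Polynomial ℂ, p.natDegree < S.card →
      ∑ g : G, p.eval (ρ.character g) * (starRingEnd ℂ) (ψ g) = 0 := by
    intro p hp
    simp only [Polynomial.eval_eq_sum_range, Finset.sum_mul]
    rw [Finset.sum_comm]
    refine Finset.sum_eq_zero fun i hi => ?_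
    have h2 := hc i (by
      rw [hm]; exact lt_of_le_of_lt (Nat.lt_succ_iff.1 (Finset.mem_range.1 hi)) hp)
    rw [CfsgH4.classInner_def] at h2
    have h3 := (mul_eq_zero.1 h2).resolve_left (inv_ne_zero hG)
    simp only [mul_assoc]
    rw [← Finset.mul_sum, h3, mul_zero]
  -- Lagrange polynomial
  let p : Polynomial ℂ := ∏ z ∈ S.erase (ρ.character 1), (Polynomial.X - Polynomial.C z)
  have hp : p.natDegree < S.card := by
    rw [Polynomial.natDegree_prod_of_monic _ _ (fun z _ => Polynomial.monic_X_sub_C z)]
    simp only [Polynomial.natDegree_X_sub_C, Finset.sum_const, smul_eq_mul, mul_one]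
    apply Finset.card_erase_lt_of_mem
    rw [hS, Set.Finite.mem_toFinset]; exact ⟨1, rfl⟩
  have h2 := h1 p hp
  rw [Finset.sum_eq_single 1] at h2
  · rcases mul_eq_zero.1 h2 with h3 | h3
    · simp only [p, Polynomial.eval_prod, Polynomial.eval_sub, Polynomial.eval_X,
        Polynomial.eval_C] at h3
      obtain ⟨z, hz, hz2⟩ := Finset.prod_eq_zero_iff.1 h3
      exact (Finset.mem_erase.1 hz).1 (sub_eq_zero.1 hz2).symm
    · apply CfsgH4.IsIrr.one_ne_zero hψ
      have := congrArg (starRingEnd ℂ) h3
      simpa using this
  · intro g _ hg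
    have h3 : p.eval (ρ.character g) = 0 := by
      simp only [p, Polynomial.eval_prod, Polynomial.eval_sub, Polynomial.eval_X,
        Polynomial.eval_C]
      refine Finset.prod_eq_zero (i := ρ.character g) ?_ (sub_self _)
      refine Finset.mem_erase.2 ⟨?_, ?_⟩
      · intro h
        have h4 := (CfsgH4.rep_eq_id_iff ρ g).1 h
        apply hg
        apply hfaithful
        rw [h4, map_one]; rfl
      · rw [hS, Set.Finite.mem_toFinset]; exact ⟨g, rfl⟩
    rw [h3, zero_mul]
  · intro h; exact absurd (Finset.mem_univ _) h

end Cfsg.Agent.S0168
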