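import Cfsg.Statements.S0169
import Cfsg.Agent.H4.Mono

set_option autoImplicit false
open Cfsg

namespace Cfsg.Agent.S0169

/-- Itô's Theorem on character degrees: the degree of an irreducible complex representation of a finite group divides the index of any abelian normal subgroup. -/
theorem result {G : Type*} [Group G] [Finite G] {V : Type*} [AddCommGroup V] [Module ℂ V] [FiniteDimensional ℂ V] (ρ : Representation ℂ G V) [ρ.IsIrreducible] (H : Subgroup G) [H.Normal] (hH : ∀ a ∈ H, ∀ b ∈ H, a * b = b * a) : Module.finrank ℂ V ∣ H.index := by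
  classical
  haveI := Fintype.ofFinite G
  haveI : Fintype H := Fintype.ofFinite H
  have hirr := CfsgH4.isIrrCharacter_of_rep ρ inferInstance
  obtain ⟨θ, hθ, hne⟩ := CfsgH4.exists_constituent_restrict H hirr
  haveI : Fintype (CfsgH4.inertia H θ) := Fintype.ofFinite _
  obtain ⟨ψ, hψ, hne2, hind, hres⟩ := CfsgH4.clifford_corr H hirr hθ hne
  have hle : H ≤ CfsgH4.inertia H θ := CfsgH4.le_inertia H (CfsgH4.IsIrr.isClassFunction hθ)
  have hHcomm : ∀ a b : H, a * b = b * a := fun a b => Subtype.ext (hH a a.2 b b.2)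
  obtain ⟨f, hf⟩ := CfsgH4.IsIrr.linear_of_comm hHcomm hθ
  have hθn : ∀ x : H, ‖θ x‖ = 1 := by
    intro x
    rw [hf]
    apply CfsgH4.norm_of_pow_orderOf (g := x)
    rw [← Units.val_pow_eq_pow_val, ← map_pow, pow_orderOf_eq_one, map_one, Units.val_one]
  obtain ⟨m, σ, hσ, hσψ⟩ := hψ
  have hscal : ∀ a ∈ H.subgroupOf (CfsgH4.inertia H θ),
      ∃ ω : ℂ, σ a = ω • (LinearMap.id : (Fin m → ℂ) →ₗ[ℂ] _) := by
    intro a ha
    apply CfsgH4.exists_scalar_of_norm
    have h5 := congrFun hres ⟨(a : G), ha⟩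
    have h6 := congrFun hres 1
    rw [CfsgH4.resLE_one] at h6
    have h7 : CfsgH4.resLE hle ψ ⟨(a : G), ha⟩ = ψ a := rfl
    have h8 : ((Module.finrank ℂ (Fin m → ℂ) : ℝ)) = ‖σ.character 1‖ := by
      rw [Representation.char_one]; simp
    rw [h8, hσψ, h6, ← h7, h5]
    simp only [Pi.smul_apply, smul_eq_mul, norm_mul]
    rw [hθn, hθn]
  have hdvd := CfsgH4.degree_dvd_index_of_scalar σ hσ (H.subgroupOf (CfsgH4.inertia H θ)) hscal
  have h1 : Module.finrank ℂ V = (CfsgH4.inertia H θ).index * Module.finrank ℂ (Fin m → ℂ) := by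
    have h2 := congrFun hind 1
    rw [CfsgH4.indFun_one, Representation.char_one, ← hσψ, Representation.char_one] at h2
    exact_mod_cast h2
  have h3 : H.index = (H.subgroupOf (CfsgH4.inertia H θ)).index * (CfsgH4.inertia H θ).index := by
    rw [← Subgroup.relIndex_mul_index hle]; rfl
  rw [h1, h3, mul_comm]
  exact Nat.mul_dvd_mul_right hdvd _

end Cfsg.Agent.S0169
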