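import Cfsg.Statements.S0170
import Cfsg.Agent.H4.Isom

set_option autoImplicit false
open Cfsg

namespace Cfsg.Agent.S0170

/-- Exceptional characters. Let S be a subset of a finite group contained in its normalizer N and meeting its conjugates by elements outside N only in the identity. Given n ≥ 2 distinct irreducible characters of N of equal degree that vanish on N away from S, there exist a sign ε and n distinct irreducible characters θ_i of G such that inducing χ_i − χ_j to G gives ε (θ_i − θ_j) for all i, j. -/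
theorem result {G : Type*} [Group G] [Fintype G] (S : Set G) (hSN : S ⊆ Subgroup.normalizer S) (hTI : ∀ g : G, g ∉ Subgroup.normalizer S → ∀ s ∈ S, g * s * g⁻¹ ∈ S → s = 1) (n : ℕ) (hn : 2 ≤ n) (χ : Fin n → (Subgroup.normalizer S → ℂ)) (hirr : ∀ i, Cfsg.IsIrrCharacter (Subgroup.normalizer S) (χ i)) (hinj : Function.Injective χ) (hvan : ∀ i, ∀ x : Subgroup.normalizer S, (x : G) ∉ S → χ i x = 0) (hdeg : ∀ i j, χ i 1 = χ j 1) : ∃ ε : ℂ, (ε = 1 ∨ ε = -1) ∧ ∃ θ : Fin n → (G → ℂ), (∀ i, Cfsg.IsIrrCharacter G (θ i)) ∧ Function.Injective θ ∧ ∀ i j, Cfsg.indFun (Subgroup.normalizer S) (χ i) - Cfsg.indFun (Subgroup.normalizer S) (χ j) = ε • (θ i - θ j) := by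
  classical
  haveI : Fintype (Subgroup.normalizer S) := Fintype.ofFinite _
  have hn0 : 0 < n := by omega
  let i₀ : Fin n := ⟨0, hn0⟩
  let τ : Fin n → (G → ℂ) := fun i => indFun (Subgroup.normalizer S) (χ i - χ i₀)
  have hirrcf := fun i => CfsgH4.IsIrr.isClassFunction (hirr i)
  have hinner : ∀ i j, classInner (τ i) (τ j) = classInner (χ i - χ i₀) (χ j - χ i₀) := by
    intro i j
    apply CfsgH4.classInner_indFun_TI S _ hTI
    · exact CfsgH4.isClassFunction_sub (hirrcf j) (hirrcf i₀)
    · intro x hx; simp [hvan i x hx, hvan i₀ x hx]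
    · intro x hx; simp [hvan j x hx, hvan i₀ x hx]
    · simp [hdeg i i₀]
  obtain ⟨ε, hε, μ, hμ, hμi, hμe⟩ := CfsgH4.isometry_lemma i₀ τ
    (by simp only [τ, sub_self, CfsgH4.indFun_zero])
    (fun i => CfsgH4.isGen_indFun _ (CfsgH4.isGen_sub
      (CfsgH4.IsCharacter.isGen (CfsgH4.IsIrr.isCharacter (hirr i)))
      (CfsgH4.IsCharacter.isGen (CfsgH4.IsIrr.isCharacter (hirr i₀)))))
    (fun i => by
      show indFun (Subgroup.normalizer S) (χ i - χ i₀) 1 = 0
      rw [CfsgH4.indFun_one]; simp [hdeg i i₀])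
    (fun i hi => by
      rw [hinner, CfsgH4.classInner_diff (hirr i) (hirr i₀) (hirr i) (hirr i₀), if_pos rfl,
        if_neg (fun h => hi (hinj h)), if_neg (fun h => hi (hinj h).symm), if_pos rfl]
      norm_num)
    (fun i j hi hj hij => by
      rw [hinner, CfsgH4.classInner_diff (hirr i) (hirr i₀) (hirr j) (hirr i₀),
        if_neg (fun h => hij (hinj h)), if_neg (fun h => hi (hinj h)),
        if_neg (fun h => hj (hinj h).symm), if_pos rfl]
      norm_num)
  refine ⟨ε, hε, μ, hμ, hμi, fun i j => ?_⟩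
  have h1 : indFun (Subgroup.normalizer S) (χ i) - indFun (Subgroup.normalizer S) (χ j) =
      τ i - τ j := by
    simp only [τ, CfsgH4.indFun_sub]; abel
  rw [h1, hμe i, hμe j, ← smul_sub]
  congr 1; abel

end Cfsg.Agent.S0170
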