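import Cfsg.Statements.S0173
import Cfsg.Agent.H4.Odd

set_option autoImplicit false
open Cfsg

namespace Cfsg.Agent.S0173

/-- Brauer's permutation lemma for a single automorphism: the number of conjugacy classes mapped to themselves equals the number of irreducible complex characters χ with χ ∘ α = χ. -/
theorem result {G : Type*} [Group G] [Finite G] (α : G ≃* G) : Nat.card {C : ConjClasses G // ConjClasses.map α.toMonoidHom C = C} = Nat.card {χ : Cfsg.IrrCharacter G // (χ : G → ℂ) ∘ α = (χ : G → ℂ)} := by
  haveI := Fintype.ofFinite G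
  have h := CfsgH4.card_fixed_irr (G := G) (fun g => α g) (fun x y h => by
    obtain ⟨c, rfl⟩ := isConj_iff.1 h
    exact isConj_iff.2 ⟨α c, by simp⟩) (fun χ => CfsgH4.isIrrCharacter_comp_surj α.toMonoidHom
      α.surjective χ.2)
  have h2 : Nat.card {C : ConjClasses G // ConjClasses.map α.toMonoidHom C = C} =
      Nat.card {C : ConjClasses G // ∀ g : G, ConjClasses.mk g = C → IsConj (α g) g} := by
    refine Nat.card_congr (Equiv.subtypeEquivRight fun C => ?_)
    constructor
    · rintro h g rfl
      exact ConjClasses.mk_eq_mk_iff_isConj.1 h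
    · intro h
      obtain ⟨g, rfl⟩ := ConjClasses.exists_rep C
      exact ConjClasses.mk_eq_mk_iff_isConj.2 (h g rfl)
  rw [h2, ← h]
  rfl

end Cfsg.Agent.S0173
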