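import Cfsg.Statements.S0175
import Cfsg.Agent.H4.FrobGrp

set_option autoImplicit false
open Cfsg

namespace Cfsg.Agent.S0175

/-- Taketa's Theorem on M-groups: if every irreducible complex character of a finite group is induced from a linear character (a homomorphism to ℂˣ) of some subgroup, the group is solvable. -/
theorem result {G : Type*} [Group G] [Fintype G] (hM : ∀ χ : G → ℂ, Cfsg.IsIrrCharacter G χ → ∃ (H : Subgroup G) (lam : H →* ℂˣ), χ = Cfsg.indFun H (fun h => (lam h : ℂ))) : Group.IsSolvable G := by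
  classical
  -- all irreducible characters of degree ≤ n have derivedSeries n in their kernel
  have key : ∀ n : ℕ, ∀ χ : G → ℂ, IsIrrCharacter G χ → ∀ d : ℕ, χ 1 = d → d ≤ n →
      ∀ x ∈ derivedSeries G n, χ x = χ 1 := by
    intro n
    induction n using Nat.strong_induction_on with
    | _ n ih =>
    intro χ hχ d hd hdn x hx
    have hd0 : d ≠ 0 := by
      rintro rfl
      exact CfsgH4.IsIrr.one_ne_zero hχ (by rw [hd]; simp)
    obtain ⟨m, rfl⟩ : ∃ m, n = m + 1 := ⟨n - 1, by omega⟩
    obtain ⟨H, lam, hlam⟩ := hM χ hχ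
    have hidx : H.index = d := by
      have h1 := congrFun hlam 1
      rw [CfsgH4.indFun_one, hd] at h1
      simp only [map_one, Units.val_one, mul_one] at h1
      exact_mod_cast h1.symm
    -- derivedSeries G m ≤ H
    have hle : derivedSeries G m ≤ H := by
      intro y hy
      by_contra hyH
      have hc1 : IsCharacter H (fun _ => (1 : ℂ)) := CfsgH4.isCharacter_one
      have hind := CfsgH4.isCharacter_indFun H hc1
      haveI : Fintype H := Fintype.ofFinite H
      have h2 : indFun H (fun _ => (1 : ℂ)) y = indFun H (fun _ => (1 : ℂ)) 1 := by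
        apply CfsgH4.ker_of_forall hind
        intro ψ hψ hne
        by_cases hψ1 : ψ = fun _ => 1
        · rw [hψ1]
        -- degree of ψ < index
        obtain ⟨e, he⟩ := CfsgH4.IsCharacter.one_nat (CfsgH4.IsIrr.isCharacter hψ)
        obtain ⟨ξ, hξ, hξe⟩ := CfsgH4.IsCharacter.sub_irr hind hψ hne
        have hne1 : classInner (indFun H (fun _ => (1 : ℂ))) (fun _ => 1) = 1 := by
          rw [CfsgH4.frobenius H _ CfsgH4.isClassFunction_one]
          exact CfsgH4.classInner_irr_self CfsgH4.isIrrCharacter_one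
        have hne2 : classInner ξ (fun _ => 1) ≠ 0 := by
          rw [hξe, CfsgH4.classInner_add_left, CfsgH4.classInner_irr_ne hψ
            CfsgH4.isIrrCharacter_one hψ1, zero_add] at hne1
          rw [hne1]; exact one_ne_zero
        obtain ⟨ζ, hζ, hζe⟩ := CfsgH4.IsCharacter.sub_irr hξ CfsgH4.isIrrCharacter_one hne2
        obtain ⟨k, hk⟩ := CfsgH4.IsCharacter.one_nat hζ
        have h3 := congrFun hξe 1
        rw [CfsgH4.indFun_one, hζe, hidx] at h3
        simp only [Pi.add_apply, mul_one] at h3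
        rw [he, hk] at h3
        have h4 : d = e + (1 + k) := by exact_mod_cast h3
        exact ih m (by omega) ψ hψ e he (by omega) y hy
      rw [CfsgH4.indFun_one, mul_one, CfsgH4.indFun_apply] at h2
      have hHc := CfsgH4.card_ne_zero H
      have h3 : ∑ x : G, extendByZero H (fun _ => (1 : ℂ)) (x⁻¹ * y * x) = Nat.card G := by
        rw [← Subgroup.card_mul_index H]
        push_cast
        rw [← h2]; field_simp
      have h4 : ∀ x : G, extendByZero H (fun _ => (1 : ℂ)) (x⁻¹ * y * x) =
          if x⁻¹ * y * x ∈ H then 1 else 0 := by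
        intro x
        by_cases hx : x⁻¹ * y * x ∈ H
        · rw [if_pos hx, CfsgH4.extendByZero_of_mem H _ hx]
        · rw [if_neg hx, CfsgH4.extendByZero_of_not_mem H _ hx]
      rw [Finset.sum_congr rfl (fun x _ => h4 x), ← Finset.sum_filter, Finset.sum_const,
        nsmul_eq_mul, mul_one] at h3
      have h5 : (Finset.univ.filter (fun x : G => x⁻¹ * y * x ∈ H)).card = Fintype.card G := by
        rw [← Nat.card_eq_fintype_card]; exact_mod_cast h3
      have h6 := (Finset.card_eq_iff_eq_univ _).1 h5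
      have h7 : (1 : G) ∈ Finset.univ.filter (fun x : G => x⁻¹ * y * x ∈ H) := by
        rw [h6]; exact Finset.mem_univ _
      have h8 := (Finset.mem_filter.1 h7).2
      apply hyH
      simpa using h8
    -- derivedSeries (m+1) in the kernel of lam (as elements of H)
    have hker : ∀ y (hy : y ∈ derivedSeries G (m + 1)), ∃ h : y ∈ H, lam ⟨y, h⟩ = 1 := by
      intro y hy
      rw [derivedSeries_succ] at hy
      have hle2 : ⁅derivedSeries G m, derivedSeries G m⁆ ≤ lam.ker.map H.subtype := by
        rw [Subgroup.commutator_le]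
        intro a ha b hb
        let a' : H := ⟨a, hle ha⟩
        let b' : H := ⟨b, hle hb⟩
        refine ⟨a' * b' * a'⁻¹ * b'⁻¹, ?_, rfl⟩
        show lam (a' * b' * a'⁻¹ * b'⁻¹) = 1
        rw [map_mul, map_mul, map_mul, map_inv, map_inv, mul_comm (lam a') (lam b'),
          mul_inv_cancel_right, mul_inv_cancel]
      obtain ⟨z, hz, hzy⟩ := hle2 hy
      subst hzy
      exact ⟨z.2, hz⟩
    rw [hlam, CfsgH4.indFun_apply, CfsgH4.indFun_apply]
    congr 1
    refine Finset.sum_congr rfl fun y _ => ?_
    have h1 : y⁻¹ * x * y ∈ derivedSeries G (m + 1) := by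
      have := (derivedSeries_normal G (m + 1)).conj_mem x hx y⁻¹
      simpa using this
    obtain ⟨h2, h3⟩ := hker _ h1
    obtain ⟨h4, h5⟩ := hker _ (one_mem (derivedSeries G (m + 1)))
    rw [CfsgH4.extendByZero_of_mem H _ h2, h3]
    have h6 : y⁻¹ * 1 * y = 1 := by group
    rw [h6, CfsgH4.extendByZero_of_mem H _ h4, h5]
  -- bound on the degrees
  rw [Group.isSolvable_def]
  have hdeg : ∀ χ : IrrCharacter G, ∃ n : ℕ, (χ : G → ℂ) 1 = n :=
    fun χ => CfsgH4.IsCharacter.one_nat (CfsgH4.IsIrr.isCharacter χ.2)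
  choose d hd using hdeg
  refine ⟨∑ χ : IrrCharacter G, d χ, ?_⟩
  rw [eq_bot_iff]
  intro x hx
  rw [Subgroup.mem_bot]
  apply CfsgH4.eq_one_of_forall_ker
  intro ψ hψ
  exact key _ ψ hψ (d ⟨ψ, hψ⟩) (hd ⟨ψ, hψ⟩)
    (Finset.single_le_sum (f := d) (fun _ _ => Nat.zero_le _) (Finset.mem_univ (⟨ψ, hψ⟩ : IrrCharacter G))) x hx

end Cfsg.Agent.S0175
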