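import Cfsg.Statements.S0178
import Cfsg.Agent.H4.Mono

set_option autoImplicit false
open Cfsg

namespace Cfsg.Agent.S0178

/-- The degree of an irreducible complex representation of a finite group is at most the index of any abelian subgroup. -/
theorem result {G : Type*} [Group G] [Finite G] {V : Type*} [AddCommGroup V] [Module ℂ V] [FiniteDimensional ℂ V] (ρ : Representation ℂ G V) [ρ.IsIrreducible] (A : Subgroup G) (hA : ∀ a ∈ A, ∀ b ∈ A, a * b = b * a) : Module.finrank ℂ V ≤ A.index := by
  classical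
  haveI := Fintype.ofFinite G
  haveI : Fintype A := Fintype.ofFinite A
  have hirr := CfsgH4.isIrrCharacter_of_rep ρ inferInstance
  obtain ⟨θ, hθ, hne⟩ := CfsgH4.exists_constituent_restrict A hirr
  have hHcomm : ∀ a b : A, a * b = b * a := fun a b => Subtype.ext (hA a a.2 b b.2)
  obtain ⟨f, hf⟩ := CfsgH4.IsIrr.linear_of_comm hHcomm hθ
  have hind := CfsgH4.isCharacter_indFun A (CfsgH4.IsIrr.isCharacter hθ)
  have hne3 : classInner (indFun A θ) ρ.character ≠ 0 := by
    rw [CfsgH4.frobenius A θ (CfsgH4.IsIrr.isClassFunction hirr),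
      CfsgH4.classInner_comm_of_char (CfsgH4.IsIrr.isCharacter hθ)
        (CfsgH4.isCharacter_restrict A (CfsgH4.IsIrr.isCharacter hirr))]
    exact hne
  obtain ⟨ξ, hξ, hξe⟩ := CfsgH4.IsCharacter.sub_irr hind hirr hne3
  obtain ⟨k, hk⟩ := CfsgH4.IsCharacter.one_nat hξ
  have h4 := congrFun hξe 1
  rw [CfsgH4.indFun_one, Pi.add_apply, Representation.char_one, hk, hf] at h4
  simp only [map_one, Units.val_one, mul_one] at h4
  have h5 : A.index = Module.finrank ℂ V + k := by exact_mod_cast h4
  omega

end Cfsg.Agent.S0178
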