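import Cfsg.Statements.S0180
import Cfsg.Agent.H4.Burnside

set_option autoImplicit false
open Cfsg

namespace Cfsg.Agent.S0180

/-- Every irreducible complex character of a finite group takes only rational values if and only if g is conjugate to g ^ m for every element g and every m coprime to the group order. -/
theorem result {G : Type*} [Group G] [Finite G] : (∀ χ : Cfsg.IrrCharacter G, ∀ g : G, ∃ q : ℚ, (χ : G → ℂ) g = (q : ℂ)) ↔ ∀ m : ℕ, m.Coprime (Nat.card G) → ∀ g : G, IsConj g (g ^ m) := by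
  haveI := Fintype.ofFinite G
  constructor
  · intro h m hm g
    rw [CfsgH4.isConj_iff_irr]
    intro χ
    obtain ⟨σ, hσ⟩ := CfsgH4.exists_aut_pow (Nat.card_pos (α := G)) hm
    have h1 := CfsgH4.char_aut_pow (fun g => orderOf_dvd_natCard g) σ hσ
      (CfsgH4.IsIrr.isCharacter χ.2) g
    obtain ⟨q, hq⟩ := h χ g
    rw [← h1, hq, map_ratCast]
  · intro h χ g
    apply CfsgH4.rat_of_fixed
    · exact (CfsgH4.IsCharacter.isIntegral (CfsgH4.IsIrr.isCharacter χ.2) g).tower_top
    · intro σ
      obtain ⟨k, hk, hσ⟩ := CfsgH4.aut_pow (Nat.card_pos (α := G)) σ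
      rw [CfsgH4.char_aut_pow (fun g => orderOf_dvd_natCard g) σ hσ
        (CfsgH4.IsIrr.isCharacter χ.2) g]
      exact (CfsgH4.IsClassFunction.eq_of_isConj (CfsgH4.IsIrr.isClassFunction χ.2) (h k hk g)).symm

end Cfsg.Agent.S0180
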