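import Cfsg.Statements.S0181
import Cfsg.Agent.H4.FrobGrp

set_option autoImplicit false
open Cfsg

namespace Cfsg.Agent.S0181

/-- Let H be a normal subgroup of a finite group G and ρ an irreducible complex representation whose kernel does not contain H. If g commutes with no non-identity element of H, then the character of ρ vanishes at g. -/
theorem result {G : Type*} [Group G] [Finite G] {V : Type*} [AddCommGroup V] [Module ℂ V] [FiniteDimensional ℂ V] (ρ : Representation ℂ G V) [ρ.IsIrreducible] (H : Subgroup G) [H.Normal] (hker : ∃ h ∈ H, ρ h ≠ LinearMap.id) (g : G) (hg : ∀ h ∈ H, h * g = g * h → h = 1) : ρ.character g = 0 := by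
  classical
  haveI := Fintype.ofFinite G
  haveI : Fintype (G ⧸ H) := Fintype.ofFinite _
  have hirr := CfsgH4.isIrrCharacter_of_rep ρ inferInstance
  have h1 := CfsgH4.col_orth_isConj (IsConj.refl g)
  have h2 := CfsgH4.col_orth_isConj (IsConj.refl (g : G ⧸ H))
  -- centralizer embedding
  have hle : Nat.card (Subgroup.centralizer ({g} : Set G)) ≤
      Nat.card (Subgroup.centralizer ({(g : G ⧸ H)} : Set (G ⧸ H))) := by
    have hmem : ∀ x : Subgroup.centralizer ({g} : Set G),
        ((x : G) : G ⧸ H) ∈ Subgroup.centralizer ({(g : G ⧸ H)} : Set (G ⧸ H)) := by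
      intro x
      rw [Subgroup.mem_centralizer_singleton_iff]
      have h3 := Subgroup.mem_centralizer_singleton_iff.1 x.2
      rw [← QuotientGroup.mk_mul, ← QuotientGroup.mk_mul, h3]
    apply Nat.card_le_card_of_injective
      (fun x : Subgroup.centralizer ({g} : Set G) => (⟨((x : G) : G ⧸ H), hmem x⟩ :
        Subgroup.centralizer ({(g : G ⧸ H)} : Set (G ⧸ H))))
    intro x y hxy
    have h3 : ((x : G) : G ⧸ H) = ((y : G) : G ⧸ H) := congrArg Subtype.val hxy
    have h4 : (x : G)⁻¹ * y ∈ H := QuotientGroup.eq.1 h3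
    have h5 : (x⁻¹ * y : Subgroup.centralizer ({g} : Set G)) ∈
        (⊤ : Subgroup (Subgroup.centralizer ({g} : Set G))) := trivial
    have h6 := Subgroup.mem_centralizer_singleton_iff.1 (x⁻¹ * y).2
    have h7 := hg _ h4 h6
    exact Subtype.ext (inv_mul_eq_one.1 h7)
  -- sum over inflated characters
  let I : IrrCharacter (G ⧸ H) → IrrCharacter G := fun ψ =>
    ⟨fun x => (ψ : G ⧸ H → ℂ) (x : G ⧸ H), CfsgH4.isIrr_inflate H ψ.2⟩
  have hI : Function.Injective I := by
    intro a b hab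
    apply Subtype.ext
    ext x
    obtain ⟨y, rfl⟩ := QuotientGroup.mk_surjective x
    exact congrFun (congrArg Subtype.val hab) y
  let F : IrrCharacter G → ℝ := fun χ => ‖(χ : G → ℂ) g‖ ^ 2
  have hF1 : ∑ χ : IrrCharacter G, F χ = Nat.card (Subgroup.centralizer ({g} : Set G)) := by
    have : ((∑ χ : IrrCharacter G, F χ : ℝ) : ℂ) =
        (Nat.card (Subgroup.centralizer ({g} : Set G)) : ℂ) := by
      rw [← h1]; push_cast
      refine Finset.sum_congr rfl fun χ _ => ?_
      rw [Complex.mul_conj, Complex.normSq_eq_norm_sq]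
    exact_mod_cast this
  have hF2 : ∑ ψ : IrrCharacter (G ⧸ H), F (I ψ) =
      Nat.card (Subgroup.centralizer ({(g : G ⧸ H)} : Set (G ⧸ H))) := by
    have : ((∑ ψ : IrrCharacter (G ⧸ H), F (I ψ) : ℝ) : ℂ) =
        (Nat.card (Subgroup.centralizer ({(g : G ⧸ H)} : Set (G ⧸ H))) : ℂ) := by
      rw [← h2]; push_cast
      refine Finset.sum_congr rfl fun χ _ => ?_
      rw [Complex.mul_conj, Complex.normSq_eq_norm_sq]
    exact_mod_cast this
  have hnot : (⟨ρ.character, hirr⟩ : IrrCharacter G) ∉ Finset.univ.image I := by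
    intro hmem
    obtain ⟨ψ, -, hψ⟩ := Finset.mem_image.1 hmem
    obtain ⟨h, hh, hne⟩ := hker
    apply hne
    apply (CfsgH4.rep_eq_id_iff ρ h).1
    have h3 : ρ.character = fun x : G => (ψ : G ⧸ H → ℂ) (x : G ⧸ H) :=
      (congrArg Subtype.val hψ).symm
    rw [h3]
    show (ψ : G ⧸ H → ℂ) ((h : G) : G ⧸ H) = (ψ : G ⧸ H → ℂ) ((1 : G) : G ⧸ H)
    rw [(QuotientGroup.eq_one_iff h).2 hh]; rfl
  have h3 : F ⟨ρ.character, hirr⟩ + ∑ χ ∈ Finset.univ.image I, F χ ≤ ∑ χ : IrrCharacter G, F χ := by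
    rw [← Finset.sum_insert hnot]
    exact Finset.sum_le_sum_of_subset_of_nonneg (Finset.subset_univ _)
      (fun _ _ _ => by positivity)
  rw [Finset.sum_image (fun a _ b _ h => hI h), hF1, hF2] at h3
  have h4 : (Nat.card (Subgroup.centralizer ({g} : Set G)) : ℝ) ≤
      Nat.card (Subgroup.centralizer ({(g : G ⧸ H)} : Set (G ⧸ H))) := by exact_mod_cast hle
  have h5 : F ⟨ρ.character, hirr⟩ ≤ 0 := by linarith
  have h6 : ‖ρ.character g‖ ^ 2 ≤ 0 := h5
  have h7 : ‖ρ.character g‖ = 0 := by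
    have h8 : 0 ≤ ‖ρ.character g‖ ^ 2 := by positivity
    exact pow_eq_zero_iff (two_ne_zero) |>.1 (le_antisymm h6 h8)
  exact norm_eq_zero.1 h7

end Cfsg.Agent.S0181
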