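import Mathlib
import Cfsg.Agent.H3.FamTI
import Cfsg.Agent.H3.CNmin2
import Cfsg.Statements.S0183

set_option autoImplicit false
open Cfsg

namespace Cfsg.Agent.S0183

universe u

theorem main (n : ℕ) : ∀ (G : Type u) [Group G] [Finite G], Nat.card G = n → Odd (Nat.card G) → Cfsg.IsCNGroup G → Group.IsSolvable G := by
  induction n using Nat.strong_induction_on with
  | _ n ih =>
  intro G _ _ hn hodd hCN
  by_contra hns
  haveI : Nontrivial G := by
    rcases subsingleton_or_nontrivial G with h | h
    · exact absurd (inferInstance : Group.IsSolvable G) hns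
    · exact h
  have hprop : ∀ X : Subgroup G, X ≠ ⊤ → Group.IsSolvable X := by
    intro X hX
    have h1 : Nat.card X < n := by
      rw [← hn]
      exact lt_of_le_of_ne (Nat.le_of_dvd Nat.card_pos X.card_subgroup_dvd_card) (fun h => hX (Subgroup.eq_top_of_card_eq X h))
    exact ih _ h1 X rfl (hodd.of_dvd_nat X.card_subgroup_dvd_card) (CfsgH3.cn_subgroup hCN X)
  have hsimp : IsSimpleGroup G := by
    refine ⟨fun X hX => ?_⟩
    by_contra hcon
    push Not at hcon
    haveI := hX
    haveI hXs : Group.IsSolvable X := hprop X hcon.2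
    have hq : Cfsg.IsCNGroup (G ⧸ X) := CfsgH3.cn_quotient _ G rfl hCN X hXs
    have h1 : Nat.card (G ⧸ X) < n := by
      rw [← hn, ← Subgroup.card_mul_index X]
      have h2 : 1 < Nat.card X := by
        rw [Subgroup.one_lt_card_iff_ne_bot]; exact hcon.1
      have h3 : 0 < X.index := Nat.pos_of_ne_zero Subgroup.index_ne_zero_of_finite
      show X.index < _
      nlinarith
    haveI hqs : Group.IsSolvable (G ⧸ X) := ih _ h1 (G ⧸ X) rfl (hodd.of_dvd_nat (Subgroup.card_quotient_dvd_card X)) hq
    exact hns (Group.isSolvable_of_ker_le_range X.subtype (QuotientGroup.mk' X) (by simp))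
  have hnc : ¬ IsMulCommutative G := by
    intro hc
    apply hns
    exact Group.isSolvable_of_comm (fun a b => hc.is_comm.comm a b)
  have hG : Cfsg.IsMinSimpleOddOrder G := ⟨hodd, hsimp, hnc, hprop⟩
  -- representatives of the classes of maximal nilpotent subgroups
  let r : Setoid {H : Subgroup G // CfsgH3.MaxNil H} :=
    { r := fun A B => ∃ g : G, B.1 = CfsgH7.cj g A.1
      iseqv :=
        { refl := fun A => ⟨1, by ext x; rw [CfsgH7.mem_cj]; simp⟩
          symm := by
            rintro A B ⟨g, hg⟩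
            refine ⟨g⁻¹, ?_⟩
            ext x
            rw [hg, CfsgH7.mem_cj, CfsgH7.mem_cj]
            have : g⁻¹ * (g⁻¹⁻¹ * x * g⁻¹) * g = x := by group
            rw [this]
          trans := by
            rintro A B C ⟨g, hg⟩ ⟨k, hk⟩
            refine ⟨k * g, ?_⟩
            ext x
            rw [hk, CfsgH7.mem_cj, hg, CfsgH7.mem_cj, CfsgH7.mem_cj]
            have : (k * g)⁻¹ * x * (k * g) = g⁻¹ * (k⁻¹ * x * k) * g := by group
            rw [this] } }
  haveI : Fintype (Quotient r) := Fintype.ofFinite _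
  obtain ⟨H₀, hH₀, -⟩ := CfsgH3.exists_maxNil (G := G) (X := ⊥) inferInstance
  refine CfsgH3.ti_partition_contradiction hodd (ι := Quotient r) (Fintype.card_pos_iff.2 ⟨Quotient.mk r ⟨H₀, hH₀⟩⟩)
    (fun q => (Quotient.out q).1) (fun q => ?_) (fun q => CfsgH3.ms_maxNil_ne_bot hG.2 (Quotient.out q).2) ?_ ?_
  · set H := (Quotient.out q).1 with hH
    have hM : CfsgH3.MaxNil H := (Quotient.out q).2
    refine ⟨fun g hg k hk hgk => ?_, lt_of_le_of_ne Subgroup.le_normalizer (Ne.symm (CfsgH3.ms_normalizer_ne hG hCN hM)),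
      fun k hk hk1 => CfsgH3.ms_cent_le hG hCN hM hk hk1⟩
    by_contra hk1
    apply hg
    have h1 : H = CfsgH7.cj g H := by
      apply CfsgH3.ms_maxNil_eq hG hCN hM (hM.cj g)
      intro hb
      have h2 : g * k * g⁻¹ ∈ H ⊓ CfsgH7.cj g H := Subgroup.mem_inf.2 ⟨hgk, CfsgH7.mem_cj.2 (by
        have : g⁻¹ * (g * k * g⁻¹) * g = k := by group
        rw [this]; exact hk)⟩
      rw [hb, Subgroup.mem_bot] at h2
      apply hk1
      have h3 : k = g⁻¹ * (g * k * g⁻¹) * g := by group
      rw [h3, h2]; group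
    rw [Subgroup.mem_normalizer_iff]
    intro y
    have h3 : g * y * g⁻¹ ∈ CfsgH7.cj g H ↔ y ∈ H := by
      rw [CfsgH7.mem_cj]
      have : g⁻¹ * (g * y * g⁻¹) * g = y := by group
      rw [this]
    rw [← h1] at h3
    exact h3.symm
  · intro q q' hqq'
    rcases CfsgH3.ms_maxNil_coprime hG hCN (Quotient.out q).2 (Quotient.out q').2 with h | h
    · exfalso
      apply hqq'
      have h1 : (Quotient.mk r (Quotient.out q)) = Quotient.mk r (Quotient.out q') := Quotient.sound h
      rwa [Quotient.out_eq, Quotient.out_eq] at h1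
    · exact h
  · intro g hg
    obtain ⟨X, hX, hle⟩ := CfsgH3.exists_maxNil (hCN g hg)
    have hgX : g ∈ X := hle (Subgroup.mem_centralizer_singleton_iff.2 rfl)
    set q : Quotient r := Quotient.mk r ⟨X, hX⟩ with hq
    have h1 : r (Quotient.out q) ⟨X, hX⟩ := Quotient.exact (Quotient.out_eq q)
    obtain ⟨k, hk⟩ := h1
    refine ⟨q, k⁻¹, ?_⟩
    have h2 : g ∈ CfsgH7.cj k (Quotient.out q).1 := by rw [← hk]; exact hgX
    rw [CfsgH7.mem_cj] at h2
    rw [inv_inv]; exact h2

/-- The CN-Theorem for odd order: a finite group of odd order in which every non-identity element has a nilpotent centralizer (a CN-group) is solvable. -/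
theorem result {G : Type*} [Group G] [Finite G] (hodd : Odd (Nat.card G)) (hCN : Cfsg.IsCNGroup G) : Group.IsSolvable G := by
  exact main _ G rfl hodd hCN

end Cfsg.Agent.S0183
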