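import Cfsg.Statements.S0184
import Cfsg.Agent.H4.Mono
import Cfsg.Agent.H4.PGrp

set_option autoImplicit false
open Cfsg

namespace Cfsg.Agent.S0184

/-- A finite p-group admits a faithful irreducible complex representation if and only if its centre is cyclic. -/
theorem result {G : Type*} [Group G] [Finite G] (p : ℕ) [Fact p.Prime] (hG : IsPGroup p G) : (∃ (n : ℕ) (ρ : Representation ℂ G (Fin n → ℂ)), ρ.IsIrreducible ∧ Function.Injective ρ) ↔ IsCyclic (Subgroup.center G) := by
  classical
  haveI := Fintype.ofFinite G
  constructor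
  · rintro ⟨n, ρ, hρ, hinj⟩
    -- the centre embeds into ℂˣ
    have hirr : IsIrrCharacter G ρ.character := ⟨n, ρ, hρ, rfl⟩
    have hone := CfsgH4.IsIrr.one_ne_zero hirr
    have hn : n ≠ 0 := by
      rintro rfl
      apply hone
      rw [Representation.char_one]; simp
    haveI : Nonempty (Fin n) := ⟨⟨0, Nat.pos_of_ne_zero hn⟩⟩
    have hsc : ∀ z : Subgroup.center G, ∃ ω : ℂ,
        ρ z = ω • (LinearMap.id : (Fin n → ℂ) →ₗ[ℂ] (Fin n → ℂ)) :=
      fun z => CfsgH4.central_scalar ρ hρ z.2
    choose ω hω using hsc
    have hidinj : ∀ a b : ℂ, a • (LinearMap.id : (Fin n → ℂ) →ₗ[ℂ] (Fin n → ℂ)) =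
        b • LinearMap.id → a = b := by
      intro a b hab
      have h1 := congrArg (LinearMap.trace ℂ (Fin n → ℂ)) hab
      rw [map_smul, map_smul, LinearMap.trace_id] at h1
      have h2 : ((Module.finrank ℂ (Fin n → ℂ) : ℕ) : ℂ) ≠ 0 := by
        rw [Module.finrank_fin_fun]; exact_mod_cast hn
      exact mul_right_cancel₀ h2 h1
    let F : Subgroup.center G →* ℂ :=
      { toFun := ω
        map_one' := by
          apply hidinj
          rw [← hω 1, Subgroup.coe_one, map_one, one_smul]; rfl
        map_mul' := by
          intro x y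
          apply hidinj
          rw [← hω (x * y), Subgroup.coe_mul, map_mul, hω, hω]
          apply LinearMap.ext; intro v
          simp [smul_smul, mul_comm] }
    have hFinj : Function.Injective F := by
      intro x y hxy
      apply Subtype.ext
      apply hinj
      rw [hω, hω]
      exact congrArg (fun c : ℂ => c • (LinearMap.id : (Fin n → ℂ) →ₗ[ℂ] (Fin n → ℂ))) hxy
    exact isCyclic_of_subgroup_isDomain F hFinj
  · intro hcyc
    by_cases htriv : Subsingleton G
    · -- trivial group
      refine ⟨1, 1, ?_, fun a b _ => Subsingleton.elim a b⟩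
      have h1 : IsIrrCharacter G (fun _ => (1 : ℂ)) := CfsgH4.isIrrCharacter_one
      obtain ⟨n, ρ, hρ, hχ⟩ := h1
      have h2 : (1 : Representation ℂ G (Fin 1 → ℂ)).character = ρ.character := by
        rw [hχ]; ext g
        have : (1 : Representation ℂ G (Fin 1 → ℂ)) g = LinearMap.id := rfl
        simp [Representation.character, this]
      obtain ⟨e⟩ := CfsgH4.equiv_of_char_eq _ _ h2
      exact CfsgH4.irreducible_of_equiv e.symm hρ
    rw [not_subsingleton_iff_nontrivial] at htriv
    have hZ : Nontrivial (Subgroup.center G) := hG.center_nontrivial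
    -- element of order p in the centre
    have hZp : IsPGroup p (Subgroup.center G) := hG.to_subgroup _
    have hpd : p ∣ Nat.card (Subgroup.center G) := by
      obtain ⟨k, hk⟩ := IsPGroup.iff_card.1 hZp
      rw [hk]
      apply dvd_pow_self
      rintro rfl
      rw [pow_zero] at hk
      have := Finite.one_lt_card (α := Subgroup.center G)
      omega
    obtain ⟨z, hz⟩ := exists_prime_orderOf_dvd_card' p hpd
    by_contra hc
    push Not at hc
    have hker : ∀ ψ : G → ℂ, IsIrrCharacter G ψ → ψ (z : G) = ψ 1 := by
      intro ψ hψ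
      obtain ⟨n, ρ, hρ, rfl⟩ := hψ
      have hni := hc n ρ hρ
      have hψc : IsCharacter G ρ.character := ⟨n, ρ, rfl⟩
      -- the kernel is a nontrivial normal subgroup
      set K := CfsgH4.charKerSub hψc with hK
      haveI : K.Normal := CfsgH4.charKerSub_normal hψc
      have hKne : K ≠ ⊥ := by
        intro h0
        apply hni
        intro a b hab
        have h1 : ρ (a * b⁻¹) = LinearMap.id := by
          rw [map_mul, hab, ← map_mul, mul_inv_cancel, map_one]; rfl
        have h2 : a * b⁻¹ ∈ K := by
          rw [hK, CfsgH4.mem_charKerSub]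
          exact (CfsgH4.rep_eq_id_iff ρ _).2 h1
        rw [h0, Subgroup.mem_bot] at h2
        exact mul_inv_eq_one.1 h2
      obtain ⟨w, hwK, hwZ, hw⟩ := CfsgH4.exists_central_order_p hG K hKne
      let w' : Subgroup.center G := ⟨w, hwZ⟩
      have hw' : orderOf w' = p := by
        rw [← hw, ← Subgroup.orderOf_coe w']
      have hzw : z ∈ Subgroup.zpowers w' := CfsgH4.mem_zpowers_of_cyclic (by rw [hz, hw'])
      have h3 : (z : G) ∈ K := by
        obtain ⟨k, hk⟩ := hzw
        have : (z : G) = w ^ k := by rw [← hk]; rfl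
        rw [this]
        exact Subgroup.zpow_mem _ hwK k
      exact h3
    have hz1 := CfsgH4.eq_one_of_forall_ker hker
    have : z = 1 := Subtype.ext hz1
    rw [this, orderOf_one] at hz
    exact (Fact.out : p.Prime).one_lt.ne hz

end Cfsg.Agent.S0184
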