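import Cfsg.Statements.S0185
import Cfsg.Agent.H4.Mono

set_option autoImplicit false
open Cfsg

namespace Cfsg.Agent.S0185

/-- If a finite group has a faithful complex representation of degree less than the smallest prime dividing its order, the group is abelian. -/
theorem result {G : Type*} [Group G] [Finite G] {V : Type*} [AddCommGroup V] [Module ℂ V] [FiniteDimensional ℂ V] (ρ : Representation ℂ G V) (hfaithful : Function.Injective ρ) (hdeg : ∀ p : ℕ, p.Prime → p ∣ Nat.card G → Module.finrank ℂ V < p) (a b : G) : a * b = b * a := by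
  classical
  haveI := Fintype.ofFinite G
  have hχ := CfsgH4.isCharacter_of_rep ρ
  have key : ρ.character (a * b * a⁻¹ * b⁻¹) = ρ.character 1 := by
    apply CfsgH4.ker_of_forall hχ
    intro ψ hψ hne
    obtain ⟨ξ, hξ, hξe⟩ := CfsgH4.IsCharacter.sub_irr hχ hψ hne
    obtain ⟨d, hd⟩ := CfsgH4.IsCharacter.one_nat (CfsgH4.IsIrr.isCharacter hψ)
    obtain ⟨k, hk⟩ := CfsgH4.IsCharacter.one_nat hξ
    have hdvd := CfsgH4.degree_dvd_card hψ hd
    have hle : d ≤ Module.finrank ℂ V := by
      have h4 := congrFun hξe 1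
      rw [Pi.add_apply, Representation.char_one, hk, hd] at h4
      have h5 : Module.finrank ℂ V = d + k := by exact_mod_cast h4
      omega
    have hd1 : d = 1 := by
      by_contra hd1
      obtain ⟨p, hp, hpd⟩ := Nat.exists_prime_and_dvd hd1
      have h1 := hdeg p hp (hpd.trans hdvd)
      have h0 : d ≠ 0 := by
        rintro rfl
        exact CfsgH4.IsIrr.one_ne_zero hψ (by rw [hd]; simp)
      have h2 := Nat.le_of_dvd (Nat.pos_of_ne_zero h0) hpd
      omega
    obtain ⟨f, hf⟩ := CfsgH4.IsCharacter.linear_of_one (CfsgH4.IsIrr.isCharacter hψ)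
      (by rw [hd, hd1]; simp)
    rw [hf]
    simp only [map_mul, map_inv, map_one]
    congr 1
    rw [mul_comm (f a) (f b), mul_inv_cancel_right, mul_inv_cancel]
  have h1 := (CfsgH4.rep_eq_id_iff ρ _).1 key
  have h2 : a * b * a⁻¹ * b⁻¹ = 1 := hfaithful (by rw [h1, map_one]; rfl)
  calc a * b = (a * b * a⁻¹ * b⁻¹) * (b * a) := by group
    _ = b * a := by rw [h2, one_mul]

end Cfsg.Agent.S0185
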