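import Cfsg.Statements.S0186
import Cfsg.Agent.H4.Isom

set_option autoImplicit false
open Cfsg

namespace Cfsg.Agent.S0186

/-- Let G be a finite simple group of order n and p a prime dividing n. If G has more than n / p^2 conjugacy classes, then every Sylow p-subgroup of G is abelian. -/
theorem result {G : Type*} [Group G] [Finite G] [IsSimpleGroup G] (p : ℕ) [Fact p.Prime] (hp : p ∣ Nat.card G) (hmany : Nat.card G < p ^ 2 * Nat.card (ConjClasses G)) (P : Sylow p G) (a b : G) (ha : a ∈ P) (hb : b ∈ P) : a * b = b * a := by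
  classical
  haveI := Fintype.ofFinite G
  haveI : Fintype (P : Subgroup G) := Fintype.ofFinite _
  by_contra hab
  have hp1 : p.Prime := Fact.out
  -- G is nonabelian, centre trivial
  rcases CfsgH4.simple_center (G := G) with hZ | hprime
  swap
  · haveI := Fact.mk hprime
    haveI : IsCyclic G := isCyclic_of_prime_card (p := Nat.card G) rfl
    letI : CommGroup G := IsCyclic.commGroup
    exact hab (mul_comm a b)
  -- degrees
  have hdeg : ∀ χ : IrrCharacter G, ∃ n : ℕ, (χ : G → ℂ) 1 = n :=
    fun χ => CfsgH4.IsCharacter.one_nat (CfsgH4.IsIrr.isCharacter χ.2)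
  choose d hd using hdeg
  have hbound : ∀ χ : IrrCharacter G, (χ : G → ℂ) ≠ (fun _ => 1) → p + 1 ≤ d χ := by
    intro χ hne
    have hfaith : ∀ g : G, (χ : G → ℂ) g = (χ : G → ℂ) 1 → g = 1 :=
      fun g hg => CfsgH4.simple_faithful χ.2 hne hg
    have hres := CfsgH4.isCharacter_restrict (P : Subgroup G) (CfsgH4.IsIrr.isCharacter χ.2)
    -- there is a nonlinear constituent
    have hnl : ∃ ψ : ↥(P : Subgroup G) → ℂ, IsIrrCharacter ↥(P : Subgroup G) ψ ∧
        classInner (fun x : (P : Subgroup G) => (χ : G → ℂ) x) ψ ≠ 0 ∧ ψ 1 ≠ 1 := by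
      by_contra hc
      push Not at hc
      let a' : (P : Subgroup G) := ⟨a, ha⟩
      let b' : (P : Subgroup G) := ⟨b, hb⟩
      have h1 : (fun x : (P : Subgroup G) => (χ : G → ℂ) x) (a' * b' * a'⁻¹ * b'⁻¹) =
          (fun x : (P : Subgroup G) => (χ : G → ℂ) x) 1 := by
        apply CfsgH4.ker_of_forall hres
        intro ψ hψ hneψ
        obtain ⟨f, hf⟩ := CfsgH4.IsCharacter.linear_of_one (CfsgH4.IsIrr.isCharacter hψ)
          (hc ψ hψ hneψ)
        rw [hf]
        simp only [map_mul, map_inv, map_one]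
        congr 1
        rw [mul_comm (f a') (f b'), mul_inv_cancel_right, mul_inv_cancel]
      have h2 : a * b * a⁻¹ * b⁻¹ = 1 := hfaith _ h1
      apply hab
      calc a * b = (a * b * a⁻¹ * b⁻¹) * (b * a) := by group
        _ = b * a := by rw [h2, one_mul]
    obtain ⟨ψ, hψ, hneψ, hψ1⟩ := hnl
    obtain ⟨e, he⟩ := CfsgH4.IsCharacter.one_nat (CfsgH4.IsIrr.isCharacter hψ)
    obtain ⟨ξ, hξ, hξe⟩ := CfsgH4.IsCharacter.sub_irr hres hψ hneψ
    obtain ⟨k, hk⟩ := CfsgH4.IsCharacter.one_nat hξ
    have hde : d χ = e + k := by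
      have h1 := congrFun hξe 1
      simp only [Pi.add_apply, he, hk] at h1
      have h2 : (χ : G → ℂ) ((1 : (P : Subgroup G)) : G) = d χ := by
        rw [← hd]; rfl
      rw [h2] at h1
      exact_mod_cast h1
    -- p ∣ e
    have hpe : p ∣ e := by
      have h1 := CfsgH4.degree_dvd_card hψ he
      obtain ⟨m, hm⟩ := IsPGroup.iff_card.1 P.isPGroup'
      have h1' : e ∣ p ^ m := by rw [← hm]; exact h1
      obtain ⟨i, -, hi⟩ := (Nat.dvd_prime_pow hp1).1 h1'
      rw [hi]
      apply dvd_pow_self
      rintro rfl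
      apply hψ1
      rw [he, hi]; simp
    have he0 : 0 < e := by
      rcases Nat.eq_zero_or_pos e with h | h
      · exfalso
        apply CfsgH4.IsIrr.one_ne_zero hψ
        rw [he, h]; simp
      · exact h
    have hple : p ≤ e := Nat.le_of_dvd he0 hpe
    by_contra hlt
    push Not at hlt
    have hk0 : k = 0 := by omega
    have hep : e = p := by omega
    -- then χ restricted to P is ψ, irreducible; the centre of P acts by scalars
    have hξ0 : ξ = 0 := CfsgH4.IsCharacter.eq_zero hξ (by rw [hk, hk0]; simp)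
    have hresψ : (fun x : (P : Subgroup G) => (χ : G → ℂ) x) = ψ := by
      rw [hξe, hξ0, add_zero]
    have hPn : Nontrivial (P : Subgroup G) := by
      refine ⟨⟨a, ha⟩, 1, fun h => hab ?_⟩
      have : a = 1 := congrArg Subtype.val h
      rw [this]; simp
    haveI hZn : Nontrivial (Subgroup.center (P : Subgroup G)) := P.isPGroup'.center_nontrivial
    obtain ⟨⟨z, hz⟩, hz1⟩ := exists_ne (1 : Subgroup.center (P : Subgroup G))
    have hzG : (z : G) ≠ 1 := fun h => hz1 (Subtype.ext (Subtype.ext h))
    obtain ⟨m, ρ, hρ, hρψ⟩ := hψ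
    obtain ⟨ω, hω⟩ := CfsgH4.central_scalar ρ hρ hz
    have hnorm : ‖(χ : G → ℂ) z‖ = ‖(χ : G → ℂ) 1‖ := by
      have h1 : (χ : G → ℂ) z = ψ z := congrFun hresψ z
      have h2 : (χ : G → ℂ) 1 = ψ 1 := congrFun hresψ 1
      rw [h1, h2, ← hρψ, Representation.char_one]
      have h3 : ρ.character z = ω * (Module.finrank ℂ (Fin m → ℂ)) := by
        simp [Representation.character, hω]
      have hmne : (Module.finrank ℂ (Fin m → ℂ) : ℂ) ≠ 0 := by
        rw [← Representation.char_one (ρ := ρ), hρψ, he]
        exact_mod_cast he0.ne'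
      have hnt : Nontrivial (Fin m → ℂ) := by
        apply Module.nontrivial_of_finrank_pos (R := ℂ)
        exact Nat.pos_of_ne_zero (by exact_mod_cast hmne)
      have h4 : ω ^ orderOf z = 1 := by
        obtain ⟨v, hv⟩ := exists_ne (0 : Fin m → ℂ)
        have h3 : ∀ k : ℕ, (ρ z ^ k) v = ω ^ k • v := by
          intro k
          induction k with
          | zero => simp
          | succ k ih =>
            rw [pow_succ', Module.End.mul_apply, ih, map_smul, hω]
            simp [smul_smul, pow_succ]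
        have h4 := h3 (orderOf z)
        rw [CfsgH4.rep_pow_orderOf] at h4
        have h5 : (ω ^ orderOf z - 1) • v = 0 := by
          rw [sub_smul, ← h4]; simp
        rcases smul_eq_zero.1 h5 with h6 | h6
        · exact sub_eq_zero.1 h6
        · exact absurd h6 hv
      rw [h3, norm_mul, CfsgH4.norm_of_pow_orderOf h4, one_mul]
    have hzc := CfsgH4.central_of_norm (CfsgH4.IsIrr.isCharacter χ.2) hfaith hnorm
    rw [hZ, Subgroup.mem_bot] at hzc
    exact hzG hzc
  -- counting
  have hsum : ∑ χ : IrrCharacter G, d χ ^ 2 = Nat.card G := by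
    have := CfsgH4.sum_sq (G := G)
    simp only [hd] at this
    exact_mod_cast this
  let one : IrrCharacter G := ⟨fun _ => 1, CfsgH4.isIrrCharacter_one⟩
  have hk : Nat.card (ConjClasses G) = (Finset.univ.erase one).card + 1 := by
    rw [← CfsgH4.card_irr, Nat.card_eq_fintype_card (α := IrrCharacter G),
      Finset.card_erase_add_one (Finset.mem_univ one)]
    rfl
  rw [← Finset.add_sum_erase Finset.univ _ (Finset.mem_univ one)] at hsum
  have hd1 : d one = 1 := by
    have : ((d one : ℕ) : ℂ) = 1 := by rw [← hd]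
    exact_mod_cast this
  have hge : (Finset.univ.erase one).card * (p + 1) ^ 2 ≤ ∑ χ ∈ Finset.univ.erase one, d χ ^ 2 := by
    rw [← smul_eq_mul, ← Finset.sum_const]
    apply Finset.sum_le_sum
    intro χ hχ
    apply Nat.pow_le_pow_left
    apply hbound
    intro h
    exact (Finset.mem_erase.1 hχ).1 (Subtype.ext h)
  -- |G| ≥ p^3
  have hcardP : p ^ 3 ≤ Nat.card G := by
    obtain ⟨m, hm⟩ := IsPGroup.iff_card.1 P.isPGroup'
    have hm3 : 3 ≤ m := by
      by_contra hlt
      push Not at hlt
      apply hab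
      have hcomm : ∀ x y : (P : Subgroup G), x * y = y * x := by
        interval_cases m
        · rw [pow_zero, Nat.card_eq_one_iff_unique] at hm
          haveI := hm.1
          intro x y; exact Subsingleton.elim _ _
        · rw [pow_one] at hm
          haveI : IsCyclic (P : Subgroup G) := isCyclic_of_prime_card (p := p) hm
          letI : CommGroup (P : Subgroup G) := IsCyclic.commGroup
          intro x y; exact mul_comm x y
        · intro x y
          exact (IsPGroup.isMulCommutative_of_card_eq_prime_sq hm).is_comm.comm x y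
      exact congrArg Subtype.val (hcomm ⟨a, ha⟩ ⟨b, hb⟩)
    calc p ^ 3 ≤ p ^ m := Nat.pow_le_pow_right hp1.pos hm3
      _ = Nat.card (P : Subgroup G) := hm.symm
      _ ≤ Nat.card G := Subgroup.card_le_card_group _
  rw [hk] at hmany
  rw [hd1] at hsum
  set r := (Finset.univ.erase one).card
  have hp2 : 2 ≤ p := hp1.two_le
  -- 1 + r (p+1)^2 ≤ |G| < p^2 (r+1)
  have h1 : 1 + r * (p + 1) ^ 2 ≤ Nat.card G := by omega
  have h2 : r * (2 * p + 1) < p ^ 2 := by nlinarith
  have h3 : p ≤ r + 1 := by
    by_contra hlt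
    push Not at hlt
    have : p ^ 2 * (r + 1) ≤ p ^ 3 := by
      calc p ^ 2 * (r + 1) ≤ p ^ 2 * p := Nat.mul_le_mul_left _ (by omega)
        _ = p ^ 3 := by ring
    omega
  have h3' : p + 1 ≤ r + 1 := by
    by_contra hlt
    push Not at hlt
    have hpe : r + 1 = p := by omega
    rw [hpe] at hmany
    have : p ^ 2 * p = p ^ 3 := by ring
    omega
  have h4 : p ≤ r := by omega
  have h5 : p * (2 * p + 1) ≤ r * (2 * p + 1) := Nat.mul_le_mul_right _ h4
  nlinarith

end Cfsg.Agent.S0186
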