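import Cfsg.Statements.S0187
import Cfsg.Agent.H4.Odd

set_option autoImplicit false
open Cfsg

namespace Cfsg.Agent.S0187

/-- A finite group is commutative if and only if every irreducible complex character has degree 1. -/
theorem result {G : Type*} [Group G] [Finite G] : (∀ a b : G, a * b = b * a) ↔ ∀ χ : Cfsg.IrrCharacter G, (χ : G → ℂ) 1 = 1 := by
  haveI := Fintype.ofFinite G
  constructor
  · intro h χ
    obtain ⟨f, hf⟩ := CfsgH4.IsIrr.linear_of_comm h χ.2
    rw [hf]; simp
  · intro h a b
    have h1 : Nat.card (ConjClasses G) = Nat.card G := by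
      have h2 := CfsgH4.sum_sq (G := G)
      simp only [h, one_pow, Finset.sum_const, nsmul_eq_mul, mul_one] at h2
      rw [← CfsgH4.card_irr, Nat.card_eq_fintype_card (α := IrrCharacter G)]
      exact_mod_cast h2
    have h3 : Function.Surjective (ConjClasses.mk : G → ConjClasses G) := ConjClasses.mk_surjective
    have h4 : Function.Bijective (ConjClasses.mk : G → ConjClasses G) :=
      h3.bijective_of_nat_card_le h1.ge
    have h5 : IsConj a (b * a * b⁻¹) := isConj_iff.2 ⟨b, rfl⟩
    have h6 := h4.1 (ConjClasses.mk_eq_mk_iff_isConj.2 h5)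
    calc a * b = (b * a * b⁻¹) * b := by rw [← h6]
      _ = b * a := by group

end Cfsg.Agent.S0187
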