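import Cfsg.Statements.S0189
import Cfsg.Agent.H4.Mono

set_option autoImplicit false
open Cfsg

namespace Cfsg.Agent.S0189

/-- If a complex character of a finite group vanishes at every non-identity element of a Sylow p-subgroup P, then |P| divides its degree. -/
theorem result {G : Type*} [Group G] [Finite G] (p : ℕ) [Fact p.Prime] (P : Sylow p G) (χ : G → ℂ) (hχ : Cfsg.IsCharacter G χ) (hvan : ∀ g : G, g ∈ P → g ≠ 1 → χ g = 0) : ∃ k : ℕ, χ 1 = (Nat.card P : ℂ) * k := by
  classical
  haveI := Fintype.ofFinite G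
  haveI : Fintype P := Fintype.ofFinite P
  have h1 := CfsgH4.isCharacter_restrict (P : Subgroup G) hχ
  obtain ⟨k, hk⟩ := CfsgH4.IsCharacter.inner_irr_nat h1 CfsgH4.isIrrCharacter_one
  refine ⟨k, ?_⟩
  have hP := CfsgH4.card_ne_zero P
  rw [CfsgH4.classInner_def, Finset.sum_eq_single 1] at hk
  · rw [map_one, mul_one] at hk
    have : χ 1 = (Nat.card P : ℂ) * ((Nat.card P : ℂ)⁻¹ * χ ((1 : P) : G)) := by
      field_simp; rfl
    rw [this, hk]
  · intro b _ hb
    rw [hvan b b.2 (fun h => hb (Subtype.ext h)), zero_mul]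
  · intro h; exact absurd (Finset.mem_univ _) h

end Cfsg.Agent.S0189
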