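import Cfsg.Statements.S0190
import Cfsg.Agent.H4.Mono

set_option autoImplicit false
open Cfsg

namespace Cfsg.Agent.S0190

/-- For a transitive action of a finite group on X, the permutation character g ↦ (number of fixed points of g) is the function induced from the principal character of the stabilizer of any point. -/
theorem result {G : Type*} [Group G] [Fintype G] (X : Type*) [MulAction G X] [Finite X] [MulAction.IsPretransitive G X] (x : X) : (fun g : G => (Nat.card (MulAction.fixedBy X g) : ℂ)) = Cfsg.indFun (MulAction.stabilizer G x) (fun _ => 1) := by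
  classical
  ext g
  rw [CfsgH4.indFun_apply]
  haveI : Fintype X := Fintype.ofFinite X
  have hS := CfsgH4.card_ne_zero (MulAction.stabilizer G x)
  have h1 : ∀ y : G, extendByZero (MulAction.stabilizer G x) (fun _ => 1) (y⁻¹ * g * y) =
      if g • (y • x) = y • x then (1 : ℂ) else 0 := by
    intro y
    have h2 : y⁻¹ * g * y ∈ MulAction.stabilizer G x ↔ g • (y • x) = y • x := by
      rw [MulAction.mem_stabilizer_iff, mul_smul, mul_smul, inv_smul_eq_iff]
    by_cases h : g • (y • x) = y • x
    · rw [if_pos h, CfsgH4.extendByZero_of_mem _ _ (h2.2 h)]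
    · rw [if_neg h, CfsgH4.extendByZero_of_not_mem _ _ (fun h' => h (h2.1 h'))]
  rw [Finset.sum_congr rfl (fun y _ => h1 y)]
  have h2 : ∑ y : G, (if g • (y • x) = y • x then (1 : ℂ) else 0) =
      (Nat.card (MulAction.stabilizer G x) : ℂ) * ∑ z : X, if g • z = z then (1 : ℂ) else 0 := by
    rw [← Finset.sum_fiberwise (s := (Finset.univ : Finset G)) (g := fun y : G => y • x),
      Finset.mul_sum]
    refine Finset.sum_congr rfl fun z _ => ?_
    rw [Finset.sum_congr rfl (g := fun _ => if g • z = z then (1 : ℂ) else 0)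
      (fun y hy => by rw [(Finset.mem_filter.1 hy).2]), Finset.sum_const, nsmul_eq_mul]
    congr 2
    obtain ⟨w, rfl⟩ := MulAction.exists_smul_eq G x z
    rw [← Fintype.card_subtype, ← Nat.card_eq_fintype_card]
    refine Nat.card_congr ⟨fun y => ⟨w⁻¹ * y.1, ?_⟩, fun n => ⟨w * n.1, ?_⟩, ?_, ?_⟩
    · rw [MulAction.mem_stabilizer_iff, mul_smul, y.2, inv_smul_smul]
    · rw [mul_smul, MulAction.mem_stabilizer_iff.1 n.2]
    · intro y; simp
    · intro y; simp
  rw [h2, ← mul_assoc, inv_mul_cancel₀ hS, one_mul, ← Finset.sum_filter, Finset.sum_const,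
    nsmul_eq_mul, mul_one, Nat.card_eq_fintype_card, Fintype.card_subtype]
  congr 2

end Cfsg.Agent.S0190
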