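import Cfsg.Statements.S0191
import Cfsg.Agent.H4.Burnside

set_option autoImplicit false
open Cfsg

namespace Cfsg.Agent.S0191

/-- An irreducible complex representation of a finite group of degree greater than 1 has a character that vanishes somewhere. -/
theorem result {G : Type*} [Group G] [Finite G] {V : Type*} [AddCommGroup V] [Module ℂ V] [FiniteDimensional ℂ V] (ρ : Representation ℂ G V) [ρ.IsIrreducible] (hdeg : 1 < Module.finrank ℂ V) : ∃ g : G, ρ.character g = 0 := by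
  classical
  haveI := Fintype.ofFinite G
  by_contra hc
  push Not at hc
  set χ := ρ.character with hχd
  have hirr : IsIrrCharacter G χ := CfsgH4.isIrrCharacter_of_rep ρ inferInstance
  have hcχ := CfsgH4.IsIrr.isCharacter hirr
  set n := Nat.card G with hn
  have hnpos : 0 < n := Nat.card_pos
  haveI : NeZero n := ⟨hnpos.ne'⟩
  -- the product over units
  let P : G → ℂ := fun g => ∏ u : (ZMod n)ˣ, (χ (g ^ (u : ZMod n).val) * χ ((g⁻¹) ^ (u : ZMod n).val))
  have hpow : ∀ (g : G) (a b : ℕ), a ≡ b [MOD n] → g ^ a = g ^ b := by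
    intro g a b hab
    rw [pow_eq_pow_iff_modEq]
    exact hab.of_dvd (orderOf_dvd_natCard g)
  have hPint : ∀ g, IsIntegral ℤ (P g) := fun g =>
    IsIntegral.prod _ fun u _ => (CfsgH4.IsCharacter.isIntegral hcχ _).mul
      (CfsgH4.IsCharacter.isIntegral hcχ _)
  have hPfix : ∀ g (σ : ℂ ≃+* ℂ), σ (P g) = P g := by
    intro g σ
    obtain ⟨k, hk, hσ⟩ := CfsgH4.aut_pow hnpos σ
    have h1 := fun g => CfsgH4.char_aut_pow (fun g : G => orderOf_dvd_natCard g) σ hσ hcχ g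
    simp only [P, map_prod, map_mul, h1, ← pow_mul]
    let uk : (ZMod n)ˣ := ZMod.unitOfCoprime k hk
    refine Fintype.prod_equiv (Equiv.mulRight uk) _ _ fun u => ?_
    have h2 : (u : ZMod n).val * k ≡ ((u * uk : (ZMod n)ˣ) : ZMod n).val [MOD n] := by
      rw [← ZMod.natCast_eq_natCast_iff, ZMod.natCast_zmod_val, Nat.cast_mul, ZMod.natCast_zmod_val]
      simp [uk]
    simp only [Equiv.coe_mulRight]
    rw [hpow g _ _ h2, hpow g⁻¹ _ _ h2]
  have hPnorm : ∀ g, P g = ((∏ u : (ZMod n)ˣ, ‖χ (g ^ (u : ZMod n).val)‖ ^ 2 : ℝ) : ℂ) := by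
    intro g
    simp only [P]
    push_cast
    refine Finset.prod_congr rfl fun u _ => ?_
    rw [inv_pow, CfsgH4.IsCharacter.inv_eq hcχ, Complex.mul_conj, Complex.normSq_eq_norm_sq]
    push_cast; rfl
  have hPge : ∀ g, 1 ≤ ∏ u : (ZMod n)ˣ, ‖χ (g ^ (u : ZMod n).val)‖ ^ 2 := by
    intro g
    obtain ⟨q, hq⟩ := CfsgH4.rat_of_fixed (hPint g).tower_top (hPfix g)
    obtain ⟨m, hm⟩ := CfsgH4.int_of_isIntegral_rat (hPint g) hq
    have h1 : (∏ u : (ZMod n)ˣ, ‖χ (g ^ (u : ZMod n).val)‖ ^ 2 : ℝ) = m := by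
      have := hPnorm g
      rw [hm] at this
      exact_mod_cast this.symm
    have h2 : (0 : ℝ) < ∏ u : (ZMod n)ˣ, ‖χ (g ^ (u : ZMod n).val)‖ ^ 2 := by
      apply Finset.prod_pos
      intro u _
      have := norm_pos_iff.2 (hc (g ^ (u : ZMod n).val))
      positivity
    rw [h1] at h2 ⊢
    have h3 : 0 < m := by exact_mod_cast h2
    exact_mod_cast h3
  have hsum : ∀ g, (Fintype.card (ZMod n)ˣ : ℝ) ≤ ∑ u : (ZMod n)ˣ, ‖χ (g ^ (u : ZMod n).val)‖ ^ 2 := by
    intro g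
    have h1 : ∀ u : (ZMod n)ˣ, 0 < ‖χ (g ^ (u : ZMod n).val)‖ ^ 2 := by
      intro u
      have := norm_pos_iff.2 (hc (g ^ (u : ZMod n).val))
      positivity
    have h2 : ∀ u : (ZMod n)ˣ, 1 + Real.log (‖χ (g ^ (u : ZMod n).val)‖ ^ 2) ≤
        ‖χ (g ^ (u : ZMod n).val)‖ ^ 2 := by
      intro u
      have := Real.log_le_sub_one_of_pos (h1 u)
      linarith
    have h3 := Finset.sum_le_sum (fun u (_ : u ∈ Finset.univ) => h2 u)
    rw [Finset.sum_add_distrib, ← Real.log_prod (fun u _ => (h1 u).ne')] at h3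
    have h4 : 0 ≤ Real.log (∏ u : (ZMod n)ˣ, ‖χ (g ^ (u : ZMod n).val)‖ ^ 2) :=
      Real.log_nonneg (hPge g)
    simp only [Finset.sum_const, nsmul_eq_mul, mul_one] at h3
    have h5 : ((Finset.univ : Finset (ZMod n)ˣ).card : ℝ) = Fintype.card (ZMod n)ˣ := rfl
    rw [h5] at h3
    linarith
  -- sum over g ≠ 1
  have hperm : ∀ u : (ZMod n)ˣ, ∑ g ∈ Finset.univ.erase (1 : G), ‖χ (g ^ (u : ZMod n).val)‖ ^ 2 =
      ∑ g ∈ Finset.univ.erase (1 : G), ‖χ g‖ ^ 2 := by
    intro u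
    have hinv : ∀ g : G, (g ^ (u : ZMod n).val) ^ ((u⁻¹ : (ZMod n)ˣ) : ZMod n).val = g := by
      intro g
      rw [← pow_mul]
      conv_rhs => rw [← pow_one g]
      apply hpow
      rw [← ZMod.natCast_eq_natCast_iff, Nat.cast_mul, ZMod.natCast_zmod_val, ZMod.natCast_zmod_val,
        Nat.cast_one, ← Units.val_mul, mul_inv_cancel, Units.val_one]
    have hinv' : ∀ g : G, (g ^ ((u⁻¹ : (ZMod n)ˣ) : ZMod n).val) ^ (u : ZMod n).val = g := by
      intro g
      rw [← pow_mul]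
      conv_rhs => rw [← pow_one g]
      apply hpow
      rw [← ZMod.natCast_eq_natCast_iff, Nat.cast_mul, ZMod.natCast_zmod_val, ZMod.natCast_zmod_val,
        Nat.cast_one, ← Units.val_mul, inv_mul_cancel, Units.val_one]
    refine Finset.sum_bij' (fun g _ => g ^ (u : ZMod n).val)
      (fun g _ => g ^ ((u⁻¹ : (ZMod n)ˣ) : ZMod n).val) ?_ ?_ ?_ ?_ ?_
    · intro g hg
      refine Finset.mem_erase.2 ⟨fun h => (Finset.mem_erase.1 hg).1 ?_, Finset.mem_univ _⟩
      rw [← hinv g, h, one_pow]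
    · intro g hg
      refine Finset.mem_erase.2 ⟨fun h => (Finset.mem_erase.1 hg).1 ?_, Finset.mem_univ _⟩
      rw [← hinv' g, h, one_pow]
    · intro g _; exact hinv g
    · intro g _; exact hinv' g
    · intro g _; rfl
  have h1 : (Fintype.card (ZMod n)ˣ : ℝ) * (n - 1) ≤
      (Fintype.card (ZMod n)ˣ : ℝ) * ∑ g ∈ Finset.univ.erase (1 : G), ‖χ g‖ ^ 2 := by
    have h2 := Finset.sum_le_sum (fun g (_ : g ∈ Finset.univ.erase (1 : G)) => hsum g)
    rw [Finset.sum_comm, Finset.sum_congr rfl (fun u _ => hperm u)] at h2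
    simp only [Finset.sum_const, nsmul_eq_mul] at h2
    rw [Finset.card_erase_of_mem (Finset.mem_univ _)] at h2
    have h3 : (((Finset.univ : Finset G).card - 1 : ℕ) : ℝ) = n - 1 := by
      rw [Nat.cast_sub (by rw [Finset.card_univ, ← Nat.card_eq_fintype_card]; exact hnpos),
        Finset.card_univ, ← Nat.card_eq_fintype_card]
      simp [hn]
    rw [h3] at h2
    have h5 : ((Finset.univ : Finset (ZMod n)ˣ).card : ℝ) = Fintype.card (ZMod n)ˣ := rfl
    rw [h5] at h2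
    linarith
  have hφpos : (0 : ℝ) < Fintype.card (ZMod n)ˣ := by exact_mod_cast Fintype.card_pos
  have h2 : (n : ℝ) - 1 ≤ ∑ g ∈ Finset.univ.erase (1 : G), ‖χ g‖ ^ 2 :=
    le_of_mul_le_mul_left h1 hφpos
  have h3 : ∑ g : G, ‖χ g‖ ^ 2 = n := by
    have h4 := CfsgH4.classInner_irr_self hirr
    rw [CfsgH4.classInner_self_eq] at h4
    have h5 : (Nat.card G : ℝ)⁻¹ * ∑ g : G, ‖χ g‖ ^ 2 = 1 := by exact_mod_cast h4
    have h6 : (Nat.card G : ℝ) ≠ 0 := by exact_mod_cast hnpos.ne'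
    field_simp at h5
    linarith
  rw [← Finset.add_sum_erase Finset.univ _ (Finset.mem_univ (1 : G))] at h3
  have h4 : ‖χ 1‖ = Module.finrank ℂ V := by
    rw [hχd, Representation.char_one]; simp
  rw [h4] at h3
  have h5 : (1 : ℝ) < Module.finrank ℂ V := by exact_mod_cast hdeg
  nlinarith

end Cfsg.Agent.S0191
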