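import Cfsg.Statements.S0192
import Cfsg.Agent.H4.Mono

set_option autoImplicit false
open Cfsg

namespace Cfsg.Agent.S0192

open Representation in
theorem inv_dim {G : Type*} [Group G] {n : ℕ} (ρ : Representation ℂ G (Fin n → ℂ)) (H : Subgroup G)
    [Fintype H] : (classInner (fun x : H => ρ.character x) (fun _ => 1)).re =
      Module.finrank ℂ (invariants (ρ.comp H.subtype)) := by
  haveI : Invertible (Nat.card H : ℂ) := invertibleOfNonzero (CfsgH4.card_ne_zero H)
  have h := card_inv_mul_sum_char_eq_finrank (ρ.comp H.subtype)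
  have h2 : classInner (fun x : H => ρ.character x) (fun _ => 1) =
      Module.finrank ℂ (invariants (ρ.comp H.subtype)) := by
    rw [← h, CfsgH4.classInner_def]
    congr 1
    exact Finset.sum_congr rfl fun x _ => by rw [map_one, mul_one]; rfl
  rw [h2]; simp

/-- Brauer's generation criterion. Let G be a finite simple group, H₁ and H₂ subgroups, and χ a non-principal irreducible character. If the multiplicity of the principal character in χ restricted to H₁ ⊓ H₂ is less than the sum of the corresponding multiplicities for H₁ and H₂, then H₁ and H₂ do not generate G. -/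
theorem result {G : Type*} [Group G] [Fintype G] [IsSimpleGroup G] (H₁ H₂ : Subgroup G) [Fintype H₁] [Fintype H₂] [Fintype ↥(H₁ ⊓ H₂)] (χ : G → ℂ) (hχ : Cfsg.IsIrrCharacter G χ) (hχ1 : χ ≠ fun _ => 1) (hlt : (Cfsg.classInner (fun x : ↥(H₁ ⊓ H₂) => χ x) (fun _ => 1)).re < (Cfsg.classInner (fun x : H₁ => χ x) (fun _ => 1)).re + (Cfsg.classInner (fun x : H₂ => χ x) (fun _ => 1)).re) : H₁ ⊔ H₂ ≠ ⊤ := by
  classical
  intro htop
  obtain ⟨n, ρ, hρ, rfl⟩ := hχ
  rw [inv_dim, inv_dim, inv_dim] at hlt
  set W1 := Representation.invariants (ρ.comp H₁.subtype) with hW1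
  set W2 := Representation.invariants (ρ.comp H₂.subtype) with hW2
  set W3 := Representation.invariants (ρ.comp (H₁ ⊓ H₂).subtype) with hW3
  have hlt' : Module.finrank ℂ W3 < Module.finrank ℂ W1 + Module.finrank ℂ W2 := by
    exact_mod_cast hlt
  have h13 : W1 ≤ W3 := by
    intro v hv
    rw [hW3, Representation.mem_invariants]
    intro g
    exact (Representation.mem_invariants _ v).1 hv ⟨g, g.2.1⟩
  have h23 : W2 ≤ W3 := by
    intro v hv
    rw [hW3, Representation.mem_invariants]
    intro g
    exact (Representation.mem_invariants _ v).1 hv ⟨g, g.2.2⟩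
  have hne : W1 ⊓ W2 ≠ ⊥ := by
    intro h0
    have h1 := Submodule.finrank_sup_add_finrank_inf_eq W1 W2
    rw [h0, finrank_bot, add_zero] at h1
    have h2 : Module.finrank ℂ (W1 ⊔ W2 : Submodule ℂ (Fin n → ℂ)) ≤ Module.finrank ℂ W3 :=
      Submodule.finrank_mono (sup_le h13 h23)
    omega
  obtain ⟨v, hv, hv0⟩ := Submodule.exists_mem_ne_zero_of_ne_bot hne
  have hfix : ∀ g : G, ρ g v = v := by
    let S : Subgroup G :=
      { carrier := {g | ρ g v = v}
        one_mem' := by simp
        mul_mem' := by
          intro a b ha hb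
          show ρ (a * b) v = v
          rw [map_mul, Module.End.mul_apply, show ρ b v = v from hb]; exact ha
        inv_mem' := by
          intro a ha
          show ρ a⁻¹ v = v
          conv_lhs => rw [← (show ρ a v = v from ha)]
          rw [← Module.End.mul_apply, ← map_mul, inv_mul_cancel, map_one]; rfl }
    have h1 : H₁ ⊔ H₂ ≤ S := by
      rw [sup_le_iff]
      exact ⟨fun x hx => (Representation.mem_invariants _ v).1 hv.1 ⟨x, hx⟩,
        fun x hx => (Representation.mem_invariants _ v).1 hv.2 ⟨x, hx⟩⟩
    intro g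
    have : g ∈ S := h1 (by rw [htop]; trivial)
    exact this
  have h1 : classInner ρ.character (fun _ => 1) ≠ 0 := by
    haveI : Invertible (Nat.card G : ℂ) := invertibleOfNonzero (CfsgH4.card_ne_zero G)
    have h := Representation.card_inv_mul_sum_char_eq_finrank ρ
    have h2 : classInner ρ.character (fun _ => 1) =
        Module.finrank ℂ (Representation.invariants ρ) := by
      rw [← h, CfsgH4.classInner_def]
      congr 1
      exact Finset.sum_congr rfl fun x _ => by rw [map_one, mul_one]
    rw [h2]
    have h3 : Module.finrank ℂ (Representation.invariants ρ) ≠ 0 := by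
      intro h0
      haveI := Module.finrank_zero_iff.1 h0
      have h4 : (⟨v, (Representation.mem_invariants ρ v).2 hfix⟩ : Representation.invariants ρ) = 0 :=
        Subsingleton.elim _ _
      exact hv0 (congrArg Subtype.val h4)
    exact_mod_cast h3
  exact h1 (CfsgH4.classInner_irr_ne ⟨n, ρ, hρ, rfl⟩ CfsgH4.isIrrCharacter_one hχ1)

end Cfsg.Agent.S0192
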