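import Cfsg.Statements.S0194
import Cfsg.Agent.H4.Mono

set_option autoImplicit false
open scoped ComplexConjugate
open Cfsg

namespace Cfsg.Agent.S0194

/-- Let G have odd order, H be a normal subgroup and θ a non-principal irreducible character of H. Then the function induced from θ is orthogonal to its complex conjugate. -/
theorem result {G : Type*} [Group G] [Fintype G] (hodd : Odd (Nat.card G)) (H : Subgroup G) [H.Normal] (θ : H → ℂ) (hθ : Cfsg.IsIrrCharacter H θ) (hθ1 : θ ≠ fun _ => 1) : Cfsg.classInner (fun g => conj (Cfsg.indFun H θ g)) (Cfsg.indFun H θ) = 0 := by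
  classical
  haveI : Fintype H := Fintype.ofFinite H
  have h1 : (fun g => (starRingEnd ℂ) (indFun H θ g)) = indFun H (fun h => (starRingEnd ℂ) (θ h)) := by
    ext g; rw [CfsgH4.indFun_conj]
  rw [h1]
  have h2 := CfsgH4.classInner_indFun_normal H (fun h => (starRingEnd ℂ) (θ h)) θ
  have h3 : ∀ x : G, classInner (CfsgH4.conjFun H (fun h => (starRingEnd ℂ) (θ h)) x) θ = 0 := by
    intro x
    apply CfsgH4.classInner_irr_ne (CfsgH4.conjFun_isIrr H (CfsgH4.isIrrCharacter_conj hθ) x) hθ
    intro h4
    apply hθ1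
    -- x² fixes θ
    have h5 : CfsgH4.conjFun H θ x = fun h => (starRingEnd ℂ) (θ h) := by
      ext h
      have := congrFun h4 h
      rw [CfsgH4.conjFun_conj] at this
      rw [← this]; simp
    have h6 : x ^ 2 ∈ CfsgH4.inertia H θ := by
      rw [CfsgH4.mem_inertia, sq, ← CfsgH4.conjFun_mul, h5, h4]
    have h7 : x ∈ CfsgH4.inertia H θ := by
      obtain ⟨m, hm⟩ := hodd
      have h8 : x ^ Nat.card G = 1 := pow_card_eq_one'
      have h9 : x = (x ^ 2) ^ (m + 1) := by
        rw [← pow_mul]
        calc x = x ^ Nat.card G * x := by rw [h8, one_mul]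
          _ = x ^ (2 * (m + 1)) := by rw [hm, ← pow_succ]; congr 1
      rw [h9]
      exact Subgroup.pow_mem _ h6 _
    rw [CfsgH4.mem_inertia, h5] at h7
    have hoddH : Odd (Nat.card H) := hodd.of_dvd_nat (Subgroup.card_subgroup_dvd_card H)
    exact CfsgH4.real_irr_trivial hoddH hθ
      (fun g => Complex.conj_eq_iff_im.1 (congrFun h7 g))
  rw [Finset.sum_eq_zero (fun x _ => h3 x)] at h2
  exact (mul_eq_zero.1 h2).resolve_left (CfsgH4.card_ne_zero H)

end Cfsg.Agent.S0194
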