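import Cfsg.Statements.S0196
import Cfsg.Agent.H4.FrobGrp

set_option autoImplicit false
open Cfsg

namespace Cfsg.Agent.S0196

/-- Let A be a subgroup of a finite group G that equals the centralizer of each of its non-identity elements, and let N be its normalizer. Then the index of A in N divides |A| − 1 (N/A permutes the non-identity elements of A in orbits of full length). -/
theorem result {G : Type*} [Group G] [Finite G] (A : Subgroup G) (hA : ∀ x ∈ A, x ≠ 1 → Subgroup.centralizer ({x} : Set G) = A) : (A.subgroupOf (Subgroup.normalizer (A : Set G))).index ∣ Nat.card A - 1 := by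
  classical
  haveI := Fintype.ofFinite G
  set N := Subgroup.normalizer (A : Set G) with hN
  have hAN : A ≤ N := Subgroup.le_normalizer
  by_cases hA1 : A = ⊥
  · rw [hA1]; simp
  -- N acts on A∖{1} by conjugation with stabilizers A
  have hnorm : ∀ n ∈ N, ∀ a ∈ A, n * a * n⁻¹ ∈ A := fun n hn a ha =>
    (Subgroup.mem_normalizer_iff.1 hn a).1 ha
  let X := {a : A // a ≠ 1}
  letI act : MulAction N X :=
    { smul := fun n a => ⟨⟨n * a.1 * (n : G)⁻¹, hnorm n n.2 a.1 a.1.2⟩, fun h => a.2 (by
        apply Subtype.ext
        have h1 : (n : G) * a.1 * (n : G)⁻¹ = 1 := congrArg Subtype.val h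
        have h2 : ((a.1 : A) : G) = (n : G)⁻¹ * ((n : G) * a.1 * (n : G)⁻¹) * n := by group
        rw [h2, h1]; simp)⟩
      one_smul := by
        intro a; apply Subtype.ext; apply Subtype.ext
        show ((1 : N) : G) * a.1 * ((1 : N) : G)⁻¹ = a.1
        simp
      mul_smul := by
        intro m n a; apply Subtype.ext; apply Subtype.ext
        show ((m * n : N) : G) * a.1 * ((m * n : N) : G)⁻¹ = m * (n * a.1 * (n : G)⁻¹) * (m : G)⁻¹
        simp [mul_assoc] }
  have hstab : ∀ a : X, MulAction.stabilizer N a = A.subgroupOf N := by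
    intro a
    ext n
    rw [MulAction.mem_stabilizer_iff, Subgroup.mem_subgroupOf]
    have h1 : n • a = a ↔ (n : G) * a.1 * (n : G)⁻¹ = a.1 := by
      constructor
      · intro h; exact congrArg (fun z : X => ((z.1 : A) : G)) h
      · intro h; apply Subtype.ext; apply Subtype.ext; exact h
    rw [h1]
    have h2 := hA a.1 a.1.2 (fun h => a.2 (Subtype.ext h))
    conv_rhs => rw [← h2]
    rw [Subgroup.mem_centralizer_singleton_iff, mul_inv_eq_iff_eq_mul]
  haveI : Fintype X := Fintype.ofFinite X
  have hcardX : Nat.card X = Nat.card A - 1 := by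
    have h1 : Nat.card {a : A // a ≠ 1} = Nat.card A - 1 := by
      haveI : Fintype A := Fintype.ofFinite A
      rw [Nat.card_eq_fintype_card, Nat.card_eq_fintype_card, Fintype.card_subtype_compl]
      simp
    exact h1
  rw [← hcardX]
  -- orbits all have size the index
  have horb : ∀ a : X, Nat.card (MulAction.orbit N a) = (A.subgroupOf N).index := by
    intro a
    rw [← hstab a, MulAction.index_stabilizer]; rfl
  rw [Nat.card_congr (MulAction.selfEquivSigmaOrbits N X), Nat.card_sigma]
  apply Finset.dvd_sum
  intro ω _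
  obtain ⟨a, rfl⟩ := Quotient.exists_rep ω
  have : Nat.card (MulAction.orbitRel.Quotient.orbit (⟦a⟧ : MulAction.orbitRel.Quotient N X)) =
      (A.subgroupOf N).index := horb a
  exact ⟨1, by
    rw [mul_one, ← horb (Quotient.out (⟦a⟧ : MulAction.orbitRel.Quotient N X))]⟩

end Cfsg.Agent.S0196
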