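import Cfsg.Statements.S0201
import Cfsg.Agent.H5.BSe

set_option autoImplicit false
open Cfsg

namespace Cfsg.Agent.S0201

open CfsgH5

/-- Brauer–Suzuki Theorem: if a Sylow 2-subgroup of a finite group is generalized quaternion (of order at least 8) and the group has no nontrivial normal subgroup of odd order, then its centre has order 2. -/
theorem result {G : Type*} [Group G] [Finite G] (S : Sylow 2 G) (n : ℕ) (e : (S : Subgroup G) ≃* QuaternionGroup (2 ^ (n + 1))) (hO : ∀ N : Subgroup G, N.Normal → Odd (Nat.card N) → N = ⊥) : Nat.card (Subgroup.center G) = 2 := by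
  rcases n with _ | n
  · obtain ⟨z, hz⟩ := q8In_of_equiv (P := (S : Subgroup G)) e
    exact card_center_of (CfsgH7.isSyl_of_sylow S) hz.ui hO fun c hc hcc => hz.center hc hcc
  · have h := qg_of_equiv e
    exact card_center_of (CfsgH7.isSyl_of_sylow S) h.ui hO fun c hc hcc => h.center hc hcc

end Cfsg.Agent.S0201
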