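import Mathlib
import Cfsg.Agent.H3.Klein
import Cfsg.Statements.S0203

set_option autoImplicit false
open Cfsg

namespace Cfsg.Agent.S0203

/-- If a Sylow 2-subgroup P of a finite group G is a Klein four-group, then G has three classes of involutions if and only if P has a normal complement in G. -/
theorem result {G : Type*} [Group G] [Finite G] (P : Sylow 2 G) (hP : IsKleinFour (P : Subgroup G)) : Nat.card {C : ConjClasses G // ∃ t : G, orderOf t = 2 ∧ ConjClasses.mk t = C} = 3 ↔ ∃ N : Subgroup G, N.Normal ∧ Subgroup.IsComplement' N (P : Subgroup G) := by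
  constructor
  · intro h3
    rcases CfsgH3.klein_cases P hP with h | h
    · exact ⟨_, inferInstance, MonoidHom.ker_transferSylow_isComplement' P h⟩
    · rw [CfsgH3.klein_count_one P hP h] at h3
      omega
  · rintro ⟨N, hN, hc⟩
    apply CfsgH3.klein_count_three P hP
    intro g hg
    rw [Subgroup.mem_centralizer_iff]
    intro x hx
    have hxP : x ∈ (P : Subgroup G) := hx
    have hgx : g * x * g⁻¹ ∈ (P : Subgroup G) := ((Subgroup.mem_normalizer_iff.1 hg) x).1 hx
    -- write g = n * u
    obtain ⟨⟨n, u⟩, hnu⟩ := hc.2 g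
    simp only at hnu
    have hcomm : ∀ a ∈ (P : Subgroup G), ∀ b ∈ (P : Subgroup G), a * b = b * a := by
      intro a ha b hb
      haveI := hP.isMulCommutative
      have := mul_comm' (⟨a, ha⟩ : (P : Subgroup G)) ⟨b, hb⟩
      exact congrArg Subtype.val this
    have hux : (u : G) * x * (u : G)⁻¹ = x := by
      rw [hcomm u u.2 x hxP, mul_inv_cancel_right]
    have h1 : g * x * g⁻¹ = (n : G) * x * (n : G)⁻¹ := by
      rw [← hnu]
      calc (n : G) * u * x * ((n : G) * u)⁻¹ = n * (u * x * (u : G)⁻¹) * (n : G)⁻¹ := by group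
        _ = _ := by rw [hux]
    have h2 : g * x * g⁻¹ * x⁻¹ ∈ N := by
      rw [h1]
      have h3 : x * (n : G)⁻¹ * x⁻¹ ∈ N := hN.conj_mem _ (inv_mem n.2) x
      have h4 := mul_mem n.2 h3
      have e : (n : G) * (x * (n : G)⁻¹ * x⁻¹) = n * x * (n : G)⁻¹ * x⁻¹ := by group
      rwa [e] at h4
    have h3 : g * x * g⁻¹ * x⁻¹ ∈ (P : Subgroup G) := mul_mem hgx (inv_mem hxP)
    have h4 : g * x * g⁻¹ * x⁻¹ = 1 := Subgroup.disjoint_def.1 hc.disjoint h2 h3
    have h5 : g * x * g⁻¹ = x := by rwa [mul_inv_eq_one] at h4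
    calc x * g = (g * x * g⁻¹) * g := by rw [h5]
      _ = g * x := by group

end Cfsg.Agent.S0203
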