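import Mathlib
import Cfsg.Agent.H3.Inv
import Cfsg.Statements.S0209

set_option autoImplicit false
open Cfsg

namespace Cfsg.Agent.S0209

/-- If x, y are involutions whose product has even order n, the element (xy)^(n/2) is an involution that commutes with x and with y. -/
theorem result {G : Type*} [Group G] [Finite G] (x y : G) (hx : orderOf x = 2) (hy : orderOf y = 2) (heven : Even (orderOf (x * y))) : orderOf ((x * y) ^ (orderOf (x * y) / 2)) = 2 ∧ Commute ((x * y) ^ (orderOf (x * y) / 2)) x ∧ Commute ((x * y) ^ (orderOf (x * y) / 2)) y := by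
  have hx2 := CfsgH3.mul_self_of_orderOf_two hx
  have hy2 := CfsgH3.mul_self_of_orderOf_two hy
  have hpos : 0 < orderOf (x * y) := orderOf_pos _
  obtain ⟨m, hm⟩ := heven
  have hm' : orderOf (x * y) / 2 = m := by omega
  rw [hm']
  have hz : ((x * y) ^ m) * ((x * y) ^ m) = 1 := by
    rw [← pow_add, ← hm, pow_orderOf_eq_one]
  have hz1 : (x * y) ^ m ≠ 1 := by
    intro h
    have := orderOf_dvd_of_pow_eq_one h
    have := Nat.le_of_dvd (by omega) this
    omega
  have hzi : ((x * y) ^ m)⁻¹ = (x * y) ^ m := by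
    rw [inv_eq_iff_mul_eq_one, hz]
  have hmem : (x * y) ^ m ∈ Subgroup.zpowers (x * y) := pow_mem (Subgroup.mem_zpowers _) m
  refine ⟨CfsgH3.orderOf_two_of_mul_self hz1 hz, ?_, ?_⟩
  · have h1 := CfsgH3.conj_of_mem_zpowers (CfsgH3.conj_mul_eq_inv hx2 hy2) hmem
    rw [hzi] at h1
    have := mul_inv_eq_iff_eq_mul.mp h1
    exact this.symm
  · have h1 := CfsgH3.conj_of_mem_zpowers (CfsgH3.conj_mul_eq_inv' hx2 hy2) hmem
    rw [hzi] at h1
    have := mul_inv_eq_iff_eq_mul.mp h1
    exact this.symm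

end Cfsg.Agent.S0209
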