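import Mathlib
import Cfsg.Agent.H3.Inv
import Cfsg.Statements.S0210

set_option autoImplicit false
open Cfsg

namespace Cfsg.Agent.S0210

/-- If x, y are involutions whose product has even order, no element of the subgroup generated by x and y conjugates x to y. -/
theorem result {G : Type*} [Group G] [Finite G] (x y : G) (hx : orderOf x = 2) (hy : orderOf y = 2) (heven : Even (orderOf (x * y))) (d : G) (hd : d ∈ Subgroup.closure ({x, y} : Set G)) : d * x * d⁻¹ ≠ y := by
  have hx2 := CfsgH3.mul_self_of_orderOf_two hx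
  have hy2 := CfsgH3.mul_self_of_orderOf_two hy
  have hxi := CfsgH3.inv_of_orderOf_two hx
  have hinv := CfsgH3.conj_mul_eq_inv hx2 hy2
  -- conjugating x by e gives x * e⁻²
  have key : ∀ e ∈ Subgroup.zpowers (x * y), e * x * e⁻¹ = x * (e⁻¹ * e⁻¹) := by
    intro e he
    have h1 := CfsgH3.conj_of_mem_zpowers hinv he
    have h2 : e * x = x * e⁻¹ := by
      rw [← h1, hxi, ← mul_assoc, ← mul_assoc, hx2, one_mul]
    rw [h2, mul_assoc]
  have odd_contra : ∀ k : ℤ, (x * y) ^ (2 * k + 1) ≠ 1 := by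
    intro k hk
    rw [← orderOf_dvd_iff_zpow_eq_one] at hk
    have h2 : (2 : ℤ) ∣ 2 * k + 1 := dvd_trans (by exact_mod_cast heven.two_dvd) hk
    omega
  intro hcon
  rcases CfsgH3.mem_closure_invols hx2 hy2 hd with he | ⟨e, he, rfl⟩
  · rw [key d he] at hcon
    have h3 : d⁻¹ * d⁻¹ = x * y := by
      rw [← hcon, ← mul_assoc, hx2, one_mul]
    obtain ⟨k, hk⟩ := Subgroup.mem_zpowers_iff.mp he
    apply odd_contra (k)
    rw [zpow_add, zpow_one, two_mul, zpow_add, hk, ← h3]
    group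
  · have h4 : x * (e * x * e⁻¹) * x⁻¹ = y := by rw [← hcon]; group
    rw [key e he, ← mul_assoc x x, hx2, one_mul, hxi] at h4
    have h5 : e⁻¹ * e⁻¹ = (x * y)⁻¹ := by
      rw [mul_inv_rev, hxi, ← h4, CfsgH3.inv_of_orderOf_two (x := e⁻¹ * e⁻¹ * x) (by rw [h4]; exact hy), mul_assoc, mul_assoc, hx2, mul_one]
    obtain ⟨k, rfl⟩ := Subgroup.mem_zpowers_iff.mp he
    apply odd_contra (-k)
    have : ((x * y) ^ k)⁻¹ * ((x * y) ^ k)⁻¹ * (x * y) = 1 := by rw [h5, inv_mul_cancel]
    rw [← this]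
    rw [zpow_add, zpow_one, two_mul, zpow_add, zpow_neg]

end Cfsg.Agent.S0210
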