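import Mathlib
import Cfsg.Agent.H3.Inv
import Cfsg.Statements.S0211

set_option autoImplicit false
open Cfsg

namespace Cfsg.Agent.S0211

/-- Let x, y be involutions with xy of even order n and z = (xy)^(n/2). Then xz is conjugate to x by an element of the subgroup generated by x, y if and only if 4 divides n. -/
theorem result {G : Type*} [Group G] [Finite G] (x y : G) (hx : orderOf x = 2) (hy : orderOf y = 2) (heven : Even (orderOf (x * y))) : (∃ d ∈ Subgroup.closure ({x, y} : Set G), d * x * d⁻¹ = x * (x * y) ^ (orderOf (x * y) / 2)) ↔ 4 ∣ orderOf (x * y) := by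
  have hx2 := CfsgH3.mul_self_of_orderOf_two hx
  have hy2 := CfsgH3.mul_self_of_orderOf_two hy
  have hxi := CfsgH3.inv_of_orderOf_two hx
  have hinv := CfsgH3.conj_mul_eq_inv hx2 hy2
  have hpos : 0 < orderOf (x * y) := orderOf_pos _
  have key : ∀ e ∈ Subgroup.zpowers (x * y), e * x * e⁻¹ = x * (e⁻¹ * e⁻¹) := by
    intro e he
    have h1 := CfsgH3.conj_of_mem_zpowers hinv he
    have h2 : e * x = x * e⁻¹ := by
      rw [← h1, hxi, ← mul_assoc, ← mul_assoc, hx2, one_mul]
    rw [h2, mul_assoc]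
  obtain ⟨m, hm⟩ := heven
  have hm' : orderOf (x * y) / 2 = m := by omega
  rw [hm']
  have hz : ((x * y) ^ m) * ((x * y) ^ m) = 1 := by
    rw [← pow_add, ← hm, pow_orderOf_eq_one]
  have hzi : ((x * y) ^ m)⁻¹ = (x * y) ^ m := by
    rw [inv_eq_iff_mul_eq_one, hz]
  have fin : ∀ k : ℤ, (x * y) ^ (2 * k) = (x * y) ^ m → 4 ∣ orderOf (x * y) := by
    intro k hk
    have h1 : (x * y) ^ (2 * k - m) = 1 := by
      rw [zpow_sub, hk, zpow_natCast, mul_inv_cancel]
    rw [← orderOf_dvd_iff_zpow_eq_one] at h1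
    have h2 : (2 : ℤ) ∣ 2 * k - m := dvd_trans (by rw [hm]; push_cast; exact ⟨m, by ring⟩) h1
    have h3 : (2 : ℤ) ∣ m := by omega
    obtain ⟨j, hj⟩ := h3
    rw [hm]; omega
  constructor
  · rintro ⟨d, hd, hcon⟩
    rcases CfsgH3.mem_closure_invols hx2 hy2 hd with he | ⟨e, he, rfl⟩
    · rw [key d he] at hcon
      have h3 := mul_left_cancel hcon
      obtain ⟨k, rfl⟩ := Subgroup.mem_zpowers_iff.mp he
      apply fin (-k)
      rw [← h3, two_mul, zpow_add, zpow_neg]
    · have h4 : x * (e * x * e⁻¹) * x⁻¹ = x * (x * y) ^ m := by rw [← hcon]; group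
      rw [key e he, ← mul_assoc x x, hx2, one_mul, hxi] at h4
      have hee : e⁻¹ * e⁻¹ ∈ Subgroup.zpowers (x * y) := mul_mem (inv_mem he) (inv_mem he)
      have h5 := CfsgH3.conj_of_mem_zpowers hinv hee
      have h6 : (e⁻¹ * e⁻¹) * x = x * (e⁻¹ * e⁻¹)⁻¹ := by
        rw [← h5, hxi, ← mul_assoc, ← mul_assoc, hx2, one_mul]
      rw [h6] at h4
      have h3 := mul_left_cancel h4
      obtain ⟨k, rfl⟩ := Subgroup.mem_zpowers_iff.mp he
      apply fin (k)
      rw [← h3, two_mul, zpow_add]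
      group
  · intro h4
    obtain ⟨j, hj⟩ := h4
    have hmj : m = j + j := by omega
    refine ⟨(x * y) ^ j, ?_, ?_⟩
    · exact pow_mem (mul_mem (Subgroup.subset_closure (by simp)) (Subgroup.subset_closure (by simp))) _
    · rw [key _ (pow_mem (Subgroup.mem_zpowers _) _)]
      rw [← mul_inv_rev, ← pow_add, ← hmj, hzi]

end Cfsg.Agent.S0211
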