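import Mathlib
import Cfsg.Agent.H3.Invol2
import Cfsg.Statements.S0212

set_option autoImplicit false
open Cfsg

namespace Cfsg.Agent.S0212

open CfsgH3 in
theorem fact_aux (n : ℕ) (hn : 0 < n) : 2 * n ≤ Nat.factorial (2 * n ^ 2) := by
  have h1 : 2 * n ≤ 2 * n ^ 2 := by nlinarith
  exact h1.trans (Nat.self_le_factorial _)

/-- The Brauer–Fowler bound: if G is a finite simple group and t an involution of G whose centralizer has order n, then |G| ≤ (2n^2)!. -/
theorem result {G : Type*} [Group G] [Finite G] [IsSimpleGroup G] (t : G) (ht : orderOf t = 2) : Nat.card G ≤ Nat.factorial (2 * (Nat.card (Subgroup.centralizer ({t} : Set G))) ^ 2) := by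
  classical
  haveI := Fintype.ofFinite G
  set n := Nat.card (Subgroup.centralizer ({t} : Set G)) with hn
  have hnpos : 0 < n := Nat.card_pos
  by_cases hG : Nat.card G ≤ 2 * n
  · exact hG.trans (fact_aux n hnpos)
  push Not at hG
  have hzen : ∀ x : G, x ≠ 1 → x ∉ Subgroup.center G := by
    intro x hx hxZ
    have hZ : Subgroup.center G = ⊤ := by
      rcases (inferInstance : (Subgroup.center G).Normal).eq_bot_or_eq_top with h | h
      · rw [h, Subgroup.mem_bot] at hxZ; exact absurd hxZ hx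
      · exact h
    have h1 : Subgroup.centralizer ({t} : Set G) = ⊤ := by
      rw [CfsgH3.centralizer_singleton_eq_top_iff, hZ]; trivial
    rw [hn, h1, Subgroup.card_top] at hG
    omega
  by_cases hex : ∃ x : G, x ≠ 1 ∧ Nat.card G ≤ 2 * n ^ 2 * Nat.card (Subgroup.centralizer ({x} : Set G))
  · obtain ⟨x, hx1, hx⟩ := hex
    set C := Subgroup.centralizer ({x} : Set G) with hC
    have hCtop : C ≠ ⊤ := by
      rw [Ne, hC, CfsgH3.centralizer_singleton_eq_top_iff]
      exact hzen x hx1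
    have h1 := CfsgH3.card_le_factorial_index C hCtop
    refine h1.trans (Nat.factorial_le ?_)
    have h2 := Subgroup.card_mul_index C
    have h3 : 0 < Nat.card C := Nat.card_pos
    rw [← h2, mul_comm (Nat.card C)] at hx
    exact Nat.le_of_mul_le_mul_right hx h3
  push Not at hex
  exfalso
  set k := Nat.card {y : G // IsConj t y} with hk
  have hkn : k * n = Nat.card G := CfsgH3.card_isConj_mul t
  have hsum := CfsgH3.card_pairs_eq_sum (G := G) (fun u => IsConj t u) (fun u => IsConj t u)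
  rw [← hk] at hsum
  have hord : ∀ u : G, IsConj t u → orderOf u = 2 := by
    intro u hu
    obtain ⟨g, hg⟩ := isConj_iff.1 hu
    rw [← hg, CfsgH3.orderOf_conj, ht]
  have hle : ∀ x : G, Nat.card {p : G × G // IsConj t p.1 ∧ IsConj t p.2 ∧ p.1 * p.2 = x} ≤
      Nat.card {p : G × G // orderOf p.1 = 2 ∧ orderOf p.2 = 2 ∧ p.1 * p.2 = x} := by
    intro x
    apply Nat.card_le_card_of_injective (fun p : {p : G × G // IsConj t p.1 ∧ IsConj t p.2 ∧ p.1 * p.2 = x} =>
      (⟨p.1, hord _ p.2.1, hord _ p.2.2.1, p.2.2.2⟩ : {p : G × G // orderOf p.1 = 2 ∧ orderOf p.2 = 2 ∧ p.1 * p.2 = x}))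
    intro a b hab
    simp only [Subtype.mk.injEq] at hab
    exact Subtype.ext hab
  have h1 : Nat.card {p : G × G // IsConj t p.1 ∧ IsConj t p.2 ∧ p.1 * p.2 = 1} ≤ k := by
    apply Nat.card_le_card_of_injective (fun p : {p : G × G // IsConj t p.1 ∧ IsConj t p.2 ∧ p.1 * p.2 = 1} =>
      (⟨p.1.1, p.2.1⟩ : {y : G // IsConj t y}))
    rintro ⟨⟨u, v⟩, hu, hv, huv⟩ ⟨⟨u', v'⟩, hu', hv', huv'⟩ h
    simp only [Subtype.mk.injEq] at h huv huv'
    subst h
    have : v = v' := mul_left_cancel (huv.trans huv'.symm)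
    subst this; rfl
  rw [← Finset.add_sum_erase _ _ (Finset.mem_univ (1 : G))] at hsum
  have h2 : ∀ x ∈ (Finset.univ : Finset G).erase 1,
      2 * n ^ 2 * Nat.card {p : G × G // IsConj t p.1 ∧ IsConj t p.2 ∧ p.1 * p.2 = x} ≤ Nat.card G - 1 := by
    intro x hx
    have hx1 : x ≠ 1 := (Finset.mem_erase.1 hx).1
    have h3 := hex x hx1
    have h4 := (hle x).trans (CfsgH3.card_pairs_le x)
    have h5 : 2 * n ^ 2 * Nat.card {p : G × G // IsConj t p.1 ∧ IsConj t p.2 ∧ p.1 * p.2 = x} ≤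
      2 * n ^ 2 * Nat.card (Subgroup.centralizer ({x} : Set G)) := Nat.mul_le_mul_left _ h4
    omega
  have h3 := Finset.sum_le_sum h2
  rw [← Finset.mul_sum, Finset.sum_const, Finset.card_erase_of_mem (Finset.mem_univ _), Finset.card_univ,
    ← Nat.card_eq_fintype_card, smul_eq_mul] at h3
  set S := ∑ x ∈ (Finset.univ : Finset G).erase 1, Nat.card {p : G × G // IsConj t p.1 ∧ IsConj t p.2 ∧ p.1 * p.2 = x} with hS
  set a1 := Nat.card {p : G × G // IsConj t p.1 ∧ IsConj t p.2 ∧ p.1 * p.2 = 1} with ha1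
  have hGpos : 0 < Nat.card G := Nat.card_pos
  obtain ⟨g, hg⟩ : ∃ g, Nat.card G = g + 1 := ⟨Nat.card G - 1, by omega⟩
  rw [hg] at h3 hkn hG
  simp only [Nat.add_sub_cancel] at h3
  have h4 : 2 * n ^ 2 * (k * k) = 2 * n ^ 2 * a1 + 2 * n ^ 2 * S := by rw [hsum]; ring
  have h5 : 2 * n ^ 2 * (k * k) = 2 * (g + 1) * (g + 1) := by rw [← hkn]; ring
  have h6 : 2 * n ^ 2 * a1 ≤ 2 * n * (g + 1) := by
    rw [← hkn]
    calc 2 * n ^ 2 * a1 ≤ 2 * n ^ 2 * k := Nat.mul_le_mul_left _ h1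
      _ = 2 * n * (k * n) := by ring
  have h7 : 2 * n * (g + 1) ≤ g * (g + 1) := Nat.mul_le_mul_right _ (by omega)
  nlinarith

end Cfsg.Agent.S0212
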