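import Mathlib
import Cfsg.Agent.H3.Invol2
import Cfsg.Statements.S0213

set_option autoImplicit false
open Cfsg

namespace Cfsg.Agent.S0213

open CfsgH3 in
theorem key_aux {G : Type*} [Group G] [Finite G] {x y : G} (hx : orderOf x = 2) (hy : orderOf y = 2) (hnc : ¬ IsConj x y) :
    Even (orderOf (x * y)) := by
  rw [← Nat.not_odd_iff_even]
  intro h
  obtain ⟨d, -, hd⟩ := exists_conj_of_odd (mul_self_of_orderOf_two hx) (mul_self_of_orderOf_two hy) h
  exact hnc (isConj_iff.2 ⟨d, hd⟩)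

/-- Thompson Order Formula, two-class case: if every involution of the finite group G is conjugate to exactly one of the non-conjugate involutions x₁, x₂, and nᵢ is the number of pairs (u, v) with u conjugate to x₁, v conjugate to x₂ and xᵢ in the cyclic group generated by uv, then |G| = |C(x₂)| n₁ + |C(x₁)| n₂. -/
theorem result {G : Type*} [Group G] [Finite G] (x₁ x₂ : G) (h₁ : orderOf x₁ = 2) (h₂ : orderOf x₂ = 2) (hnc : ¬ IsConj x₁ x₂) (hall : ∀ t : G, orderOf t = 2 → IsConj x₁ t ∨ IsConj x₂ t) : Nat.card G = Nat.card (Subgroup.centralizer ({x₂} : Set G)) * Nat.card {p : G × G // IsConj x₁ p.1 ∧ IsConj x₂ p.2 ∧ x₁ ∈ Subgroup.zpowers (p.1 * p.2)} + Nat.card (Subgroup.centralizer ({x₁} : Set G)) * Nat.card {p : G × G // IsConj x₁ p.1 ∧ IsConj x₂ p.2 ∧ x₂ ∈ Subgroup.zpowers (p.1 * p.2)} := by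
  classical
  haveI := Fintype.ofFinite G
  -- f z : the number of pairs with z in the cyclic group
  set f : G → ℕ := fun z => Nat.card {p : G × G // IsConj x₁ p.1 ∧ IsConj x₂ p.2 ∧ z ∈ Subgroup.zpowers (p.1 * p.2)} with hf
  have hfconj : ∀ z g : G, f z ≤ f (g * z * g⁻¹) := by
    intro z g
    apply Nat.card_le_card_of_injective (fun p : {p : G × G // IsConj x₁ p.1 ∧ IsConj x₂ p.2 ∧ z ∈ Subgroup.zpowers (p.1 * p.2)} =>
      (⟨(g * p.1.1 * g⁻¹, g * p.1.2 * g⁻¹), p.2.1.trans (isConj_iff.2 ⟨g, rfl⟩), p.2.2.1.trans (isConj_iff.2 ⟨g, rfl⟩), by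
        obtain ⟨k, hk⟩ := Subgroup.mem_zpowers_iff.1 p.2.2.2
        refine Subgroup.mem_zpowers_iff.2 ⟨k, ?_⟩
        have e : g * p.1.1 * g⁻¹ * (g * p.1.2 * g⁻¹) = g * (p.1.1 * p.1.2) * g⁻¹ := by group
        rw [e, conj_zpow, hk]⟩ :
        {p : G × G // IsConj x₁ p.1 ∧ IsConj x₂ p.2 ∧ g * z * g⁻¹ ∈ Subgroup.zpowers (p.1 * p.2)}))
    rintro ⟨⟨u, v⟩, h⟩ ⟨⟨u', v'⟩, h'⟩ hh
    simp only [Subtype.mk.injEq, Prod.mk.injEq, mul_left_inj, mul_right_inj] at hh
    obtain ⟨rfl, rfl⟩ := hh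
    rfl
  have hfeq : ∀ z w : G, IsConj z w → f z = f w := by
    intro z w h
    obtain ⟨g, rfl⟩ := isConj_iff.1 h
    refine le_antisymm (hfconj z g) ?_
    have := hfconj (g * z * g⁻¹) g⁻¹
    have e : g⁻¹ * (g * z * g⁻¹) * g⁻¹⁻¹ = z := by group
    rwa [e] at this
  -- total number of pairs
  have hprod : Nat.card {u : G // IsConj x₁ u} * Nat.card {v : G // IsConj x₂ v} =
      Nat.card {u : G // IsConj x₁ u} * f x₁ + Nat.card {v : G // IsConj x₂ v} * f x₂ := by
    have hsig : Nat.card {u : G // IsConj x₁ u} * Nat.card {v : G // IsConj x₂ v} =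
        ∑ z : {z : G // orderOf z = 2}, f z := by
      rw [← Nat.card_prod, ← Nat.card_sigma]
      have hor1 : ∀ u : G, IsConj x₁ u → orderOf u = 2 := by
        intro u hu
        obtain ⟨g, hg⟩ := isConj_iff.1 hu
        rw [← hg, CfsgH3.orderOf_conj, h₁]
      have hor2 : ∀ u : G, IsConj x₂ u → orderOf u = 2 := by
        intro u hu
        obtain ⟨g, hg⟩ := isConj_iff.1 hu
        rw [← hg, CfsgH3.orderOf_conj, h₂]
      have hev : ∀ u v : G, IsConj x₁ u → IsConj x₂ v → Even (orderOf (u * v)) := by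
        intro u v hu hv
        apply key_aux (hor1 u hu) (hor2 v hv)
        intro h
        exact hnc (hu.trans (h.trans hv.symm))
      symm
      apply Nat.card_congr
      apply Equiv.ofBijective (fun s : (Σ z : {z : G // orderOf z = 2}, {p : G × G // IsConj x₁ p.1 ∧ IsConj x₂ p.2 ∧ (z : G) ∈ Subgroup.zpowers (p.1 * p.2)}) =>
        ((⟨s.2.1.1, s.2.2.1⟩, ⟨s.2.1.2, s.2.2.2.1⟩) : {u : G // IsConj x₁ u} × {v : G // IsConj x₂ v}))
      constructor
      · rintro ⟨⟨z, hz⟩, ⟨⟨u, v⟩, hu, hv, hzm⟩⟩ ⟨⟨z', hz'⟩, ⟨⟨u', v'⟩, hu', hv', hzm'⟩⟩ h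
        simp only [Prod.mk.injEq, Subtype.mk.injEq] at h
        obtain ⟨rfl, rfl⟩ := h
        have hzz : z = z' := by
          have h5 := CfsgH3.cyclic_invol_unique (C := Subgroup.zpowers (u * v)) (x := ⟨z, hzm⟩) (y := ⟨z', hzm'⟩)
            (by rw [Subgroup.orderOf_mk]; exact hz) (by rw [Subgroup.orderOf_mk]; exact hz')
          exact congrArg Subtype.val h5
        subst hzz
        rfl
      · rintro ⟨⟨u, hu⟩, ⟨v, hv⟩⟩
        obtain ⟨hz1, -, -⟩ := CfsgH3.half_props (hor1 u hu) (hor2 v hv) (hev u v hu hv)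
        exact ⟨⟨⟨_, hz1⟩, ⟨(u, v), hu, hv, pow_mem (Subgroup.mem_zpowers _) _⟩⟩, rfl⟩
    rw [hsig]
    have e : (∑ z : {z : G // orderOf z = 2}, f z) = ∑ z ∈ (Finset.univ : Finset G).filter (fun z => orderOf z = 2), f z := by
      rw [← Finset.sum_subtype_eq_sum_filter]
      simp
    rw [e]
    have e2 : (Finset.univ : Finset G).filter (fun z => orderOf z = 2) =
        (Finset.univ : Finset G).filter (fun z => IsConj x₁ z) ∪ (Finset.univ : Finset G).filter (fun z => IsConj x₂ z) := by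
      ext z
      simp only [Finset.mem_filter, Finset.mem_univ, true_and, Finset.mem_union]
      constructor
      · exact hall z
      · rintro (h | h)
        · obtain ⟨g, rfl⟩ := isConj_iff.1 h
          rw [CfsgH3.orderOf_conj, h₁]
        · obtain ⟨g, rfl⟩ := isConj_iff.1 h
          rw [CfsgH3.orderOf_conj, h₂]
    rw [e2, Finset.sum_union, Finset.sum_congr rfl (g := fun _ => f x₁), Finset.sum_const,
      Finset.sum_congr (s₁ := (Finset.univ : Finset G).filter (fun z => IsConj x₂ z)) rfl (g := fun _ => f x₂), Finset.sum_const,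
      smul_eq_mul, smul_eq_mul]
    · rw [Nat.card_eq_fintype_card, Fintype.card_subtype, Nat.card_eq_fintype_card, Fintype.card_subtype]
    · intro z hz
      exact (hfeq _ _ (Finset.mem_filter.1 hz).2).symm
    · intro z hz
      exact (hfeq _ _ (Finset.mem_filter.1 hz).2).symm
    · rw [Finset.disjoint_filter]
      intro z _ h1 h2
      exact hnc (h1.trans h2.symm)
  have c1 := CfsgH3.card_isConj_mul x₁
  have c2 := CfsgH3.card_isConj_mul x₂
  set k1 := Nat.card {u : G // IsConj x₁ u} with hk1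
  set k2 := Nat.card {u : G // IsConj x₂ u} with hk2
  set n1 := Nat.card (Subgroup.centralizer ({x₁} : Set G)) with hn1
  set n2 := Nat.card (Subgroup.centralizer ({x₂} : Set G)) with hn2
  have hGpos : 0 < Nat.card G := Nat.card_pos
  have : Nat.card G * Nat.card G = Nat.card G * (n2 * f x₁ + n1 * f x₂) := by
    calc Nat.card G * Nat.card G = (k1 * n1) * (k2 * n2) := by rw [c1, c2]
      _ = (k1 * k2) * (n1 * n2) := by ring
      _ = (k1 * f x₁ + k2 * f x₂) * (n1 * n2) := by rw [hprod]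
      _ = (k1 * n1) * (n2 * f x₁) + (k2 * n2) * (n1 * f x₂) := by ring
      _ = _ := by rw [c1, c2]; ring
  exact Nat.eq_of_mul_eq_mul_left hGpos this

end Cfsg.Agent.S0213
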