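import Mathlib
import Cfsg.Agent.H3.Invol2
import Cfsg.Statements.S0216

set_option autoImplicit false
open Cfsg

namespace Cfsg.Agent.S0216

/-- For an involution u in a Sylow 2-subgroup P of a finite group G, the following are equivalent: no G-conjugate of u other than u lies in P; every commutator of u with an element of G has odd order. -/
theorem result {G : Type*} [Group G] [Finite G] (P : Sylow 2 G) (u : G) (hu : orderOf u = 2) (huP : u ∈ P) : (∀ g : G, g * u * g⁻¹ ∈ P → g * u * g⁻¹ = u) ↔ (∀ g : G, Odd (orderOf (u * g * u⁻¹ * g⁻¹))) := by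
  have hu2 := CfsgH3.mul_self_of_orderOf_two hu
  have hui := CfsgH3.inv_of_orderOf_two hu
  constructor
  · intro hiso g
    have hy : orderOf (g * u * g⁻¹) = 2 := by rw [CfsgH3.orderOf_conj, hu]
    have e : u * g * u⁻¹ * g⁻¹ = u * (g * u * g⁻¹) := by rw [hui]; group
    rw [e, ← Nat.not_even_iff_odd]
    intro heven
    obtain ⟨hz1, hz2, hz3⟩ := CfsgH3.half_props hu hy heven
    set z := (u * (g * u * g⁻¹)) ^ (orderOf (u * (g * u * g⁻¹)) / 2) with hz
    have hconj : IsConj u (u * z) := by
      rcases CfsgH3.conj_half hu hy with h | h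
      · exact h
      · exact (isConj_iff.2 ⟨g, rfl⟩).trans h
    obtain ⟨d, hd⟩ := isConj_iff.1 hconj
    have hcomm : Commute u (d * u * d⁻¹) := by
      rw [hd]; exact (Commute.refl u).mul_right hz2.symm
    have h1 := CfsgH3.isolated_commute P hu hiso d hcomm
    rw [hd] at h1
    exact CfsgH3.ne_one_of_orderOf_two hz1 (by simpa using h1)
  · intro hodd g hg
    have e : u * g * u⁻¹ * g⁻¹ = u * (g * u * g⁻¹) := by rw [hui]; group
    have h1 := hodd g
    rw [e] at h1
    have h2 : u * (g * u * g⁻¹) ∈ P := mul_mem huP hg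
    have h3 : ∃ k, (u * (g * u * g⁻¹)) ^ 2 ^ k = 1 := by
      obtain ⟨k, hk⟩ := P.2 ⟨_, h2⟩
      exact ⟨k, by have := congrArg Subtype.val hk; simpa using this⟩
    obtain ⟨k, hk⟩ := h3
    have h4 := CfsgH3.eq_one_of_coprime_of_pow (p := 2) (Nat.Coprime.symm (Nat.coprime_two_left.2 h1)) hk
    have h5 : g * u * g⁻¹ = u⁻¹ := (inv_eq_of_mul_eq_one_right h4).symm
    rw [h5, hui]

end Cfsg.Agent.S0216
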