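import Mathlib
import Cfsg.Statements.S0218

set_option autoImplicit false
open Cfsg

namespace Cfsg.Agent.S0218

/-- The generalized quaternion group of order 2^(n+3) contains exactly one element of order 2. -/
theorem result (n : ℕ) : Nat.card {x : QuaternionGroup (2 ^ (n + 1)) // orderOf x = 2} = 1 := by
  have h2 : (2 : ℕ) ^ (n + 1) ≠ 0 := by positivity
  haveI : NeZero ((2 : ℕ) ^ (n + 1)) := ⟨h2⟩
  rw [Nat.card_eq_one_iff_unique]
  have key : ∀ x : QuaternionGroup (2 ^ (n + 1)), orderOf x = 2 ↔ x = QuaternionGroup.a ((2 ^ (n + 1) : ℕ) : ZMod (2 * 2 ^ (n + 1))) := by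
    intro x
    constructor
    · intro hx
      rcases x with i | i
      · have h1 := pow_orderOf_eq_one (QuaternionGroup.a i)
        rw [hx] at h1
        have hne : i ≠ 0 := by
          rintro rfl
          rw [← QuaternionGroup.one_def, orderOf_one] at hx
          omega
        rw [sq, QuaternionGroup.a_mul_a, QuaternionGroup.one_def, QuaternionGroup.a.injEq] at h1
        congr 1
        haveI : NeZero (2 * 2 ^ (n + 1)) := ⟨by positivity⟩
        have hi : ((i.val + i.val : ℕ) : ZMod (2 * 2 ^ (n + 1))) = 0 := by
          push_cast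
          rw [ZMod.natCast_zmod_val, h1]
        rw [ZMod.natCast_eq_zero_iff] at hi
        have hlt := ZMod.val_lt i
        have hpos : 0 < i.val := by
          rw [Nat.pos_iff_ne_zero, ne_eq, ZMod.val_eq_zero]
          exact hne
        obtain ⟨c, hc⟩ := hi
        have hc1 : c = 1 := by
          have hP : 0 < 2 ^ (n + 1) := by positivity
          rcases Nat.lt_or_ge c 1 with h | h
          · interval_cases c; omega
          · rcases Nat.lt_or_ge 1 c with h' | h'
            · exfalso
              have : 2 * 2 ^ (n + 1) * 2 ≤ 2 * 2 ^ (n + 1) * c := Nat.mul_le_mul_left _ h'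
              omega
            · omega
        rw [hc1] at hc
        have : i.val = 2 ^ (n + 1) := by omega
        calc i = ((i.val : ℕ) : ZMod (2 * 2 ^ (n + 1))) := (ZMod.natCast_zmod_val i).symm
          _ = _ := congrArg _ this
      · rw [QuaternionGroup.orderOf_xa] at hx
        omega
    · rintro rfl
      apply orderOf_eq_prime
      · rw [sq, QuaternionGroup.a_mul_a, QuaternionGroup.one_def]
        congr 1
        rw [← Nat.cast_add, ZMod.natCast_eq_zero_iff]
        exact ⟨1, by ring⟩
      · rw [QuaternionGroup.one_def]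
        intro h
        rw [QuaternionGroup.a.injEq, ZMod.natCast_eq_zero_iff] at h
        have := Nat.le_of_dvd (by positivity) h
        have hP : 0 < 2 ^ (n + 1) := by positivity
        omega
  refine ⟨⟨?_⟩, ⟨⟨_, (key _).mpr rfl⟩⟩⟩
  rintro ⟨a, ha⟩ ⟨b, hb⟩
  rw [key] at ha hb
  simp [ha, hb]

end Cfsg.Agent.S0218
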