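import Mathlib
import Cfsg.Agent.H3.Invol2
import Cfsg.Agent.S0219
import Cfsg.Statements.S0220

set_option autoImplicit false
open Cfsg

namespace Cfsg.Agent.S0220

/-- If x is an involution of a finite group G and a Sylow 2-subgroup of the centralizer of x is cyclic, then G has a subgroup of index 2; in particular G is not simple unless it has order 2. -/
theorem result {G : Type*} [Group G] [Finite G] (x : G) (hx : orderOf x = 2) (S : Sylow 2 ↥(Subgroup.centralizer ({x} : Set G))) (hS : IsCyclic (S : Subgroup ↥(Subgroup.centralizer ({x} : Set G)))) : ∃ H : Subgroup G, H.index = 2 := by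
  classical
  have hxC : x ∈ Subgroup.centralizer ({x} : Set G) := by rw [Subgroup.mem_centralizer_singleton_iff]
  -- x ∈ S
  have hxS : (⟨x, hxC⟩ : Subgroup.centralizer ({x} : Set G)) ∈ S := by
    have h1 : IsPGroup 2 (Subgroup.zpowers (⟨x, hxC⟩ : Subgroup.centralizer ({x} : Set G))) :=
      CfsgH3.isPGroup_zpowers_of_orderOf_two (by rw [← hx]; exact Subgroup.orderOf_mk x hxC)
    obtain ⟨T, hT⟩ := h1.exists_le_sylow
    obtain ⟨c, hc⟩ := MulAction.exists_smul_eq (Subgroup.centralizer ({x} : Set G)) T S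
    rw [← hc, CfsgH3.mem_smul_sylow_iff]
    have h2 : c⁻¹ * (⟨x, hxC⟩ : Subgroup.centralizer ({x} : Set G)) * c = ⟨x, hxC⟩ := by
      apply Subtype.ext
      have h3 := Subgroup.mem_centralizer_singleton_iff.1 c.2
      simp only [Subgroup.coe_mul, Subgroup.coe_inv]
      rw [mul_assoc, ← h3]; group
    rw [h2]
    exact hT (Subgroup.mem_zpowers _)
  set S' : Subgroup G := (S : Subgroup _).map (Subgroup.centralizer ({x} : Set G)).subtype with hS'
  have hS'p : IsPGroup 2 S' := S.2.map _
  have hxS' : x ∈ S' := ⟨⟨x, hxC⟩, hxS, rfl⟩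
  haveI hcyc : IsCyclic S' := by
    haveI := hS
    have e := (S : Subgroup ↥(Subgroup.centralizer ({x} : Set G))).equivMapOfInjective
      (Subgroup.centralizer ({x} : Set G)).subtype (Subgroup.subtype_injective _)
    exact isCyclic_of_surjective e.toMonoidHom e.surjective
  obtain ⟨T, hT⟩ := hS'p.exists_le_sylow
  have hST : S' = T := by
    by_contra hne
    have hlt : S' < T := lt_of_le_of_ne hT hne
    haveI : Group.IsNilpotent (T : Subgroup G) := T.2.isNilpotent
    obtain ⟨g, hgT, hgS, hgN⟩ := CfsgH3.exists_normalizer_gt hlt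
    -- g centralizes x
    have hgx : g * x * g⁻¹ = x := by
      have h1 : g * x * g⁻¹ ∈ S' := ((Subgroup.mem_normalizer_iff.1 hgN) x).1 hxS'
      have h2 : orderOf (g * x * g⁻¹) = 2 := by rw [CfsgH3.orderOf_conj, hx]
      have h5 := CfsgH3.cyclic_invol_unique (C := S') (x := ⟨g * x * g⁻¹, h1⟩) (y := ⟨x, hxS'⟩)
        (by rw [Subgroup.orderOf_mk, h2]) (by rw [Subgroup.orderOf_mk, hx])
      exact congrArg Subtype.val h5
    have hgC : g ∈ Subgroup.centralizer ({x} : Set G) := by
      rw [Subgroup.mem_centralizer_singleton_iff]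
      calc g * x = (g * x * g⁻¹) * g := by group
        _ = x * g := by rw [hgx]
    have h1 : IsPGroup 2 ↥((T : Subgroup G) ⊓ Subgroup.centralizer ({x} : Set G)) := T.2.to_le inf_le_left
    have h2 : IsPGroup 2 ↥(((T : Subgroup G) ⊓ Subgroup.centralizer ({x} : Set G)).subgroupOf (Subgroup.centralizer ({x} : Set G))) :=
      h1.comap_of_injective _ (Subgroup.subtype_injective _)
    have h3 : (S : Subgroup _) ≤ ((T : Subgroup G) ⊓ Subgroup.centralizer ({x} : Set G)).subgroupOf (Subgroup.centralizer ({x} : Set G)) := by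
      intro y hy
      rw [Subgroup.mem_subgroupOf]
      exact ⟨hT ⟨y, hy, rfl⟩, y.2⟩
    have h4 := S.3 h2 h3
    apply hgS
    have h5 : (⟨g, hgC⟩ : Subgroup.centralizer ({x} : Set G)) ∈ ((T : Subgroup G) ⊓ Subgroup.centralizer ({x} : Set G)).subgroupOf (Subgroup.centralizer ({x} : Set G)) := by
      rw [Subgroup.mem_subgroupOf]; exact ⟨hgT, hgC⟩
    rw [h4] at h5
    exact ⟨_, h5, rfl⟩
  apply Cfsg.Agent.S0219.result ?_ T (by rw [← hST]; exact hcyc)
  rw [even_iff_two_dvd, ← hx]
  exact orderOf_dvd_natCard x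

end Cfsg.Agent.S0220
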