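import Mathlib
import Cfsg.Agent.H3.Rank2
import Cfsg.Agent.H3.Fusion
import Cfsg.Agent.H3.Iso
import Cfsg.Statements.S0221

set_option autoImplicit false
open Cfsg

namespace Cfsg.Agent.S0221

open Subgroup CfsgH3 in
/-- a 2-group with an elementary abelian subgroup of order 8 has a normal four subgroup -/
theorem exists_normal_four {S : Type*} [Group S] [Finite S] (hS : IsPGroup 2 S) (E : Subgroup S) (hE8 : Nat.card E = 8) (hE : ∀ e ∈ E, e ^ 2 = 1) :
    ∃ U : Subgroup S, U.Normal ∧ Nat.card U = 4 ∧ ∀ u ∈ U, u ^ 2 = 1 := by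
  haveI : Fact (Nat.Prime 2) := ⟨Nat.prime_two⟩
  classical
  obtain ⟨A, hA⟩ := (Set.toFinite {A : Subgroup S | A.Normal ∧ (∀ a ∈ A, ∀ b ∈ A, a * b = b * a) ∧ (∀ a ∈ A, a ^ 2 ^ 2 = 1)}).exists_maximal ⟨⊥, inferInstance, by
    intro a ha b hb; rw [mem_bot] at ha hb; rw [ha, hb], by intro b hb; rw [mem_bot] at hb; rw [hb, one_pow]⟩
  obtain ⟨hAn, hAc, hAe⟩ := hA.prop
  have hAC : ∀ x ∈ centralizer (A : Set S), x ^ 2 ^ 2 = 1 → x ∈ A := by
    intro x hx hxp
    haveI := hAn
    apply alperin hS 2 (by norm_num) A hAc hAe _ x hx hxp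
    intro C hC1 hC2 hC3 hAC
    exact le_antisymm (hA.2 ⟨hC1, hC2, hC3⟩ hAC) hAC
  -- Ω₁(A)
  let Om : Subgroup S := 
    { carrier := {a | a ∈ A ∧ a ^ 2 = 1}
      one_mem' := ⟨one_mem _, one_pow _⟩
      mul_mem' := by
        rintro a b ⟨ha, ha2⟩ ⟨hb, hb2⟩
        refine ⟨mul_mem ha hb, ?_⟩
        rw [(show Commute a b from hAc a ha b hb).mul_pow, ha2, hb2, one_mul]
      inv_mem' := by
        rintro a ⟨ha, ha2⟩
        exact ⟨inv_mem ha, by rw [inv_pow, ha2, inv_one]⟩ }
  have hOmn : Om.Normal := by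
    constructor
    rintro a ⟨ha, ha2⟩ g
    exact ⟨hAn.conj_mem a ha g, by rw [conj_pow, ha2]; group⟩
  by_cases h4 : 2 ^ 2 ≤ Nat.card Om
  · obtain ⟨U, hUO, hUn, hUc⟩ := exists_normal_card hS Om 2 h4
    exact ⟨U, hUn, by rw [hUc]; norm_num, fun u hu => (hUO hu).2⟩
  · exfalso
    -- card Om ≤ 2, so A has order ≤ 4
    obtain ⟨k, hk⟩ := IsPGroup.iff_card.1 (hS.to_subgroup Om)
    have hOm2 : Nat.card Om ≤ 2 := by
      rw [hk] at h4 ⊢
      have : k ≤ 1 := by
        by_contra h1
        exact h4 (Nat.pow_le_pow_right (by norm_num) (by omega))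
      calc 2 ^ k ≤ 2 ^ 1 := Nat.pow_le_pow_right (by norm_num) this
        _ = 2 := by norm_num
    haveI := hAn
    have hA4 : Nat.card A ≤ 4 := by
      -- squaring map A → Om with kernel Om
      have hsq : ∀ a : A, (a : S) ^ 2 ∈ Om := by
        rintro ⟨a, ha⟩
        exact ⟨pow_mem ha 2, by rw [← pow_mul]; exact hAe a ha⟩
      let f : A →* Om := 
        { toFun := fun a => ⟨(a : S) ^ 2, hsq a⟩
          map_one' := by apply Subtype.ext; simp
          map_mul' := by
            rintro ⟨a, ha⟩ ⟨b, hb⟩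
            apply Subtype.ext
            exact (show Commute a b from hAc a ha b hb).mul_pow 2 }
      have h1 : Nat.card f.ker * Nat.card f.range = Nat.card A := by rw [← index_ker, card_mul_index]
      have h2 : Nat.card f.ker ≤ Nat.card Om := by
        apply Nat.card_le_card_of_injective (fun a : f.ker => (⟨a.1.1, a.1.2, congrArg Subtype.val a.2⟩ : Om))
        intro a b hab
        exact Subtype.ext (Subtype.ext (Subtype.mk.inj hab))
      have h3 : Nat.card f.range ≤ Nat.card Om := Nat.card_le_card_of_injective _ Subtype.val_injective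
      rw [← h1]
      calc Nat.card f.ker * Nat.card f.range ≤ 2 * 2 := Nat.mul_le_mul (h2.trans hOm2) (h3.trans hOm2)
        _ = 4 := by norm_num
    have hCi := centralizer_index_le hS hAc (by norm_num; exact hA4)
    have h1 : (centralizer (A : Set S) ⊓ E : Subgroup S) ≤ Om := by
      intro x hx
      refine ⟨hAC x (mem_inf.1 hx).1 ?_, hE x (mem_inf.1 hx).2⟩
      rw [pow_two 2, pow_mul, hE x (mem_inf.1 hx).2, one_pow]
    have h2 : Nat.card (centralizer (A : Set S) ⊓ E : Subgroup S) * (centralizer (A : Set S)).relIndex E = Nat.card E := by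
      have := relIndex_mul_relIndex (⊥ : Subgroup S) (centralizer (A : Set S) ⊓ E) E bot_le inf_le_right
      rw [relIndex_bot_left, relIndex_bot_left, inf_relIndex_right] at this
      exact this
    have h3 : (centralizer (A : Set S)).relIndex E ≤ 2 := by
      have h4 : (centralizer (A : Set S)).relIndex E ∣ (centralizer (A : Set S)).index := relIndex_dvd_index_of_normal _ _
      exact (Nat.le_of_dvd (Nat.pos_of_ne_zero index_ne_zero_of_finite) h4).trans hCi
    have h4 : Nat.card (centralizer (A : Set S) ⊓ E : Subgroup S) ≤ Nat.card Om := Nat.card_le_card_of_injective _ (inclusion_injective h1)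
    rw [hE8] at h2
    have h5 : Nat.card (centralizer (A : Set S) ⊓ E : Subgroup S) * (centralizer (A : Set S)).relIndex E ≤ 2 * 2 := Nat.mul_le_mul (h4.trans hOm2) h3
    omega
open Subgroup CfsgH3 in
theorem e8_of_sup {G : Type*} [Group G] [Finite G] (F : Subgroup G) (hF : ∀ f ∈ F, f ^ 2 = 1) (h8 : 8 ≤ Nat.card F) (x : G) (hx : ∀ f ∈ F, f * x = x * f) :
    ∃ E : Subgroup G, E ≤ Subgroup.centralizer ({x} : Set G) ∧ Nat.card E = 8 ∧ ∀ e ∈ E, e ^ 2 = 1 := by
  haveI : Fact (Nat.Prime 2) := ⟨Nat.prime_two⟩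
  have hFp : IsPGroup 2 F := by
    rintro ⟨f, hf⟩
    exact ⟨1, by rw [pow_one]; exact Subtype.ext (hF f hf)⟩
  obtain ⟨k, hk⟩ := IsPGroup.iff_card.1 hFp
  have hk3 : 3 ≤ k := by
    by_contra h
    have : 2 ^ k ≤ 2 ^ 2 := Nat.pow_le_pow_right (by norm_num) (by omega)
    omega
  have hd : 2 ^ 3 ∣ Nat.card F := by rw [hk]; exact pow_dvd_pow 2 hk3
  obtain ⟨E, hE⟩ := Sylow.exists_subgroup_card_pow_prime 2 hd
  refine ⟨E.map F.subtype, ?_, ?_, ?_⟩
  · rintro _ ⟨e, -, rfl⟩
    rw [mem_centralizer_singleton_iff]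
    exact hx e e.2
  · rw [Nat.card_congr (E.equivMapOfInjective F.subtype F.subtype_injective).symm.toEquiv, hE]; norm_num
  · rintro _ ⟨e, -, rfl⟩
    exact hF e e.2

open Subgroup in
theorem sup_exp {G : Type*} [Group G] (A B : Subgroup G) (hA : ∀ f ∈ A, f ^ 2 = 1) (hB : ∀ f ∈ B, f ^ 2 = 1) (hAB : ∀ a ∈ A, ∀ b ∈ B, a * b = b * a) :
    ∀ f ∈ A ⊔ B, f ^ 2 = 1 := by
  intro f hf
  rw [CfsgH1.mem_sup_of_le_normalizer (H := A) (K := B) ?_] at hf
  · obtain ⟨a, ha, b, hb, rfl⟩ := hf
    rw [(show Commute a b from hAB a ha b hb).mul_pow, hA a ha, hB b hb, one_mul]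
  · intro a ha
    rw [mem_normalizer_iff]
    intro b
    constructor
    · intro hb
      have := hAB a ha b hb
      rw [this]; simpa using hb
    · intro hb
      have := hAB a ha _ hb
      have h2 : a * b = a * b * a⁻¹ * a := by group
      have h3 : b = a * b * a⁻¹ := by
        have : a * (a * b * a⁻¹) = a * b := by rw [this]; group
        exact (mul_left_cancel this).symm
      rw [h3]; exact hb

/-- Let G be a finite group with no subgroup of index 2 whose 2-rank is at least 3 (it contains an elementary abelian subgroup of order 8). Then the centralizer of every involution of G also contains an elementary abelian subgroup of order 8. -/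
theorem result {G : Type*} [Group G] [Finite G] (hno : ∀ H : Subgroup G, H.index ≠ 2) (hrank : ∃ E : Subgroup G, Nat.card E = 8 ∧ ∀ e ∈ E, e ^ 2 = 1) (x : G) (hx : orderOf x = 2) : ∃ E : Subgroup G, E ≤ Subgroup.centralizer ({x} : Set G) ∧ Nat.card E = 8 ∧ ∀ e ∈ E, e ^ 2 = 1 := by
  classical
  haveI : Fact (Nat.Prime 2) := ⟨Nat.prime_two⟩
  obtain ⟨E, hE8, hE⟩ := hrank
  have hEp : IsPGroup 2 E := by
    rintro ⟨f, hf⟩
    exact ⟨1, by rw [pow_one]; exact Subtype.ext (hE f hf)⟩
  have hcom : ∀ F : Subgroup G, (∀ f ∈ F, f ^ 2 = 1) → ∀ a ∈ F, ∀ b ∈ F, a * b = b * a := by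
    intro F hF a ha b hb
    have h1 := hF _ (mul_mem ha hb)
    have h2 := hF a ha
    have h3 := hF b hb
    have hai : a⁻¹ = a := inv_eq_of_mul_eq_one_right (by rw [← pow_two]; exact h2)
    have hbi : b⁻¹ = b := inv_eq_of_mul_eq_one_right (by rw [← pow_two]; exact h3)
    have habi : (a * b)⁻¹ = a * b := inv_eq_of_mul_eq_one_right (by rw [← pow_two]; exact h1)
    rw [mul_inv_rev, hai, hbi] at habi
    exact habi.symm
  obtain ⟨S, hS⟩ := hEp.exists_le_sylow
  obtain ⟨U0, hU0n, hU04, hU0e⟩ := exists_normal_four S.isPGroup' (E.subgroupOf (S : Subgroup G)) (by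
    rw [← hE8]; exact Nat.card_congr (Subgroup.subgroupOfEquivOfLe hS).toEquiv) (by
    rintro ⟨e, he⟩ hee
    exact Subtype.ext (hE e (Subgroup.mem_subgroupOf.1 hee)))
  set U := U0.map (S : Subgroup G).subtype with hU
  have hUS : U ≤ S := Subgroup.map_subtype_le U0
  have hUc : Nat.card U = 4 := by
    rw [hU, Nat.card_congr (U0.equivMapOfInjective _ (S : Subgroup G).subtype_injective).symm.toEquiv, hU04]
  have hUe : ∀ u ∈ U, u ^ 2 = 1 := by
    rintro _ ⟨u, hu, rfl⟩
    exact congrArg Subtype.val (hU0e u hu)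
  have hUcomm := hcom U hUe
  have hSU : ∀ s ∈ (S : Subgroup G), ∀ u ∈ U, s * u * s⁻¹ ∈ U := by
    rintro s hs _ ⟨u, hu, rfl⟩
    exact ⟨⟨s, hs⟩ * u * ⟨s, hs⟩⁻¹, hU0n.conj_mem u hu _, rfl⟩
  -- centralizer index
  have hU0c : ∀ a ∈ U0, ∀ b ∈ U0, a * b = b * a := by
    intro a ha b hb
    apply Subtype.ext
    exact hUcomm a ⟨a, ha, rfl⟩ b ⟨b, hb, rfl⟩
  have hidx := CfsgH3.centralizer_index_le (p := 2) S.isPGroup' hU0c (by rw [hU04]; norm_num)
  set T := (S : Subgroup G) ⊓ Subgroup.centralizer (U : Set G) with hT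
  have hTidx : T.relIndex (S : Subgroup G) ≤ 2 := by
    have h1 : T.relIndex (S : Subgroup G) = (Subgroup.centralizer (U0 : Set (S : Subgroup G))).index := by
      rw [Subgroup.relIndex]
      congr 1
      ext ⟨s, hs⟩
      rw [Subgroup.mem_subgroupOf, hT, Subgroup.mem_inf, Subgroup.mem_centralizer_iff, Subgroup.mem_centralizer_iff]
      constructor
      · rintro ⟨-, h⟩ u hu
        exact Subtype.ext (h u ⟨u, hu, rfl⟩)
      · intro h
        refine ⟨hs, ?_⟩
        rintro _ ⟨u, hu, rfl⟩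
        exact congrArg Subtype.val (h u hu)
    rw [h1]; exact hidx
  -- the four group has large rank centralizer
  have hF8 : 8 ≤ Nat.card ((E ⊓ T) ⊔ U : Subgroup G) := by
    have hp : IsPGroup 2 ((E ⊓ T) ⊔ U : Subgroup G) := by
      apply S.isPGroup'.to_le
      exact sup_le (inf_le_left.trans hS) hUS
    obtain ⟨k, hk⟩ := IsPGroup.iff_card.1 hp
    have hET4 : 4 ≤ Nat.card (E ⊓ T : Subgroup G) := by
      have h1 : Nat.card (E ⊓ T : Subgroup G) * (E ⊓ T).relIndex E = Nat.card E := by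
        have := Subgroup.relIndex_mul_relIndex (⊥ : Subgroup G) (E ⊓ T) E bot_le inf_le_left
        rwa [Subgroup.relIndex_bot_left, Subgroup.relIndex_bot_left] at this
      have h2 : (E ⊓ T).relIndex E ≤ 2 := by
        rw [Subgroup.inf_relIndex_left]
        refine le_trans ?_ hTidx
        exact Subgroup.relIndex_le_of_le_right hS (by
          intro h0
          rw [Subgroup.relIndex] at h0
          exact Subgroup.index_ne_zero_of_finite h0)
      rw [hE8] at h1
      have h3 : Nat.card (E ⊓ T : Subgroup G) * (E ⊓ T).relIndex E ≤ Nat.card (E ⊓ T : Subgroup G) * 2 := Nat.mul_le_mul_left _ h2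
      omega
    by_contra h8
    have hle : Nat.card (E ⊓ T : Subgroup G) ≤ Nat.card ((E ⊓ T) ⊔ U : Subgroup G) := 
      Nat.card_le_card_of_injective _ (Subgroup.inclusion_injective le_sup_left)
    have hk2 : k = 2 := by
      have h1 : 2 ^ 2 ≤ 2 ^ k := by rw [← hk]; norm_num; omega
      have h2 := (Nat.pow_le_pow_iff_right (by norm_num : 1 < 2)).1 h1
      have h3 : 2 ^ k < 2 ^ 3 := by rw [← hk]; norm_num; omega
      have h4 := (Nat.pow_lt_pow_iff_right (by norm_num : 1 < 2)).1 h3
      omega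
    rw [hk2] at hk
    have e1 : U = (E ⊓ T) ⊔ U := Subgroup.eq_of_le_of_card_ge le_sup_right (by rw [hk, hUc]; norm_num)
    have e2 : (E ⊓ T) = (E ⊓ T) ⊔ U := Subgroup.eq_of_le_of_card_ge le_sup_left (by rw [hk]; exact hET4)
    have e3 : U ≤ E := by rw [e1, ← e2]; exact inf_le_left
    have e4 : E ≤ T := by
      intro e he
      refine Subgroup.mem_inf.2 ⟨hS he, ?_⟩
      rw [Subgroup.mem_centralizer_iff]
      intro u hu
      exact hcom E hE u (e3 hu) e he
    have e5 : E ≤ U := by rw [e1, ← e2, inf_eq_left.2 e4]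
    have e6 : Nat.card E ≤ Nat.card U := Nat.card_le_card_of_injective _ (Subgroup.inclusion_injective e5)
    omega
  -- involutions of T
  have hTinv : ∀ t ∈ T, orderOf t = 2 → ∃ E : Subgroup G, E ≤ Subgroup.centralizer ({t} : Set G) ∧ Nat.card E = 8 ∧ ∀ e ∈ E, e ^ 2 = 1 := by
    intro t ht ht2
    obtain ⟨htS, htU⟩ := Subgroup.mem_inf.1 ht
    have htsq : t ^ 2 = 1 := by rw [← ht2, pow_orderOf_eq_one]
    by_cases htU' : t ∈ U
    · apply e8_of_sup ((E ⊓ T) ⊔ U)
      · apply sup_exp
        · intro f hf; exact hE f (Subgroup.mem_inf.1 hf).1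
        · exact hUe
        · intro a ha b hb
          exact (Subgroup.mem_centralizer_iff.1 (Subgroup.mem_inf.1 (Subgroup.mem_inf.1 ha).2).2 b hb).symm
      · exact hF8
      · have : (E ⊓ T) ⊔ U ≤ Subgroup.centralizer ({t} : Set G) := by
          apply sup_le
          · intro a ha
            rw [Subgroup.mem_centralizer_singleton_iff]
            exact (Subgroup.mem_centralizer_iff.1 (Subgroup.mem_inf.1 (Subgroup.mem_inf.1 ha).2).2 t htU').symm
          · intro a ha
            rw [Subgroup.mem_centralizer_singleton_iff]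
            exact hUcomm a ha t htU'
        intro f hf
        have := this hf
        rw [Subgroup.mem_centralizer_singleton_iff] at this
        exact this
    · have hzp : ∀ f ∈ Subgroup.zpowers t, f ^ 2 = 1 := by
        rintro _ ⟨k, rfl⟩
        show (t ^ k) ^ 2 = 1
        rw [← zpow_natCast, ← zpow_mul, mul_comm, zpow_mul, zpow_natCast, htsq, one_zpow]
      have hcm : ∀ a ∈ U, ∀ b ∈ Subgroup.zpowers t, a * b = b * a := by
        rintro a ha _ ⟨k, rfl⟩
        have : Commute a t := Subgroup.mem_centralizer_iff.1 htU a ha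
        exact (this.zpow_right k).eq
      apply e8_of_sup (U ⊔ Subgroup.zpowers t)
      · exact sup_exp _ _ hUe hzp hcm
      · have hp : IsPGroup 2 (U ⊔ Subgroup.zpowers t : Subgroup G) := by
          apply S.isPGroup'.to_le
          exact sup_le hUS (by rw [Subgroup.zpowers_le]; exact htS)
        obtain ⟨k, hk⟩ := IsPGroup.iff_card.1 hp
        have hlt : U < U ⊔ Subgroup.zpowers t := by
          refine lt_of_le_of_ne le_sup_left ?_
          intro h; apply htU'; rw [h]; exact Subgroup.mem_sup_right (Subgroup.mem_zpowers t)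
        have h1 := CfsgH3.card_lt_card_of_lt hlt
        rw [hUc, hk] at h1
        have h2 : 2 ^ 2 < 2 ^ k := by norm_num; exact h1
        have h3 := (Nat.pow_lt_pow_iff_right (by norm_num : 1 < 2)).1 h2
        rw [hk]
        calc 8 = 2 ^ 3 := by norm_num
          _ ≤ 2 ^ k := Nat.pow_le_pow_right (by norm_num) (by omega)
      · intro f hf
        have : U ⊔ Subgroup.zpowers t ≤ Subgroup.centralizer ({t} : Set G) := by
          apply sup_le
          · intro a ha
            rw [Subgroup.mem_centralizer_singleton_iff]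
            exact Subgroup.mem_centralizer_iff.1 htU a ha
          · rw [Subgroup.zpowers_le, Subgroup.mem_centralizer_singleton_iff]
        have := this hf
        rw [Subgroup.mem_centralizer_singleton_iff] at this
        exact this
  -- conjugate x into T
  obtain ⟨g, hg⟩ : ∃ g : G, g * x * g⁻¹ ∈ T := by
    have hxp : IsPGroup 2 (Subgroup.zpowers x) := by
      rw [IsPGroup.iff_card]; exact ⟨1, by rw [Nat.card_zpowers, hx, pow_one]⟩
    obtain ⟨S', hS'⟩ := hxp.exists_le_sylow
    obtain ⟨h, hh⟩ := MulAction.exists_smul_eq G S' S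
    have hxS : h * x * h⁻¹ ∈ (S : Subgroup G) := by
      rw [← hh]
      rw [CfsgH3.mem_smul_sylow_iff']
      have : h⁻¹ * (h * x * h⁻¹) * h = x := by group
      rw [this]; exact hS' (Subgroup.mem_zpowers x)
    by_cases h1 : T.relIndex (S : Subgroup G) = 2
    · by_contra hno'
      push Not at hno'
      obtain ⟨M, -, hM, -⟩ := CfsgH3.thompson_transfer_invol S T h1 (h * x * h⁻¹) (by
        have := MulEquiv.orderOf_eq (MulAut.conj h) x
        rw [MulAut.conj_apply] at this
        rw [this, hx]) hxS (by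
        intro g hgT
        apply hno' (g * h)
        have : g * h * x * (g * h)⁻¹ = g * (h * x * h⁻¹) * g⁻¹ := by group
        rw [this]; exact hgT)
      exact hno M hM
    · have h2 : T.relIndex (S : Subgroup G) = 1 := by
        have : T.relIndex (S : Subgroup G) ≠ 0 := by
          rw [Subgroup.relIndex]; exact Subgroup.index_ne_zero_of_finite
        omega
      rw [Subgroup.relIndex_eq_one] at h2
      exact ⟨h, h2 hxS⟩
  have hgx2 : orderOf (g * x * g⁻¹) = 2 := by
    have := MulEquiv.orderOf_eq (MulAut.conj g) x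
    rw [MulAut.conj_apply] at this
    rw [this, hx]
  obtain ⟨F, hF1, hF2, hF3⟩ := hTinv _ hg hgx2
  refine ⟨F.map (MulAut.conj g⁻¹).toMonoidHom, ?_, ?_, ?_⟩
  · rintro _ ⟨f, hf, rfl⟩
    have := hF1 hf
    rw [Subgroup.mem_centralizer_singleton_iff] at this ⊢
    show g⁻¹ * f * g⁻¹⁻¹ * x = x * (g⁻¹ * f * g⁻¹⁻¹)
    calc g⁻¹ * f * g⁻¹⁻¹ * x = g⁻¹ * (f * (g * x * g⁻¹)) * g := by group
      _ = g⁻¹ * ((g * x * g⁻¹) * f) * g := by rw [this]
      _ = x * (g⁻¹ * f * g⁻¹⁻¹) := by group
  · rw [Nat.card_congr (F.equivMapOfInjective _ (MulAut.conj g⁻¹).injective).symm.toEquiv, hF2]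
  · rintro _ ⟨f, hf, rfl⟩
    show (g⁻¹ * f * g⁻¹⁻¹) ^ 2 = 1
    rw [conj_pow, hF3 f hf]; group

end Cfsg.Agent.S0221
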