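import Mathlib
import Cfsg.Agent.H3.Iso
import Cfsg.Agent.H3.FourGrp
import Cfsg.Agent.H2.Cores
import Cfsg.Statements.S0225

set_option autoImplicit false
open Cfsg

namespace Cfsg.Agent.S0225

/-- If a finite group G has even order but contains no Klein four-subgroup (2-rank 1), then some involution z of G is central modulo a normal subgroup of odd order: there is a normal subgroup N of odd order containing every commutator z g z⁻¹ g⁻¹. -/
theorem result {G : Type*} [Group G] [Finite G] (heven : Even (Nat.card G)) (hrank : ∀ E : Subgroup G, ¬ IsKleinFour E) : ∃ z : G, orderOf z = 2 ∧ ∃ N : Subgroup G, N.Normal ∧ Odd (Nat.card N) ∧ ∀ g : G, z * g * z⁻¹ * g⁻¹ ∈ N := by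
  classical
  haveI : Fact (Nat.Prime 2) := ⟨Nat.prime_two⟩
  obtain ⟨P⟩ : Nonempty (Sylow 2 G) := inferInstance
  have hPnt : Nontrivial (P : Subgroup G) := by
    rw [← Finite.one_lt_card_iff_nontrivial]
    have h1 : 2 ∣ Nat.card (P : Subgroup G) := P.dvd_card_of_dvd_card (heven.two_dvd)
    have h2 : 0 < Nat.card (P : Subgroup G) := Nat.card_pos
    exact lt_of_lt_of_le (by norm_num) (Nat.le_of_dvd h2 h1)
  have hZnt : Nontrivial (Subgroup.center (P : Subgroup G)) := P.isPGroup'.center_nontrivial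
  have hZ2 : 2 ∣ Nat.card (Subgroup.center (P : Subgroup G)) := by
    have hZp : IsPGroup 2 (Subgroup.center (P : Subgroup G)) := P.isPGroup'.to_subgroup _
    obtain ⟨n, hn⟩ := hZp.exists_card_eq
    rw [hn]
    apply dvd_pow_self
    rintro rfl
    rw [pow_zero] at hn
    have := Finite.one_lt_card_iff_nontrivial.2 hZnt
    omega
  obtain ⟨⟨⟨z, hzP⟩, hzc⟩, hz⟩ := exists_prime_orderOf_dvd_card' 2 hZ2
  rw [Subgroup.orderOf_mk, Subgroup.orderOf_mk] at hz
  have hz2 : z * z = 1 := CfsgH3.sq_of_iso hz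
  have hzne : z ≠ 1 := by rintro rfl; simp at hz
  refine ⟨z, hz, Cfsg.pPrimeCore 2 G, ?_, ?_, ?_⟩
  · infer_instance
  · exact Nat.coprime_two_right.mp (CfsgH2.coprime_card_pPrimeCore 2)
  · apply CfsgH5.zstar P hz hzP
    intro g hg
    by_contra hne
    have hu2 := CfsgH3.conj_sq hz2 g
    have hcomm : z * (g * z * g⁻¹) = (g * z * g⁻¹) * z := by
      rw [Subgroup.mem_center_iff] at hzc
      have := hzc ⟨g * z * g⁻¹, hg⟩
      exact (congrArg Subtype.val this).symm
    refine hrank _ (CfsgH3.isKleinFour_fourSub hz2 hu2 hcomm hzne ?_ (fun h => hne h.symm))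
    intro h
    apply hzne
    calc z = g⁻¹ * (g * z * g⁻¹) * g := by group
      _ = 1 := by rw [h]; group

end Cfsg.Agent.S0225
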