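import Mathlib
import Cfsg.Agent.H3.Inv
import Cfsg.Statements.S0226

set_option autoImplicit false
open Cfsg

namespace Cfsg.Agent.S0226

/-- A finite group of even order has an odd number of involutions. -/
theorem result {G : Type*} [Group G] [Finite G] (heven : Even (Nat.card G)) : Odd (Nat.card {t : G // orderOf t = 2}) := by
  classical
  haveI := Fintype.ofFinite G
  have h1 := Equiv.Perm.card_fixedPoints_modEq (α := G) (f := fun g : G => g⁻¹) (p := 2) (n := 1) (by
    funext g; exact inv_inv g)
  have h2 : Nat.card {t : G // orderOf t = 2} + 1 = Fintype.card (Function.fixedPoints (fun g : G => g⁻¹)) := by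
    rw [← Nat.card_eq_fintype_card]
    have e : {t : G // orderOf t = 2} ⊕ Unit ≃ (Function.fixedPoints (fun g : G => g⁻¹)) :=
      { toFun := fun s => match s with
          | Sum.inl t => ⟨t.1, by
              simp only [Function.mem_fixedPoints, Function.IsFixedPt]
              exact CfsgH3.inv_of_orderOf_two t.2⟩
          | Sum.inr _ => ⟨1, by simp [Function.mem_fixedPoints, Function.IsFixedPt]⟩
        invFun := fun g => if h : g.1 = 1 then Sum.inr () else Sum.inl ⟨g.1, by
          have := g.2
          simp only [Function.mem_fixedPoints, Function.IsFixedPt] at this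
          exact CfsgH3.orderOf_two_of_mul_self h (by rw [inv_eq_iff_mul_eq_one] at this; exact this)⟩
        left_inv := by
          rintro (⟨t, ht⟩ | _)
          · have := CfsgH3.ne_one_of_orderOf_two ht
            simp [this]
          · simp
        right_inv := by
          rintro ⟨g, hg⟩
          by_cases h : g = 1
          · simp [h]
          · simp [h] }
    rw [← Nat.card_congr e, Nat.card_sum]
    simp
  rw [← h2, ← Nat.card_eq_fintype_card] at h1
  have h3 : Nat.card G ≡ 0 [MOD 2] := by
    rw [Nat.modEq_zero_iff_dvd]; exact heven.two_dvd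
  have h4 := h1.symm.trans h3
  rw [Nat.modEq_zero_iff_dvd] at h4
  rw [← Nat.not_even_iff_odd]
  intro h5
  obtain ⟨a, ha⟩ := h5
  obtain ⟨b, hb⟩ := h4
  omega

end Cfsg.Agent.S0226
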