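import Mathlib
import Cfsg.Agent.H3.Invol2
import Cfsg.Statements.S0228

set_option autoImplicit false
open Cfsg

namespace Cfsg.Agent.S0228

/-- A group of order 12 in which no involution is central is isomorphic to the alternating group on four letters. -/
theorem result {G : Type*} [Group G] [Finite G] (hG : Nat.card G = 12) (hz : ∀ z : G, orderOf z = 2 → z ∉ Subgroup.center G) : Nonempty (G ≃* alternatingGroup (Fin 4)) := by
  classical
  haveI : Fact (Nat.Prime 3) := ⟨by norm_num⟩
  obtain ⟨P⟩ : Nonempty (Sylow 3 G) := inferInstance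
  have hPcard : Nat.card P = 3 := by
    have := P.card_eq_multiplicity
    rw [hG] at this
    rw [this]
    have h : (12 : ℕ).factorization 3 = 1 := by
      have : (12:ℕ) = 3 ^ 1 * 4 := by norm_num
      rw [this, Nat.factorization_mul (by norm_num) (by norm_num), Nat.Prime.factorization_pow (by norm_num)]
      simp [Nat.factorization_eq_zero_of_not_dvd]
    rw [h, pow_one]
  have hn3 := Sylow.card_dvd_index P
  have hidx : (P : Subgroup G).index = 4 := by
    have := Subgroup.card_mul_index (P : Subgroup G)
    rw [hG] at this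
    have hc : Nat.card (P : Subgroup G) = 3 := hPcard
    rw [hc] at this
    omega
  rw [hidx] at hn3
  have hmod := card_sylow_modEq_one 3 G
  have hn : Nat.card (Sylow 3 G) = 1 ∨ Nat.card (Sylow 3 G) = 4 := by
    have h1 : Nat.card (Sylow 3 G) ≤ 4 := Nat.le_of_dvd (by norm_num) hn3
    have h0 : 0 < Nat.card (Sylow 3 G) := Nat.card_pos
    interval_cases h : Nat.card (Sylow 3 G)
    · left; rfl
    · exfalso; revert hmod; decide
    · exfalso; revert hmod; decide
    · right; rfl
  rcases hn with hn | hn
  · -- P normal
    exfalso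
    haveI hPn : (P : Subgroup G).Normal := by
      haveI : Subsingleton (Sylow 3 G) := by
        rw [Nat.card_eq_one_iff_unique] at hn
        exact hn.1
      exact Sylow.normal_of_subsingleton P
    obtain ⟨T⟩ : Nonempty (Sylow 2 G) := inferInstance
    have hTcard : Nat.card T = 4 := by
      have := T.card_eq_multiplicity
      rw [hG] at this
      rw [this]
      have h : (12 : ℕ).factorization 2 = 2 := by
        have : (12:ℕ) = 2 ^ 2 * 3 := by norm_num
        rw [this, Nat.factorization_mul (by norm_num) (by norm_num), Nat.Prime.factorization_pow (by norm_num)]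
        simp [Nat.factorization_eq_zero_of_not_dvd]
      rw [h]; norm_num
    have hTcomm : ∀ a ∈ T, ∀ b ∈ T, a * b = b * a := by
      intro a ha b hb
      have h2 : Nat.card T = 2 ^ 2 := hTcard
      have h3 := IsPGroup.commutative_of_card_eq_prime_sq h2 (⟨a, ha⟩ : T) ⟨b, hb⟩
      exact congrArg Subtype.val h3
    -- conjugation action of T on P
    let φ : (T : Subgroup G) →* MulAut (P : Subgroup G) := (MulAut.conjNormal (H := (P : Subgroup G))).comp (T : Subgroup G).subtype
    have hcardP : Nat.card (MulAut (P : Subgroup G)) = 2 := by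
      haveI : IsCyclic (P : Subgroup G) := isCyclic_of_prime_card (p := 3) hPcard
      have h1 := IsCyclic.card_mulAut (P : Subgroup G)
      have h2 : Nat.card (P : Subgroup G) = 3 := hPcard
      rw [h1, h2]
      decide
    have hnotinj : ¬ Function.Injective φ := by
      intro hinj
      have := Nat.card_le_card_of_injective φ hinj
      have h2 : Nat.card (T : Subgroup G) = 4 := hTcard
      rw [h2, hcardP] at this
      omega
    have hker : φ.ker ≠ ⊥ := fun h => hnotinj ((MonoidHom.ker_eq_bot_iff φ).1 h)
    have hdvd : 2 ∣ Nat.card φ.ker := by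
      have h1 : IsPGroup 2 φ.ker := T.2.to_subgroup φ.ker
      obtain ⟨k, hk⟩ := IsPGroup.iff_card.1 h1
      rw [hk]
      apply dvd_pow_self
      rintro rfl
      rw [pow_zero] at hk
      exact hker (Subgroup.card_eq_one.1 hk)
    obtain ⟨z, hzk⟩ := exists_prime_orderOf_dvd_card' 2 hdvd
    have hzo : orderOf ((z : (T : Subgroup G)) : G) = 2 := by
      rw [Subgroup.orderOf_coe, Subgroup.orderOf_coe, hzk]
    apply hz _ hzo
    rw [Subgroup.mem_center_iff]
    have hzP : ∀ x ∈ P, (z : (T : Subgroup G)) * x = x * ((z : (T : Subgroup G)) : G) := by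
      intro x hx
      have h1 : φ z = 1 := z.2
      have h2 := congrArg (fun f : MulAut (P : Subgroup G) => ((f ⟨x, hx⟩ : (P : Subgroup G)) : G)) h1
      simp only [φ, MonoidHom.comp_apply, MulAut.conjNormal_apply, MulAut.one_apply, Subgroup.coe_subtype] at h2
      rwa [mul_inv_eq_iff_eq_mul] at h2
    have hzT : ∀ x ∈ T, (z : (T : Subgroup G)) * x = x * ((z : (T : Subgroup G)) : G) := fun x hx =>
      hTcomm _ (z : (T : Subgroup G)).2 x hx
    have hcent : (P : Subgroup G) ⊔ (T : Subgroup G) ≤ Subgroup.centralizer ({((z : (T : Subgroup G)) : G)} : Set G) := by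
      apply sup_le
      · intro x hx
        rw [Subgroup.mem_centralizer_singleton_iff]; exact (hzP x hx).symm
      · intro x hx
        rw [Subgroup.mem_centralizer_singleton_iff]; exact (hzT x hx).symm
    have htop : (P : Subgroup G) ⊔ (T : Subgroup G) = ⊤ := by
      apply Subgroup.eq_top_of_card_eq
      have h1 : Nat.card (P : Subgroup G) ∣ Nat.card ↥((P : Subgroup G) ⊔ (T : Subgroup G)) := Subgroup.card_dvd_of_le le_sup_left
      have h2 : Nat.card (T : Subgroup G) ∣ Nat.card ↥((P : Subgroup G) ⊔ (T : Subgroup G)) := Subgroup.card_dvd_of_le le_sup_right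
      have h3 : Nat.card ↥((P : Subgroup G) ⊔ (T : Subgroup G)) ∣ Nat.card G := Subgroup.card_subgroup_dvd_card _
      have h4 : Nat.card (P : Subgroup G) = 3 := hPcard
      have h5 : Nat.card (T : Subgroup G) = 4 := hTcard
      rw [h4] at h1; rw [h5] at h2
      have h6 : 12 ∣ Nat.card ↥((P : Subgroup G) ⊔ (T : Subgroup G)) := by
        have : Nat.Coprime 3 4 := by norm_num
        exact this.mul_dvd_of_dvd_of_dvd h1 h2
      rw [hG] at h3 ⊢
      exact Nat.dvd_antisymm h3 h6
    intro g
    have : g ∈ Subgroup.centralizer ({((z : (T : Subgroup G)) : G)} : Set G) := hcent (by rw [htop]; trivial)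
    exact Subgroup.mem_centralizer_singleton_iff.1 this
  · -- action on the four Sylow 3-subgroups
    have hNcard : Nat.card (Subgroup.normalizer (P : Set G)) = 3 := by
      have h1 := Sylow.card_eq_index_normalizer P
      rw [hn] at h1
      have h2 := Subgroup.card_mul_index (Subgroup.normalizer (P : Set G))
      rw [← h1, hG] at h2
      omega
    have hNP : Subgroup.normalizer (P : Set G) = (P : Subgroup G) := by
      symm
      apply Subgroup.eq_of_le_of_card_ge Subgroup.le_normalizer
      exact hNcard.le.trans hPcard.ge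
    let ψ : G →* Equiv.Perm (Sylow 3 G) := MulAction.toPermHom G (Sylow 3 G)
    have hker : ψ.ker = ⊥ := by
      have hle : ψ.ker ≤ (P : Subgroup G) := by
        intro g hg
        rw [← hNP, ← Sylow.smul_eq_iff_mem_normalizer]
        have h1 : ψ g = 1 := hg
        have h2 := congrArg (fun f : Equiv.Perm (Sylow 3 G) => f P) h1
        exact h2
      by_contra hne
      have h1 : Nat.card ψ.ker ∣ 3 := by
        have := Subgroup.card_dvd_of_le hle
        have h4 : Nat.card (P : Subgroup G) = 3 := hPcard
        rwa [h4] at this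
      have h2 : Nat.card ψ.ker = 3 := by
        rcases (Nat.dvd_prime (by norm_num)).1 h1 with h | h
        · exact absurd (Subgroup.card_eq_one.1 h) hne
        · exact h
      have h3 : ψ.ker = (P : Subgroup G) := by
        apply Subgroup.eq_of_le_of_card_ge hle
        rw [h2]; exact hPcard.le
      have h4 : (P : Subgroup G).Normal := by rw [← h3]; infer_instance
      have h5 : Subgroup.normalizer (P : Set G) = ⊤ := Subgroup.normalizer_eq_top_iff.2 h4
      rw [h5, Subgroup.card_top, hG] at hNcard
      omega
    have hinj : Function.Injective ψ := (MonoidHom.ker_eq_bot_iff ψ).1 hker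
    haveI := Fintype.ofFinite (Sylow 3 G)
    obtain ⟨e⟩ : Nonempty (Sylow 3 G ≃ Fin 4) := by
      rw [← Fintype.card_eq, ← Nat.card_eq_fintype_card, hn, Fintype.card_fin]
    let θ : G →* Equiv.Perm (Fin 4) := (e.permCongrHom.toMonoidHom).comp ψ
    have hθ : Function.Injective θ := e.permCongrHom.injective.comp hinj
    have hrange : θ.range.index = 2 := by
      have h1 := Subgroup.card_mul_index θ.range
      have h2 : Nat.card θ.range = 12 := by
        rw [← hG]
        exact (Nat.card_congr (MonoidHom.ofInjective hθ).toEquiv).symm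
      rw [h2, Nat.card_perm, Nat.card_eq_fintype_card, Fintype.card_fin] at h1
      have : Nat.factorial 4 = 24 := by decide
      omega
    have hrange2 := Equiv.Perm.eq_alternatingGroup_of_index_eq_two hrange
    exact ⟨(MonoidHom.ofInjective hθ).trans (MulEquiv.subgroupCongr hrange2)⟩

end Cfsg.Agent.S0228
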