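import Mathlib
import Cfsg.Agent.H3.Invol2
import Cfsg.Statements.S0229

set_option autoImplicit false
open Cfsg

namespace Cfsg.Agent.S0229

/-- Let t be an involution of a Sylow 2-subgroup S of a finite group G, conjugate in G to no other element of S, and let s be an involution of G not conjugate to t. Then the order of st is twice an odd number. -/
theorem result {G : Type*} [Group G] [Finite G] (S : Sylow 2 G) (t : G) (ht : orderOf t = 2) (htS : t ∈ S) (hiso : ∀ g : G, g * t * g⁻¹ ∈ S → g * t * g⁻¹ = t) (s : G) (hs : orderOf s = 2) (hns : ¬ IsConj s t) : orderOf (s * t) % 4 = 2 := by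
  have hnt : ¬ Odd (orderOf (s * t)) := by
    intro h
    obtain ⟨d, -, hd⟩ := CfsgH3.exists_conj_of_odd (CfsgH3.mul_self_of_orderOf_two hs) (CfsgH3.mul_self_of_orderOf_two ht) h
    exact hns (isConj_iff.2 ⟨d, hd⟩)
  rw [Nat.not_odd_iff_even] at hnt
  have e : orderOf (s * t) = orderOf (t * s) := by
    have := CfsgH3.orderOf_conj t (s * t)
    rw [← this]
    congr 1
    group
  have h4 : ¬ 4 ∣ orderOf (s * t) := by
    intro h4
    rw [e] at h4 hnt
    obtain ⟨hz1, hz2, -⟩ := CfsgH3.half_props ht hs hnt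
    obtain ⟨d, hd⟩ := isConj_iff.1 (CfsgH3.conj_half_of_four_dvd ht hs h4)
    have hcomm : Commute t (d * t * d⁻¹) := by
      rw [hd]; exact (Commute.refl t).mul_right hz2.symm
    have h1 := CfsgH3.isolated_commute S ht hiso d hcomm
    rw [hd] at h1
    exact CfsgH3.ne_one_of_orderOf_two hz1 (by simpa using h1)
  obtain ⟨k, hk⟩ := hnt
  omega

end Cfsg.Agent.S0229
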