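import Mathlib
import Cfsg.Agent.H3.Invol2
import Cfsg.Statements.S0230

set_option autoImplicit false
open Cfsg

namespace Cfsg.Agent.S0230

open CfsgH3 in
theorem card_invol_lt {G : Type*} [Group G] [Finite G] (x : G) :
    Nat.card {t : G // orderOf t = 2 ∧ Commute t x} + 1 ≤ Nat.card (Subgroup.centralizer ({x} : Set G)) := by
  have e : Nat.card (Option {t : G // orderOf t = 2 ∧ Commute t x}) = Nat.card {t : G // orderOf t = 2 ∧ Commute t x} + 1 := by
    rw [Finite.card_option]
  rw [← e]
  apply Nat.card_le_card_of_injective (fun o : Option {t : G // orderOf t = 2 ∧ Commute t x} =>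
    match o with
    | none => (1 : Subgroup.centralizer ({x} : Set G))
    | some t => ⟨t.1, by rw [Subgroup.mem_centralizer_singleton_iff]; exact t.2.2⟩)
  rintro (_ | ⟨t, ht, htx⟩) (_ | ⟨s, hs, hsx⟩) h
  · rfl
  · exfalso
    have := congrArg Subtype.val h
    simp only [Subgroup.coe_one] at this
    exact ne_one_of_orderOf_two hs this.symm
  · exfalso
    have := congrArg Subtype.val h
    simp only [Subgroup.coe_one] at this
    exact ne_one_of_orderOf_two ht this
  · have := congrArg Subtype.val h
    simp only at this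
    subst this
    rfl

/-- Let G be a finite group with two non-conjugate involutions, and let t be an involution whose centralizer has maximal order among centralizers of involutions. Then |G| < |C_G(t)|^3. -/
theorem result {G : Type*} [Group G] [Finite G] (s t : G) (hs : orderOf s = 2) (ht : orderOf t = 2) (hnc : ¬ IsConj s t) (hmax : ∀ u : G, orderOf u = 2 → Nat.card (Subgroup.centralizer ({u} : Set G)) ≤ Nat.card (Subgroup.centralizer ({t} : Set G))) : Nat.card G < Nat.card (Subgroup.centralizer ({t} : Set G)) ^ 3 := by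
  classical
  haveI := Fintype.ofFinite G
  set n := Nat.card (Subgroup.centralizer ({t} : Set G)) with hn
  have hnpos : 0 < n := Nat.card_pos
  have c1 := CfsgH3.card_isConj_mul s
  have hs' := hmax s hs
  have hor : ∀ u : G, IsConj s u → orderOf u = 2 := by
    intro u hu
    obtain ⟨g, hg⟩ := isConj_iff.1 hu
    rw [← hg, CfsgH3.orderOf_conj, hs]
  have hev : ∀ u : G, IsConj s u → Even (orderOf (u * t)) := by
    intro u hu
    rw [← Nat.not_odd_iff_even]
    intro h
    obtain ⟨d, -, hd⟩ := CfsgH3.exists_conj_of_odd (CfsgH3.mul_self_of_orderOf_two (hor u hu)) (CfsgH3.mul_self_of_orderOf_two ht) h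
    exact hnc (hu.trans (isConj_iff.2 ⟨d, hd⟩))
  -- inject the class of s
  have hcard : Nat.card {u : G // IsConj s u} ≤ (n - 1) * (n - 1) := by
    have h1 : Nat.card {u : G // IsConj s u} ≤
        Nat.card (Σ z : {z : G // orderOf z = 2 ∧ Commute z t}, {u : G // orderOf u = 2 ∧ Commute u (z : G)}) := by
      apply Nat.card_le_card_of_injective (fun u : {u : G // IsConj s u} =>
        (⟨⟨_, (CfsgH3.half_props (hor _ u.2) ht (hev _ u.2)).1, (CfsgH3.half_props (hor _ u.2) ht (hev _ u.2)).2.2⟩,
          ⟨u.1, hor _ u.2, (CfsgH3.half_props (hor _ u.2) ht (hev _ u.2)).2.1.symm⟩⟩ :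
          (Σ z : {z : G // orderOf z = 2 ∧ Commute z t}, {u : G // orderOf u = 2 ∧ Commute u (z : G)})))
      rintro ⟨u, hu⟩ ⟨v, hv⟩ h
      apply Subtype.ext
      have := congrArg (fun s : (Σ z : {z : G // orderOf z = 2 ∧ Commute z t}, {u : G // orderOf u = 2 ∧ Commute u (z : G)}) => (s.2.1 : G)) h
      exact this
    rw [Nat.card_sigma] at h1
    refine h1.trans ?_
    have h2 : ∀ z ∈ (Finset.univ : Finset {z : G // orderOf z = 2 ∧ Commute z t}),
        Nat.card {u : G // orderOf u = 2 ∧ Commute u (z : G)} ≤ n - 1 := by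
      intro z _
      have h3 := card_invol_lt (z : G)
      have h4 := hmax z z.2.1
      omega
    refine (Finset.sum_le_sum h2).trans ?_
    rw [Finset.sum_const, smul_eq_mul, Finset.card_univ, ← Nat.card_eq_fintype_card]
    apply Nat.mul_le_mul_right
    have := card_invol_lt t
    omega
  rw [← c1]
  calc Nat.card {y : G // IsConj s y} * Nat.card (Subgroup.centralizer ({s} : Set G))
      ≤ ((n - 1) * (n - 1)) * n := Nat.mul_le_mul hcard hs'
    _ < n ^ 3 := by
      obtain ⟨m, hm⟩ : ∃ m, n = m + 1 := ⟨n - 1, by omega⟩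
      rw [hm]
      simp only [Nat.add_sub_cancel]
      nlinarith [Nat.zero_le m]

end Cfsg.Agent.S0230
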