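import Mathlib
import Cfsg.Agent.H3.Klein
import Cfsg.Statements.S0231

set_option autoImplicit false
open scoped Pointwise
open Cfsg

namespace Cfsg.Agent.S0231

/-- Let T be a Sylow 2-subgroup of the finite group G which is not normal and which intersects every other Sylow 2-subgroup trivially. Then G has a single conjugacy class of involutions. -/
theorem result {G : Type*} [Group G] [Finite G] (T : Sylow 2 G) (hnn : ¬ (T : Subgroup G).Normal) (hTI : ∀ g : G, MulAut.conj g • (T : Subgroup G) ≠ T → MulAut.conj g • (T : Subgroup G) ⊓ T = ⊥) (s t : G) (hs : orderOf s = 2) (ht : orderOf t = 2) : IsConj s t := by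
  by_contra hst
  -- uniqueness of the Sylow subgroup containing a nontrivial element
  have huniq : ∀ (P Q : Sylow 2 G) (x : G), x ≠ 1 → x ∈ P → x ∈ Q → P = Q := by
    intro P Q x hx hxP hxQ
    obtain ⟨a, ha⟩ := MulAction.exists_smul_eq G T P
    obtain ⟨b, hb⟩ := MulAction.exists_smul_eq G T Q
    by_contra hPQ
    have h1 : MulAut.conj (b⁻¹ * a) • (T : Subgroup G) ≠ T := by
      intro h
      apply hPQ
      rw [← ha, ← hb]
      have h2 : (b⁻¹ * a) • T = T := by
        apply Sylow.ext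
        rw [Sylow.coe_subgroup_smul]; exact h
      calc a • T = b • ((b⁻¹ * a) • T) := by rw [← mul_smul]; congr 1; group
        _ = b • T := by rw [h2]
    have h2 := hTI _ h1
    have h3 : b⁻¹ * x * b ∈ MulAut.conj (b⁻¹ * a) • (T : Subgroup G) ⊓ T := by
      refine Subgroup.mem_inf.2 ⟨?_, ?_⟩
      · rw [CfsgH3.mem_conj_smul_iff]
        rw [← ha, CfsgH3.mem_smul_sylow_iff] at hxP
        have e : (b⁻¹ * a)⁻¹ * (b⁻¹ * x * b) * (b⁻¹ * a) = a⁻¹ * x * a := by group
        rw [e]; exact hxP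
      · rw [← hb, CfsgH3.mem_smul_sylow_iff] at hxQ
        exact hxQ
    rw [h2, Subgroup.mem_bot] at h3
    apply hx
    have : x = b * (b⁻¹ * x * b) * b⁻¹ := by group
    rw [this, h3]; group
  -- nonconjugate involutions lie in the same Sylow
  have hsame : ∀ s t : G, orderOf s = 2 → orderOf t = 2 → ¬ IsConj s t → ∀ P Q : Sylow 2 G, s ∈ P → t ∈ Q → P = Q := by
    intro s t hs ht hst P Q hsP htQ
    have heven : Even (orderOf (s * t)) := by
      rw [← Nat.not_odd_iff_even]
      intro h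
      obtain ⟨d, -, hd⟩ := CfsgH3.exists_conj_of_odd (CfsgH3.mul_self_of_orderOf_two hs) (CfsgH3.mul_self_of_orderOf_two ht) h
      exact hst (isConj_iff.2 ⟨d, hd⟩)
    obtain ⟨hz1, hz2, hz3⟩ := CfsgH3.half_props hs ht heven
    obtain ⟨R1, hR1s, hR1z⟩ := CfsgH3.exists_sylow_of_commute hs hz1 hz2.symm
    obtain ⟨R2, hR2t, hR2z⟩ := CfsgH3.exists_sylow_of_commute ht hz1 hz3.symm
    have e1 := huniq P R1 s (CfsgH3.ne_one_of_orderOf_two hs) hsP hR1s
    have e2 := huniq Q R2 t (CfsgH3.ne_one_of_orderOf_two ht) htQ hR2t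
    have e3 := huniq R1 R2 _ (CfsgH3.ne_one_of_orderOf_two hz1) hR1z hR2z
    rw [e1, e2, e3]
  obtain ⟨P, hP⟩ := (CfsgH3.isPGroup_zpowers_of_orderOf_two hs).exists_le_sylow
  obtain ⟨Q, hQ⟩ := (CfsgH3.isPGroup_zpowers_of_orderOf_two ht).exists_le_sylow
  have hsP : s ∈ P := hP (Subgroup.mem_zpowers s)
  have htQ : t ∈ Q := hQ (Subgroup.mem_zpowers t)
  have hall : ∀ g : G, g • P = Q := by
    intro g
    apply hsame (g * s * g⁻¹) t (by rw [CfsgH3.orderOf_conj, hs]) ht ?_ _ _ ?_ htQ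
    · intro h
      exact hst ((isConj_iff.2 ⟨g, rfl⟩ : IsConj s (g * s * g⁻¹)).trans h)
    · rw [CfsgH3.mem_smul_sylow_iff]
      have e : g⁻¹ * (g * s * g⁻¹) * g = s := by group
      rw [e]; exact hsP
  apply hnn
  obtain ⟨a, ha⟩ := MulAction.exists_smul_eq G P T
  refine ⟨fun n hn g => ?_⟩
  have h1 : g • T = T := by
    rw [← ha, ← mul_smul, hall, hall]
  have h2 : g ∈ Subgroup.normalizer (T : Set G) := Sylow.smul_eq_iff_mem_normalizer.1 h1
  exact ((Subgroup.mem_normalizer_iff.1 h2) n).1 hn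

end Cfsg.Agent.S0231
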