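import Mathlib
import Cfsg.Agent.H3.Inv
import Cfsg.Statements.S0236

set_option autoImplicit false
open Cfsg

namespace Cfsg.Agent.S0236

/-- If x is an involution, the number of ordered pairs (u, v) of involutions with uv = x, plus one, equals the number of involutions in the centralizer of x. -/
theorem result {G : Type*} [Group G] [Finite G] (x : G) (hx : orderOf x = 2) : Nat.card {p : G × G // orderOf p.1 = 2 ∧ orderOf p.2 = 2 ∧ p.1 * p.2 = x} + 1 = Nat.card {t : G // orderOf t = 2 ∧ Commute t x} := by
  classical
  have hx2 := CfsgH3.mul_self_of_orderOf_two hx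
  have hxi := CfsgH3.inv_of_orderOf_two hx
  have hx1 := CfsgH3.ne_one_of_orderOf_two hx
  have e : {p : G × G // orderOf p.1 = 2 ∧ orderOf p.2 = 2 ∧ p.1 * p.2 = x} ⊕ Unit ≃
      {t : G // orderOf t = 2 ∧ Commute t x} :=
    { toFun := fun s => match s with
        | Sum.inl p => ⟨p.1.1, p.2.1, by
            obtain ⟨⟨u, v⟩, hu, hv, h⟩ := p
            simp only at hu hv h ⊢
            have hu2 := CfsgH3.mul_self_of_orderOf_two hu
            have hv2 := CfsgH3.mul_self_of_orderOf_two hv
            have h1 := CfsgH3.conj_mul_eq_inv hu2 hv2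
            rw [h, hxi] at h1
            exact mul_inv_eq_iff_eq_mul.mp h1⟩
        | Sum.inr _ => ⟨x, hx, Commute.refl x⟩
      invFun := fun t => if h : t.1 = x then Sum.inr () else
        Sum.inl ⟨(t.1, t.1 * x), t.2.1, by
          obtain ⟨t, ht, hc⟩ := t
          simp only at ht h ⊢
          have ht2 := CfsgH3.mul_self_of_orderOf_two ht
          have hti := CfsgH3.inv_of_orderOf_two ht
          apply CfsgH3.orderOf_two_of_mul_self
          · intro h1
            apply h
            rw [← hti]; exact (eq_inv_of_mul_eq_one_right h1).symm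
          · rw [mul_assoc, ← mul_assoc x t x, ← hc.eq, mul_assoc t x x, hx2, mul_one, ht2], by
          obtain ⟨t, ht, hc⟩ := t
          simp only at ht h ⊢
          have ht2 := CfsgH3.mul_self_of_orderOf_two ht
          rw [← mul_assoc, ht2, one_mul]⟩
      left_inv := by
        rintro (⟨⟨u, v⟩, hu, hv, h⟩ | _)
        · simp only at hu hv h
          have hu2 := CfsgH3.mul_self_of_orderOf_two hu
          have hne : u ≠ x := by
            intro h'
            have h3 : u * v = u * 1 := by rw [h, mul_one, h']
            exact CfsgH3.ne_one_of_orderOf_two hv (mul_left_cancel h3)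
          simp only [hne, dite_false, Sum.inl.injEq, Subtype.mk.injEq, Prod.mk.injEq, true_and]
          rw [← h, ← mul_assoc, hu2, one_mul]
        · simp
      right_inv := by
        rintro ⟨t, ht, hc⟩
        by_cases h : t = x
        · subst h; simp
        · simp [h] }
  rw [← Nat.card_congr e, Nat.card_sum]
  simp

end Cfsg.Agent.S0236
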