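import Mathlib
import Cfsg.Agent.H3.Invol2
import Cfsg.Agent.S0236
import Cfsg.Statements.S0238

set_option autoImplicit false
open Cfsg

namespace Cfsg.Agent.S0238

/-- For every x in a finite group G, the number c of ordered pairs (u, v) of involutions with uv = x is at most |C_G(x)|; c = 0 when x is not conjugate to x⁻¹; and c + 2 ≤ |C_G(x)| when x is an involution. -/
theorem result {G : Type*} [Group G] [Finite G] (x : G) : Nat.card {p : G × G // orderOf p.1 = 2 ∧ orderOf p.2 = 2 ∧ p.1 * p.2 = x} ≤ Nat.card (Subgroup.centralizer ({x} : Set G)) ∧ (¬ IsConj x x⁻¹ → Nat.card {p : G × G // orderOf p.1 = 2 ∧ orderOf p.2 = 2 ∧ p.1 * p.2 = x} = 0) ∧ (orderOf x = 2 → Nat.card {p : G × G // orderOf p.1 = 2 ∧ orderOf p.2 = 2 ∧ p.1 * p.2 = x} + 2 ≤ Nat.card (Subgroup.centralizer ({x} : Set G))) := by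
  refine ⟨CfsgH3.card_pairs_le x, ?_, ?_⟩
  · intro hreal
    rw [Nat.card_eq_zero]
    left
    refine ⟨?_⟩
    rintro ⟨⟨u, v⟩, hu, hv, huv⟩
    simp only at hu hv huv
    apply hreal
    rw [← huv]
    exact isConj_iff.2 ⟨u, CfsgH3.conj_mul_eq_inv (CfsgH3.mul_self_of_orderOf_two hu) (CfsgH3.mul_self_of_orderOf_two hv)⟩
  · intro hx
    have h1 := Cfsg.Agent.S0236.result x hx
    have h2 : Nat.card {t : G // orderOf t = 2 ∧ Commute t x} + 1 ≤ Nat.card (Subgroup.centralizer ({x} : Set G)) := by
      have e : Nat.card (Option {t : G // orderOf t = 2 ∧ Commute t x}) = Nat.card {t : G // orderOf t = 2 ∧ Commute t x} + 1 := by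
        rw [Finite.card_option]
      rw [← e]
      apply Nat.card_le_card_of_injective (fun o : Option {t : G // orderOf t = 2 ∧ Commute t x} =>
        match o with
        | none => (1 : Subgroup.centralizer ({x} : Set G))
        | some t => ⟨t.1, by rw [Subgroup.mem_centralizer_singleton_iff]; exact t.2.2⟩)
      rintro (_ | ⟨t, ht, htx⟩) (_ | ⟨s, hs, hsx⟩) h
      · rfl
      · exfalso
        have := congrArg Subtype.val h
        simp only [Subgroup.coe_one] at this
        exact CfsgH3.ne_one_of_orderOf_two hs this.symm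
      · exfalso
        have := congrArg Subtype.val h
        simp only [Subgroup.coe_one] at this
        exact CfsgH3.ne_one_of_orderOf_two ht this
      · have := congrArg Subtype.val h
        simp only at this
        subst this
        rfl
    omega

end Cfsg.Agent.S0238
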