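import Mathlib
import Cfsg.Agent.H3.Invol2
import Cfsg.Agent.S0238
import Cfsg.Statements.S0233

set_option autoImplicit false
open Cfsg

namespace Cfsg.Agent.S0233

/-- Let G be a finite group of even order with exactly n involutions whose centre has odd order, and put a = |G|/n. Then G has a proper subgroup H with |G : H| = 2 or |G : H| < a(a+1)/2; over ℕ the latter reads 2·|G:H|·n² < |G|·(|G| + n). -/
theorem result {G : Type*} [Group G] [Finite G] (heven : Even (Nat.card G)) (hZ : Odd (Nat.card (Subgroup.center G))) : ∃ H : Subgroup G, H ≠ ⊤ ∧ (H.index = 2 ∨ 2 * H.index * (Nat.card {t : G // orderOf t = 2}) ^ 2 < Nat.card G * (Nat.card G + Nat.card {t : G // orderOf t = 2})) := by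
  classical
  haveI := Fintype.ofFinite G
  set n := Nat.card {t : G // orderOf t = 2} with hn
  have hGpos : 0 < Nat.card G := Nat.card_pos
  have hnt : (⊥ : Subgroup G) ≠ ⊤ := by
    intro h
    have h1 : Nat.card (⊥ : Subgroup G) = Nat.card (⊤ : Subgroup G) := by rw [h]
    rw [Subgroup.card_bot, Subgroup.card_top] at h1
    rw [← h1] at heven
    exact absurd heven (by decide)
  -- proper subgroup of minimal index
  obtain ⟨H, hH, hmin⟩ := Set.exists_min_image {H : Subgroup G | H ≠ ⊤} (fun H => H.index) (Set.toFinite _) ⟨⊥, hnt⟩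
  simp only [Set.mem_setOf_eq] at hH hmin
  by_cases h2 : H.index = 2
  · exact ⟨H, hH, Or.inl h2⟩
  refine ⟨H, hH, Or.inr ?_⟩
  set s := H.index with hs
  have hspos : 0 < s := Nat.pos_of_ne_zero Subgroup.FiniteIndex.index_ne_zero
  have hs1 : s ≠ 1 := by
    intro h; exact hH (Subgroup.index_eq_one.1 h)
  have hs3 : 3 ≤ s := by omega
  have hmul : ∀ K : Subgroup G, K ≠ ⊤ → s * Nat.card K ≤ Nat.card G := by
    intro K hK
    have := hmin K hK
    rw [← Subgroup.card_mul_index K, mul_comm (Nat.card K)]
    exact Nat.mul_le_mul_right _ this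
  have hsum := CfsgH3.card_pairs_eq_sum (G := G) (fun u => orderOf u = 2) (fun u => orderOf u = 2)
  rw [← hn] at hsum
  set c : G → ℕ := fun x => Nat.card {p : G × G // orderOf p.1 = 2 ∧ orderOf p.2 = 2 ∧ p.1 * p.2 = x} with hc
  -- central elements
  have hcentral : ∀ x : G, x ≠ 1 → x ∈ Subgroup.center G → x ≠ x⁻¹ := by
    intro x hx hxZ h
    have h3 : x * x = 1 := by nth_rewrite 2 [h]; rw [mul_inv_cancel]
    have h4 := CfsgH3.orderOf_two_of_mul_self hx h3
    have h5 : orderOf x ∣ Nat.card (Subgroup.center G) := by
      have := orderOf_dvd_natCard (⟨x, hxZ⟩ : Subgroup.center G)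
      rwa [Subgroup.orderOf_mk] at this
    rw [h4] at h5
    exact (Nat.not_even_iff_odd.2 hZ) (even_iff_two_dvd.2 h5)
  have hc1 : c 1 ≤ n := by
    apply Nat.card_le_card_of_injective (fun p : {p : G × G // orderOf p.1 = 2 ∧ orderOf p.2 = 2 ∧ p.1 * p.2 = 1} =>
      (⟨p.1.1, p.2.1⟩ : {t : G // orderOf t = 2}))
    rintro ⟨⟨u, v⟩, hu, hv, huv⟩ ⟨⟨u', v'⟩, hu', hv', huv'⟩ h
    simp only [Subtype.mk.injEq] at h huv huv'
    subst h
    have : v = v' := mul_left_cancel (huv.trans huv'.symm)
    subst this; rfl
  have hcinv : ∀ x : G, orderOf x = 2 → s * c x + 2 * s ≤ Nat.card G := by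
    intro x hx
    have h3 := (Cfsg.Agent.S0238.result x).2.2 hx
    have h4 : Subgroup.centralizer ({x} : Set G) ≠ ⊤ := by
      rw [Ne, CfsgH3.centralizer_singleton_eq_top_iff]
      intro h
      exact hcentral x (CfsgH3.ne_one_of_orderOf_two hx) h (CfsgH3.inv_of_orderOf_two hx).symm
    calc s * c x + 2 * s = s * (c x + 2) := by ring
      _ ≤ s * Nat.card (Subgroup.centralizer ({x} : Set G)) := Nat.mul_le_mul_left _ h3
      _ ≤ Nat.card G := hmul _ h4
  have hcnon : ∀ x : G, orderOf x ≠ 2 → x ≠ 1 → 2 * s * c x ≤ Nat.card G := by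
    intro x hx hx1
    by_cases hreal : IsConj x x⁻¹
    · obtain ⟨g, hg⟩ := isConj_iff.1 hreal
      set C := Subgroup.centralizer ({x} : Set G) with hC
      have hxx : x ≠ x⁻¹ := by
        intro h
        apply hx
        apply CfsgH3.orderOf_two_of_mul_self hx1
        nth_rewrite 2 [h]; rw [mul_inv_cancel]
      have hgC : g ∉ C := by
        intro h
        rw [hC, Subgroup.mem_centralizer_singleton_iff] at h
        rw [h, mul_inv_cancel_right] at hg
        exact hxx hg
      have hginv : g * x⁻¹ * g⁻¹ = x := by
        have : g * x⁻¹ * g⁻¹ = (g * x * g⁻¹)⁻¹ := by group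
        rw [this, hg, inv_inv]
      -- extended centralizer
      let E : Subgroup G :=
        { carrier := {y | y * x * y⁻¹ = x ∨ y * x * y⁻¹ = x⁻¹}
          one_mem' := by left; simp
          mul_mem' := by
            intro a b ha hb
            have e : a * b * x * (a * b)⁻¹ = a * (b * x * b⁻¹) * a⁻¹ := by group
            have ei : ∀ a : G, a * x⁻¹ * a⁻¹ = (a * x * a⁻¹)⁻¹ := by intro a; group
            simp only [Set.mem_setOf_eq] at ha hb ⊢
            rw [e]
            rcases ha with ha | ha <;> rcases hb with hb | hb <;> rw [hb]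
            · left; exact ha
            · right; rw [ei, ha]
            · right; exact ha
            · left; rw [ei, ha, inv_inv]
          inv_mem' := by
            intro a ha
            simp only [Set.mem_setOf_eq] at ha ⊢
            rcases ha with ha | ha
            · left; nth_rewrite 1 [← ha]; group
            · right
              have e1 : x = (a⁻¹ * x⁻¹ * a⁻¹⁻¹) := by rw [← ha]; group
              have e2 : a⁻¹ * x * a⁻¹⁻¹ = (a⁻¹ * x⁻¹ * a⁻¹⁻¹)⁻¹ := by group
              rw [e2, ← e1] }
      have hCE : C ≤ E := by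
        intro y hy
        left
        rw [hC, Subgroup.mem_centralizer_singleton_iff] at hy
        rw [hy]; group
      have hgE : g ∈ E := Or.inr hg
      -- relIndex of C in E is 2
      have hrel : 2 * Nat.card C ≤ Nat.card E := by
        have hlt : C < E := lt_of_le_of_ne hCE (fun h => hgC (h ▸ hgE))
        have hd : Nat.card C ∣ Nat.card E := Subgroup.card_dvd_of_le hCE
        obtain ⟨m, hm⟩ := hd
        have hlt' := CfsgH3.card_lt_card_of_lt hlt
        rw [hm] at hlt' ⊢
        have hCpos : 0 < Nat.card C := Nat.card_pos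
        have : 2 ≤ m := by
          by_contra hm2
          have : m ≤ 1 := by omega
          have := Nat.mul_le_mul_left (Nat.card C) this
          omega
        calc 2 * Nat.card C = Nat.card C * 2 := by ring
          _ ≤ _ := Nat.mul_le_mul_left _ this
      have hE : E ≠ ⊤ := by
        intro hEtop
        -- then C has index 2
        have hidx : C.index = 2 := by
          rw [Subgroup.index_eq_two_iff]
          refine ⟨g, ?_⟩
          intro b
          have hb : b ∈ E := by rw [hEtop]; trivial
          have hmem : ∀ y, y ∈ C ↔ y * x * y⁻¹ = x := by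
            intro y
            rw [hC, Subgroup.mem_centralizer_singleton_iff]
            constructor
            · intro h; rw [h]; group
            · intro h
              calc y * x = (y * x * y⁻¹) * y := by group
                _ = x * y := by rw [h]
          rw [hmem, hmem]
          have e : b * g * x * (b * g)⁻¹ = (b * x * b⁻¹)⁻¹ := by
            calc b * g * x * (b * g)⁻¹ = b * (g * x * g⁻¹) * b⁻¹ := by group
              _ = b * x⁻¹ * b⁻¹ := by rw [hg]
              _ = _ := by group
          rw [e]
          rcases hb with hb | hb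
          · right
            refine ⟨hb, ?_⟩
            rw [hb]; exact fun h => hxx h.symm
          · left
            rw [hb, inv_inv]
            exact ⟨rfl, fun h => hxx h.symm⟩
        have hCtop : C ≠ ⊤ := by
          intro h; rw [h, Subgroup.index_top] at hidx; omega
        have := hmin C hCtop
        omega
      have h5 := hmul E hE
      have h6 := (Cfsg.Agent.S0238.result x).1
      calc 2 * s * c x ≤ 2 * s * Nat.card C := Nat.mul_le_mul_left _ h6
        _ = s * (2 * Nat.card C) := by ring
        _ ≤ s * Nat.card E := Nat.mul_le_mul_left _ hrel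
        _ ≤ _ := h5
    · have := (Cfsg.Agent.S0238.result x).2.1 hreal
      have h0 : c x = 0 := this
      rw [h0]; simp
  -- sum up
  have hsplit : n * n = c 1 + (∑ x ∈ (Finset.univ : Finset G).filter (fun x => orderOf x = 2), c x) +
      ∑ x ∈ (Finset.univ : Finset G).filter (fun x => orderOf x ≠ 2 ∧ x ≠ 1), c x := by
    rw [hsum, ← Finset.sum_filter_add_sum_filter_not (s := (Finset.univ : Finset G)) (p := fun x => orderOf x = 2)]
    have e : (Finset.univ : Finset G).filter (fun x => ¬ orderOf x = 2) =
        insert 1 ((Finset.univ : Finset G).filter (fun x => orderOf x ≠ 2 ∧ x ≠ 1)) := by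
      ext x
      simp only [Finset.mem_filter, Finset.mem_univ, true_and, Finset.mem_insert]
      by_cases hx : x = 1
      · subst hx; simp
      · simp [hx]
    rw [e, Finset.sum_insert (by simp)]
    ring
  have hcard2 : ((Finset.univ : Finset G).filter (fun x => orderOf x = 2)).card = n := by
    rw [hn, Nat.card_eq_fintype_card, Fintype.card_subtype]
  have hcard3 : ((Finset.univ : Finset G).filter (fun x => orderOf x ≠ 2 ∧ x ≠ 1)).card + n + 1 = Nat.card G := by
    rw [← hcard2, Nat.card_eq_fintype_card, ← Finset.card_univ,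
      ← Finset.card_filter_add_card_filter_not (s := (Finset.univ : Finset G)) (p := fun x => orderOf x = 2)]
    have e : (Finset.univ : Finset G).filter (fun x => ¬ orderOf x = 2) =
        insert 1 ((Finset.univ : Finset G).filter (fun x => orderOf x ≠ 2 ∧ x ≠ 1)) := by
      ext x
      simp only [Finset.mem_filter, Finset.mem_univ, true_and, Finset.mem_insert]
      by_cases hx : x = 1
      · subst hx; simp
      · simp [hx]
    rw [e, Finset.card_insert_of_notMem (by simp)]
    ring
  set A := ∑ x ∈ (Finset.univ : Finset G).filter (fun x => orderOf x = 2), c x with hA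
  set B := ∑ x ∈ (Finset.univ : Finset G).filter (fun x => orderOf x ≠ 2 ∧ x ≠ 1), c x with hB
  have hAle : s * A + n * (2 * s) ≤ n * Nat.card G := by
    have h7 : ∑ x ∈ (Finset.univ : Finset G).filter (fun x => orderOf x = 2), (s * c x + 2 * s) ≤
        ∑ x ∈ (Finset.univ : Finset G).filter (fun x => orderOf x = 2), Nat.card G :=
      Finset.sum_le_sum (fun x hx => hcinv x (Finset.mem_filter.1 hx).2)
    rw [Finset.sum_add_distrib, ← Finset.mul_sum, Finset.sum_const, Finset.sum_const, hcard2, smul_eq_mul, smul_eq_mul] at h7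
    exact h7
  have hBle : 2 * s * B ≤ ((Finset.univ : Finset G).filter (fun x => orderOf x ≠ 2 ∧ x ≠ 1)).card * Nat.card G := by
    have h7 : ∑ x ∈ (Finset.univ : Finset G).filter (fun x => orderOf x ≠ 2 ∧ x ≠ 1), (2 * s * c x) ≤
        ∑ x ∈ (Finset.univ : Finset G).filter (fun x => orderOf x ≠ 2 ∧ x ≠ 1), Nat.card G :=
      Finset.sum_le_sum (fun x hx => hcnon x (Finset.mem_filter.1 hx).2.1 (Finset.mem_filter.1 hx).2.2)
    rw [← Finset.mul_sum, Finset.sum_const, smul_eq_mul] at h7
    exact h7
  set r := ((Finset.univ : Finset G).filter (fun x => orderOf x ≠ 2 ∧ x ≠ 1)).card with hr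
  have e1 : 2 * s * n ^ 2 = 2 * s * c 1 + 2 * (s * A) + 2 * s * B := by
    rw [sq, hsplit]; ring
  have e2 : 2 * s * c 1 ≤ 2 * s * n := Nat.mul_le_mul_left _ hc1
  have e3 : (r + n + 1) * Nat.card G = Nat.card G * Nat.card G := by rw [hcard3]
  rw [e1]
  nlinarith

end Cfsg.Agent.S0233
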