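import Mathlib
import Cfsg.Agent.H3.Invol2
import Cfsg.Agent.S0230
import Cfsg.Agent.S0233
import Cfsg.Statements.S0232

set_option autoImplicit false
open Cfsg

namespace Cfsg.Agent.S0232

universe u
open CfsgH3 in
theorem aux : ∀ (N : ℕ) (G : Type u) [Group G] [Finite G], Nat.card G = N → Even (Nat.card G) → 2 < Nat.card G →
    ∃ H : Subgroup G, H ≠ ⊤ ∧ Nat.card G < (Nat.card H) ^ 3 := by
  intro N
  induction N using Nat.strong_induction_on with
  | _ N ih =>
  intro G _ _ hN heven hgt
  classical
  by_cases hZ : Odd (Nat.card (Subgroup.center G))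
  · -- centre of odd order
    obtain ⟨t0, ht0⟩ := exists_prime_orderOf_dvd_card' (G := G) 2 heven.two_dvd
    obtain ⟨t, ht, hmax⟩ := Set.exists_max_image {t : G | orderOf t = 2}
      (fun t => Nat.card (Subgroup.centralizer ({t} : Set G))) (Set.toFinite _) ⟨t0, ht0⟩
    simp only [Set.mem_setOf_eq] at ht hmax
    have hprop : Subgroup.centralizer ({t} : Set G) ≠ ⊤ := by
      rw [Ne, centralizer_singleton_eq_top_iff]
      intro h
      have h5 : orderOf t ∣ Nat.card (Subgroup.center G) := by
        have := orderOf_dvd_natCard (⟨t, h⟩ : Subgroup.center G)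
        rwa [Subgroup.orderOf_mk] at this
      rw [ht] at h5
      exact (Nat.not_even_iff_odd.2 hZ) (even_iff_two_dvd.2 h5)
    by_cases hcl : ∀ s : G, orderOf s = 2 → IsConj s t
    · by_cases hbig : Nat.card G < Nat.card (Subgroup.centralizer ({t} : Set G)) ^ 3
      · exact ⟨_, hprop, hbig⟩
      push Not at hbig
      obtain ⟨H, hH, hH2⟩ := Cfsg.Agent.S0233.result (G := G) heven hZ
      refine ⟨H, hH, ?_⟩
      have hmul := Subgroup.card_mul_index H
      rcases hH2 with h2 | h2
      · rw [h2] at hmul
        rw [← hmul] at hgt ⊢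
        have h3 : 2 ≤ Nat.card H := by omega
        nlinarith [Nat.mul_le_mul h3 h3]
      · have hn : Nat.card {t : G // orderOf t = 2} * Nat.card (Subgroup.centralizer ({t} : Set G)) = Nat.card G := by
          rw [← card_isConj_mul t]
          congr 1
          apply Nat.card_congr
          apply Equiv.subtypeEquivRight
          intro x
          constructor
          · intro hx; exact (hcl x hx).symm
          · intro hx
            obtain ⟨g, rfl⟩ := isConj_iff.1 hx
            rw [orderOf_conj, ht]
        set n := Nat.card {t : G // orderOf t = 2} with hn'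
        set c := Nat.card (Subgroup.centralizer ({t} : Set G)) with hc
        set h := Nat.card H with hh
        set m := H.index with hm
        have hcpos : 0 < c := Nat.card_pos
        have hhpos : 0 < h := Nat.card_pos
        have hnpos : 0 < n := by
          rcases Nat.eq_zero_or_pos n with h0 | h0
          · rw [h0, zero_mul] at hn; omega
          · exact h0
        have hmpos : 0 < m := by
          rcases Nat.eq_zero_or_pos m with h0 | h0
          · rw [h0, mul_zero] at hmul; omega
          · exact h0
        -- 2 m n² < (h m)(h m + n),  hm = nc = |G|, |G| ≥ c³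
        -- so 2 m < c (c+1)
        have h3 : 2 * m < c * (c + 1) := by
          rw [← hn] at h2
          have : n ^ 2 * (2 * m) < n ^ 2 * (c * (c + 1)) := by
            calc n ^ 2 * (2 * m) = 2 * m * n ^ 2 := by ring
              _ < n * c * (n * c + n) := h2
              _ = _ := by ring
          exact Nat.lt_of_mul_lt_mul_left this
        -- want h m < h³, i.e. m < h². have h m ≥ c³
        rw [← hmul] at hbig ⊢
        have h4 : m < h ^ 2 := by
          by_contra hcon
          push Not at hcon
          -- h² ≤ m, c³ ≤ h m
          have e1 : c ^ 6 ≤ h ^ 2 * m ^ 2 := by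
            calc c ^ 6 = (c ^ 3) ^ 2 := by ring
              _ ≤ (h * m) ^ 2 := Nat.pow_le_pow_left hbig 2
              _ = _ := by ring
          have e2 : h ^ 2 * m ^ 2 ≤ m ^ 3 := by
            calc h ^ 2 * m ^ 2 ≤ m * m ^ 2 := Nat.mul_le_mul_right _ hcon
              _ = m ^ 3 := by ring
          have e3 : (2 * m) ^ 3 < (c * (c + 1)) ^ 3 := Nat.pow_lt_pow_left h3 (by norm_num)
          have e4 : (c * (c + 1)) ^ 3 ≤ (c * (2 * c)) ^ 3 := Nat.pow_le_pow_left (Nat.mul_le_mul_left _ (by omega)) 3
          have e5 : (c * (2 * c)) ^ 3 = 8 * c ^ 6 := by ring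
          have e6 : (2 * m) ^ 3 = 8 * m ^ 3 := by ring
          omega
        calc h * m < h * h ^ 2 := Nat.mul_lt_mul_of_pos_left h4 hhpos
          _ = h ^ 3 := by ring
    · push Not at hcl
      obtain ⟨s, hs, hst⟩ := hcl
      exact ⟨_, hprop, Cfsg.Agent.S0230.result s t hs ht hst hmax⟩
  · -- central involution
    rw [Nat.not_odd_iff_even] at hZ
    obtain ⟨z, hz⟩ := exists_prime_orderOf_dvd_card' (G := Subgroup.center G) 2 hZ.two_dvd
    have hzo : orderOf (z : G) = 2 := by rw [Subgroup.orderOf_coe, hz]
    set K : Subgroup G := Subgroup.zpowers (z : G) with hK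
    haveI hKn : K.Normal := by
      refine ⟨fun n hn g => ?_⟩
      obtain ⟨k, rfl⟩ := Subgroup.mem_zpowers_iff.1 hn
      have h1 : (z : G) ^ k ∈ Subgroup.center G := zpow_mem z.2 k
      have h2 := Subgroup.mem_center_iff.1 h1 g
      rw [h2, mul_inv_cancel_right]
      exact hn
    have hKcard : Nat.card K = 2 := by rw [hK, Nat.card_zpowers, hzo]
    have hquot := Subgroup.card_mul_index K
    rw [hKcard] at hquot
    set q := K.index with hq
    have hqc : Nat.card (G ⧸ K) = q := rfl
    by_cases hqe : Even q
    · by_cases hq2 : 2 < q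
      · obtain ⟨H, hH, hH3⟩ := ih q (by omega) (G ⧸ K) hqc (by rw [hqc]; exact hqe) (by rw [hqc]; exact hq2)
        refine ⟨H.comap (QuotientGroup.mk' K), ?_, ?_⟩
        · intro h
          apply hH
          rw [eq_top_iff]
          intro x _
          obtain ⟨g, rfl⟩ := QuotientGroup.mk_surjective x
          have : g ∈ H.comap (QuotientGroup.mk' K) := by rw [h]; trivial
          exact this
        · have h1 : Nat.card (H.comap (QuotientGroup.mk' K)) = Nat.card K * Nat.card H :=
            QuotientGroup.card_preimage_mk K (H : Set (G ⧸ K))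
          rw [h1, hKcard, ← hquot]
          rw [hqc] at hH3
          have : (2 * Nat.card H) ^ 3 = 8 * Nat.card H ^ 3 := by ring
          omega
      · have hq2' : q = 2 := by
          obtain ⟨r, hr⟩ := hqe
          omega
        refine ⟨K, ?_, ?_⟩
        · intro h
          rw [hq, h, Subgroup.index_top] at hq2'
          omega
        · rw [hKcard, ← hquot, hq2']; norm_num
    · -- q odd, order 2q
      have hN : CfsgH3.HasNPC 2 G := by
        obtain ⟨T⟩ : Nonempty (Sylow 2 G) := inferInstance
        have hTcard : Nat.card T = 2 := by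
          rw [T.card_eq_multiplicity, ← hquot]
          rw [Nat.factorization_mul (by norm_num) (by omega)]
          simp only [Finsupp.add_apply]
          rw [Nat.factorization_eq_zero_of_not_dvd (n := q) (fun h => hqe (even_iff_two_dvd.2 h)),
            Nat.Prime.factorization_self Nat.prime_two]
          norm_num
        haveI : IsCyclic T := isCyclic_of_prime_card (p := 2) hTcard
        have hmin : (Nat.card G).minFac = 2 := by
          rw [Nat.minFac_eq_two_iff]; exact heven.two_dvd
        exact hasNPC_burnside T (IsCyclic.normalizer_le_centralizer hmin ‹IsCyclic T›)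
      obtain ⟨H, -, hH⟩ := hN.exists_index_eq heven.two_dvd
      refine ⟨H, ?_, ?_⟩
      · intro h; rw [h, Subgroup.index_top] at hH; omega
      · have h1 := Subgroup.card_mul_index H
        rw [hH] at h1
        rw [← h1] at hgt ⊢
        have h3 : 2 ≤ Nat.card H := by omega
        nlinarith [Nat.mul_le_mul h3 h3]

/-- A finite group G of even order greater than 2 has a proper subgroup H with |G| < |H|^3. -/
theorem result {G : Type*} [Group G] [Finite G] (heven : Even (Nat.card G)) (hgt : 2 < Nat.card G) : ∃ H : Subgroup G, H ≠ ⊤ ∧ Nat.card G < (Nat.card H) ^ 3 := by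
  exact aux (Nat.card G) G rfl heven hgt

end Cfsg.Agent.S0232
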