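import Mathlib
import Cfsg.Agent.H3.Invol2
import Cfsg.Agent.S0219
import Cfsg.Agent.S0233
import Cfsg.Statements.S0234

set_option autoImplicit false
open Cfsg

namespace Cfsg.Agent.S0234

set_option maxRecDepth 100000 in
theorem a5_count : (Finset.univ.filter (fun x : Equiv.Perm (Fin 5) => x * x = 1 ∧ x ≠ 1 ∧ Equiv.Perm.sign x = 1)).card = 15 := by
  decide +kernel

open CfsgH3 in
theorem not_normal_proper {G : Type*} [Group G] [Finite G] [IsSimpleGroup G] (hgt : 2 < Nat.card G) (heven : Even (Nat.card G))
    (p : ℕ) [Fact p.Prime] (P : Sylow p G) (hp : p ∣ Nat.card G) (h : (P : Subgroup G).Normal) : False := by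
  rcases h.eq_bot_or_eq_top with h1 | h1
  · exact P.ne_bot_of_dvd_card hp h1
  · have h2 : IsPGroup p G := by
      have := P.2
      rw [h1] at this
      exact this.of_equiv Subgroup.topEquiv
    have h3 := (hasNPC_of_isPGroup h2).simple
    rcases h3 with h3 | h3
    · exact h3 hp
    · rw [h3] at hgt heven
      have hpp : p.Prime := Fact.out
      rcases hpp.eq_two_or_odd' with h4 | h4
      · omega
      · exact (Nat.not_even_iff_odd.2 h4) heven

/-- In a finite simple group G of even order greater than 2, the number n of involutions satisfies 3n < |G|. -/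
theorem result {G : Type*} [Group G] [Finite G] [IsSimpleGroup G] (heven : Even (Nat.card G)) (hgt : 2 < Nat.card G) : 3 * Nat.card {t : G // orderOf t = 2} < Nat.card G := by
  classical
  by_contra hcon
  push Not at hcon
  haveI := Fintype.ofFinite G
  set n := Nat.card {t : G // orderOf t = 2} with hn
  have hpnpc : ∀ (p : ℕ) [Fact p.Prime], p ∣ Nat.card G → ¬ CfsgH3.HasNPC p G := by
    intro p hp hdvd h
    rcases h.simple with h1 | h1
    · exact h1 hdvd
    · rw [h1] at hgt heven
      rcases hp.out.eq_two_or_odd' with h4 | h4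
      · omega
      · exact (Nat.not_even_iff_odd.2 h4) heven
  have hindex2 : ∀ H : Subgroup G, H.index ≠ 2 := by
    intro H hH
    have hHn : H.Normal := Subgroup.normal_of_index_eq_two hH
    rcases hHn.eq_bot_or_eq_top with h | h
    · rw [h, Subgroup.index_bot] at hH; omega
    · rw [h, Subgroup.index_top] at hH; omega
  have hcenter : Subgroup.center G = ⊥ := by
    rcases (inferInstance : (Subgroup.center G).Normal).eq_bot_or_eq_top with h | h
    · exact h
    · exfalso
      have hcomm : ∀ a b : G, a * b = b * a := fun a b => by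
        have : a ∈ Subgroup.center G := by rw [h]; trivial
        exact ((Subgroup.mem_center_iff.1 this) b).symm
      letI : CommGroup G := { (inferInstance : Group G) with mul_comm := hcomm }
      have h6 : (Nat.card G).Prime := IsSimpleGroup.prime_card
      rcases h6.eq_two_or_odd' with h4 | h4
      · omega
      · exact (Nat.not_even_iff_odd.2 h4) heven
  obtain ⟨H, hH, hH2⟩ := Cfsg.Agent.S0233.result (G := G) heven (by rw [hcenter, Subgroup.card_bot]; exact odd_one)
  rcases hH2 with hH2 | hH2
  · exact hindex2 H hH2
  rw [← hn] at hH2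
  set m := H.index with hm
  have hnpos : 0 < n := by
    rcases Nat.eq_zero_or_pos n with h0 | h0
    · omega
    · exact h0
  have hm5 : m ≤ 5 := by
    by_contra h
    have h6 : 6 ≤ m := by omega
    have e1 : Nat.card G * (Nat.card G + n) ≤ (3 * n) * (3 * n + n) := Nat.mul_le_mul hcon (by omega)
    have e2 : 12 * n ^ 2 ≤ 2 * m * n ^ 2 := Nat.mul_le_mul_right _ (by omega)
    nlinarith
  -- embedding in Perm (Fin 5)
  have hmpos : 0 < m := Nat.pos_of_ne_zero Subgroup.FiniteIndex.index_ne_zero
  obtain ⟨θ, hθ⟩ : ∃ θ : G →* Equiv.Perm (Fin 5), Function.Injective θ := by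
    haveI := Fintype.ofFinite (G ⧸ H)
    have hker : (MulAction.toPermHom G (G ⧸ H)).ker = ⊥ := by
      rw [← Subgroup.normalCore_eq_ker]
      rcases (inferInstance : H.normalCore.Normal).eq_bot_or_eq_top with h | h
      · exact h
      · exfalso; apply hH
        rw [eq_top_iff, ← h]; exact Subgroup.normalCore_le H
    have hinj := (MonoidHom.ker_eq_bot_iff _).1 hker
    have hcardQ : Fintype.card (G ⧸ H) = m := by
      rw [← Nat.card_eq_fintype_card]; rfl
    obtain ⟨emb⟩ : Nonempty ((G ⧸ H) ↪ Fin 5) := by
      apply Function.Embedding.nonempty_of_card_le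
      rw [hcardQ, Fintype.card_fin]; exact hm5
    exact ⟨(Equiv.Perm.viaEmbeddingHom emb).comp (MulAction.toPermHom G (G ⧸ H)),
      (Equiv.Perm.viaEmbeddingHom_injective emb).comp hinj⟩
  have hsign : ∀ g : G, Equiv.Perm.sign (θ g) = 1 := by
    intro g
    set σ : G →* ℤˣ := Equiv.Perm.sign.comp θ with hσ
    rcases (inferInstance : σ.ker.Normal).eq_bot_or_eq_top with h | h
    · exfalso
      have hinj := (MonoidHom.ker_eq_bot_iff _).1 h
      have := Nat.card_le_card_of_injective σ hinj
      have h2 : Nat.card ℤˣ = 2 := by rw [Nat.card_eq_fintype_card]; rfl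
      omega
    · have : g ∈ σ.ker := by rw [h]; trivial
      exact this
  have hn15 : n ≤ 15 := by
    rw [← a5_count]
    have e : ((Finset.univ.filter (fun x : Equiv.Perm (Fin 5) => x * x = 1 ∧ x ≠ 1 ∧ Equiv.Perm.sign x = 1)).card) =
        Nat.card {x : Equiv.Perm (Fin 5) // x * x = 1 ∧ x ≠ 1 ∧ Equiv.Perm.sign x = 1} := by
      rw [Nat.card_eq_fintype_card, Fintype.card_subtype]
    rw [e]
    apply Nat.card_le_card_of_injective (fun t : {t : G // orderOf t = 2} =>
      (⟨θ t.1, by rw [← map_mul, CfsgH3.mul_self_of_orderOf_two t.2, map_one],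
        fun h => CfsgH3.ne_one_of_orderOf_two t.2 (hθ (h.trans (map_one θ).symm)), hsign _⟩ :
        {x : Equiv.Perm (Fin 5) // x * x = 1 ∧ x ≠ 1 ∧ Equiv.Perm.sign x = 1}))
    intro a b hab
    simp only [Subtype.mk.injEq] at hab
    exact Subtype.ext (hθ hab)
  have hdvd60 : Nat.card G ∣ 60 := by
    let θ' : G →* alternatingGroup (Fin 5) := θ.codRestrict _ (fun g => by
      rw [Equiv.Perm.mem_alternatingGroup]; exact hsign g)
    have hθ' : Function.Injective θ' := by
      intro a b hab
      exact hθ (congrArg Subtype.val hab)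
    have h1 := Subgroup.card_dvd_of_injective θ' hθ'
    have h2 : Nat.card (alternatingGroup (Fin 5)) = 60 := by
      rw [nat_card_alternatingGroup]
      simp; decide
    rwa [h2] at h1
  have hG45 : Nat.card G ≤ 45 := by omega
  -- 4 divides |G|
  have h4 : 4 ∣ Nat.card G := by
    by_contra h4
    obtain ⟨r, hr⟩ := heven.two_dvd
    have hrodd : ¬ 2 ∣ r := by
      rintro ⟨k, rfl⟩
      exact h4 ⟨k, by rw [hr]; ring⟩
    obtain ⟨T⟩ : Nonempty (Sylow 2 G) := inferInstance
    have hTcard : Nat.card T = 2 := by
      rw [T.card_eq_multiplicity, hr]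
      rw [Nat.factorization_mul (by norm_num) (by rintro rfl; simp at hrodd)]
      simp only [Finsupp.add_apply]
      rw [Nat.factorization_eq_zero_of_not_dvd hrodd,
        Nat.Prime.factorization_self Nat.prime_two]
      norm_num
    haveI : IsCyclic T := isCyclic_of_prime_card (p := 2) hTcard
    obtain ⟨K, hK⟩ := Cfsg.Agent.S0219.result heven T this
    exact hindex2 K hK
  haveI : Fact (Nat.Prime 5) := ⟨by norm_num⟩
  haveI : Fact (Nat.Prime 3) := ⟨by norm_num⟩
  have hcases : Nat.card G = 4 ∨ Nat.card G = 12 ∨ Nat.card G = 20 := by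
    obtain ⟨k, hk⟩ := h4
    rw [hk] at hdvd60 hG45 ⊢
    have : k ∣ 15 := by
      have : 4 * k ∣ 4 * 15 := hdvd60
      exact Nat.dvd_of_mul_dvd_mul_left (by norm_num) this
    have hk15 : k ≤ 15 := Nat.le_of_dvd (by norm_num) this
    have hk11 : k ≤ 11 := by omega
    interval_cases k <;> simp_all
  rcases hcases with hc | hc | hc
  · apply hpnpc 2 (by rw [hc]; norm_num)
    apply CfsgH3.hasNPC_of_isPGroup
    exact IsPGroup.of_card (n := 2) (by rw [hc]; norm_num)
  · obtain ⟨P⟩ : Nonempty (Sylow 3 G) := inferInstance
    have hPcard : Nat.card P = 3 := by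
      have := P.card_eq_multiplicity
      rw [hc] at this
      rw [this]
      have h : (12 : ℕ).factorization 3 = 1 := by
        have : (12:ℕ) = 3 ^ 1 * 4 := by norm_num
        rw [this, Nat.factorization_mul (by norm_num) (by norm_num), Nat.Prime.factorization_pow (by norm_num)]
        simp [Nat.factorization_eq_zero_of_not_dvd]
      rw [h, pow_one]
    have hidx : (P : Subgroup G).index = 4 := by
      have := Subgroup.card_mul_index (P : Subgroup G)
      rw [hc] at this
      have hc' : Nat.card (P : Subgroup G) = 3 := hPcard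
      rw [hc'] at this
      omega
    have hn3 := Sylow.card_dvd_index P
    rw [hidx] at hn3
    have hmod := card_sylow_modEq_one 3 G
    have hn' : Nat.card (Sylow 3 G) = 1 ∨ Nat.card (Sylow 3 G) = 4 := by
      have h1 : Nat.card (Sylow 3 G) ≤ 4 := Nat.le_of_dvd (by norm_num) hn3
      have h0 : 0 < Nat.card (Sylow 3 G) := Nat.card_pos
      interval_cases h : Nat.card (Sylow 3 G)
      · left; rfl
      · exfalso; revert hmod; decide
      · exfalso; revert hmod; decide
      · right; rfl
    rcases hn' with hn' | hn'
    · haveI : Subsingleton (Sylow 3 G) := by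
        rw [Nat.card_eq_one_iff_unique] at hn'
        exact hn'.1
      exact not_normal_proper hgt heven 3 P (by rw [hc]; norm_num) (Sylow.normal_of_subsingleton P)
    · have hNcard : Nat.card (Subgroup.normalizer (P : Set G)) = 3 := by
        have h1 := Sylow.card_eq_index_normalizer P
        rw [hn'] at h1
        have h2 := Subgroup.card_mul_index (Subgroup.normalizer (P : Set G))
        rw [← h1, hc] at h2
        omega
      have hNP : Subgroup.normalizer (P : Set G) = (P : Subgroup G) := by
        symm
        apply Subgroup.eq_of_le_of_card_ge Subgroup.le_normalizer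
        exact hNcard.le.trans hPcard.ge
      apply hpnpc 3 (by rw [hc]; norm_num)
      apply CfsgH3.hasNPC_burnside P
      rw [hNP]
      haveI : IsCyclic P := isCyclic_of_prime_card (p := 3) hPcard
      haveI : IsMulCommutative P := inferInstance
      exact P.le_centralizer
  · obtain ⟨P⟩ : Nonempty (Sylow 5 G) := inferInstance
    have hPcard : Nat.card P = 5 := by
      have := P.card_eq_multiplicity
      rw [hc] at this
      rw [this]
      have h : (20 : ℕ).factorization 5 = 1 := by
        have : (20:ℕ) = 5 ^ 1 * 4 := by norm_num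
        rw [this, Nat.factorization_mul (by norm_num) (by norm_num), Nat.Prime.factorization_pow (by norm_num)]
        simp [Nat.factorization_eq_zero_of_not_dvd]
      rw [h, pow_one]
    have hidx : (P : Subgroup G).index = 4 := by
      have := Subgroup.card_mul_index (P : Subgroup G)
      rw [hc] at this
      have hc' : Nat.card (P : Subgroup G) = 5 := hPcard
      rw [hc'] at this
      omega
    have hn3 := Sylow.card_dvd_index P
    rw [hidx] at hn3
    have hmod := card_sylow_modEq_one 5 G
    have hn' : Nat.card (Sylow 5 G) = 1 := by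
      have h1 : Nat.card (Sylow 5 G) ≤ 4 := Nat.le_of_dvd (by norm_num) hn3
      have h0 : 0 < Nat.card (Sylow 5 G) := Nat.card_pos
      interval_cases h : Nat.card (Sylow 5 G)
      · rfl
      · exfalso; revert hmod; decide
      · exfalso; revert hmod; decide
      · exfalso; revert hmod; decide
    haveI : Subsingleton (Sylow 5 G) := by
      rw [Nat.card_eq_one_iff_unique] at hn'
      exact hn'.1
    exact not_normal_proper hgt heven 5 P (by rw [hc]; norm_num) (Sylow.normal_of_subsingleton P)

end Cfsg.Agent.S0234
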