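import Mathlib
import Cfsg.Agent.H3.Inv
import Cfsg.Statements.S0235

set_option autoImplicit false
open Cfsg

namespace Cfsg.Agent.S0235

/-- If x² ≠ 1, the ordered pairs (u, v) of involutions with uv = x correspond bijectively to the involutions t with t x t⁻¹ = x⁻¹ (via (u, v) ↦ u), so the two counts agree. -/
theorem result {G : Type*} [Group G] [Finite G] (x : G) (hx : x ^ 2 ≠ 1) : Nat.card {p : G × G // orderOf p.1 = 2 ∧ orderOf p.2 = 2 ∧ p.1 * p.2 = x} = Nat.card {t : G // orderOf t = 2 ∧ t * x * t⁻¹ = x⁻¹} := by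
  refine Nat.card_congr
    { toFun := fun p => ⟨p.1.1, p.2.1, ?_⟩
      invFun := fun t => ⟨(t.1, t.1 * x), t.2.1, ?_, ?_⟩
      left_inv := ?_
      right_inv := ?_ }
  · obtain ⟨⟨u, v⟩, hu, hv, h⟩ := p
    simp only at hu hv h ⊢
    have hu2 := CfsgH3.mul_self_of_orderOf_two hu
    have hv2 := CfsgH3.mul_self_of_orderOf_two hv
    rw [← h]
    exact CfsgH3.conj_mul_eq_inv hu2 hv2
  · obtain ⟨t, ht, h⟩ := t
    simp only at ht h ⊢
    have ht2 := CfsgH3.mul_self_of_orderOf_two ht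
    have hti := CfsgH3.inv_of_orderOf_two ht
    apply CfsgH3.orderOf_two_of_mul_self
    · intro h1
      apply hx
      have h2 : x = t := by
        rw [← hti]; exact eq_inv_of_mul_eq_one_right h1
      rw [sq, h2, ht2]
    · rw [hti] at h
      rw [← mul_assoc, h, inv_mul_cancel]
  · obtain ⟨t, ht, h⟩ := t
    simp only at ht h ⊢
    have ht2 := CfsgH3.mul_self_of_orderOf_two ht
    rw [← mul_assoc, ht2, one_mul]
  · rintro ⟨⟨u, v⟩, hu, hv, h⟩
    simp only at hu hv h
    have hu2 := CfsgH3.mul_self_of_orderOf_two hu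
    simp only [Subtype.mk.injEq, Prod.mk.injEq, true_and]
    rw [← h, ← mul_assoc, hu2, one_mul]
  · rintro ⟨t, ht, h⟩
    rfl

end Cfsg.Agent.S0235
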