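import Mathlib
import Cfsg.Statements.S0237

set_option autoImplicit false
open Cfsg

namespace Cfsg.Agent.S0237

/-- If x is real (conjugate to x⁻¹) in a finite group G, the number of g with g x g⁻¹ = x⁻¹ equals |C_G(x)|. -/
theorem result {G : Type*} [Group G] [Finite G] (x : G) (hreal : IsConj x x⁻¹) : Nat.card {g : G // g * x * g⁻¹ = x⁻¹} = Nat.card (Subgroup.centralizer ({x} : Set G)) := by
  obtain ⟨h, hh⟩ := isConj_iff.mp hreal
  refine Nat.card_congr
    { toFun := fun g => ⟨h⁻¹ * g.1, ?_⟩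
      invFun := fun c => ⟨h * c.1, ?_⟩
      left_inv := ?_
      right_inv := ?_ }
  · obtain ⟨g, hg⟩ := g
    rw [Subgroup.mem_centralizer_singleton_iff]
    have : x = h⁻¹ * x⁻¹ * h := by rw [← hh]; group
    calc h⁻¹ * g * x = h⁻¹ * (g * x * g⁻¹) * g := by group
      _ = h⁻¹ * x⁻¹ * g := by rw [hg]
      _ = (h⁻¹ * x⁻¹ * h) * (h⁻¹ * g) := by group
      _ = x * (h⁻¹ * g) := by rw [← this]
  · obtain ⟨c, hc⟩ := c
    rw [Subgroup.mem_centralizer_singleton_iff] at hc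
    calc h * c * x * (h * c)⁻¹ = h * (c * x) * c⁻¹ * h⁻¹ := by group
      _ = h * (x * c) * c⁻¹ * h⁻¹ := by rw [hc]
      _ = h * x * h⁻¹ := by group
      _ = x⁻¹ := hh
  · rintro ⟨g, hg⟩
    simp
  · rintro ⟨c, hc⟩
    simp

end Cfsg.Agent.S0237
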