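import Mathlib
import Cfsg.Statements.S0239

set_option autoImplicit false
open Cfsg

namespace Cfsg.Agent.S0239

/-- If some nontrivial element x of a finite group G is conjugate to x⁻¹, then |G| is even. -/
theorem result {G : Type*} [Group G] [Finite G] (x : G) (hx : x ≠ 1) (hreal : IsConj x x⁻¹) : Even (Nat.card G) := by
  obtain ⟨g, hg⟩ := isConj_iff.mp hreal
  by_contra hodd
  rw [Nat.not_even_iff_odd] at hodd
  -- g ^ 2 commutes with x, hence g commutes with x
  have h2 : Commute (g ^ 2) x := by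
    have : g ^ 2 * x * (g ^ 2)⁻¹ = x := by
      calc g ^ 2 * x * (g ^ 2)⁻¹ = g * (g * x * g⁻¹) * g⁻¹ := by rw [sq]; group
        _ = g * x⁻¹ * g⁻¹ := by rw [hg]
        _ = (g * x * g⁻¹)⁻¹ := by group
        _ = x := by rw [hg, inv_inv]
    exact mul_inv_eq_iff_eq_mul.mp this
  have hgodd : Odd (orderOf g) := Odd.of_dvd_nat hodd (orderOf_dvd_natCard g)
  obtain ⟨k, hk⟩ := hgodd
  have h3 : Commute g x := by
    have h4 : (g ^ 2) ^ (k + 1) = g := by
      rw [← pow_mul]
      have : 2 * (k + 1) = orderOf g + 1 := by omega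
      rw [this, pow_succ, pow_orderOf_eq_one, one_mul]
    rw [← h4]
    exact h2.pow_left _
  have h5 : x = x⁻¹ := by
    rw [← hg, h3.eq, mul_inv_cancel_right]
  have h6 : x * x = 1 := by nth_rw 2 [h5]; exact mul_inv_cancel x
  have h7 : orderOf x = 2 := by
    rw [← sq] at h6
    exact orderOf_eq_prime h6 hx
  have h8 : 2 ∣ Nat.card G := by rw [← h7]; exact orderOf_dvd_natCard x
  rw [← Nat.not_even_iff_odd] at hodd
  exact hodd (even_iff_two_dvd.mpr h8)

end Cfsg.Agent.S0239
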