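import Mathlib
import Cfsg.Agent.H3.Invol2
import Cfsg.Statements.S0240

set_option autoImplicit false
open Cfsg

namespace Cfsg.Agent.S0240

/-- Let G be a finite group with n involutions and H a subgroup with |H|·(n+1) > |G|. Then some nontrivial h ∈ H is strongly real in G: an involution t of G satisfies t h t⁻¹ = h⁻¹. -/
theorem result {G : Type*} [Group G] [Finite G] (H : Subgroup G) (hH : Nat.card G < Nat.card H * (Nat.card {t : G // orderOf t = 2} + 1)) : ∃ h : G, h ∈ H ∧ h ≠ 1 ∧ ∃ t : G, orderOf t = 2 ∧ t * h * t⁻¹ = h⁻¹ := by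
  classical
  set I := Option {t : G // orderOf t = 2} with hI
  let f : I → G := fun o => match o with
    | none => 1
    | some t => t.1
  have hcard : Nat.card I = Nat.card {t : G // orderOf t = 2} + 1 := by rw [hI, Finite.card_option]
  have hlt : Nat.card (G ⧸ H) < Nat.card I := by
    rw [hcard]
    have h1 := Subgroup.card_mul_index H
    have h2 : H.index = Nat.card (G ⧸ H) := rfl
    rw [h2] at h1
    rw [← h1] at hH
    exact Nat.lt_of_mul_lt_mul_left hH
  haveI := Fintype.ofFinite I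
  haveI := Fintype.ofFinite (G ⧸ H)
  obtain ⟨a, b, hab, hfab⟩ := Fintype.exists_ne_map_eq_of_card_lt (fun i : I => ((f i : G) : G ⧸ H))
    (by rw [← Nat.card_eq_fintype_card, ← Nat.card_eq_fintype_card]; exact hlt)
  rw [QuotientGroup.eq] at hfab
  rcases a with _ | ⟨a, ha⟩ <;> rcases b with _ | ⟨b, hb⟩
  · exact absurd rfl hab
  · refine ⟨b, by simpa [f] using hfab, CfsgH3.ne_one_of_orderOf_two hb, b, hb, ?_⟩
    rw [CfsgH3.inv_of_orderOf_two hb, CfsgH3.mul_self_of_orderOf_two hb, one_mul]
  · have h1 : a ∈ H := by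
      have := inv_mem hfab
      simpa [f] using this
    refine ⟨a, h1, CfsgH3.ne_one_of_orderOf_two ha, a, ha, ?_⟩
    rw [CfsgH3.inv_of_orderOf_two ha, CfsgH3.mul_self_of_orderOf_two ha, one_mul]
  · have h1 : a * b ∈ H := by
      have h2 : a⁻¹ * b ∈ H := hfab
      rwa [CfsgH3.inv_of_orderOf_two ha] at h2
    refine ⟨a * b, h1, ?_, a, ha, CfsgH3.conj_mul_eq_inv (CfsgH3.mul_self_of_orderOf_two ha) (CfsgH3.mul_self_of_orderOf_two hb)⟩
    intro h
    apply hab
    have h3 : b = a := by
      rw [← CfsgH3.inv_of_orderOf_two ha]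
      exact (inv_eq_of_mul_eq_one_right h).symm
    subst h3
    rfl

end Cfsg.Agent.S0240
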