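import Mathlib
import Cfsg.Agent.H3.Invol2
import Cfsg.Statements.S0241

set_option autoImplicit false
open Cfsg

namespace Cfsg.Agent.S0241

/-- If x ≠ 1 is conjugate to x⁻¹ in a finite group G and |C_G(x)| is odd, then some involution t satisfies t x t⁻¹ = x⁻¹. -/
theorem result {G : Type*} [Group G] [Finite G] (x : G) (hx : x ≠ 1) (hreal : IsConj x x⁻¹) (hodd : Odd (Nat.card (Subgroup.centralizer ({x} : Set G)))) : ∃ t : G, orderOf t = 2 ∧ t * x * t⁻¹ = x⁻¹ := by
  obtain ⟨g, hg⟩ := isConj_iff.1 hreal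
  have hg' : g * x = x⁻¹ * g := by rw [← hg]; group
  have hinv : g * x⁻¹ * g⁻¹ = x := by
    have : g * x⁻¹ * g⁻¹ = (g * x * g⁻¹)⁻¹ := by group
    rw [this, hg, inv_inv]
  have hg2 : g * g ∈ Subgroup.centralizer ({x} : Set G) := by
    rw [Subgroup.mem_centralizer_singleton_iff]
    calc g * g * x = g * (g * x * g⁻¹) * g⁻¹ * (g * g) := by group
      _ = g * x⁻¹ * g⁻¹ * (g * g) := by rw [hg]
      _ = x * (g * g) := by rw [hinv]
  have hodd2 : Odd (orderOf (g * g)) := by
    have h1 : orderOf (g * g) ∣ Nat.card (Subgroup.centralizer ({x} : Set G)) := by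
      have := orderOf_dvd_natCard (⟨g * g, hg2⟩ : Subgroup.centralizer ({x} : Set G))
      rwa [← Subgroup.orderOf_coe] at this
    exact Odd.of_dvd_nat hodd h1
  obtain ⟨m, hm⟩ := hodd2
  set k := orderOf (g * g) with hk
  have hC : ∀ j : ℕ, (g * g) ^ j * x * ((g * g) ^ j)⁻¹ = x := by
    intro j
    have := pow_mem hg2 j
    rw [Subgroup.mem_centralizer_singleton_iff] at this
    rw [this]; group
  have hpow : g ^ k * x * (g ^ k)⁻¹ = x⁻¹ := by
    have e : g ^ k = g * (g * g) ^ m := by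
      rw [hm, pow_succ', pow_mul, sq]
    rw [e]
    calc g * (g * g) ^ m * x * (g * (g * g) ^ m)⁻¹ = g * ((g * g) ^ m * x * ((g * g) ^ m)⁻¹) * g⁻¹ := by group
      _ = x⁻¹ := by rw [hC, hg]
  refine ⟨g ^ k, ?_, hpow⟩
  apply CfsgH3.orderOf_two_of_mul_self
  · intro h
    rw [h] at hpow
    have hxx : x * x = 1 := by
      have h1 : x = x⁻¹ := by simpa using hpow
      nth_rewrite 2 [h1]; rw [mul_inv_cancel]
    have hx2 : orderOf x = 2 := CfsgH3.orderOf_two_of_mul_self hx hxx
    have hxC : x ∈ Subgroup.centralizer ({x} : Set G) := by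
      rw [Subgroup.mem_centralizer_singleton_iff]
    have h1 : orderOf x ∣ Nat.card (Subgroup.centralizer ({x} : Set G)) := by
      have := orderOf_dvd_natCard (⟨x, hxC⟩ : Subgroup.centralizer ({x} : Set G))
      rwa [← Subgroup.orderOf_coe] at this
    rw [hx2] at h1
    exact (Nat.not_even_iff_odd.2 hodd) (even_iff_two_dvd.2 h1)
  · rw [← (Commute.refl g).mul_pow k, hk, pow_orderOf_eq_one]

end Cfsg.Agent.S0241
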