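import Cfsg.Statements.S0244
import Mathlib

set_option autoImplicit false
open Cfsg

namespace Cfsg.Agent.S0244

/-- Sp_2 = SL_2: a matrix on Fin 1 ⊕ Fin 1 lies in Mathlib's symplectic group iff its determinant is 1. -/
theorem result {R : Type*} [CommRing R] (A : Matrix (Fin 1 ⊕ Fin 1) (Fin 1 ⊕ Fin 1) R) : A ∈ Matrix.symplecticGroup (Fin 1) R ↔ A.det = 1 := by
  rw [SymplecticGroup.mem_iff']
  have e : ∀ M : Matrix (Fin 1 ⊕ Fin 1) (Fin 1 ⊕ Fin 1) R, M.det = M (Sum.inl 0) (Sum.inl 0) * M (Sum.inr 0) (Sum.inr 0) -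
      M (Sum.inl 0) (Sum.inr 0) * M (Sum.inr 0) (Sum.inl 0) := by
    intro M
    have h := Matrix.det_reindex_self (finSumFinEquiv : Fin 1 ⊕ Fin 1 ≃ Fin (1 + 1)) M
    rw [← h, Matrix.det_fin_two]
    rfl
  rw [e A]
  constructor
  · intro h
    have h1 := congrFun (congrFun h (Sum.inr 0)) (Sum.inl 0)
    simp [Matrix.mul_apply, Matrix.J, Matrix.transpose_apply, Fintype.sum_sum_type] at h1
    linear_combination h1
  · intro h
    ext i j
    rcases i with i | i <;> rcases j with j | j <;> fin_cases i <;> fin_cases j <;>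
    simp [Matrix.mul_apply, Matrix.J, Matrix.transpose_apply, Fintype.sum_sum_type] <;>
    first
      | ring1
      | linear_combination h
      | linear_combination -h

end Cfsg.Agent.S0244
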