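import Cfsg.Statements.S0246
import Cfsg.Agent.H9.SpBridge
import Cfsg.Agent.H9.Eigen

set_option autoImplicit false
open Cfsg

namespace Cfsg.Agent.S0246

/-- The centre of Sp_{2m}(q), m at least 1, is {1, -1}: it has order gcd(2, q-1). -/
theorem result {F : Type*} [Field F] [Fintype F] {q : ℕ} (hF : Fintype.card F = q) (m : ℕ) (hm : 1 ≤ m) : Nat.card (Subgroup.center (Matrix.symplecticGroup (Fin m) F)) = Nat.gcd 2 (q - 1) := by
  have hf := CfsgH9.SpGen.sympForm_isSymplectic (F := F) m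
  have hb := hf.bilinear
  haveI : Nonempty (Fin m ⊕ Fin m) := ⟨Sum.inl ⟨0, hm⟩⟩
  have i0 : Fin m ⊕ Fin m := Sum.inl ⟨0, hm⟩
  have hsc : ∀ A ∈ Subgroup.center (Matrix.symplecticGroup (Fin m) F), ∃ c : F,
      (A : Matrix (Fin m ⊕ Fin m) (Fin m ⊕ Fin m) F) = c • 1 := by
    intro A hA
    apply CfsgH9.Eigen.scalar_of_eigen
    intro v
    by_cases hv : v = 0
    · exact ⟨0, by rw [hv, Matrix.mulVec_zero, smul_zero]⟩
    obtain ⟨⟨x, hx⟩, -⟩ := hf.nondegenerate v hv
    have h1 := Subgroup.mem_center_iff.1 hA ⟨_, CfsgH9.SpBridge.transv_mem v 1⟩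
    have h2 := congrArg (fun B : Matrix.symplecticGroup (Fin m) F => (B : Matrix (Fin m ⊕ Fin m) (Fin m ⊕ Fin m) F).mulVec x) h1
    have h3 : (Cfsg.sympTransvection m v 1 * (A : Matrix (Fin m ⊕ Fin m) (Fin m ⊕ Fin m) F)).mulVec x =
      ((A : Matrix (Fin m ⊕ Fin m) (Fin m ⊕ Fin m) F) * Cfsg.sympTransvection m v 1).mulVec x := h2
    rw [← Matrix.mulVec_mulVec, ← Matrix.mulVec_mulVec, CfsgH9.SpBridge.transv_mulVec, CfsgH9.SpBridge.transv_mulVec,
      Matrix.mulVec_add, Matrix.mulVec_smul, one_mul, one_mul] at h3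
    have h4 := add_left_cancel h3
    refine ⟨(Cfsg.sympForm m F x v)⁻¹ * Cfsg.sympForm m F ((A : Matrix (Fin m ⊕ Fin m) (Fin m ⊕ Fin m) F).mulVec x) v, ?_⟩
    rw [mul_smul, h4, smul_smul, inv_mul_cancel₀ hx, one_smul]
  have hmem : ∀ c : F, c * c = 1 → (c • (1 : Matrix (Fin m ⊕ Fin m) (Fin m ⊕ Fin m) F)) ∈ Matrix.symplecticGroup (Fin m) F := by
    intro c hc
    rw [CfsgH9.SpBridge.mem_iff]
    intro u v
    rw [Matrix.smul_mulVec, Matrix.one_mulVec, Matrix.smul_mulVec, Matrix.one_mulVec, hb.smul_left, hb.smul_right, ← mul_assoc,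
      hc, one_mul]
  have e : Subgroup.center (Matrix.symplecticGroup (Fin m) F) ≃ {c : Fˣ // c ^ 2 = 1} :=
    { toFun := fun A => ⟨Units.mk0 ((A.1 : Matrix (Fin m ⊕ Fin m) (Fin m ⊕ Fin m) F) i0 i0) (by
          obtain ⟨c, hc⟩ := hsc A.1 A.2
          rw [hc]
          simp only [Matrix.smul_apply, Matrix.one_apply_eq, smul_eq_mul, mul_one]
          rintro rfl
          rw [zero_smul] at hc
          have h1 := (CfsgH9.SpBridge.mem_iff _).1 A.1.2
          obtain ⟨-, x, hx⟩ := hf.nondegenerate (Pi.single i0 1) (by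
            intro h0
            have := congrFun h0 i0
            simp at this)
          have h2 := h1 (Pi.single i0 1) x
          rw [hc, Matrix.zero_mulVec] at h2
          have h3 := hb.smul_left 0 0 (Matrix.mulVec (0 : Matrix (Fin m ⊕ Fin m) (Fin m ⊕ Fin m) F) x)
          rw [zero_smul, zero_mul] at h3
          rw [h3] at h2
          exact hx h2.symm), by
          obtain ⟨c, hc⟩ := hsc A.1 A.2
          apply Units.ext
          rw [Units.val_pow_eq_pow_val, Units.val_mk0, Units.val_one, hc]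
          simp only [Matrix.smul_apply, Matrix.one_apply_eq, smul_eq_mul, mul_one]
          obtain ⟨-, x, hx⟩ := hf.nondegenerate (Pi.single i0 1) (by
            intro h0
            have := congrFun h0 i0
            simp at this)
          have h2 := (CfsgH9.SpBridge.mem_iff _).1 A.1.2 (Pi.single i0 1) x
          rw [hc, Matrix.smul_mulVec, Matrix.one_mulVec, Matrix.smul_mulVec, Matrix.one_mulVec, hb.smul_left, hb.smul_right] at h2
          have h3 : (c ^ 2 - 1) * Cfsg.sympForm m F (Pi.single i0 1) x = 0 := by linear_combination h2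
          have h4 := (mul_eq_zero.1 h3).resolve_right hx
          linear_combination h4⟩
      invFun := fun c => ⟨⟨(c.1 : F) • 1, hmem _ (by
          have := congrArg Units.val c.2
          rw [Units.val_pow_eq_pow_val, Units.val_one] at this
          rw [← this]; ring)⟩, by
          rw [Subgroup.mem_center_iff]
          intro B
          apply Subtype.ext
          show (B : Matrix (Fin m ⊕ Fin m) (Fin m ⊕ Fin m) F) * ((c.1 : F) • 1) = ((c.1 : F) • 1) * (B : Matrix (Fin m ⊕ Fin m) (Fin m ⊕ Fin m) F)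
          rw [Matrix.mul_smul, Matrix.mul_one, Matrix.smul_mul, Matrix.one_mul]⟩
      left_inv := fun A => by
        obtain ⟨c, hc⟩ := hsc A.1 A.2
        apply Subtype.ext
        apply Subtype.ext
        show ((A.1 : Matrix (Fin m ⊕ Fin m) (Fin m ⊕ Fin m) F) i0 i0) • (1 : Matrix (Fin m ⊕ Fin m) (Fin m ⊕ Fin m) F) = _
        rw [hc]
        simp only [Matrix.smul_apply, Matrix.one_apply_eq, smul_eq_mul, mul_one]
      right_inv := fun c => by
        apply Subtype.ext
        apply Units.ext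
        show ((c.1 : F) • (1 : Matrix (Fin m ⊕ Fin m) (Fin m ⊕ Fin m) F)) i0 i0 = c.1
        simp only [Matrix.smul_apply, Matrix.one_apply_eq, smul_eq_mul, mul_one] }
  rw [Nat.card_congr e]
  have h3 : Nat.card {c : Fˣ // c ^ 2 = 1} = Nat.card (powMonoidHom 2 : Fˣ →* Fˣ).ker := by
    congr 1
  rw [h3, IsCyclic.card_powMonoidHom_ker, Nat.card_units, Nat.card_eq_fintype_card, hF, Nat.gcd_comm]

end Cfsg.Agent.S0246
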