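import Cfsg.Statements.S0247
import Cfsg.Agent.H9.PM2
import Cfsg.Agent.S0245

set_option autoImplicit false
open Cfsg

namespace Cfsg.Agent.S0247

open Matrix Cfsg

/-- transfer of symplectic groups along a ring isomorphism -/
def spMap {F K : Type*} [Field F] [Field K] (e : F ≃+* K) (m : ℕ) : Matrix.symplecticGroup (Fin m) F →* Matrix.symplecticGroup (Fin m) K where
  toFun A := ⟨A.1.map e, by
    rw [SymplecticGroup.mem_iff]
    have h := (SymplecticGroup.mem_iff).1 A.2
    have hJ : (Matrix.J (Fin m) F).map e = Matrix.J (Fin m) K := by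
      ext i j
      rcases i with i | i <;> rcases j with j | j <;> simp [Matrix.J, Matrix.one_apply, apply_ite e]
    have h2 := congrArg (fun M : Matrix (Fin m ⊕ Fin m) (Fin m ⊕ Fin m) F => M.map e) h
    simp only [Matrix.map_mul, ← Matrix.transpose_map, hJ] at h2
    exact h2⟩
  map_one' := by
    apply Subtype.ext
    change (1 : Matrix (Fin m ⊕ Fin m) (Fin m ⊕ Fin m) F).map e = 1
    exact Matrix.map_one e (map_zero e) (map_one e)
  map_mul' A B := by
    apply Subtype.ext
    change (A.1 * B.1).map e = A.1.map e * B.1.map e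
    exact Matrix.map_mul

/-- Sp_4(2) is isomorphic to the symmetric group S_6. -/
theorem result {F : Type*} [Field F] [Fintype F] (hF : Fintype.card F = 2) : Nonempty (Matrix.symplecticGroup (Fin 2) F ≃* Equiv.Perm (Fin 6)) := by
  classical
  obtain ⟨f, hf⟩ := CfsgH9.PM.exists_sp 2 le_rfl
  haveI : Fact (Nat.Prime 2) := ⟨Nat.prime_two⟩
  have e : ZMod 2 ≃+* F := ZMod.ringEquivOfPrime F Nat.prime_two hF
  let g : Equiv.Perm (Fin 6) →* Matrix.symplecticGroup (Fin 2) F := (spMap e 2).comp f
  have hg : Function.Injective g := by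
    have h0 : Function.Injective (spMap e 2) := by
      intro A B h
      apply Subtype.ext
      have h2 : A.1.map e = B.1.map e := congrArg Subtype.val h
      ext i j
      apply e.injective
      exact congrFun (congrFun h2 i) j
    exact h0.comp hf
  have hcard : Nat.card (Equiv.Perm (Fin 6)) = Nat.card (Matrix.symplecticGroup (Fin 2) F) := by
    rw [Cfsg.Agent.S0245.result hF 2, Nat.card_perm, Nat.card_eq_fintype_card, Fintype.card_fin]
    decide
  haveI : Finite (Matrix.symplecticGroup (Fin 2) F) := inferInstance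
  have hb : Function.Bijective g := (Nat.bijective_iff_injective_and_card g).2 ⟨hg, hcard⟩
  exact ⟨(MulEquiv.ofBijective g hb).symm⟩

end Cfsg.Agent.S0247
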