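import Cfsg.Statements.S0248
import Cfsg.Agent.H9.IwaSL

set_option autoImplicit false
open Cfsg

namespace Cfsg.Agent.S0248

/-- SL_n(F) is perfect for n at least 3, over any field F. -/
theorem result {F : Type*} [Field F] (n : ℕ) (hn : 3 ≤ n) : commutator (Matrix.SpecialLinearGroup (Fin n) F) = ⊤ := by
  apply CfsgH9.IwaSL.SL_perfect
  intro i j hij
  have h1 : ∃ k : Fin n, k ∉ ({i, j} : Finset (Fin n)) := by
    by_contra hc
    push Not at hc
    have h2 : (Finset.univ : Finset (Fin n)) ⊆ {i, j} := fun k _ => hc k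
    have h3 := Finset.card_le_card h2
    rw [Finset.card_univ, Fintype.card_fin] at h3
    have h4 := Finset.card_le_two (a := i) (b := j)
    omega
  obtain ⟨k, hk⟩ := h1
  simp only [Finset.mem_insert, Finset.mem_singleton, not_or] at hk
  exact ⟨k, fun h => hk.1 h.symm, hk.2⟩

end Cfsg.Agent.S0248
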