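import Cfsg.Statements.S0250
import Cfsg.Agent.H9.SLt3
import Cfsg.Agent.H9.Recog

set_option autoImplicit false
open Cfsg

namespace Cfsg.Agent.S0250

/-- SL_2(2) is isomorphic to S_3. -/
theorem result {F : Type*} [Field F] [Fintype F] (hF : Fintype.card F = 2) : Nonempty (Matrix.SpecialLinearGroup (Fin 2) F ≃* Equiv.Perm (Fin 3)) := by
  classical
  have hc := CfsgH9.SLt.card_SL2 (F := F)
  rw [hF] at hc
  let α := {v : Fin 2 → F // v ≠ 0}
  let act : MulAction (Matrix.SpecialLinearGroup (Fin 2) F) α :=
    { smul := fun g v => ⟨Matrix.mulVec g.1 v.1, fun h => v.2 (by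
        have h1 : Matrix.mulVec (g⁻¹).1 (Matrix.mulVec g.1 v.1) = v.1 := by
          rw [Matrix.mulVec_mulVec]
          have : (g⁻¹).1 * g.1 = 1 := congrArg Subtype.val (inv_mul_cancel g)
          rw [this, Matrix.one_mulVec]
        rw [← h1, h, Matrix.mulVec_zero])⟩
      one_smul := fun v => Subtype.ext (Matrix.one_mulVec v.1)
      mul_smul := fun g h v => Subtype.ext (by
        change Matrix.mulVec (g.1 * h.1) v.1 = Matrix.mulVec g.1 (Matrix.mulVec h.1 v.1)
        rw [Matrix.mulVec_mulVec]) }
  apply CfsgH9.Recog.perm_of_faithful (α := α)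
  · rw [Nat.card_eq_fintype_card, Fintype.card_subtype_compl, Fintype.card_fun, Fintype.card_fin, hF, Fintype.card_subtype_eq]
    rfl
  · intro g hg
    have key : ∀ v : Fin 2 → F, Matrix.mulVec g.1 v = v := by
      intro v
      by_cases hv : v = 0
      · rw [hv, Matrix.mulVec_zero]
      · exact congrArg Subtype.val (hg ⟨v, hv⟩)
    apply Subtype.ext
    ext i j
    have := congrFun (key (Pi.single j 1)) i
    rw [Matrix.mulVec_single_one] at this
    rw [Matrix.col_apply] at this
    rw [this]
    simp [Matrix.one_apply, Pi.single_apply]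
  · rw [hc]; rfl

end Cfsg.Agent.S0250
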