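import Cfsg.Statements.S0251
import Cfsg.Agent.S0243
import Cfsg.Agent.H9.Recog

set_option autoImplicit false
open Cfsg

namespace Cfsg.Agent.S0251

/-- PSL_2(3) is isomorphic to A_4. -/
theorem result {F : Type*} [Field F] [Fintype F] (hF : Fintype.card F = 3) : Nonempty (Matrix.ProjectiveSpecialLinearGroup (Fin 2) F ≃* alternatingGroup (Fin 4)) := by
  have h1 := Cfsg.Agent.S0243.result hF 2 (by norm_num)
  rw [Fin.prod_univ_two] at h1
  norm_num at h1
  apply CfsgH9.Recog.alt_of_faithful (α := Projectivization F (Fin 2 → F))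
  · rw [Projectivization.card_of_finrank_two F (Fin 2 → F) (by simp), Nat.card_eq_fintype_card, hF]
  · intro g hg
    exact FaithfulSMul.eq_of_smul_eq_smul (M := Matrix.ProjectiveSpecialLinearGroup (Fin 2) F) (α := Projectivization F (Fin 2 → F)) (fun a => by rw [hg a, one_smul])
  · have : Nat.card (Matrix.ProjectiveSpecialLinearGroup (Fin 2) F) = 12 := by omega
    rw [this]; rfl

end Cfsg.Agent.S0251
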