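import Cfsg.Statements.S0254
import Cfsg.Agent.S0804

set_option autoImplicit false
open Cfsg

namespace Cfsg.Agent.S0254

/-- PSL_2(9) is isomorphic to A_6. -/
theorem result {F : Type*} [Field F] [Fintype F] (hF : Fintype.card F = 9) : Nonempty (Matrix.ProjectiveSpecialLinearGroup (Fin 2) F ≃* alternatingGroup (Fin 6)) := by
  classical
  have hcard : Nat.gcd 2 (Fintype.card F - 1) * Nat.card (Matrix.ProjectiveSpecialLinearGroup (Fin 2) F) = Fintype.card F * (Fintype.card F - 1) * (Fintype.card F + 1) := CfsgH9.Dk.card_psl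
  rw [hF] at hcard
  have h360 : Nat.card (Matrix.ProjectiveSpecialLinearGroup (Fin 2) F) = 360 := by
    have h1 : Nat.gcd 2 (9 - 1) = 2 := rfl
    rw [h1] at hcard
    omega
  obtain ⟨H, ⟨e⟩⟩ := (Cfsg.Agent.S0804.result (F := F) rfl).2 (by rw [hF]; norm_num)
  have h60 : Nat.card H = 60 := by rw [Nat.card_congr e.toEquiv, CfsgH9.Dk.cA5]
  have hi : H.index = 6 := by
    have := Subgroup.card_mul_index H
    rw [h60, h360] at this
    omega
  haveI : IsSimpleGroup (Matrix.ProjectiveSpecialLinearGroup (Fin 2) F) :=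
    Matrix.ProjectiveSpecialLinearGroup.rank_two_simple (by rw [Nat.card_eq_fintype_card, hF]; norm_num)
  refine CfsgH9.Recog.alt_of_core H hi ?_ (by rw [h360]; rfl)
  rcases (Subgroup.normalCore_normal H).eq_bot_or_eq_top with h | h
  · exact h
  · exfalso
    have h1 := Subgroup.normalCore_le H
    rw [h, top_le_iff] at h1
    rw [h1, Subgroup.index_top] at hi
    omega

end Cfsg.Agent.S0254
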