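import Cfsg.Statements.S0302
import Cfsg.Agent.H9.PO2
import Cfsg.Agent.S0242
import Cfsg.Agent.S0248
import Cfsg.Agent.S0287

set_option autoImplicit false
open Cfsg

namespace Cfsg.Agent.S0302

open Matrix Cfsg CfsgH9.Og CfsgH9.ClForms CfsgH9.PO

section
variable {F : Type*} [Field F]

theorem card_SL4 [Fintype F] : Nat.card (isometryGroup F (quadFormPlus 3 F)) = 2 * Nat.card (SpecialLinearGroup (Fin 4) F) := by
  set q := Fintype.card F with hq
  have h1q : 1 < q := Fintype.one_lt_card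
  have hSL := Cfsg.Agent.S0242.result (F := F) rfl 4 (by norm_num)
  have hO := Cfsg.Agent.S0287.result (F := F) rfl 3 (by norm_num)
  rw [← hq] at hSL hO
  rw [Fin.prod_univ_four] at hSL
  rw [show Finset.range (3 - 1) = Finset.range 2 from rfl, Finset.prod_range_succ, Finset.prod_range_one] at hO
  have hp : ∀ i, i ≤ 4 → q ^ i ≤ q ^ 4 := fun i hi => Nat.pow_le_pow_right (by omega) hi
  have hp1 : ∀ i, 1 ≤ q ^ i := fun i => Nat.one_le_pow _ _ (by omega)
  have hZ : ((q : ℤ) - 1) * (Nat.card (SpecialLinearGroup (Fin 4) F) : ℤ) = (q ^ 4 - q ^ 0) * (q ^ 4 - q ^ 1) * (q ^ 4 - q ^ 2) * (q ^ 4 - q ^ 3) := by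
    have := congrArg (Nat.cast : ℕ → ℤ) hSL
    rw [Nat.cast_mul, Nat.cast_sub h1q.le, Nat.cast_mul, Nat.cast_mul, Nat.cast_mul,
      Nat.cast_sub (hp _ (by decide)), Nat.cast_sub (hp _ (by decide)), Nat.cast_sub (hp _ (by decide)), Nat.cast_sub (hp _ (by decide))] at this
    push_cast at this
    exact this
  have hZ2 : (Nat.card (isometryGroup F (quadFormPlus 3 F)) : ℤ) = 2 * q ^ 6 * (q ^ 3 - 1) * ((q ^ 2 - 1) * (q ^ 4 - 1)) := by
    rw [hO, Nat.cast_mul, Nat.cast_mul, Nat.cast_mul, Nat.cast_mul, Nat.cast_sub (hp1 _), Nat.cast_sub (hp1 _), Nat.cast_sub (hp1 _)]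
    push_cast
    ring
  have hne : ((q : ℤ) - 1) ≠ 0 := by
    have : (1 : ℤ) < q := by exact_mod_cast h1q
    omega
  have : ((q : ℤ) - 1) * (Nat.card (isometryGroup F (quadFormPlus 3 F)) : ℤ) = (q - 1) * ((2 * Nat.card (SpecialLinearGroup (Fin 4) F) : ℕ) : ℤ) := by
    rw [hZ2]; push_cast; linear_combination (-2 : ℤ) * hZ
  exact_mod_cast mul_left_cancel₀ hne this

def rho : SpecialLinearGroup (Fin 4) F →* isometryGroup F (quadFormPlus 3 F) :=
  (rho6.comp Matrix.SpecialLinearGroup.toGL).codRestrict _ (fun g => rho6_mem _ g.2)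

theorem rho_one (x : SpecialLinearGroup (Fin 4) F) (h : rho x = 1) : ∃ c : F, c ^ 2 = 1 ∧ x.1 = c • 1 := by
  obtain ⟨c, hc, h1⟩ := rho6_one (g := Matrix.SpecialLinearGroup.toGL x) (congrArg Subtype.val h)
  exact ⟨c, hc, h1⟩

theorem rho_comm (x : SpecialLinearGroup (Fin 4) F) (hx : ∀ y, rho (x * y) = rho (y * x)) : x ∈ Subgroup.center (SpecialLinearGroup (Fin 4) F) := by
  have key : ∀ i j : Fin 4, i ≠ j → Matrix.transvection i j 1 * x.1 = x.1 * Matrix.transvection i j 1 := by
    intro i j hij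
    set y : SpecialLinearGroup (Fin 4) F := ⟨Matrix.transvection i j 1, Matrix.det_transvection_of_ne i j hij 1⟩ with hy
    have h3 : rho ((y * x)⁻¹ * (x * y)) = 1 := by
      rw [map_mul, map_inv, hx y, inv_mul_cancel]
    obtain ⟨c, hc, h1⟩ := rho_one _ h3
    have h4 : x.1 * y.1 = c • (y.1 * x.1) := by
      have h5 : (y * x) * ((y * x)⁻¹ * (x * y)) = x * y := by group
      have h6 := congrArg Subtype.val h5
      change (y.1 * x.1) * ((y * x)⁻¹ * (x * y) : SpecialLinearGroup (Fin 4) F).1 = x.1 * y.1 at h6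
      rw [h1, Matrix.mul_smul, Matrix.mul_one] at h6
      exact h6.symm
    have h5 : x.1 * y.1 * (x⁻¹ : SpecialLinearGroup (Fin 4) F).1 = c • y.1 := by
      rw [h4, Matrix.smul_mul, Matrix.mul_assoc]
      have : x.1 * (x⁻¹ : SpecialLinearGroup (Fin 4) F).1 = 1 := by
        change (x * x⁻¹ : SpecialLinearGroup (Fin 4) F).1 = 1
        rw [mul_inv_cancel]; rfl
      rw [this, Matrix.mul_one]
    have h6 := congrArg Matrix.trace h5
    rw [Matrix.trace_mul_comm, ← Matrix.mul_assoc, Matrix.trace_smul] at h6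
    have h7 : (x⁻¹ : SpecialLinearGroup (Fin 4) F).1 * x.1 = 1 := by
      change (x⁻¹ * x : SpecialLinearGroup (Fin 4) F).1 = 1
      rw [inv_mul_cancel]; rfl
    have h8 : y.1.trace = 4 := by
      rw [hy]
      change (Matrix.transvection i j 1).trace = 4
      rw [Matrix.transvection, Matrix.trace_add, Matrix.trace_one, Matrix.trace_single_eq_of_ne _ _ _ hij, add_zero, Fintype.card_fin]
      norm_num
    rw [h7, Matrix.one_mul, h8, smul_eq_mul] at h6
    have hc1 : c = 1 := by
      by_cases h2 : (2 : F) = 0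
      · have h9 : (c - 1) ^ 2 = 0 := by linear_combination hc + (1 - c) * h2
        exact sub_eq_zero.1 (pow_eq_zero_iff two_ne_zero |>.1 h9)
      · have h4' : (4 : F) ≠ 0 := by
          have : (4 : F) = 2 * 2 := by norm_num
          rw [this]; exact mul_ne_zero h2 h2
        apply mul_right_cancel₀ h4'
        rw [← h6, one_mul]
    rw [hc1, one_smul] at h4
    exact h4.symm
  obtain ⟨c, hc⟩ := scalar_of_comm key
  rw [Subgroup.mem_center_iff]
  intro y
  apply Subtype.ext
  change y.1 * x.1 = x.1 * y.1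
  rw [hc, Matrix.mul_smul, Matrix.smul_mul, Matrix.mul_one, Matrix.one_mul]

theorem rho_mem (x : SpecialLinearGroup (Fin 4) F) : rho x ∈ commutator (isometryGroup F (quadFormPlus 3 F)) := by
  have h4 : (commutator (SpecialLinearGroup (Fin 4) F)).map rho ≤ commutator (isometryGroup F (quadFormPlus 3 F)) := by
    rw [commutator_def, Subgroup.map_commutator]
    exact Subgroup.commutator_mono le_top le_top
  rw [Cfsg.Agent.S0248.result 4 (by norm_num)] at h4
  exact h4 ⟨x, Subgroup.mem_top _, rfl⟩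

theorem rho_card [Fintype F] : Nat.card (commutator (isometryGroup F (quadFormPlus 3 F))) ≤ Nat.card (rho (F := F)).range := by
  apply card_final rho card_SL4
  have hf := qf_of_quad (qPlus 3 F) (nondeg_plus 3 F)
  rw [qPlus_coe] at hf
  have hv1 : ∀ x ∈ (rho (F := F)).ker, ∀ y ∈ (rho (F := F)).ker, x.1 0 0 = y.1 0 0 → x = y := by
    intro x hx y hy hxy
    obtain ⟨c, -, h1⟩ := rho_one x hx
    obtain ⟨d, -, h3⟩ := rho_one y hy
    have hcd : c = d := by simpa [h1, h3] using hxy
    exact Subtype.ext (by rw [h1, h3, hcd])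
  have hv2 : ∀ x ∈ (rho (F := F)).ker, (x.1 0 0) ^ 2 = 1 := by
    intro x hx
    obtain ⟨c, hc, h1⟩ := rho_one x hx
    rw [h1]; simpa using hc
  by_cases h2 : (2 : F) = 0
  · right
    exact ⟨index_even hf h2 (Or.inr (by simp)) (by simp), card_le_one' h2 _ (fun x => x.1 0 0) hv1 hv2⟩
  · left
    exact ⟨index_odd hf h2 (Or.inr (by simp)) (by simp), card_le_two' _ (fun x => x.1 0 0) hv1 hv2⟩

end

/-- PΩ^+_6(q) is isomorphic to PSL_4(q). -/
theorem result {F : Type*} [Field F] [Fintype F] : Nonempty (Cfsg.POmega F (Cfsg.quadFormPlus 3 F) ≃* Matrix.ProjectiveSpecialLinearGroup (Fin 4) F) := by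
  classical
  refine po_equiv rho (QuotientGroup.mk' (Subgroup.center (SpecialLinearGroup (Fin 4) F))) (QuotientGroup.mk'_surjective _) rho_mem rho_card ?_
  intro x
  rw [QuotientGroup.mk'_apply, QuotientGroup.eq_one_iff]
  constructor
  · intro hx y
    rw [Subgroup.mem_center_iff.1 hx y]
  · exact rho_comm x

end Cfsg.Agent.S0302
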