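import Cfsg.Statements.S0825
import Cfsg.Agent.H9.PM2
import Cfsg.Agent.H9.PM3
import Cfsg.Agent.S0287

set_option autoImplicit false
open Cfsg

namespace Cfsg.Agent.S0825

open Matrix Cfsg CfsgH9.PM

/-- O⁺_6(2) ≅ S_8: the isometry group of the hyperbolic form x_1y_1 + x_2y_2 + x_3y_3 over the field with 2 elements is isomorphic to the symmetric group on 8 letters. -/
theorem result {F : Type*} [Field F] [Fintype F] (hF : Fintype.card F = 2) : Nonempty (↥(Cfsg.isometryGroup F (Cfsg.quadFormPlus 3 F)) ≃* Equiv.Perm (Fin 8)) := by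
  classical
  have hn : ((7 + 1 : ℕ) : ZMod 2) = 0 := by decide
  haveI : Fact (Nat.Prime 2) := ⟨Nat.prime_two⟩
  have e : ZMod 2 ≃+* F := ZMod.ringEquivOfPrime F Nat.prime_two hF
  let L : (Fin 3 ⊕ Fin 3 → ZMod 2) →ₗ[ZMod 2] E0 7 := (Matrix.mulVecLin P8).codRestrict (E0 7) P8_mem
  have hL : ∀ x, (L x).1 = P8 *ᵥ x := fun x => rfl
  have hLi : Function.Injective L := by
    rw [injective_iff_map_eq_zero]
    intro x hx
    apply P8_inj
    rw [← hL, hx]; rfl
  have hd := finrank_E0 (n := 7) (by norm_num)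
  let φ : (Fin 3 ⊕ Fin 3 → ZMod 2) ≃ₗ[ZMod 2] E0 7 := LinearEquiv.ofInjectiveOfFinrankEq L hLi (by
    rw [Module.finrank_fintype_fun_eq_card, Fintype.card_sum, Fintype.card_fin]; omega)
  have hφ : ∀ x, (φ x).1 = P8 *ᵥ x := fun x => rfl
  obtain ⟨ρ, hρ, hinj⟩ := exists_rho (n := 7) hn φ
  have hmem : ∀ g, ρ g ∈ isometryGroup (ZMod 2) (quadFormPlus 3 (ZMod 2)) := by
    intro g u v
    change quadFormPlus 3 (ZMod 2) ((ρ g).1 *ᵥ u) = quadFormPlus 3 (ZMod 2) u
    rw [← P8_q, ← P8_q, ← hφ, ← hφ, hρ, wtq_T8]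
  obtain ⟨f, hf⟩ := exists_isoMap e (QF := quadFormPlus 3 (ZMod 2)) (QK := quadFormPlus 3 F) (by
    intro v
    simp only [quadFormPlus, map_sum, map_mul])
  let g : Equiv.Perm (Fin 8) →* isometryGroup F (quadFormPlus 3 F) := f.comp (ρ.codRestrict _ hmem)
  have hg : Function.Injective g := by
    refine hf.comp ?_
    intro a b hab
    exact hinj (by norm_num) (congrArg Subtype.val hab)
  have hcard : Nat.card (Equiv.Perm (Fin 8)) = Nat.card (isometryGroup F (quadFormPlus 3 F)) := by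
    rw [Cfsg.Agent.S0287.result hF 3 (by norm_num), Nat.card_perm, Nat.card_eq_fintype_card, Fintype.card_fin]
    decide
  haveI : Finite (isometryGroup F (quadFormPlus 3 F)) := inferInstance
  have hb : Function.Bijective g := (Nat.bijective_iff_injective_and_card g).2 ⟨hg, hcard⟩
  exact ⟨(MulEquiv.ofBijective g hb).symm⟩

end Cfsg.Agent.S0825
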