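import Cfsg.Statements.S0256
import Cfsg.Agent.H9.PM
import Cfsg.Agent.S0302
import Cfsg.Agent.S0825

set_option autoImplicit false
open Cfsg

namespace Cfsg.Agent.S0256

open Matrix Cfsg CfsgH9.Og CfsgH9.ClForms CfsgH9.PO

/-- PSL_4(2) is isomorphic to A_8. -/
theorem result {F : Type*} [Field F] [Fintype F] (hF : Fintype.card F = 2) : Nonempty (Matrix.ProjectiveSpecialLinearGroup (Fin 4) F ≃* alternatingGroup (Fin 8)) := by
  classical
  obtain ⟨e⟩ := Cfsg.Agent.S0825.result hF
  have h01 : ∀ x : F, x = 0 ∨ x = 1 := by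
    haveI : Fact (Nat.Prime 2) := ⟨Nat.prime_two⟩
    have e2 : ZMod 2 ≃+* F := ZMod.ringEquivOfPrime F Nat.prime_two hF
    intro x
    obtain ⟨y, rfl⟩ := e2.surjective x
    have : ∀ y : ZMod 2, y = 0 ∨ y = 1 := CfsgH9.PM.zmod2
    rcases this y with rfl | rfl
    · left; exact map_zero e2
    · right; exact map_one e2
  let φ : SpecialLinearGroup (Fin 4) F →* Equiv.Perm (Fin 8) := e.toMonoidHom.comp Cfsg.Agent.S0302.rho
  have hφ : Function.Injective φ := by
    refine e.injective.comp ?_
    rw [injective_iff_map_eq_one]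
    intro x hx
    obtain ⟨c, hc, h1⟩ := Cfsg.Agent.S0302.rho_one x hx
    have hc1 : c = 1 := by
      rcases h01 c with rfl | rfl
      · norm_num at hc
      · rfl
    apply Subtype.ext
    rw [h1, hc1, one_smul]; rfl
  have hcard : Nat.card (Equiv.Perm (Fin 8)) = 2 * Nat.card (SpecialLinearGroup (Fin 4) F) := by
    rw [← Nat.card_congr e.toEquiv]
    exact Cfsg.Agent.S0302.card_SL4
  have hidx : φ.range.index = 2 := by
    have h1 := Subgroup.card_mul_index φ.range
    rw [hcard, ← Nat.card_congr (MonoidHom.ofInjective hφ).toEquiv, mul_comm 2] at h1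
    exact Nat.eq_of_mul_eq_mul_left Nat.card_pos h1
  have hA := Equiv.Perm.eq_alternatingGroup_of_index_eq_two hidx
  have hcen : Subgroup.center (SpecialLinearGroup (Fin 4) F) = ⊥ := by
    rw [eq_bot_iff]
    intro x hx
    rw [Matrix.SpecialLinearGroup.mem_center_iff] at hx
    obtain ⟨r, hr, hx⟩ := hx
    have hr1 : r = 1 := by
      rcases h01 r with rfl | rfl
      · simp at hr
      · rfl
    rw [Subgroup.mem_bot]
    apply Subtype.ext
    rw [← hx, hr1, map_one]; rfl
  have e1 : Matrix.ProjectiveSpecialLinearGroup (Fin 4) F ≃* SpecialLinearGroup (Fin 4) F :=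
    (QuotientGroup.quotientMulEquivOfEq hcen).trans QuotientGroup.quotientBot
  exact ⟨e1.trans ((MonoidHom.ofInjective hφ).trans (MulEquiv.subgroupCongr hA))⟩

end Cfsg.Agent.S0256
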