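import Cfsg.Statements.S0257
import Cfsg.Agent.S0807
import Cfsg.Agent.S0261

set_option autoImplicit false
open Cfsg

namespace Cfsg.Agent.S0257

/-- SL_2(3) has a normal subgroup of index 3 isomorphic to the quaternion group of order 8, and its centre has order 2. -/
theorem result {F : Type*} [Field F] [Fintype F] (hF : Fintype.card F = 3) : (∃ Q : Subgroup (Matrix.SpecialLinearGroup (Fin 2) F), Q.Normal ∧ Q.index = 3 ∧ Nonempty (Q ≃* QuaternionGroup 2)) ∧ Nat.card (Subgroup.center (Matrix.SpecialLinearGroup (Fin 2) F)) = 2 := by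
  classical
  have hodd : Odd 3 := by decide
  have h2 : (2 : F) ≠ 0 := CfsgH9.SLt.two_ne_zero_of_card (by rw [hF]; decide)
  have h1 := Cfsg.Agent.S0807.result hF hodd
  have h3 := CfsgH9.SLt.card_PSL2 (F := F) h2
  have h24 : Nat.card (CfsgH7.SL2 F) = 24 := by
    rw [CfsgH9.SLt.card_SL2 (F := F), hF]
  have h5 : Nat.card {V : Subgroup (Matrix.ProjectiveSpecialLinearGroup (Fin 2) F) // IsKleinFour V} = 1 := by omega
  rw [Nat.card_eq_one_iff_unique] at h5
  obtain ⟨hsub, ⟨⟨V, hV⟩⟩⟩ := h5
  have hN : V.Normal := by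
    constructor
    intro n hn g
    have e := Subgroup.equivMapOfInjective V (MulAut.conj g).toMonoidHom (MulAut.conj g).injective
    have hV' : IsKleinFour (V.map (MulAut.conj g).toMonoidHom : Subgroup _) :=
      ⟨by rw [Nat.card_congr e.symm.toEquiv]; exact hV.card_four, by rw [Monoid.exponent_eq_of_mulEquiv e.symm]; exact hV.exponent_two⟩
    have h6 : (⟨V, hV⟩ : {V : Subgroup (Matrix.ProjectiveSpecialLinearGroup (Fin 2) F) // IsKleinFour V}) = ⟨_, hV'⟩ := Subsingleton.elim _ _
    have h7 : V = V.map (MulAut.conj g).toMonoidHom := congrArg Subtype.val h6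
    rw [h7]
    exact ⟨n, hn, rfl⟩
  refine ⟨⟨V.comap CfsgH9.SLt.pr, hN.comap _, ?_, ?_⟩, CfsgH9.SLt.card_center h2⟩
  · rw [Subgroup.index_comap_of_surjective _ CfsgH9.SLt.pr_surjective]
    have h6 := Subgroup.card_mul_index V
    rw [hV.card_four] at h6
    omega
  · have hc : Nat.card ↥(V.comap (CfsgH9.SLt.pr (F := F))) = 8 := by
      have h6 := Subgroup.card_mul_index (V.comap (CfsgH9.SLt.pr (F := F)))
      rw [Subgroup.index_comap_of_surjective _ CfsgH9.SLt.pr_surjective] at h6
      have h7 := Subgroup.card_mul_index V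
      rw [hV.card_four] at h7
      have h8 : V.index = 3 := by omega
      rw [h8] at h6
      change Nat.card ↥(V.comap (CfsgH9.SLt.pr (F := F))) * 3 = Nat.card (CfsgH7.SL2 F) at h6
      omega
    have hp2 : Fact (Nat.Prime 2) := ⟨Nat.prime_two⟩
    have hp : IsPGroup 2 ↥(V.comap (CfsgH9.SLt.pr (F := F))) := IsPGroup.of_card (n := 3) (by rw [hc]; norm_num)
    obtain ⟨S, hS⟩ := hp.exists_le_sylow
    have hS8 : Nat.card (S : Subgroup (CfsgH7.SL2 F)) = 8 := by
      have h6 := Subgroup.card_subgroup_dvd_card (S : Subgroup (CfsgH7.SL2 F))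
      have h7 : 8 ∣ Nat.card (S : Subgroup (CfsgH7.SL2 F)) := by
        rw [← hc]; exact Subgroup.card_dvd_of_le hS
      obtain ⟨n, hn⟩ := IsPGroup.iff_card.mp S.isPGroup'
      have h24' : Nat.card (CfsgH7.SL2 F) = 24 := h24
      rw [h24', hn] at h6
      rw [hn] at h7 ⊢
      have h8 : n < 4 := by
        by_contra hcon
        have h9 : 2 ^ 4 ∣ 2 ^ n := pow_dvd_pow 2 (by omega)
        have h10 := h9.trans h6
        norm_num at h10
      interval_cases n
      · norm_num at h7
      · norm_num at h7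
      · norm_num at h7
      · rfl
    have hQS : V.comap (CfsgH9.SLt.pr (F := F)) = (S : Subgroup (CfsgH7.SL2 F)) := Subgroup.eq_of_le_of_card_ge hS (by rw [hS8, hc])
    obtain ⟨k, hk1, ⟨e⟩⟩ := Cfsg.Agent.S0261.result (F := F) (by rw [hF]; decide) S
    have hk : k = 1 := by
      have h6 : Nat.card (S : Subgroup (CfsgH7.SL2 F)) = 4 * 2 ^ k := by
        rw [Nat.card_congr e.toEquiv, Nat.card_eq_fintype_card, QuaternionGroup.card]
      rw [hS8] at h6
      have h7 : 2 ^ k = 2 ^ 1 := by omega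
      exact Nat.pow_right_injective (le_refl 2) h7
    subst hk
    rw [pow_one] at e
    rw [hQS]
    exact ⟨e⟩

end Cfsg.Agent.S0257
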