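import Cfsg.Statements.S0272
import Cfsg.Agent.H9.GL2p

set_option autoImplicit false
open Cfsg

namespace Cfsg.Agent.S0272

/-- The normaliser in GL_2(q) of a Sylow p-subgroup, p the characteristic, has order q (q-1)^2. -/
theorem result {F : Type*} [Field F] [Fintype F] {q : ℕ} (hF : Fintype.card F = q) (p : ℕ) [Fact p.Prime] [CharP F p] (P : Sylow p (Matrix.GeneralLinearGroup (Fin 2) F)) : Nat.card (Subgroup.normalizer ((P : Subgroup (Matrix.GeneralLinearGroup (Fin 2) F)) : Set (Matrix.GeneralLinearGroup (Fin 2) F))) = q * (q - 1) ^ 2 := by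
  obtain ⟨g, hg⟩ := CfsgH9.GL2p.exists_conj p P
  have h1 : Subgroup.normalizer ((P : Subgroup (Matrix.GeneralLinearGroup (Fin 2) F)) : Set (Matrix.GeneralLinearGroup (Fin 2) F)) =
      (Subgroup.normalizer ((CfsgH9.GL2p.UU F : Subgroup (Matrix.GeneralLinearGroup (Fin 2) F)) : Set (Matrix.GeneralLinearGroup (Fin 2) F))).map (MulAut.conj g).toMonoidHom := by
    rw [hg]
    ext x
    rw [Subgroup.mem_map]
    constructor
    · intro hx
      refine ⟨g⁻¹ * x * g, ?_, by simp [mul_assoc]⟩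
      rw [Subgroup.mem_normalizer_iff] at hx ⊢
      intro y
      have h2 := hx (g * y * g⁻¹)
      have e1 : g * y * g⁻¹ ∈ (CfsgH9.GL2p.UU F).map (MulAut.conj g).toMonoidHom ↔ y ∈ CfsgH9.GL2p.UU F := by
        rw [Subgroup.mem_map]
        constructor
        · rintro ⟨z, hz, hzy⟩
          have : z = y := by
            have h3 : g * z * g⁻¹ = g * y * g⁻¹ := hzy
            simpa using h3
          rw [← this]; exact hz
        · intro hy; exact ⟨y, hy, rfl⟩
      have e2 : x * (g * y * g⁻¹) * x⁻¹ ∈ (CfsgH9.GL2p.UU F).map (MulAut.conj g).toMonoidHom ↔ g⁻¹ * x * g * y * (g⁻¹ * x * g)⁻¹ ∈ CfsgH9.GL2p.UU F := by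
        rw [Subgroup.mem_map]
        constructor
        · rintro ⟨z, hz, hzy⟩
          have : z = g⁻¹ * x * g * y * (g⁻¹ * x * g)⁻¹ := by
            have h3 : g * z * g⁻¹ = x * (g * y * g⁻¹) * x⁻¹ := hzy
            calc z = g⁻¹ * (g * z * g⁻¹) * g := by group
              _ = _ := by rw [h3]; group
          rw [← this]; exact hz
        · intro hy; exact ⟨_, hy, by simp [mul_assoc]⟩
      rw [e1, e2] at h2
      exact h2
    · rintro ⟨n, hn, rfl⟩
      have hn' : n ∈ Subgroup.normalizer ((CfsgH9.GL2p.UU F : Subgroup (Matrix.GeneralLinearGroup (Fin 2) F)) : Set (Matrix.GeneralLinearGroup (Fin 2) F)) := hn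
      rw [Subgroup.mem_normalizer_iff] at hn' ⊢
      intro y
      have e1 : ∀ w, w ∈ (CfsgH9.GL2p.UU F).map (MulAut.conj g).toMonoidHom ↔ g⁻¹ * w * g ∈ CfsgH9.GL2p.UU F := by
        intro w
        rw [Subgroup.mem_map]
        constructor
        · rintro ⟨z, hz, rfl⟩
          have : g⁻¹ * (MulAut.conj g).toMonoidHom z * g = z := by simp [mul_assoc]
          rw [this]; exact hz
        · intro hw; exact ⟨_, hw, by simp [mul_assoc]⟩
      rw [e1, e1, hn' (g⁻¹ * y * g)]
      have e2 : n * (g⁻¹ * y * g) * n⁻¹ = g⁻¹ * ((MulAut.conj g).toMonoidHom n * y * ((MulAut.conj g).toMonoidHom n)⁻¹) * g := by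
        simp [mul_assoc]
      rw [e2]
  rw [h1, Nat.card_congr (Subgroup.equivMapOfInjective _ _ (MulAut.conj g).injective).symm.toEquiv, CfsgH9.GL2p.card_norm_UU, hF]

end Cfsg.Agent.S0272
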