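import Cfsg.Statements.S0259
import Cfsg.Agent.H9.GL2p

set_option autoImplicit false
open Cfsg

namespace Cfsg.Agent.S0259

theorem key {F : Type*} [Field F] [Fintype F] (p : ℕ) [Fact p.Prime] [CharP F p] (g : Matrix.GeneralLinearGroup (Fin 2) F)
    (x : Matrix.GeneralLinearGroup (Fin 2) F) (hx : x ∈ CfsgH9.GL2p.UU F) (hx1 : x ≠ 1)
    (hx2 : x ∈ (CfsgH9.GL2p.UU F).map (MulAut.conj g).toMonoidHom) : (CfsgH9.GL2p.UU F).map (MulAut.conj g).toMonoidHom = CfsgH9.GL2p.UU F := by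
  obtain ⟨b, rfl⟩ := hx
  obtain ⟨_, ⟨a, rfl⟩, hab⟩ := hx2
  have hb : b ≠ 0 := by rintro rfl; exact hx1 CfsgH9.GL2p.un_zero
  have h1 : g.1 1 0 = 0 := CfsgH9.GL2p.conj_un hb hab
  have h2 := CfsgH9.GL2p.mem_norm_UU.mpr h1
  ext y
  rw [Subgroup.mem_map]
  constructor
  · rintro ⟨z, hz, rfl⟩
    exact (Subgroup.mem_normalizer_iff.mp h2 z).mp hz
  · intro hy
    refine ⟨g⁻¹ * y * g, ?_, by simp [mul_assoc]⟩
    rw [Subgroup.mem_normalizer_iff.mp h2]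
    have : g * (g⁻¹ * y * g) * g⁻¹ = y := by group
    rw [this]; exact hy

/-- Distinct Sylow p-subgroups of GL_2(q), p the characteristic, intersect trivially. -/
theorem result {F : Type*} [Field F] [Fintype F] (p : ℕ) [Fact p.Prime] [CharP F p] (P Q : Sylow p (Matrix.GeneralLinearGroup (Fin 2) F)) (h : P ≠ Q) : (P : Subgroup (Matrix.GeneralLinearGroup (Fin 2) F)) ⊓ (Q : Subgroup (Matrix.GeneralLinearGroup (Fin 2) F)) = ⊥ := by
  by_contra hne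
  obtain ⟨⟨x, hxP, hxQ⟩, hx1⟩ := Subgroup.ne_bot_iff_exists_ne_one.mp hne
  have hx1' : x ≠ 1 := fun h => hx1 (Subtype.ext h)
  apply h
  obtain ⟨a, ha⟩ := CfsgH9.GL2p.exists_conj p P
  obtain ⟨b, hb⟩ := CfsgH9.GL2p.exists_conj p Q
  apply Sylow.ext
  have hxP' : x ∈ (P : Subgroup (Matrix.GeneralLinearGroup (Fin 2) F)) := hxP
  have hxQ' : x ∈ (Q : Subgroup (Matrix.GeneralLinearGroup (Fin 2) F)) := hxQ
  rw [ha] at hxP'
  rw [hb] at hxQ'
  have h3 : (CfsgH9.GL2p.UU F).map (MulAut.conj (a⁻¹ * b)).toMonoidHom = CfsgH9.GL2p.UU F := by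
    apply key p (a⁻¹ * b) (a⁻¹ * x * a)
    · obtain ⟨z, hz, rfl⟩ := hxP'
      have : a⁻¹ * (MulAut.conj a).toMonoidHom z * a = z := by simp [mul_assoc]
      rw [this]; exact hz
    · intro h4
      apply hx1'
      have : x = a * (a⁻¹ * x * a) * a⁻¹ := by group
      rw [this, h4]; group
    · obtain ⟨z, hz, rfl⟩ := hxQ'
      exact ⟨z, hz, by simp [mul_assoc]⟩
  rw [ha, hb]
  have h5 : ((CfsgH9.GL2p.UU F).map (MulAut.conj (a⁻¹ * b)).toMonoidHom).map (MulAut.conj a).toMonoidHom = (CfsgH9.GL2p.UU F).map (MulAut.conj a).toMonoidHom := by rw [h3]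
  rw [Subgroup.map_map] at h5
  rw [← h5]
  congr 1
  ext z : 1
  simp [mul_assoc]

end Cfsg.Agent.S0259
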