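import Cfsg.Statements.S0260
import Cfsg.Agent.H9.SLt3

set_option autoImplicit false
open Cfsg

namespace Cfsg.Agent.S0260

open CfsgH7 CfsgH9.SLt in
/-- upper unitriangular elements of `SL₂` -/
def su {F : Type*} [Field F] (b : F) : SL2 F := mk2 1 b 0 1 (by ring)

open CfsgH7 CfsgH9.SLt in
theorem su_mul {F : Type*} [Field F] (a b : F) : su a * su b = su (a + b) := by
  apply sl2_ext <;> rw [sl2_mul_apply] <;> simp [su, add_comm]

open CfsgH7 CfsgH9.SLt in
theorem su_zero {F : Type*} [Field F] : su (0 : F) = 1 := by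
  apply sl2_ext <;> simp [su]

open CfsgH7 CfsgH9.SLt in
theorem su_inv {F : Type*} [Field F] (a : F) : (su a)⁻¹ = su (-a) := by
  rw [inv_eq_iff_mul_eq_one, su_mul, add_neg_cancel, su_zero]

open CfsgH7 CfsgH9.SLt in
def SUU (F : Type*) [Field F] : Subgroup (SL2 F) where
  carrier := {x | ∃ b, x = su b}
  one_mem' := ⟨0, su_zero.symm⟩
  mul_mem' := by
    rintro _ _ ⟨a, rfl⟩ ⟨b, rfl⟩
    exact ⟨a + b, su_mul a b⟩
  inv_mem' := by
    rintro _ ⟨a, rfl⟩
    exact ⟨-a, su_inv a⟩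

open CfsgH7 CfsgH9.SLt in
theorem card_SUU {F : Type*} [Field F] [Fintype F] : Nat.card (SUU F) = Fintype.card F := by
  rw [← Nat.card_eq_fintype_card]
  refine (Nat.card_congr (Equiv.ofBijective (fun b : F => (⟨su b, b, rfl⟩ : SUU F)) ⟨?_, ?_⟩)).symm
  · intro a b h
    have := congrArg (fun z : SUU F => z.1.1 0 1) h
    exact this
  · rintro ⟨_, b, rfl⟩
    exact ⟨b, rfl⟩

open CfsgH7 CfsgH9.SLt in
theorem exists_conj' {F : Type*} [Field F] [Fintype F] (p : ℕ) [hp : Fact p.Prime] [CharP F p] (P : Sylow p (SL2 F)) :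
    ∃ g : SL2 F, (P : Subgroup (SL2 F)) = (SUU F).map (MulAut.conj g).toMonoidHom := by
  obtain ⟨n, hn1, hn2⟩ := FiniteField.card F p
  have h1 : IsPGroup p (SUU F) := IsPGroup.of_card (n := n) (by rw [card_SUU, hn2])
  obtain ⟨Q, hQ⟩ := h1.exists_le_sylow
  have h2 : Nat.card (Q : Subgroup (SL2 F)) = Fintype.card F := by
    rw [Sylow.card_eq_multiplicity, card_SL2, hn2]
    have hpp : 0 < (p : ℕ) ^ (n : ℕ) := pow_pos hp.out.pos _
    have hlt : 1 < (p : ℕ) ^ (n : ℕ) := Nat.one_lt_pow n.ne_zero hp.out.one_lt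
    have hd : p ∣ p ^ (n : ℕ) := dvd_pow_self p n.ne_zero
    rw [Nat.factorization_mul (by
      have : p ^ (n : ℕ) - 1 ≠ 0 := by omega
      positivity) (by omega), Nat.factorization_mul (by omega) (by omega)]
    rw [Finsupp.add_apply, Finsupp.add_apply, hp.out.factorization_pow, Finsupp.single_eq_same]
    have e1 : (p ^ (n : ℕ) - 1).factorization p = 0 := by
      apply Nat.factorization_eq_zero_of_not_dvd
      intro h
      have := (Nat.dvd_sub_iff_right hlt.le hd).mp h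
      exact hp.out.one_lt.ne' (Nat.dvd_one.mp this)
    have e2 : (p ^ (n : ℕ) + 1).factorization p = 0 := by
      apply Nat.factorization_eq_zero_of_not_dvd
      intro h
      have := (Nat.dvd_add_right hd).mp h
      exact hp.out.one_lt.ne' (Nat.dvd_one.mp this)
    rw [e1, e2, add_zero, add_zero]
  have h3 : SUU F = (Q : Subgroup (SL2 F)) := Subgroup.eq_of_le_of_card_ge hQ (by rw [h2, card_SUU])
  obtain ⟨g, hg⟩ := MulAction.exists_smul_eq (SL2 F) Q P
  exact ⟨g, by rw [h3, ← hg]; rfl⟩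

open CfsgH7 CfsgH9.SLt in
theorem gen' {F : Type*} [Field F] (g : SL2 F) (hg : g.1 1 0 ≠ 0) (H : Subgroup (SL2 F)) (h1 : SUU F ≤ H)
    (h2 : (SUU F).map (MulAut.conj g).toMonoidHom ≤ H) : H = ⊤ := by
  -- move the second group to the lower unitriangular group
  set c := g.1 1 0 with hc
  have hlow : ∀ b : F, mk2 1 0 b 1 (by ring) ∈ H := by
    intro b
    -- `su (-a/c) g su(x) g⁻¹ su (a/c)` with `a = g00`
    have h3 : g * su (-b / c ^ 2) * g⁻¹ ∈ H := h2 ⟨su (-b / c ^ 2), ⟨_, rfl⟩, rfl⟩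
    have h4 : su (-(g.1 0 0 / c)) * (g * su (-b / c ^ 2) * g⁻¹) * su (g.1 0 0 / c) ∈ H :=
      mul_mem (mul_mem (h1 ⟨_, rfl⟩) h3) (h1 ⟨_, rfl⟩)
    have h5 : su (-(g.1 0 0 / c)) * (g * su (-b / c ^ 2) * g⁻¹) * su (g.1 0 0 / c) = mk2 1 0 b 1 (by ring) := by
      have hd := sl2_det g
      obtain ⟨i1, i2, i3, i4⟩ := sl2_inv_apply g
      apply sl2_ext <;> simp only [sl2_mul_apply, i1, i2, i3, i4, su, mk2_00, mk2_01, mk2_10, mk2_11, ← hc] <;> field_simp
      · linear_combination (c ^ 2) * hd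
      · linear_combination (0 : F) * hd
      · ring
      · linear_combination (c ^ 2) * hd
    rwa [h5] at h4
  apply CfsgH9.IwaSL.SL_gen
  intro i j hij b
  fin_cases i <;> fin_cases j
  · exact absurd rfl hij
  · have : Matrix.SpecialLinearGroup.transvection hij b = su b := by
      apply sl2_ext <;> simp [Matrix.SpecialLinearGroup.transvection, Matrix.transvection, su]
    rw [this]; exact h1 ⟨_, rfl⟩
  · have : Matrix.SpecialLinearGroup.transvection hij b = mk2 1 0 b 1 (by ring) := by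
      apply sl2_ext <;> simp [Matrix.SpecialLinearGroup.transvection, Matrix.transvection]
    rw [this]; exact hlow b
  · exact absurd rfl hij

/-- Any two distinct Sylow p-subgroups of SL_2(q), p the characteristic, generate SL_2(q). -/
theorem result {F : Type*} [Field F] [Fintype F] (p : ℕ) [Fact p.Prime] [CharP F p] (P Q : Sylow p (Matrix.SpecialLinearGroup (Fin 2) F)) (h : P ≠ Q) : (P : Subgroup (Matrix.SpecialLinearGroup (Fin 2) F)) ⊔ (Q : Subgroup (Matrix.SpecialLinearGroup (Fin 2) F)) = ⊤ := by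
  obtain ⟨a, ha⟩ := exists_conj' p P
  obtain ⟨b, hb⟩ := exists_conj' p Q
  have h10 : (a⁻¹ * b).1 1 0 ≠ 0 := by
    intro h0
    apply h
    apply Sylow.ext
    rw [ha, hb]
    have hd := CfsgH7.sl2_det (a⁻¹ * b)
    rw [h0, mul_zero, sub_zero] at hd
    have h3 : (SUU F).map (MulAut.conj (a⁻¹ * b)).toMonoidHom = SUU F := by
      have h4 : (SUU F).map (MulAut.conj (a⁻¹ * b)).toMonoidHom ≤ SUU F := by
        rintro _ ⟨_, ⟨x, rfl⟩, rfl⟩
        refine ⟨(a⁻¹ * b).1 0 0 * x * (a⁻¹ * b).1 0 0, ?_⟩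
        change (a⁻¹ * b) * su x * (a⁻¹ * b)⁻¹ = _
        generalize a⁻¹ * b = g at h0 hd
        obtain ⟨i1, i2, i3, i4⟩ := CfsgH7.sl2_inv_apply g
        apply CfsgH7.sl2_ext <;> simp only [CfsgH7.sl2_mul_apply, i1, i2, i3, i4, su, CfsgH9.SLt.mk2_00, CfsgH9.SLt.mk2_01, CfsgH9.SLt.mk2_10, CfsgH9.SLt.mk2_11, h0]
        · linear_combination hd
        · ring
        · ring
        · linear_combination hd
      apply Subgroup.eq_of_le_of_card_ge h4
      rw [Nat.card_congr (Subgroup.equivMapOfInjective _ _ (MulAut.conj (a⁻¹ * b)).injective).symm.toEquiv]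
    have h5 : ((SUU F).map (MulAut.conj (a⁻¹ * b)).toMonoidHom).map (MulAut.conj a).toMonoidHom = (SUU F).map (MulAut.conj a).toMonoidHom := by rw [h3]
    rw [Subgroup.map_map] at h5
    rw [← h5]
    congr 1
    ext z : 1
    simp [mul_assoc]
  -- conjugate by `a⁻¹`
  have h6 : ((P : Subgroup (Matrix.SpecialLinearGroup (Fin 2) F)) ⊔ (Q : Subgroup (Matrix.SpecialLinearGroup (Fin 2) F))).map (MulAut.conj a⁻¹).toMonoidHom = ⊤ := by
    apply gen' (a⁻¹ * b) h10
    · rw [Subgroup.map_sup, ha, Subgroup.map_map]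
      refine le_trans ?_ le_sup_left
      have : (MulAut.conj a⁻¹).toMonoidHom.comp (MulAut.conj a).toMonoidHom = MonoidHom.id _ := by
        ext z : 1; simp [mul_assoc]
      rw [this, Subgroup.map_id]
    · rw [Subgroup.map_sup, hb]
      refine le_trans ?_ le_sup_right
      rw [Subgroup.map_map]
      have : (MulAut.conj a⁻¹).toMonoidHom.comp (MulAut.conj b).toMonoidHom = (MulAut.conj (a⁻¹ * b)).toMonoidHom := by
        ext z : 1; simp [mul_assoc]
      rw [this]
  rw [eq_top_iff]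
  intro x _
  have h7 : (MulAut.conj a⁻¹).toMonoidHom x ∈ ((P : Subgroup (Matrix.SpecialLinearGroup (Fin 2) F)) ⊔ (Q : Subgroup (Matrix.SpecialLinearGroup (Fin 2) F))).map (MulAut.conj a⁻¹).toMonoidHom := by
    rw [h6]; trivial
  obtain ⟨y, hy, hyx⟩ := h7
  rw [← (MulAut.conj a⁻¹).injective hyx]
  exact hy

end Cfsg.Agent.S0260
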