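import Cfsg.Statements.S0262
import Cfsg.Agent.S0800

set_option autoImplicit false
open Cfsg

namespace Cfsg.Agent.S0262

/-- For an odd prime r different from the characteristic, the Sylow r-subgroups of SL_2(q) are cyclic. -/
theorem result {F : Type*} [Field F] [Fintype F] (p : ℕ) [Fact p.Prime] [CharP F p] (r : ℕ) [Fact r.Prime] (hr : r ≠ 2) (hrp : r ≠ p) (R : Sylow r (Matrix.SpecialLinearGroup (Fin 2) F)) : IsCyclic (R : Subgroup (Matrix.SpecialLinearGroup (Fin 2) F)) := by
  classical
  by_cases hR : Nontrivial (R : Subgroup (Matrix.SpecialLinearGroup (Fin 2) F))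
  · have h1 : Nontrivial (Subgroup.center (R : Subgroup (Matrix.SpecialLinearGroup (Fin 2) F))) :=
      IsPGroup.center_nontrivial R.isPGroup'
    obtain ⟨z, hz⟩ := exists_ne (1 : Subgroup.center (R : Subgroup (Matrix.SpecialLinearGroup (Fin 2) F)))
    let g : Matrix.SpecialLinearGroup (Fin 2) F := ((z : (R : Subgroup (Matrix.SpecialLinearGroup (Fin 2) F))) : Matrix.SpecialLinearGroup (Fin 2) F)
    have hg1 : g ≠ 1 := fun h => hz (Subtype.ext (Subtype.ext h))
    obtain ⟨k, hk⟩ := R.isPGroup' (z : (R : Subgroup (Matrix.SpecialLinearGroup (Fin 2) F)))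
    have hgk : g ^ r ^ k = 1 := by
      have := congrArg Subtype.val hk
      exact this
    have hrp' : Nat.Coprime r p := (Nat.coprime_primes Fact.out Fact.out).mpr hrp
    have hco : Nat.Coprime (orderOf g) p := Nat.Coprime.coprime_dvd_left (orderOf_dvd_of_pow_eq_one hgk) (hrp'.pow_left k)
    have h4 : CfsgH7.tr2 g ^ 2 ≠ 4 := by
      rcases Cfsg.Agent.S0800.aux (p := p) g hco with h | ⟨-, h⟩ | h
      · exact absurd h hg1
      · exfalso
        have h5 : g ^ 2 = 1 := by rw [h, pow_two]; exact CfsgH9.SLt.m1_mul_m1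
        have hr2 : Nat.Coprime (r ^ k) 2 := ((Nat.coprime_primes Fact.out Nat.prime_two).mpr hr).pow_left k
        have h6 : orderOf g = 1 := Nat.eq_one_of_dvd_coprimes hr2 (orderOf_dvd_of_pow_eq_one hgk) (orderOf_dvd_of_pow_eq_one h5)
        exact hg1 (orderOf_eq_one_iff.mp h6)
      · exact h
    obtain ⟨n, -, -, hc, -, -⟩ := CfsgH9.SLt.exists_torus g h4
    have hle : ∀ x : (R : Subgroup (Matrix.SpecialLinearGroup (Fin 2) F)), (x : Matrix.SpecialLinearGroup (Fin 2) F) ∈ CfsgH7.cen g := by
      intro x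
      rw [CfsgH7.mem_cen]
      have h7 := Subgroup.mem_center_iff.mp z.2 x
      exact (congrArg Subtype.val h7).symm
    let φ : (R : Subgroup (Matrix.SpecialLinearGroup (Fin 2) F)) →* ↥(CfsgH7.cen g) :=
      { toFun := fun x => ⟨x, hle x⟩
        map_one' := rfl
        map_mul' := fun _ _ => rfl }
    exact isCyclic_of_injective φ (fun a b hab => Subtype.ext (congrArg (fun t : ↥(CfsgH7.cen g) => (t : Matrix.SpecialLinearGroup (Fin 2) F)) hab))
  · rw [not_nontrivial_iff_subsingleton] at hR
    infer_instance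

end Cfsg.Agent.S0262
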