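import Cfsg.Statements.S0264
import Cfsg.Agent.H9.IwaSL

set_option autoImplicit false
open Cfsg
open scoped commutatorElement

namespace Cfsg.Agent.S0264

open Matrix commutatorElement in
lemma comm_gl {F : Type*} [Field F] {n : ℕ} {i j : Fin n} (hij : i ≠ j) {a : F} (ha : a ≠ 0) (b : F)
    (D T T' : GL (Fin n) F) (hD : (D : Matrix (Fin n) (Fin n) F) = diagonal (fun k => if k = i then a else 1))
    (hT : (T : Matrix (Fin n) (Fin n) F) = transvection i j b)
    (hT' : (T' : Matrix (Fin n) (Fin n) F) = transvection i j ((a - 1) * b)) : ⁅D, T⁆ = T' := by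
  rw [commutatorElement_def, mul_inv_eq_iff_eq_mul, mul_inv_eq_iff_eq_mul]
  apply Units.ext
  rw [Units.val_mul, Units.val_mul, Units.val_mul, hD, hT, hT']
  ext k l
  simp only [transvection, add_mul, mul_add, one_mul, mul_one, Matrix.add_apply, diagonal_apply, Matrix.diagonal_mul,
    Matrix.mul_diagonal, Matrix.single_apply, single_mul_single_same, hij, hij.symm, ne_eq, not_false_eq_true,
    single_mul_single_of_ne, add_zero]
  by_cases h1 : i = k <;> by_cases h2 : j = l <;> by_cases h3 : k = l <;> simp_all
  · have h4 : ¬ (l = k) := fun h => h3 h.symm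
    simp only [if_neg h4]
    ring
  all_goals (try split_ifs) <;> ring

/-- GL_n(F)' = SL_n(F) (as the kernel of det), for every field F and every n, except n = 2 over the field of two elements. -/
theorem result {F : Type*} [Field F] (n : ℕ) (h : n = 2 → ∃ a : F, a ≠ 0 ∧ a ≠ 1) : commutator (Matrix.GeneralLinearGroup (Fin n) F) = (Matrix.GeneralLinearGroup.det : Matrix.GeneralLinearGroup (Fin n) F →* Fˣ).ker := by
  apply le_antisymm
  · exact Abelianization.commutator_subset_ker _
  intro g hg
  have hdet : (g : Matrix (Fin n) (Fin n) F).det = 1 := by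
    have := congrArg Units.val (MonoidHom.mem_ker.1 hg)
    simpa using this
  apply CfsgH9.Tv.mem_of_transvections ?_ g hdet
  intro i j hij c g' hg'
  have hn : 2 ≤ n := by
    have := i.2; have := j.2
    have : (i : ℕ) ≠ j := fun h => hij (Fin.ext h)
    omega
  by_cases ha : ∃ a : F, a ≠ 0 ∧ a ≠ 1
  · obtain ⟨a, ha, ha1⟩ := ha
    have h1 : (Matrix.diagonal (fun k => if k = i then a else 1) : Matrix (Fin n) (Fin n) F).det ≠ 0 := by
      rw [Matrix.det_diagonal, Finset.prod_ne_zero_iff]
      intro k _
      split_ifs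
      · exact ha
      · exact one_ne_zero
    have h2 : (Matrix.transvection i j ((a - 1)⁻¹ * c) : Matrix (Fin n) (Fin n) F).det ≠ 0 := by
      rw [Matrix.det_transvection_of_ne i j hij]; exact one_ne_zero
    have := comm_gl hij ha ((a - 1)⁻¹ * c) (Matrix.GeneralLinearGroup.mkOfDetNeZero _ h1)
      (Matrix.GeneralLinearGroup.mkOfDetNeZero _ h2) g' rfl rfl (by
        rw [hg', ← mul_assoc, mul_inv_cancel₀ (sub_ne_zero.2 ha1), one_mul])
    rw [← this]
    exact Subgroup.commutator_mem_commutator (Subgroup.mem_top _) (Subgroup.mem_top _)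
  · have hn3 : 3 ≤ n := by
      rcases Nat.lt_or_ge 2 n with h2 | h2
      · exact h2
      · exact absurd (h (by omega)) ha
    have hk : ∃ k : Fin n, k ∉ ({i, j} : Finset (Fin n)) := by
      by_contra hc
      push Not at hc
      have h2 : (Finset.univ : Finset (Fin n)) ⊆ {i, j} := fun k _ => hc k
      have h3 := Finset.card_le_card h2
      rw [Finset.card_univ, Fintype.card_fin] at h3
      have h4 := Finset.card_le_two (a := i) (b := j)
      omega
    obtain ⟨k, hk⟩ := hk
    simp only [Finset.mem_insert, Finset.mem_singleton, not_or] at hk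
    have h5 := CfsgH9.IwaSL.comm_transv hij (k := k) (fun h => hk.1 h.symm) hk.2 c (1 : F)
    have h6 : g' = Bracket.bracket (Matrix.SpecialLinearGroup.toGL (Matrix.SpecialLinearGroup.transvection (fun h => hk.1 h.symm : i ≠ k) c))
        (Matrix.SpecialLinearGroup.toGL (Matrix.SpecialLinearGroup.transvection hk.2 (1 : F))) := by
      rw [← map_commutatorElement, h5]
      apply Units.ext
      rw [hg', mul_one]; rfl
    rw [h6]
    exact Subgroup.commutator_mem_commutator (Subgroup.mem_top _) (Subgroup.mem_top _)

end Cfsg.Agent.S0264
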