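import Cfsg.Statements.S0266
import Cfsg.Agent.H9.Proj1

set_option autoImplicit false
open scoped MatrixGroups
open Cfsg

namespace Cfsg.Agent.S0266

open CfsgH9.Proj1 Matrix in
theorem smul_mk' {F : Type*} [Field F] (g : GL (Fin 2) F) (v : Fin 2 → F) (hv : v ≠ 0) (h : g.1 *ᵥ v ≠ 0) :
    (Matrix.ProjGenLinGroup.mk g : Matrix.ProjGenLinGroup (Fin 2) F) • Projectivization.mk F v hv = Projectivization.mk F (g.1 *ᵥ v) h := rfl

open CfsgH9.Proj1 Matrix in
/-- moving the standard frame -/
theorem exists_g {F : Type*} [Field F] (D : Fin 3 ↪ Projectivization F (Fin 2 → F)) :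
    ∃ g : Matrix.ProjGenLinGroup (Fin 2) F, g • Projectivization.mk F _ e0_ne = D 0 ∧ g • Projectivization.mk F _ e1_ne = D 1 ∧
      g • Projectivization.mk F _ e2_ne = D 2 := by
  obtain ⟨A, hA, e0, e1, e2⟩ := exists_frame' D
  exact ⟨Matrix.ProjGenLinGroup.mk (Matrix.GeneralLinearGroup.mkOfDetNeZero A hA), e0.symm, e1.symm, e2.symm⟩

open CfsgH9.Proj1 Matrix in
theorem std_fix {F : Type*} [Field F] (g : Matrix.ProjGenLinGroup (Fin 2) F) (h0 : g • Projectivization.mk F _ e0_ne = Projectivization.mk F _ (e0_ne (F := F)))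
    (h1 : g • Projectivization.mk F _ e1_ne = Projectivization.mk F _ (e1_ne (F := F)))
    (h2 : g • Projectivization.mk F _ e2_ne = Projectivization.mk F _ (e2_ne (F := F))) : g = 1 := by
  obtain ⟨A, rfl⟩ := Matrix.ProjGenLinGroup.mk_surjective g
  have hA : A.1.det ≠ 0 := ((Matrix.isUnit_iff_isUnit_det _).mp A.isUnit).ne_zero
  rw [smul_mk' A _ _ (mulVec_ne hA e0_ne), mk_eq_iff] at h0
  rw [smul_mk' A _ _ (mulVec_ne hA e1_ne), mk_eq_iff] at h1
  rw [smul_mk' A _ _ (mulVec_ne hA e2_ne), mk_eq_iff] at h2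
  simp [d2, Matrix.mulVec, dotProduct, Fin.sum_univ_two] at h0 h1 h2
  rw [Matrix.ProjGenLinGroup.mk_eq_one, Matrix.GeneralLinearGroup.center_eq_range_scalar]
  rw [Matrix.det_fin_two, h0, h1, mul_zero, sub_zero] at hA
  have ha := left_ne_zero_of_mul hA
  refine ⟨Units.mk0 _ ha, ?_⟩
  apply Units.ext
  ext i j
  fin_cases i <;> fin_cases j
  · simp
  · simp [h1]
  · simp [h0]
  · simp
    rw [h0, h1] at h2
    linear_combination h2

/-- PGL_2(F) is sharply 3-transitive on the projective line: it is 3-transitive and the stabiliser of three distinct points is trivial. -/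
theorem result {F : Type*} [Field F] : MulAction.IsMultiplyPretransitive (Matrix.ProjGenLinGroup (Fin 2) F) (Projectivization F (Fin 2 → F)) 3 ∧ ∀ (g : Matrix.ProjGenLinGroup (Fin 2) F) (a b c : Projectivization F (Fin 2 → F)), a ≠ b → a ≠ c → b ≠ c → g • a = a → g • b = b → g • c = c → g = 1 := by
  constructor
  · rw [MulAction.IsMultiplyPretransitive]
    constructor
    intro x y
    obtain ⟨g, g0, g1, g2⟩ := exists_g x
    obtain ⟨h, h0, h1, h2⟩ := exists_g y
    refine ⟨h * g⁻¹, ?_⟩
    ext i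
    change (h * g⁻¹) • x i = y i
    fin_cases i
    · change (h * g⁻¹) • x 0 = y 0
      rw [← g0, mul_smul, inv_smul_smul, h0]
    · change (h * g⁻¹) • x 1 = y 1
      rw [← g1, mul_smul, inv_smul_smul, h1]
    · change (h * g⁻¹) • x 2 = y 2
      rw [← g2, mul_smul, inv_smul_smul, h2]
  · intro g a b c hab hac hbc ha hb hc
    obtain ⟨h, h0, h1, h2⟩ := exists_g (⟨![a, b, c], by
      intro i j hij
      fin_cases i <;> fin_cases j
      · rfl
      · exact absurd hij hab
      · exact absurd hij hac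
      · exact absurd hij.symm hab
      · rfl
      · exact absurd hij hbc
      · exact absurd hij.symm hac
      · exact absurd hij.symm hbc
      · rfl⟩ : Fin 3 ↪ Projectivization F (Fin 2 → F))
    have e0 : h • Projectivization.mk F _ CfsgH9.Proj1.e0_ne = a := h0
    have e1 : h • Projectivization.mk F _ CfsgH9.Proj1.e1_ne = b := h1
    have e2 : h • Projectivization.mk F _ CfsgH9.Proj1.e2_ne = c := h2
    have key : h⁻¹ * g * h = 1 := by
      apply std_fix
      · rw [mul_smul, mul_smul, e0, ha, ← e0, inv_smul_smul]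
      · rw [mul_smul, mul_smul, e1, hb, ← e1, inv_smul_smul]
      · rw [mul_smul, mul_smul, e2, hc, ← e2, inv_smul_smul]
    have : g = h * (h⁻¹ * g * h) * h⁻¹ := by group
    rw [this, key]; group

end Cfsg.Agent.S0266
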