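import Cfsg.Statements.S0267
import Cfsg.Agent.H9.Proj1
import Cfsg.Agent.H7.SL2Basic

set_option autoImplicit false
open Cfsg

namespace Cfsg.Agent.S0267

open CfsgH9.Proj1 Matrix in
theorem ne01 {F : Type*} [Field F] : Projectivization.mk F _ (e0_ne (F := F)) ≠ Projectivization.mk F _ (e1_ne (F := F)) := by
  rw [Ne, mk_eq_iff]; simp [d2]

open CfsgH9.Proj1 Matrix in
theorem ne0v {F : Type*} [Field F] {t : F} (ht : t ≠ 0) (hv : (![1, t] : Fin 2 → F) ≠ 0) : Projectivization.mk F _ (e0_ne (F := F)) ≠ Projectivization.mk F _ hv := by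
  rw [Ne, mk_eq_iff]; simp [d2, ht]

open CfsgH9.Proj1 Matrix in
theorem ne1v {F : Type*} [Field F] {t : F} (hv : (![1, t] : Fin 2 → F) ≠ 0) : Projectivization.mk F _ (e1_ne (F := F)) ≠ Projectivization.mk F _ hv := by
  rw [Ne, mk_eq_iff]; simp [d2]

open CfsgH9.Proj1 Matrix in
/-- the triple `(∞, 0, t)` -/
def tri {F : Type*} [Field F] (t : F) (ht : t ≠ 0) (hv : (![1, t] : Fin 2 → F) ≠ 0) : Fin 3 ↪ Projectivization F (Fin 2 → F) :=
  ⟨![Projectivization.mk F _ e0_ne, Projectivization.mk F _ e1_ne, Projectivization.mk F _ hv], by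
    intro i j hij
    fin_cases i <;> fin_cases j
    · rfl
    · exact absurd hij ne01
    · exact absurd hij (ne0v ht hv)
    · exact absurd hij.symm ne01
    · rfl
    · exact absurd hij (ne1v hv)
    · exact absurd hij.symm (ne0v ht hv)
    · exact absurd hij.symm (ne1v hv)
    · rfl⟩

open CfsgH9.Proj1 Matrix in
theorem exists_sl {F : Type*} [Field F] [Finite F] (hc : ringChar F = 2) (D : Fin 3 ↪ Projectivization F (Fin 2 → F)) :
    ∃ g : Matrix.SpecialLinearGroup (Fin 2) F, g • Projectivization.mk F _ e0_ne = D 0 ∧ g • Projectivization.mk F _ e1_ne = D 1 ∧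
      g • Projectivization.mk F _ e2_ne = D 2 := by
  obtain ⟨A, hA, e0, e1, e2⟩ := exists_frame' D
  obtain ⟨r, hr⟩ : IsSquare A.det := FiniteField.isSquare_of_char_two hc A.det
  have hr0 : r ≠ 0 := by rintro rfl; exact hA (by rw [hr, mul_zero])
  have hdet : (r⁻¹ • A).det = 1 := by
    rw [Matrix.det_smul, Fintype.card_fin, hr]; field_simp
  obtain ⟨g, hg⟩ : ∃ g : Matrix.SpecialLinearGroup (Fin 2) F, g.1 = r⁻¹ • A := ⟨⟨r⁻¹ • A, hdet⟩, rfl⟩
  have key : ∀ v : Fin 2 → F, ∀ hv : v ≠ 0, g • Projectivization.mk F v hv = Projectivization.mk F (A *ᵥ v) (mulVec_ne hA hv) := by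
    intro v hv
    have h1 : g.1 *ᵥ v ≠ 0 := mulVec_ne (by rw [g.2]; exact one_ne_zero) hv
    have h2 : g • Projectivization.mk F v hv = Projectivization.mk F (g.1 *ᵥ v) h1 := rfl
    rw [h2, Projectivization.mk_eq_mk_iff']
    exact ⟨r⁻¹, by rw [hg, Matrix.smul_mulVec]⟩
  exact ⟨g, by rw [key, e0], by rw [key, e1], by rw [key, e2]⟩

/-- SL_2(q) is 3-transitive on the q+1 points of the projective line if and only if q is even. -/
theorem result {F : Type*} [Field F] [Fintype F] : MulAction.IsMultiplyPretransitive (Matrix.SpecialLinearGroup (Fin 2) F) (Projectivization F (Fin 2 → F)) 3 ↔ ringChar F = 2 := by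
  constructor
  · intro h
    by_contra hc
    rw [MulAction.IsMultiplyPretransitive] at h
    obtain ⟨nu, hnu⟩ := FiniteField.exists_nonsquare hc
    have hnu0 : nu ≠ 0 := by rintro rfl; exact hnu ⟨0, by ring⟩
    have hv : (![1, nu] : Fin 2 → F) ≠ 0 := fun h => one_ne_zero (congrFun h 0)
    obtain ⟨g, hg⟩ := h.exists_smul_eq (tri 1 one_ne_zero CfsgH9.Proj1.e2_ne) (tri nu hnu0 hv)
    have hdet : g.1.det ≠ 0 := by rw [g.2]; exact one_ne_zero
    have h0 : g • Projectivization.mk F _ CfsgH9.Proj1.e0_ne = Projectivization.mk F _ (CfsgH9.Proj1.e0_ne (F := F)) := congrArg (fun D => D 0) hg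
    have h1 : g • Projectivization.mk F _ CfsgH9.Proj1.e1_ne = Projectivization.mk F _ (CfsgH9.Proj1.e1_ne (F := F)) := congrArg (fun D => D 1) hg
    have h2 : g • Projectivization.mk F _ CfsgH9.Proj1.e2_ne = Projectivization.mk F _ hv := congrArg (fun D => D 2) hg
    have s : ∀ (v : Fin 2 → F) (hv : v ≠ 0), g • Projectivization.mk F v hv = Projectivization.mk F (Matrix.mulVec g.1 v) (CfsgH9.Proj1.mulVec_ne hdet hv) := fun v hv => rfl
    rw [s, CfsgH9.Proj1.mk_eq_iff] at h0 h1 h2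
    simp [CfsgH9.Proj1.d2, Matrix.mulVec, dotProduct, Fin.sum_univ_two] at h0 h1 h2
    have hd := CfsgH7.sl2_det g
    rw [h0, h1] at h2
    rw [h0, h1] at hd
    apply hnu
    refine ⟨g.1 1 1, ?_⟩
    have h3 : g.1 0 0 * nu = g.1 1 1 := by linear_combination h2
    linear_combination -nu * hd + g.1 1 1 * h3
  · intro hc
    rw [MulAction.IsMultiplyPretransitive]
    constructor
    intro x y
    obtain ⟨g, g0, g1, g2⟩ := exists_sl hc x
    obtain ⟨h, h0, h1, h2⟩ := exists_sl hc y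
    refine ⟨h * g⁻¹, ?_⟩
    ext i
    change (h * g⁻¹) • x i = y i
    fin_cases i
    · change (h * g⁻¹) • x 0 = y 0
      rw [← g0, mul_smul, inv_smul_smul, h0]
    · change (h * g⁻¹) • x 1 = y 1
      rw [← g1, mul_smul, inv_smul_smul, h1]
    · change (h * g⁻¹) • x 2 = y 2
      rw [← g2, mul_smul, inv_smul_smul, h2]

end Cfsg.Agent.S0267
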