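import Cfsg.Statements.S0271
import Cfsg.Agent.H9.SpBridge

set_option autoImplicit false
open Cfsg

namespace Cfsg.Agent.S0271

/-- Sp_{2m}(F) is transitive on non-zero vectors. -/
theorem result {F : Type*} [Field F] (m : ℕ) (v w : Fin m ⊕ Fin m → F) (hv : v ≠ 0) (hw : w ≠ 0) : ∃ g : Matrix.symplecticGroup (Fin m) F, (g : Matrix (Fin m ⊕ Fin m) (Fin m ⊕ Fin m) F).mulVec v = w := by
  have hf := CfsgH9.SpGen.sympForm_isSymplectic (F := F) m
  have hb := hf.bilinear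
  have hsingle : ∀ v : Fin m ⊕ Fin m → F, v ≠ 0 → ∃ w, Cfsg.sympForm m F v w = 1 := by
    intro v hv
    obtain ⟨-, w, hw⟩ := hf.nondegenerate v hv
    exact ⟨(Cfsg.sympForm m F v w)⁻¹ • w, by rw [hb.smul_right, inv_mul_cancel₀ hw]⟩
  obtain ⟨v', hv'⟩ := hsingle v hv
  obtain ⟨w', hw'⟩ := hsingle w hw
  obtain ⟨A, hA, -⟩ := CfsgH9.SpBridge.exists_pair hv' hw'
  exact ⟨A, hA⟩

end Cfsg.Agent.S0271
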