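import Cfsg.Statements.S0273
import Cfsg.Agent.H9.GL2p

set_option autoImplicit false
open Cfsg

namespace Cfsg.Agent.S0273

/-- In GL_2(q) the centraliser of a non-trivial element of a Sylow p-subgroup (p the characteristic) has order q (q-1): the Sylow subgroup times the scalars. -/
theorem result {F : Type*} [Field F] [Fintype F] {q : ℕ} (hF : Fintype.card F = q) (p : ℕ) [Fact p.Prime] [CharP F p] (P : Sylow p (Matrix.GeneralLinearGroup (Fin 2) F)) (a : Matrix.GeneralLinearGroup (Fin 2) F) (ha : a ∈ P) (ha1 : a ≠ 1) : Nat.card (Subgroup.centralizer ({a} : Set (Matrix.GeneralLinearGroup (Fin 2) F))) = q * (q - 1) := by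
  obtain ⟨g, hg⟩ := CfsgH9.GL2p.exists_conj p P
  rw [← SetLike.mem_coe] at ha
  have ha' : a ∈ (P : Subgroup (Matrix.GeneralLinearGroup (Fin 2) F)) := ha
  rw [hg] at ha'
  obtain ⟨_, ⟨b, rfl⟩, hb⟩ := ha'
  have hb' : g * CfsgH9.GL2p.un b * g⁻¹ = a := hb
  have hb0 : b ≠ 0 := by
    rintro rfl
    rw [CfsgH9.GL2p.un_zero, mul_one, mul_inv_cancel] at hb'
    exact ha1 hb'.symm
  clear hb ha ha1
  subst hb'
  have e : ↥(Subgroup.centralizer ({g * CfsgH9.GL2p.un b * g⁻¹} : Set (Matrix.GeneralLinearGroup (Fin 2) F))) ≃ ↥(Subgroup.centralizer ({CfsgH9.GL2p.un b} : Set (Matrix.GeneralLinearGroup (Fin 2) F))) :=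
    { toFun := fun x => ⟨g⁻¹ * x.1 * g, by
        rw [CfsgH7.mem_cen]
        have h1 := CfsgH7.mem_cen.mp x.2
        calc CfsgH9.GL2p.un b * (g⁻¹ * x.1 * g) = g⁻¹ * (g * CfsgH9.GL2p.un b * g⁻¹ * x.1) * g := by group
          _ = _ := by rw [h1]; group⟩
      invFun := fun x => ⟨g * x.1 * g⁻¹, by
        rw [CfsgH7.mem_cen]
        have h1 := CfsgH7.mem_cen.mp x.2
        calc g * CfsgH9.GL2p.un b * g⁻¹ * (g * x.1 * g⁻¹) = g * (CfsgH9.GL2p.un b * x.1) * g⁻¹ := by group
          _ = _ := by rw [h1]; group⟩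
      left_inv := fun x => Subtype.ext (by group)
      right_inv := fun x => Subtype.ext (by group) }
  have hmem : ∀ x : Matrix.GeneralLinearGroup (Fin 2) F, x ∈ Subgroup.centralizer ({CfsgH9.GL2p.un b} : Set (Matrix.GeneralLinearGroup (Fin 2) F)) ↔ x.1 1 0 = 0 ∧ x.1 0 0 = x.1 1 1 := by
    intro x
    rw [CfsgH7.mem_cen]
    constructor
    · intro h
      have h1 : (CfsgH9.GL2p.un b * x).1 0 0 = (x * CfsgH9.GL2p.un b).1 0 0 := by rw [h]
      have h2 : (CfsgH9.GL2p.un b * x).1 0 1 = (x * CfsgH9.GL2p.un b).1 0 1 := by rw [h]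
      rw [CfsgH9.GL2p.gl_mul_apply, CfsgH9.GL2p.gl_mul_apply] at h1 h2
      simp only [CfsgH9.GL2p.un_00, CfsgH9.GL2p.un_01, CfsgH9.GL2p.un_10, CfsgH9.GL2p.un_11, mul_one, mul_zero, add_zero, one_mul] at h1 h2
      constructor
      · have : b * x.1 1 0 = 0 := by linear_combination h1
        exact (mul_eq_zero.mp this).resolve_left hb0
      · apply mul_left_cancel₀ hb0
        linear_combination -h2
    · rintro ⟨h1, h2⟩
      apply CfsgH9.GL2p.gl_ext <;> rw [CfsgH9.GL2p.gl_mul_apply, CfsgH9.GL2p.gl_mul_apply] <;> simp [h1, h2]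
      ring
  have e2 : ↥(Subgroup.centralizer ({CfsgH9.GL2p.un b} : Set (Matrix.GeneralLinearGroup (Fin 2) F))) ≃ F × Fˣ :=
    { toFun := fun x => (x.1.1 0 1, Units.mk0 (x.1.1 0 0) (by
        have hd := CfsgH9.GL2p.gl_det x.1
        rw [((hmem _).mp x.2).1, mul_zero, sub_zero] at hd
        exact left_ne_zero_of_mul hd))
      invFun := fun r => ⟨Matrix.GeneralLinearGroup.mkOfDetNeZero !![(r.2 : F), r.1; 0, (r.2 : F)] (by
          rw [Matrix.det_fin_two_of]; simp), (hmem _).mpr ⟨rfl, rfl⟩⟩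
      left_inv := fun x => by
        apply Subtype.ext
        apply CfsgH9.GL2p.gl_ext
        · rfl
        · rfl
        · exact ((hmem _).mp x.2).1.symm
        · exact ((hmem _).mp x.2).2
      right_inv := fun r => Prod.ext rfl (Units.ext rfl) }
  rw [Nat.card_congr (e.trans e2), Nat.card_prod, Nat.card_units, Nat.card_eq_fintype_card, hF]

end Cfsg.Agent.S0273
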