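import Cfsg.Statements.S0274
import Cfsg.Agent.H9.SLt2

set_option autoImplicit false
open Cfsg

namespace Cfsg.Agent.S0274

open CfsgH7 in
theorem aux {F : Type*} [Field F] [Finite F] {p : ℕ} [hp : Fact p.Prime] [CharP F p] (hp2 : p ≠ 2) (H : Subgroup (SL2 F))
    (hH : 1 < Nat.card (Sylow p H)) : ∃ φ : Matrix.SpecialLinearGroup (Fin 2) (ZMod p) →* H, Function.Injective φ := by
  have hinj : Function.Injective H.subtype := H.subtype_injective
  have hpow : ∀ x : H, (∃ k, x ^ p ^ k = 1) → x ^ p = 1 := by
    rintro x ⟨k, hk⟩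
    rw [← tr_two_iff (p := p) hinj]
    refine tr2_of_pow (p := p) (n := k) ?_
    rw [← map_pow, hk, map_one]
  have : Nontrivial (Sylow p H) := by
    rw [← Finite.one_lt_card_iff_nontrivial]; exact hH
  obtain ⟨P, Q, hPQ⟩ := exists_pair_ne (Sylow p H)
  have hex : ∃ u v : H, u ^ p = 1 ∧ v ^ p = 1 ∧ u * v ≠ v * u := by
    by_contra hcon
    push Not at hcon
    apply hPQ
    have hle : (P : Subgroup H) ≤ Q := by
      have h1 : (P : Subgroup H) ≤ Subgroup.normalizer ((Q : Subgroup H) : Set H) := by
        intro x hx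
        rw [Subgroup.mem_normalizer_iff]
        have hxp : x ^ p = 1 := by
          apply hpow
          obtain ⟨k, hk⟩ := P.isPGroup' ⟨x, hx⟩
          exact ⟨k, congrArg Subtype.val hk⟩
        have key : ∀ y ∈ Q, x * y * x⁻¹ = y := by
          intro y hy
          have hyp : y ^ p = 1 := by
            apply hpow
            obtain ⟨k, hk⟩ := Q.isPGroup' ⟨y, hy⟩
            exact ⟨k, congrArg Subtype.val hk⟩
          rw [hcon x y hxp hyp, mul_inv_cancel_right]
        intro y
        constructor
        · intro hy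
          change x * y * x⁻¹ ∈ Q
          rw [key y hy]; exact hy
        · intro hy
          have h2 := key _ hy
          have h3 : x * y * x⁻¹ = y := by
            have := congrArg (fun z => x⁻¹ * z * x) h2
            simpa [mul_assoc] using this
          change x * y * x⁻¹ ∈ Q at hy
          rw [h3] at hy; exact hy
      have h2 := P.isPGroup'.inf_normalizer_sylow Q
      have h3 := inf_eq_left.mpr h1
      exact inf_eq_left.mp (h2.symm.trans h3)
    exact Sylow.ext (P.is_maximal' Q.isPGroup' hle).symm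
  obtain ⟨D, φ, hφ, -⟩ := DK.exists_hom hinj (dickson_main hp2 _ H H.subtype hinj rfl hex)
  exact ⟨φ, hφ⟩

/-- Dickson's Theorem for SL_2: if p is odd and H is a subgroup of SL_2(q), q a power of p, with more than one Sylow p-subgroup, then H contains a copy of SL_2(p). -/
theorem result {F : Type*} [Field F] [Fintype F] (p : ℕ) [Fact p.Prime] [CharP F p] (hp : p ≠ 2) (H : Subgroup (Matrix.SpecialLinearGroup (Fin 2) F)) (hH : 1 < Nat.card (Sylow p H)) : ∃ K : Subgroup (Matrix.SpecialLinearGroup (Fin 2) F), K ≤ H ∧ Nonempty (K ≃* Matrix.SpecialLinearGroup (Fin 2) (ZMod p)) := by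
  obtain ⟨φ, hφ⟩ := aux hp H hH
  refine ⟨(H.subtype.comp φ).range, ?_, ⟨(MonoidHom.ofInjective (f := H.subtype.comp φ) (H.subtype_injective.comp hφ)).symm⟩⟩
  rintro _ ⟨x, rfl⟩
  exact (φ x).2

end Cfsg.Agent.S0274
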