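import Cfsg.Statements.S0275
import Cfsg.Agent.H9.SLt2
import Cfsg.Agent.S0274

set_option autoImplicit false
open Cfsg

namespace Cfsg.Agent.S0275

/-- If p is odd and H is a subgroup of SL_2(q), q a power of p, with more than one Sylow p-subgroup, then the Sylow 2-subgroups of H are generalised quaternion. -/
theorem result {F : Type*} [Field F] [Fintype F] (p : ℕ) [Fact p.Prime] [CharP F p] (hp : p ≠ 2) (H : Subgroup (Matrix.SpecialLinearGroup (Fin 2) F)) (hH : 1 < Nat.card (Sylow p H)) (S : Sylow 2 H) : ∃ k : ℕ, 1 ≤ k ∧ Nonempty ((S : Subgroup H) ≃* QuaternionGroup (2 ^ k)) := by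
  obtain ⟨φ, hφ⟩ := Cfsg.Agent.S0274.aux hp H hH
  obtain ⟨i, j, hi, hj, hij⟩ := CfsgH9.SLt.exists_q8 (F := ZMod p)
  have h2 : (2 : F) ≠ 0 := CfsgH7.two_ne_zero_of_odd (p := p) hp
  -- the unique involution
  have h2' : (2 : ZMod p) ≠ 0 := CfsgH7.two_ne_zero_of_odd (p := p) hp
  have hm : H.subtype (φ CfsgH9.SLt.m1) = CfsgH9.SLt.m1 := by
    apply CfsgH9.SLt.inv_unique h2
    · rw [← map_mul, ← map_mul, CfsgH9.SLt.m1_mul_m1, map_one, map_one]
    · intro h
      apply CfsgH9.SLt.m1_ne_one h2'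
      apply hφ
      apply H.subtype_injective
      rw [h, map_one, map_one]
  refine CfsgH9.SLt.gq_SL2 h2 H.subtype H.subtype_injective (i := φ i) (j := φ j) ?_ ?_ ?_ S
  · rw [← map_mul, ← map_mul, hi, hm]
  · rw [← map_mul, ← map_mul, hj, hm]
  · rw [← map_mul, ← map_mul, hij, map_mul, map_mul, map_mul, map_mul, hm]

end Cfsg.Agent.S0275
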