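import Cfsg.Statements.S0281
import Cfsg.Agent.H9.HermF
import Cfsg.Agent.S0242
import Cfsg.Agent.S0278
import Cfsg.Agent.S0754

set_option autoImplicit false
open Cfsg

namespace Cfsg.Agent.S0281

open Matrix Cfsg

section
variable {F K : Type*} [Field F] [Field K] {i : K →+* F} {σ : F →+* F} {q : ℕ}

theorem herm_eq (hσ : ∀ x, σ x = x ^ q) (u v : Fin 2 → F) : hermForm 2 F q u v = u ⬝ᵥ (fun j => σ (v j)) := by
  rw [hermForm, dotProduct]
  exact Finset.sum_congr rfl (fun j _ => by rw [hσ])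

theorem map_mv (g : Matrix (Fin 2) (Fin 2) F) (v : Fin 2 → F) : (fun j => σ ((g *ᵥ v) j)) = (g.map σ) *ᵥ (fun j => σ (v j)) := by
  ext j
  simp [mulVec, dotProduct, map_sum]

theorem mem_of (hσ : ∀ x, σ x = x ^ q) (g : SpecialLinearGroup (Fin 2) F) (h : (g.1)ᵀ * g.1.map σ = 1) : g ∈ SU 2 F q := by
  intro u v
  change hermForm 2 F q (g.1 *ᵥ u) (g.1 *ᵥ v) = hermForm 2 F q u v
  rw [herm_eq hσ, herm_eq hσ, map_mv, dotProduct_mulVec, ← vecMul_transpose, vecMul_vecMul, h, vecMul_one]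

end

/-- SU_2(q) is isomorphic to SL_2(q). -/
theorem result {F K : Type*} [Field F] [Fintype F] [Field K] [Fintype K] {q : ℕ} (hF : Fintype.card F = q ^ 2) (hK : Fintype.card K = q) : Nonempty (Cfsg.SU 2 F q ≃* Matrix.SpecialLinearGroup (Fin 2) K) := by
  classical
  obtain ⟨σ, hσ, hσ1, hσ2⟩ := CfsgH9.HermF.exists_sigma hF
  have hq1 : 1 < q := by rw [← hK]; exact Fintype.one_lt_card
  -- embedding
  let L : Subfield F := RingHom.eqLocusField σ (RingHom.id F)
  have hL : Nat.card L = q := by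
    rw [← CfsgH9.HermF.card_fixed hF]
    apply Nat.card_congr
    exact Equiv.subtypeEquivRight (fun x => by
      change σ x = x ↔ x ^ q = x
      rw [hσ])
  haveI : Fintype L := Fintype.ofFinite L
  have e : K ≃+* L := FiniteField.ringEquivOfCardEq (by rw [hK, ← hL, Nat.card_eq_fintype_card])
  let i : K →+* F := L.subtype.comp (e : K →+* L)
  have hi : ∀ x, σ (i x) = i x := fun x => (e x).2
  obtain ⟨θ, hθ⟩ : ∃ θ, σ θ ≠ θ := by
    by_contra hcon
    push Not at hcon
    exact hσ1 (RingHom.ext hcon)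
  set δ := θ - σ θ with hδ
  have hδ0 : δ ≠ 0 := sub_ne_zero.2 (Ne.symm hθ)
  have hδσ : σ δ = -δ := by rw [hδ, map_sub, hσ2]; ring
  have h1 := Cfsg.Agent.S0754.result hF (-1) (by simp) (by rw [← hσ, map_neg, map_one])
  have h2 : Nontrivial {x : F // x ^ (q + 1) = -1} := by
    rw [← Finite.one_lt_card_iff_nontrivial, h1]; omega
  obtain ⟨⟨l, hl⟩, ⟨m, hm⟩, hlm⟩ := h2
  have hl' : 1 + l * σ l = 0 := by rw [hσ, ← pow_succ', hl]; ring
  have hm' : 1 + m * σ m = 0 := by rw [hσ, ← pow_succ', hm]; ring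
  have hne : 1 + l * σ m ≠ 0 := by
    intro h0
    have h3 : (l - m) * σ m = 0 := by linear_combination h0 - hm'
    rcases mul_eq_zero.1 h3 with h4 | h4
    · exact hlm (Subtype.ext (sub_eq_zero.1 h4))
    · rw [h4, mul_zero, add_zero] at hm'
      exact one_ne_zero hm'
  set s := σ (δ / (1 + l * σ m)) with hs
  have hσs : σ s * (1 + l * σ m) = δ := by rw [hs, hσ2, div_mul_cancel₀ _ hne]
  have hs2 : s * (1 + m * σ l) = -δ := by
    have := congrArg σ hσs
    rw [map_mul, map_add, map_mul, map_one, hσ2, hσ2, hδσ] at this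
    linear_combination this
  set P : Matrix (Fin 2) (Fin 2) F := !![1, s; l, s * m] with hP
  have hPP : Pᵀ * P.map σ = δ • !![0, 1; -1, 0] := by
    ext j k
    fin_cases j <;> fin_cases k
    · simp [hP, Matrix.mul_apply, Fin.sum_univ_two]; linear_combination hl'
    · simp [hP, Matrix.mul_apply, Fin.sum_univ_two]; linear_combination hσs
    · simp [hP, Matrix.mul_apply, Fin.sum_univ_two]; linear_combination hs2
    · simp [hP, Matrix.mul_apply, Fin.sum_univ_two]; linear_combination (s * σ s) * hm'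
  have hPd : P.det ≠ 0 := by
    intro h0
    have h3 := congrArg Matrix.det hPP
    rw [Matrix.det_mul, Matrix.det_transpose, h0, zero_mul, Matrix.det_smul, Matrix.det_fin_two_of, Fintype.card_fin] at h3
    have : δ ^ 2 = 0 := by linear_combination -h3
    exact hδ0 (pow_eq_zero_iff two_ne_zero |>.1 this)
  let Pg : GL (Fin 2) F := Matrix.GeneralLinearGroup.mkOfDetNeZero P hPd
  have hPg : Pg.1 = P := rfl
  have hPi : P * (Pg⁻¹ : GL (Fin 2) F).1 = 1 := by rw [← hPg, ← Units.val_mul, mul_inv_cancel, Units.val_one]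
  have hPi' : (Pg⁻¹ : GL (Fin 2) F).1 * P = 1 := by rw [← hPg, ← Units.val_mul, inv_mul_cancel, Units.val_one]
  let c : SpecialLinearGroup (Fin 2) K → Matrix (Fin 2) (Fin 2) F := fun g => P * g.1.map i * (Pg⁻¹ : GL (Fin 2) F).1
  have hcdet : ∀ g, (c g).det = 1 := by
    intro g
    have e1 : (g.1.map i).det = 1 := by
      have : (i.mapMatrix g.1).det = i g.1.det := (RingHom.map_det i g.1).symm
      rw [g.2, map_one] at this
      exact this
    have e2 := congrArg Matrix.det hPi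
    rw [Matrix.det_mul, Matrix.det_one] at e2
    rw [Matrix.det_mul, Matrix.det_mul, e1, mul_one, e2]
  have hJ : ∀ g : SpecialLinearGroup (Fin 2) K, (g.1.map i)ᵀ * !![0, 1; -1, 0] * (g.1.map i) = !![0, 1; -1, 0] := by
    intro g
    have e1 := congrArg i g.2
    rw [Matrix.det_fin_two, map_sub, map_mul, map_mul, map_one] at e1
    ext j k
    fin_cases j <;> fin_cases k <;> simp [Matrix.mul_apply, Fin.sum_univ_two]
    · ring
    · linear_combination e1
    · linear_combination -e1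
    · ring
  have hcU : ∀ g, (c g)ᵀ * (c g).map σ = 1 := by
    intro g
    set B := (Pg⁻¹ : GL (Fin 2) F).1 with hB
    have hgσ : (g.1.map i).map σ = g.1.map i := by
      ext j k; simp [hi]
    have e1 : (c g).map σ = P.map σ * (g.1.map i) * B.map σ := by
      change (P * g.1.map i * B).map σ = _
      rw [Matrix.map_mul, Matrix.map_mul, hgσ]
    have e2 : (c g)ᵀ = Bᵀ * (g.1.map i)ᵀ * Pᵀ := by
      change (P * g.1.map i * B)ᵀ = _
      rw [Matrix.transpose_mul, Matrix.transpose_mul, Matrix.mul_assoc]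
    have e3 : (P.map σ) * (B.map σ) = 1 := by
      rw [← Matrix.map_mul, hPi]
      exact Matrix.map_one σ (map_zero σ) (map_one σ)
    have e4 : Bᵀ * Pᵀ = 1 := by
      rw [← Matrix.transpose_mul, hPi, Matrix.transpose_one]
    calc (c g)ᵀ * (c g).map σ = Bᵀ * ((g.1.map i)ᵀ * (Pᵀ * P.map σ) * (g.1.map i)) * B.map σ := by
          rw [e1, e2]; simp only [Matrix.mul_assoc]
      _ = Bᵀ * (Pᵀ * P.map σ) * B.map σ := by
          rw [hPP, Matrix.mul_smul, Matrix.smul_mul, hJ]
      _ = (Bᵀ * Pᵀ) * (P.map σ * B.map σ) := by simp only [Matrix.mul_assoc]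
      _ = 1 := by rw [e3, e4, Matrix.one_mul]
  let f : SpecialLinearGroup (Fin 2) K →* SU 2 F q :=
    { toFun := fun g => ⟨⟨c g, hcdet g⟩, mem_of hσ _ (hcU g)⟩
      map_one' := by
        apply Subtype.ext; apply Subtype.ext
        change P * (1 : Matrix (Fin 2) (Fin 2) K).map i * (Pg⁻¹ : GL (Fin 2) F).1 = 1
        rw [Matrix.map_one i (map_zero i) (map_one i), Matrix.mul_one, hPi]
      map_mul' := by
        intro g g'
        apply Subtype.ext; apply Subtype.ext
        change P * (g.1 * g'.1).map i * (Pg⁻¹ : GL (Fin 2) F).1 = (P * g.1.map i * (Pg⁻¹ : GL (Fin 2) F).1) * (P * g'.1.map i * (Pg⁻¹ : GL (Fin 2) F).1)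
        have : (P * g.1.map i * (Pg⁻¹ : GL (Fin 2) F).1) * (P * g'.1.map i * (Pg⁻¹ : GL (Fin 2) F).1) =
          P * g.1.map i * ((Pg⁻¹ : GL (Fin 2) F).1 * P) * g'.1.map i * (Pg⁻¹ : GL (Fin 2) F).1 := by simp only [Matrix.mul_assoc]
        rw [this, hPi', Matrix.mul_one, Matrix.map_mul]
        simp only [Matrix.mul_assoc] }
  have hinj : Function.Injective f := by
    intro g g' hgg
    have h3 : c g = c g' := congrArg (fun x : SU 2 F q => x.1.1) hgg
    have h4 : ∀ g, (Pg⁻¹ : GL (Fin 2) F).1 * c g * P = g.1.map i := by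
      intro g
      have : (Pg⁻¹ : GL (Fin 2) F).1 * c g * P = ((Pg⁻¹ : GL (Fin 2) F).1 * P) * g.1.map i * ((Pg⁻¹ : GL (Fin 2) F).1 * P) := by
        change (Pg⁻¹ : GL (Fin 2) F).1 * (P * g.1.map i * (Pg⁻¹ : GL (Fin 2) F).1) * P = _
        simp only [Matrix.mul_assoc]
      rw [this, hPi', Matrix.one_mul, Matrix.mul_one]
    have h5 : g.1.map i = g'.1.map i := by rw [← h4, h3, h4]
    apply Subtype.ext
    ext j k
    apply i.injective
    exact congrFun (congrFun h5 j) k
  have hcard : Nat.card (SpecialLinearGroup (Fin 2) K) = Nat.card (SU 2 F q) := by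
    have hSU := Cfsg.Agent.S0278.result hF 2 (by norm_num)
    have hSL := Cfsg.Agent.S0242.result hK 2 (by norm_num)
    rw [Fin.prod_univ_two] at hSL
    rw [Finset.prod_range_succ, Finset.prod_range_one, if_pos (by decide), if_neg (by decide)] at hSU
    obtain ⟨k, rfl⟩ : ∃ k, q = k + 1 := ⟨q - 1, by omega⟩
    have e1 : k + 1 - 1 = k := by omega
    have e2 : (k + 1) ^ 2 - (k + 1) ^ ((0 : Fin 2) : ℕ) = k * (k + 2) := by
      rw [Fin.val_zero, pow_zero]
      have : (k + 1) ^ 2 = k * (k + 2) + 1 := by ring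
      omega
    have e3 : (k + 1) ^ 2 - (k + 1) ^ ((1 : Fin 2) : ℕ) = k * (k + 1) := by
      rw [Fin.val_one, pow_one]
      have : (k + 1) ^ 2 = k * (k + 1) + (k + 1) := by ring
      omega
    have e4 : (k + 1) ^ (1 + 1) - 1 = k * (k + 2) := by
      have : (k + 1) ^ (1 + 1) = k * (k + 2) + 1 := by ring
      omega
    rw [e1, e2, e3] at hSL
    rw [e4, show 2 * (2 - 1) / 2 = 1 from rfl] at hSU
    have hk : 0 < k := by omega
    have h5 : Nat.card (SpecialLinearGroup (Fin 2) K) = k * (k + 2) * (k + 1) := by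
      apply Nat.eq_of_mul_eq_mul_left hk
      rw [hSL]; ring
    have h6 : Nat.card (SU 2 F (k + 1)) = k * (k + 2) * (k + 1) := by
      apply Nat.eq_of_mul_eq_mul_left (show 0 < k + 1 + 1 by omega)
      rw [hSU]; ring
    rw [h5, h6]
  haveI : Finite (SU 2 F q) := inferInstance
  exact ⟨(MulEquiv.ofBijective f ((Nat.bijective_iff_injective_and_card f).2 ⟨hinj, hcard⟩)).symm⟩

end Cfsg.Agent.S0281
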