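import Cfsg.Statements.S0284
import Cfsg.Agent.H9.HermF

set_option autoImplicit false
open Cfsg

namespace Cfsg.Agent.S0284

/-- The standard Hermitian form on F^n, |F| = q^2, has exactly q^(n-1) (q^n - (-1)^n) vectors of norm 1. -/
theorem result {F : Type*} [Field F] [Fintype F] {q : ℕ} (hF : Fintype.card F = q ^ 2) (n : ℕ) : Nat.card {v : Fin n → F // Cfsg.hermForm n F q v v = 1} = (if Even n then q ^ (n - 1) * (q ^ n - 1) else q ^ (n - 1) * (q ^ n + 1)) := by
  obtain ⟨a, b, -, hb, -, hb'⟩ := CfsgH9.HermF.norm_count hF n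
  have h1 := hb 1 one_ne_zero (one_pow q)
  have hq0 := CfsgH9.HermF.q_pos hF
  have hq0' : (q : ℤ) ≠ 0 := by exact_mod_cast hq0.ne'
  rw [← h1] at hb'
  have hp : 1 ≤ q ^ n := Nat.one_le_pow _ _ hq0
  rcases Nat.eq_zero_or_pos n with rfl | hn
  · have h2 : (q : ℤ) * (Nat.card {v : Fin 0 → F // Cfsg.hermForm 0 F q v v = 1} : ℤ) = q * 0 := by rw [hb']; ring
    have h3 := mul_left_cancel₀ hq0' h2
    have h4 : Nat.card {v : Fin 0 → F // Cfsg.hermForm 0 F q v v = 1} = 0 := by exact_mod_cast h3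
    rw [h4]; simp
  obtain ⟨k, rfl⟩ : ∃ k, n = k + 1 := ⟨n - 1, by omega⟩
  rw [Nat.add_sub_cancel]
  have h2 : (Nat.card {v : Fin (k + 1) → F // Cfsg.hermForm (k + 1) F q v v = 1} : ℤ) =
      ((if Even (k + 1) then q ^ k * (q ^ (k + 1) - 1) else q ^ k * (q ^ (k + 1) + 1) : ℕ) : ℤ) := by
    apply mul_left_cancel₀ hq0'
    rw [hb']
    by_cases he : Even (k + 1)
    · rw [if_pos he, he.neg_one_pow]
      push_cast [Nat.cast_sub hp]
      ring
    · rw [if_neg he, (Nat.not_even_iff_odd.1 he).neg_one_pow]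
      push_cast
      ring
  exact_mod_cast h2

end Cfsg.Agent.S0284
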