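import Cfsg.Statements.S0289
import Cfsg.Agent.H9.ClCount

set_option autoImplicit false
open Cfsg

namespace Cfsg.Agent.S0289

/-- The hyperbolic quadratic form on F^(2m), m at least 1, has q^(2m-1) + q^m - q^(m-1) zeros (that is, (q^m - 1)(q^(m-1) + 1) non-zero isotropic vectors). -/
theorem result {F : Type*} [Field F] [Fintype F] {q : ℕ} (hF : Fintype.card F = q) (m : ℕ) (hm : 1 ≤ m) : Nat.card {v : Fin m ⊕ Fin m → F // Cfsg.quadFormPlus m F v = 0} = q ^ (2 * m - 1) + q ^ m - q ^ (m - 1) := by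
  have hz := CfsgH9.ClForms.zc_plus (F := F) m
  have h1 : Nat.card {v : Fin m ⊕ Fin m → F // Cfsg.quadFormPlus m F v = 0} = CfsgH9.CountHyp.zc (CfsgH9.ClForms.qPlus m F) := by
    rw [CfsgH9.CountHyp.zc, CfsgH9.ClForms.qPlus_coe]
  have hq : Nat.card F = q := by rw [Nat.card_eq_fintype_card, hF]
  have hq0 : 0 < q := by rw [← hF]; exact Fintype.card_pos
  have hcV : Nat.card (Fin m ⊕ Fin m → F) = q ^ (2 * m) := by
    rw [Nat.card_eq_fintype_card, Fintype.card_fun, Fintype.card_sum, Fintype.card_fin, hF]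
    congr 1; omega
  rw [hq, hcV] at hz
  rw [h1]
  obtain ⟨k, rfl⟩ : ∃ k, m = k + 1 := ⟨m - 1, by omega⟩
  have e1 : 2 * (k + 1) - 1 = 2 * k + 1 := by omega
  rw [e1, Nat.add_sub_cancel]
  have h2 : q * (CfsgH9.CountHyp.zc (CfsgH9.ClForms.qPlus (k + 1) F) + q ^ k) = q * (q ^ (2 * k + 1) + q ^ (k + 1)) := by
    have e2 : q ^ (2 * (k + 1)) = q * q ^ (2 * k + 1) := by ring
    have e3 : q ^ (k + 1) = q * q ^ k := by ring
    rw [e2] at hz
    rw [mul_add, mul_add, ← hz, e3]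
  have h3 := Nat.eq_of_mul_eq_mul_left hq0 h2
  omega

end Cfsg.Agent.S0289
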