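import Cfsg.Statements.S0290
import Cfsg.Agent.H9.ClCount

set_option autoImplicit false
open Cfsg

namespace Cfsg.Agent.S0290

/-- The minus-type quadratic form on F^(2m), m at least 1, has q^(2m-1) + q^(m-1) - q^m zeros (that is, (q^m + 1)(q^(m-1) - 1) non-zero isotropic vectors). -/
theorem result {F : Type*} [Field F] [Fintype F] {q : ℕ} (hF : Fintype.card F = q) (m : ℕ) (hm : 1 ≤ m) (a b : F) (hab : ∀ z₁ z₂ : F, z₁ ^ 2 + a * z₁ * z₂ + b * z₂ ^ 2 = 0 → z₁ = 0 ∧ z₂ = 0) : Nat.card {v : (Fin (m - 1) ⊕ Fin (m - 1)) ⊕ Fin 2 → F // Cfsg.quadFormMinus (m - 1) F a b v = 0} = q ^ (2 * m - 1) + q ^ (m - 1) - q ^ m := by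
  obtain ⟨k, rfl⟩ : ∃ k, m = k + 1 := ⟨m - 1, by omega⟩
  have hz := CfsgH9.ClForms.zc_minus (F := F) k hab
  rw [Nat.add_sub_cancel]
  have h1 : Nat.card {v : (Fin k ⊕ Fin k) ⊕ Fin 2 → F // Cfsg.quadFormMinus k F a b v = 0} = CfsgH9.CountHyp.zc (CfsgH9.ClForms.qMinus k a b) := by
    rw [CfsgH9.CountHyp.zc, CfsgH9.ClForms.qMinus_coe]
  have hq : Nat.card F = q := by rw [Nat.card_eq_fintype_card, hF]
  have hq0 : 0 < q := by rw [← hF]; exact Fintype.card_pos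
  have hcV : Nat.card ((Fin k ⊕ Fin k) ⊕ Fin 2 → F) = q ^ (2 * (k + 1)) := by
    rw [Nat.card_eq_fintype_card, Fintype.card_fun, Fintype.card_sum, Fintype.card_sum, Fintype.card_fin, Fintype.card_fin, hF]
    congr 1; omega
  rw [hq, hcV] at hz
  rw [h1]
  have e1 : 2 * (k + 1) - 1 = 2 * k + 1 := by omega
  rw [e1]
  have h2 : q * (CfsgH9.CountHyp.zc (CfsgH9.ClForms.qMinus k a b) + q ^ (k + 1)) = q * (q ^ (2 * k + 1) + q ^ k) := by
    have e2 : q ^ (2 * (k + 1)) = q * q ^ (2 * k + 1) := by ring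
    have e3 : q ^ (k + 1) = q * q ^ k := by ring
    rw [e2] at hz
    rw [mul_add, mul_add, hz, e3]
  have h3 := Nat.eq_of_mul_eq_mul_left hq0 h2
  omega

end Cfsg.Agent.S0290
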