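import Cfsg.Statements.S0291
import Cfsg.Agent.H9.ClCount

set_option autoImplicit false
open Cfsg

namespace Cfsg.Agent.S0291

/-- For q odd, the form x_0^2 + sum_{i<m} x_i y_i on F^(2m+1) has exactly q^(2m) zeros. -/
theorem result {F : Type*} [Field F] [Fintype F] {q : ℕ} (hF : Fintype.card F = q) (hodd : Odd q) (m : ℕ) : Nat.card {v : Unit ⊕ (Fin m ⊕ Fin m) → F // Cfsg.quadFormOdd m F v = 0} = q ^ (2 * m) := by
  have hz := CfsgH9.ClForms.zc_odd (F := F) m
  have h1 : Nat.card {v : Unit ⊕ (Fin m ⊕ Fin m) → F // Cfsg.quadFormOdd m F v = 0} = CfsgH9.CountHyp.zc (CfsgH9.ClForms.qOdd m F) := by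
    rw [CfsgH9.CountHyp.zc, CfsgH9.ClForms.qOdd_coe]
  have hq : Nat.card F = q := by rw [Nat.card_eq_fintype_card, hF]
  have hq0 : 0 < q := by rw [← hF]; exact Fintype.card_pos
  have hcV : Nat.card (Unit ⊕ (Fin m ⊕ Fin m) → F) = q * q ^ (2 * m) := by
    rw [Nat.card_eq_fintype_card, Fintype.card_fun, Fintype.card_sum, Fintype.card_sum, Fintype.card_fin, Fintype.card_unit, hF,
      ← pow_succ']
    congr 1; omega
  rw [hq, hcV] at hz
  rw [h1]
  exact Nat.eq_of_mul_eq_mul_left hq0 hz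

end Cfsg.Agent.S0291
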