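import Cfsg.Statements.S0293
import Cfsg.Agent.H9.Og11
import Cfsg.Agent.S0287

set_option autoImplicit false
open Cfsg

namespace Cfsg.Agent.S0293

/-- gcd(4, q^m - 1) |PΩ^+_{2m}(q)| = q^(m(m-1)) (q^m - 1) prod_{i=1}^{m-1} (q^(2i) - 1), m at least 4 (type D_m). -/
theorem result {F : Type*} [Field F] [Fintype F] {q : ℕ} (hF : Fintype.card F = q) (m : ℕ) (hm : 4 ≤ m) : Nat.gcd 4 (q ^ m - 1) * Nat.card (Cfsg.POmega F (Cfsg.quadFormPlus m F)) = q ^ (m * (m - 1)) * (q ^ m - 1) * ∏ i ∈ Finset.range (m - 1), (q ^ (2 * (i + 1)) - 1) := by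
  subst hF
  by_cases hodd : Odd (Fintype.card F)
  · have h1 := CfsgH9.Og.card_plus_odd (F := F) hodd m (by omega)
    rw [Cfsg.Agent.S0287.result rfl m (by omega)] at h1
    have h2 : 2 * (Nat.gcd 4 (Fintype.card F ^ m - 1) * Nat.card (Cfsg.POmega F (Cfsg.quadFormPlus m F))) = 2 * (Fintype.card F ^ (m * (m - 1)) * (Fintype.card F ^ m - 1) * ∏ i ∈ Finset.range (m - 1), (Fintype.card F ^ (2 * (i + 1)) - 1)) := by
      rw [h1]; ring
    exact Nat.eq_of_mul_eq_mul_left two_pos h2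
  · have h0 := CfsgH9.Og.two_eq hodd
    have hf := CfsgH9.Og.qf_of_quad (CfsgH9.ClForms.qPlus m F) (CfsgH9.ClForms.nondeg_plus m F)
    rw [CfsgH9.ClForms.qPlus_coe] at hf
    have h1 := CfsgH9.Og.card_POmega_even hf (by rw [Fintype.card_sum, Fintype.card_fin]; omega) h0
    rw [Cfsg.Agent.S0287.result rfl m (by omega)] at h1
    have h3 : Nat.gcd 4 (Fintype.card F ^ m - 1) = 1 := by
      rw [Nat.not_odd_iff_even] at hodd
      have h4 : Even (Fintype.card F ^ m) := hodd.pow_of_ne_zero (by omega) 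
      have h5 : 0 < Fintype.card F ^ m := pow_pos Fintype.card_pos _
      have h6 : Nat.Coprime 2 (Fintype.card F ^ m - 1) := by
        rw [Nat.coprime_two_left]
        exact Nat.Even.sub_odd h5 h4 odd_one
      exact Nat.Coprime.pow_left 2 h6
    rw [h3, one_mul]
    have h2 : 2 * Nat.card (Cfsg.POmega F (Cfsg.quadFormPlus m F)) = 2 * (Fintype.card F ^ (m * (m - 1)) * (Fintype.card F ^ m - 1) * ∏ i ∈ Finset.range (m - 1), (Fintype.card F ^ (2 * (i + 1)) - 1)) := by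
      rw [h1]; ring
    exact Nat.eq_of_mul_eq_mul_left two_pos h2

end Cfsg.Agent.S0293
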