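import Cfsg.Statements.S0295
import Cfsg.Agent.H9.Og9
import Cfsg.Agent.H9.ClForms

set_option autoImplicit false
open Cfsg

namespace Cfsg.Agent.S0295

/-- PΩ_{2m+1}(q) is simple for q odd and m at least 3. -/
theorem result {F : Type*} [Field F] [Fintype F] (hodd : Odd (Fintype.card F)) (m : ℕ) (hm : 3 ≤ m) : IsSimpleGroup (Cfsg.POmega F (Cfsg.quadFormOdd m F)) := by
  have h2 : (2 : F) ≠ 0 := by
    intro h
    haveI : CharP F 2 := CharTwo.of_one_ne_zero_of_two_eq_zero one_ne_zero h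
    obtain ⟨n, hp, hn⟩ := FiniteField.card F 2
    rw [hn] at hodd
    exact (Nat.not_even_iff_odd.2 hodd) (Nat.even_pow.2 ⟨even_two, n.ne_zero⟩)
  have hf := CfsgH9.Og.qf_of_quad (CfsgH9.ClForms.qOdd m F) (CfsgH9.ClForms.nondeg_odd m F h2)
  rw [CfsgH9.ClForms.qOdd_coe] at hf
  have hc : Fintype.card (Unit ⊕ (Fin m ⊕ Fin m)) = 2 * m + 1 := by
    rw [Fintype.card_sum, Fintype.card_sum, Fintype.card_fin, Fintype.card_unit]; omega
  exact CfsgH9.Og.simple_POmega hf (by rw [hc]; omega)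

end Cfsg.Agent.S0295
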