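import Cfsg.Statements.S0296
import Cfsg.Agent.H9.Og9
import Cfsg.Agent.H9.ClForms

set_option autoImplicit false
open Cfsg

namespace Cfsg.Agent.S0296

/-- PΩ^+_{2m}(q) is simple for m at least 4. -/
theorem result {F : Type*} [Field F] [Fintype F] (m : ℕ) (hm : 4 ≤ m) : IsSimpleGroup (Cfsg.POmega F (Cfsg.quadFormPlus m F)) := by
  have hf := CfsgH9.Og.qf_of_quad (CfsgH9.ClForms.qPlus m F) (CfsgH9.ClForms.nondeg_plus m F)
  rw [CfsgH9.ClForms.qPlus_coe] at hf
  have hc : Fintype.card (Fin m ⊕ Fin m) = 2 * m := by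
    rw [Fintype.card_sum, Fintype.card_fin]; omega
  exact CfsgH9.Og.simple_POmega hf (by rw [hc]; omega)

end Cfsg.Agent.S0296
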