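import Cfsg.Statements.S0297
import Cfsg.Agent.H9.Og9
import Cfsg.Agent.H9.ClCount

set_option autoImplicit false
open Cfsg

namespace Cfsg.Agent.S0297

/-- PΩ^-_{2m}(q) is simple for m at least 4 (the form is quadFormMinus (m-1) with anisotropic binary part). -/
theorem result {F : Type*} [Field F] [Fintype F] (m : ℕ) (hm : 4 ≤ m) (a b : F) (hab : ∀ z₁ z₂ : F, z₁ ^ 2 + a * z₁ * z₂ + b * z₂ ^ 2 = 0 → z₁ = 0 ∧ z₂ = 0) : IsSimpleGroup (Cfsg.POmega F (Cfsg.quadFormMinus (m - 1) F a b)) := by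
  have hf := CfsgH9.Og.qf_of_quad (CfsgH9.ClForms.qMinus (m - 1) a b) (CfsgH9.ClForms.nondeg_minus (m - 1) hab)
  rw [CfsgH9.ClForms.qMinus_coe] at hf
  have hc : Fintype.card ((Fin (m - 1) ⊕ Fin (m - 1)) ⊕ Fin 2) = 2 * m := by
    rw [Fintype.card_sum, Fintype.card_sum, Fintype.card_fin, Fintype.card_fin]; omega
  exact CfsgH9.Og.simple_POmega hf (by rw [hc]; omega)

end Cfsg.Agent.S0297
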