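import Cfsg.Statements.S0298
import Cfsg.Agent.H9.PO
import Cfsg.Agent.S0242
import Cfsg.Agent.S0264
import Cfsg.Agent.S0286

set_option autoImplicit false
open Cfsg

namespace Cfsg.Agent.S0298

open Matrix Cfsg CfsgH9.Og CfsgH9.ClForms CfsgH9.PO

section
variable {F : Type*} [Field F]

abbrev I3 := Unit ⊕ (Fin 1 ⊕ Fin 1)

def toM (v : I3 → F) : Matrix (Fin 2) (Fin 2) F := !![v (Sum.inl ()), v (Sum.inr (Sum.inl 0)); v (Sum.inr (Sum.inr 0)), - v (Sum.inl ())]

def frM (M : Matrix (Fin 2) (Fin 2) F) : I3 → F := Sum.elim (fun _ => M 0 0) (Sum.elim (fun _ => M 0 1) (fun _ => M 1 0))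

theorem frM_toM (v : I3 → F) : frM (toM v) = v := by
  ext i
  rcases i with ⟨⟩ | i | i
  · rfl
  · fin_cases i; rfl
  · fin_cases i; rfl

theorem toM_frM {M : Matrix (Fin 2) (Fin 2) F} (h : M.trace = 0) : toM (frM M) = M := by
  rw [Matrix.trace_fin_two] at h
  ext i j
  fin_cases i <;> fin_cases j
  · rfl
  · rfl
  · rfl
  · change - M 0 0 = M 1 1
    linear_combination -h

theorem tr_toM (v : I3 → F) : (toM v).trace = 0 := by
  rw [Matrix.trace_fin_two]; simp [toM]

def act (g g' : Matrix (Fin 2) (Fin 2) F) : Matrix I3 I3 F := LinearMap.toMatrix'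
  { toFun := fun v => frM (g * toM v * g')
    map_add' := by
      intro u v
      have : toM (u + v) = toM u + toM v := by
        ext i j; fin_cases i <;> fin_cases j <;> simp [toM]; ring
      rw [this, Matrix.mul_add, Matrix.add_mul]
      ext i
      rcases i with ⟨⟩ | i | i <;> rfl
    map_smul' := by
      intro c v
      have : toM (c • v) = c • toM v := by
        ext i j; fin_cases i <;> fin_cases j <;> simp [toM]
      rw [this, Matrix.mul_smul, Matrix.smul_mul]
      ext i
      rcases i with ⟨⟩ | i | i <;> rfl }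

theorem act_mulVec (g g' : Matrix (Fin 2) (Fin 2) F) (v : I3 → F) : act g g' *ᵥ v = frM (g * toM v * g') := by
  rw [act, LinearMap.toMatrix'_mulVec]; rfl

theorem toM_act {g g' : Matrix (Fin 2) (Fin 2) F} (h : g' * g = 1) (v : I3 → F) : toM (act g g' *ᵥ v) = g * toM v * g' := by
  rw [act_mulVec, toM_frM]
  rw [Matrix.mul_assoc, Matrix.trace_mul_comm, Matrix.mul_assoc, h, Matrix.mul_one, tr_toM]

theorem toM_inj {u v : I3 → F} (h : toM u = toM v) : u = v := by
  rw [← frM_toM u, h, frM_toM]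

theorem ext' {A B : Matrix I3 I3 F} (h : ∀ x, A *ᵥ x = B *ᵥ x) : A = B := Matrix.ext_of_mulVec_single fun i => h _

def rho0 : GL (Fin 2) F →* GL I3 F := MonoidHom.toHomUnits
  { toFun := fun g => act g.1 (g⁻¹ : GL (Fin 2) F).1
    map_one' := by
      apply ext'
      intro v
      rw [act_mulVec, inv_one, Units.val_one, Matrix.one_mul, Matrix.mul_one, frM_toM, one_mulVec]
    map_mul' := by
      intro g h
      apply ext'
      intro v
      have e1 : ∀ g : GL (Fin 2) F, (g⁻¹ : GL (Fin 2) F).1 * g.1 = 1 := fun g => by rw [← Units.val_mul, inv_mul_cancel, Units.val_one]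
      rw [← mulVec_mulVec]
      apply toM_inj
      rw [toM_act (e1 (g * h)), toM_act (e1 g), toM_act (e1 h), _root_.mul_inv_rev, Units.val_mul, Units.val_mul]
      simp only [Matrix.mul_assoc] }

theorem rho0_val (g : GL (Fin 2) F) : (rho0 g).1 = act g.1 (g⁻¹ : GL (Fin 2) F).1 := rfl

theorem toM_rho0 (g : GL (Fin 2) F) (v : I3 → F) : toM ((rho0 g).1 *ᵥ v) = g.1 * toM v * (g⁻¹ : GL (Fin 2) F).1 := by
  rw [rho0_val, toM_act]
  rw [← Units.val_mul, inv_mul_cancel, Units.val_one]

theorem Q_eq (v : I3 → F) : quadFormOdd 1 F v = - (toM v).det := by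
  rw [quadFormOdd, toM, Matrix.det_fin_two_of, Fin.sum_univ_one]; ring

def rho : GL (Fin 2) F →* isometryGroup F (quadFormOdd 1 F) := rho0.codRestrict _ (by
  intro g u v
  change quadFormOdd 1 F ((rho0 g).1 *ᵥ u) = quadFormOdd 1 F u
  rw [Q_eq, Q_eq, toM_rho0, Matrix.det_mul, Matrix.det_mul]
  have : g.1.det * (g⁻¹ : GL (Fin 2) F).1.det = 1 := by
    rw [← Matrix.det_mul, ← Units.val_mul, mul_inv_cancel, Units.val_one, Matrix.det_one]
  linear_combination (-(toM u).det) * this)

theorem rho_one {g : GL (Fin 2) F} (h : rho g = 1) : ∃ c : F, g.1 = c • 1 := by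
  have h1 : ∀ v : I3 → F, g.1 * toM v = toM v * g.1 := by
    intro v
    have h2 := toM_rho0 g v
    have h3 : (rho0 g).1 = 1 := congrArg (fun x : isometryGroup F (quadFormOdd 1 F) => (x : GL I3 F).1) h
    rw [h3, one_mulVec] at h2
    conv_rhs => rw [h2]
    rw [Matrix.mul_assoc _ _ g.1, ← Units.val_mul, inv_mul_cancel, Units.val_one, Matrix.mul_one]
  have h2 := h1 (Sum.elim (fun _ => 0) (Sum.elim (fun _ => 1) (fun _ => 0)))
  have h3 := h1 (Sum.elim (fun _ => 0) (Sum.elim (fun _ => 0) (fun _ => 1)))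
  have a1 := congrFun (congrFun h2 0) 0
  have a2 := congrFun (congrFun h2 0) 1
  have b1 := congrFun (congrFun h3 0) 0
  simp [toM, Matrix.mul_apply, Fin.sum_univ_two] at a1 a2 b1
  refine ⟨g.1 0 0, ?_⟩
  ext i j
  fin_cases i <;> fin_cases j
  · simp
  · simp [b1]
  · simp [← a1]
  · simp [a2]

end

/-- PΩ_3(q) is isomorphic to PSL_2(q) for q odd. -/
theorem result {F : Type*} [Field F] [Fintype F] (hodd : Odd (Fintype.card F)) : Nonempty (Cfsg.POmega F (Cfsg.quadFormOdd 1 F) ≃* Matrix.ProjectiveSpecialLinearGroup (Fin 2) F) := by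
  classical
  have h2 := two_ne hodd
  let ι : SpecialLinearGroup (Fin 2) F →* GL (Fin 2) F := Matrix.SpecialLinearGroup.toGL
  let ρ : SpecialLinearGroup (Fin 2) F →* isometryGroup F (quadFormOdd 1 F) := rho.comp ι
  have hc : ∃ a : F, a ≠ 0 ∧ a ≠ 1 := two_c (h2 := h2)
  have hρ : ∀ x, ρ x ∈ commutator (isometryGroup F (quadFormOdd 1 F)) := by
    intro x
    have h3 : ι x ∈ commutator (GL (Fin 2) F) := by
      rw [Cfsg.Agent.S0264.result 2 (fun _ => hc), MonoidHom.mem_ker]
      apply Units.ext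
      exact x.2
    have h4 : (commutator (GL (Fin 2) F)).map rho ≤ commutator (isometryGroup F (quadFormOdd 1 F)) := by
      rw [commutator_def, Subgroup.map_commutator]
      exact Subgroup.commutator_mono le_top le_top
    exact h4 ⟨_, h3, rfl⟩
  have hval : ∀ x : SpecialLinearGroup (Fin 2) F, (ι x).1 = x.1 := fun x => rfl
  have hker : Nat.card ρ.ker ≤ 2 := by
    apply ker_le_two ρ.ker (fun x => x.1) (fun x y h => Subtype.ext h)
    intro x hx
    obtain ⟨c, hc⟩ := rho_one (g := ι x) hx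
    rw [hval] at hc
    refine ⟨c, ?_, hc⟩
    have := x.2
    rw [hc, Matrix.det_smul, Matrix.det_one, Fintype.card_fin, mul_one] at this
    exact this
  have hX := card_range ρ
  set q := Fintype.card F with hq
  have h1q : 1 < q := Fintype.one_lt_card
  have hSL := Cfsg.Agent.S0242.result (F := F) rfl 2 (by norm_num)
  rw [Fin.prod_univ_two] at hSL
  have hO := Cfsg.Agent.S0286.result (F := F) rfl hodd 1
  have hidx : (commutator (isometryGroup F (quadFormOdd 1 F))).index = 4 := by
    have hf := qf_of_quad (qOdd 1 F) (nondeg_odd 1 F h2)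
    rw [qOdd_coe] at hf
    exact index_odd hf h2 (Or.inl hc) (by simp)
  have hmul := Subgroup.card_mul_index (commutator (isometryGroup F (quadFormOdd 1 F)))
  have hcard : Nat.card (commutator (isometryGroup F (quadFormOdd 1 F))) ≤ Nat.card ρ.range := by
    rw [hidx, hO] at hmul
    obtain ⟨k, hk⟩ : ∃ k, q = k + 2 := ⟨q - 2, by omega⟩
    rw [← hq] at hSL hmul
    rw [hk] at hSL hmul
    have e1 : k + 2 - 1 = k + 1 := by omega
    have e2 : (k + 2) ^ 2 - (k + 2) ^ ((0 : Fin 2) : ℕ) = (k + 1) * (k + 3) := by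
      rw [Fin.val_zero, pow_zero]
      have : (k + 2) ^ 2 = (k + 1) * (k + 3) + 1 := by ring
      omega
    have e3 : (k + 2) ^ 2 - (k + 2) ^ ((1 : Fin 2) : ℕ) = (k + 1) * (k + 2) := by
      rw [Fin.val_one, pow_one]
      have : (k + 2) ^ 2 = (k + 1) * (k + 2) + (k + 2) := by ring
      omega
    rw [e1, e2, e3] at hSL
    have e4 : Nat.card (SpecialLinearGroup (Fin 2) F) = (k + 3) * ((k + 1) * (k + 2)) := by
      apply Nat.eq_of_mul_eq_mul_left (show 0 < k + 1 by omega)
      rw [hSL]; ring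
    have e5 : (k + 2) ^ (2 * (0 + 1)) - 1 = (k + 1) * (k + 3) := by
      have : (k + 2) ^ (2 * (0 + 1)) = (k + 1) * (k + 3) + 1 := by ring
      omega
    rw [Finset.prod_range_one, e5] at hmul
    rw [e4] at hX
    have e6 : (k + 3) * ((k + 1) * (k + 2)) ≤ Nat.card ρ.range * 2 := by
      rw [hX]; exact Nat.mul_le_mul_left _ hker
    have e7 : 2 * (k + 2) ^ 1 ^ 2 * ((k + 1) * (k + 3)) = 2 * ((k + 3) * ((k + 1) * (k + 2))) := by ring
    rw [e7] at hmul
    omega
  refine po_equiv ρ (QuotientGroup.mk' (Subgroup.center (SpecialLinearGroup (Fin 2) F))) (QuotientGroup.mk'_surjective _) hρ hcard ?_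
  intro x
  rw [QuotientGroup.mk'_apply, QuotientGroup.eq_one_iff]
  constructor
  · intro hx y
    rw [Subgroup.mem_center_iff.1 hx y]
  · intro hx
    have key : ∀ y : SpecialLinearGroup (Fin 2) F, y.1.trace = 2 → x.1 * y.1 = y.1 * x.1 := by
      intro y hy
      have h3 : rho (ι ((y * x)⁻¹ * (x * y))) = 1 := by
        change ρ ((y * x)⁻¹ * (x * y)) = 1
        rw [map_mul, map_inv, hx y, inv_mul_cancel]
      obtain ⟨c, hc⟩ := rho_one h3
      rw [hval] at hc
      have h4 : x.1 * y.1 = c • (y.1 * x.1) := by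
        have h5 : (y * x) * ((y * x)⁻¹ * (x * y)) = x * y := by group
        have h6 := congrArg Subtype.val h5
        change (y.1 * x.1) * ((y * x)⁻¹ * (x * y) : SpecialLinearGroup (Fin 2) F).1 = x.1 * y.1 at h6
        rw [hc, Matrix.mul_smul, Matrix.mul_one] at h6
        exact h6.symm
      have h5 : x.1 * y.1 * (x⁻¹ : SpecialLinearGroup (Fin 2) F).1 = c • y.1 := by
        rw [h4, Matrix.smul_mul, Matrix.mul_assoc]
        have : x.1 * (x⁻¹ : SpecialLinearGroup (Fin 2) F).1 = 1 := by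
          change (x * x⁻¹ : SpecialLinearGroup (Fin 2) F).1 = 1
          rw [mul_inv_cancel]; rfl
        rw [this, Matrix.mul_one]
      have h6 := congrArg Matrix.trace h5
      rw [Matrix.trace_mul_comm, ← Matrix.mul_assoc, Matrix.trace_smul] at h6
      have h7 : (x⁻¹ : SpecialLinearGroup (Fin 2) F).1 * x.1 = 1 := by
        change (x⁻¹ * x : SpecialLinearGroup (Fin 2) F).1 = 1
        rw [inv_mul_cancel]; rfl
      rw [h7, Matrix.one_mul, hy, smul_eq_mul] at h6
      have h8 : c = 1 := by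
        apply mul_right_cancel₀ h2
        rw [← h6, one_mul]
      rw [h4, h8, one_smul]
    have k1 := key ⟨!![1, 1; 0, 1], by simp [Matrix.det_fin_two_of]⟩ (by simp [Matrix.trace_fin_two]; norm_num)
    have k2 := key ⟨!![1, 0; 1, 1], by simp [Matrix.det_fin_two_of]⟩ (by simp [Matrix.trace_fin_two]; norm_num)
    have a1 := congrFun (congrFun k1 0) 0
    have a2 := congrFun (congrFun k1 0) 1
    have b1 := congrFun (congrFun k2 0) 0
    simp [Matrix.mul_apply, Fin.sum_univ_two] at a1 a2 b1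
    rw [Subgroup.mem_center_iff]
    intro y
    apply Subtype.ext
    change y.1 * x.1 = x.1 * y.1
    have hxs : x.1 = x.1 0 0 • (1 : Matrix (Fin 2) (Fin 2) F) := by
      ext i j
      fin_cases i <;> fin_cases j
      · simp
      · simp [b1]
      · simp [a1]
      · simp; linear_combination -a2
    rw [hxs, Matrix.mul_smul, Matrix.smul_mul, Matrix.mul_one, Matrix.one_mul]

end Cfsg.Agent.S0298
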