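import Cfsg.Statements.S0299
import Cfsg.Agent.H9.PO
import Cfsg.Agent.H9.Transv
import Cfsg.Agent.S0242
import Cfsg.Agent.S0264
import Cfsg.Agent.S0287

set_option autoImplicit false
open Cfsg

namespace Cfsg.Agent.S0299

open Matrix Cfsg CfsgH9.Og CfsgH9.ClForms CfsgH9.PO
open scoped commutatorElement

section
variable {F : Type*} [Field F]

abbrev I4 := Fin 2 ⊕ Fin 2

def toM (v : I4 → F) : Matrix (Fin 2) (Fin 2) F := !![v (Sum.inl 0), - v (Sum.inl 1); v (Sum.inr 1), v (Sum.inr 0)]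

def frM (M : Matrix (Fin 2) (Fin 2) F) : I4 → F := Sum.elim ![M 0 0, - M 0 1] ![M 1 1, M 1 0]

theorem frM_toM (v : I4 → F) : frM (toM v) = v := by
  ext i
  rcases i with i | i <;> fin_cases i <;> simp [frM, toM]

theorem toM_frM (M : Matrix (Fin 2) (Fin 2) F) : toM (frM M) = M := by
  ext i j
  fin_cases i <;> fin_cases j <;> simp [frM, toM]

def act (g g' : Matrix (Fin 2) (Fin 2) F) : Matrix I4 I4 F := LinearMap.toMatrix'
  { toFun := fun v => frM (g * toM v * g')
    map_add' := by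
      intro u v
      have : toM (u + v) = toM u + toM v := by
        ext i j; fin_cases i <;> fin_cases j <;> simp [toM]; ring
      rw [this, Matrix.mul_add, Matrix.add_mul]
      ext i
      rcases i with i | i <;> fin_cases i <;> simp [frM]; ring
    map_smul' := by
      intro c v
      have : toM (c • v) = c • toM v := by
        ext i j; fin_cases i <;> fin_cases j <;> simp [toM]
      rw [this, Matrix.mul_smul, Matrix.smul_mul]
      ext i
      rcases i with i | i <;> fin_cases i <;> simp [frM] }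

theorem act_mulVec (g g' : Matrix (Fin 2) (Fin 2) F) (v : I4 → F) : act g g' *ᵥ v = frM (g * toM v * g') := by
  rw [act, LinearMap.toMatrix'_mulVec]; rfl

theorem toM_act (g g' : Matrix (Fin 2) (Fin 2) F) (v : I4 → F) : toM (act g g' *ᵥ v) = g * toM v * g' := by
  rw [act_mulVec, toM_frM]

theorem toM_inj {u v : I4 → F} (h : toM u = toM v) : u = v := by
  rw [← frM_toM u, h, frM_toM]

theorem ext' {A B : Matrix I4 I4 F} (h : ∀ x, A *ᵥ x = B *ᵥ x) : A = B := Matrix.ext_of_mulVec_single fun i => h _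

abbrev G2 (F : Type*) [Field F] := GL (Fin 2) F × GL (Fin 2) F

def rho0 : G2 F →* GL I4 F := MonoidHom.toHomUnits
  { toFun := fun g => act g.1.1 (g.2⁻¹ : GL (Fin 2) F).1
    map_one' := by
      apply ext'
      intro v
      rw [act_mulVec, Prod.snd_one, Prod.fst_one, inv_one, Units.val_one, Matrix.one_mul, Matrix.mul_one, frM_toM, one_mulVec]
    map_mul' := by
      intro g h
      apply ext'
      intro v
      rw [← mulVec_mulVec]
      apply toM_inj
      rw [toM_act, toM_act, toM_act, Prod.snd_mul, Prod.fst_mul, _root_.mul_inv_rev, Units.val_mul, Units.val_mul]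
      simp only [Matrix.mul_assoc] }

theorem toM_rho0 (g : G2 F) (v : I4 → F) : toM ((rho0 g).1 *ᵥ v) = g.1.1 * toM v * (g.2⁻¹ : GL (Fin 2) F).1 := toM_act _ _ _

theorem Q_eq (v : I4 → F) : quadFormPlus 2 F v = (toM v).det := by
  rw [quadFormPlus, toM, Matrix.det_fin_two_of, Fin.sum_univ_two]; ring

/-- pairs with equal determinant -/
def H (F : Type*) [Field F] : Subgroup (G2 F) where
  carrier := {g | g.1.1.det = g.2.1.det}
  mul_mem' := by
    intro a b ha hb
    change (a.1.1 * b.1.1).det = (a.2.1 * b.2.1).det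
    rw [Matrix.det_mul, Matrix.det_mul, show a.1.1.det = a.2.1.det from ha, show b.1.1.det = b.2.1.det from hb]
  one_mem' := rfl
  inv_mem' := by
    intro a ha
    have h1 : ∀ g : GL (Fin 2) F, (g⁻¹ : GL (Fin 2) F).1.det = (g.1.det)⁻¹ := by
      intro g
      rw [Matrix.coe_units_inv, Matrix.det_nonsing_inv, Ring.inverse_eq_inv']
    change (a.1⁻¹ : GL (Fin 2) F).1.det = (a.2⁻¹ : GL (Fin 2) F).1.det
    rw [h1, h1, show a.1.1.det = a.2.1.det from ha]

def rho : H F →* isometryGroup F (quadFormPlus 2 F) := (rho0.comp (Subgroup.subtype _)).codRestrict _ (by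
  rintro ⟨g, hg⟩ u v
  change quadFormPlus 2 F ((rho0 g).1 *ᵥ u) = quadFormPlus 2 F u
  rw [Q_eq, Q_eq, toM_rho0, Matrix.det_mul, Matrix.det_mul]
  have : g.2.1.det * (g.2⁻¹ : GL (Fin 2) F).1.det = 1 := by
    rw [← Matrix.det_mul, ← Units.val_mul, mul_inv_cancel, Units.val_one, Matrix.det_one]
  rw [show g.1.1.det = g.2.1.det from hg]
  linear_combination ((toM u).det) * this)

theorem rho_one {g : H F} (h : rho g = 1) : ∃ c : F, g.1.1.1 = c • 1 ∧ g.1.2.1 = c • 1 := by
  have h1 : ∀ v : I4 → F, g.1.1.1 * toM v = toM v * g.1.2.1 := by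
    intro v
    have h2 := toM_rho0 g.1 v
    have h3 : (rho0 g.1).1 = 1 := congrArg (fun x : isometryGroup F (quadFormPlus 2 F) => (x : GL I4 F).1) h
    rw [h3, one_mulVec] at h2
    conv_rhs => rw [h2]
    rw [Matrix.mul_assoc _ _ g.1.2.1, ← Units.val_mul, inv_mul_cancel, Units.val_one, Matrix.mul_one]
  have h0 := h1 (frM 1)
  rw [toM_frM, Matrix.mul_one, Matrix.one_mul] at h0
  have h2 := h1 (frM !![0, 1; 0, 0])
  have h3 := h1 (frM !![0, 0; 1, 0])
  rw [toM_frM] at h2 h3
  have a1 := congrFun (congrFun h2 0) 0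
  have a2 := congrFun (congrFun h2 0) 1
  have b1 := congrFun (congrFun h3 0) 0
  simp [Matrix.mul_apply, Fin.sum_univ_two] at a1 a2 b1
  have e : g.1.1.1 = g.1.1.1 0 0 • 1 := by
    ext i j
    fin_cases i <;> fin_cases j
    · simp
    · simp [b1]
    · simp [h0, ← a1]
    · simp [h0, a2]
  exact ⟨g.1.1.1 0 0, e, by rw [← h0]; exact e⟩

theorem sl_comm (hc : ∃ a : F, a ≠ 0 ∧ a ≠ 1) (K : Subgroup (GL (Fin 2) F))
    (hK : ∀ D T : GL (Fin 2) F, T.1.det = 1 → ⁅D, T⁆ ∈ K) : ∀ g : GL (Fin 2) F, g.1.det = 1 → g ∈ K := by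
  classical
  intro g hdet
  apply CfsgH9.Tv.mem_of_transvections ?_ g hdet
  intro i j hij c g' hg'
  obtain ⟨a, ha, ha1⟩ := hc
  have h1 : (Matrix.diagonal (fun k => if k = i then a else 1) : Matrix (Fin 2) (Fin 2) F).det ≠ 0 := by
    rw [Matrix.det_diagonal, Finset.prod_ne_zero_iff]
    intro k _
    split_ifs
    · exact ha
    · exact one_ne_zero
  have h3 : (Matrix.transvection i j ((a - 1)⁻¹ * c) : Matrix (Fin 2) (Fin 2) F).det = 1 := by
    rw [Matrix.det_transvection_of_ne i j hij]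
  have h2 : (Matrix.transvection i j ((a - 1)⁻¹ * c) : Matrix (Fin 2) (Fin 2) F).det ≠ 0 := by
    rw [h3]; exact one_ne_zero
  have := Cfsg.Agent.S0264.comm_gl hij ha ((a - 1)⁻¹ * c) (Matrix.GeneralLinearGroup.mkOfDetNeZero _ h1)
    (Matrix.GeneralLinearGroup.mkOfDetNeZero _ h2) g' rfl rfl (by
      rw [hg', ← mul_assoc, mul_inv_cancel₀ (sub_ne_zero.2 ha1), one_mul])
  rw [← this]
  exact hK _ _ h3

theorem mem_comm (hc : ∃ a : F, a ≠ 0 ∧ a ≠ 1) (g : G2 F) (h1 : g.1.1.det = 1) (h2 : g.2.1.det = 1) :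
    g ∈ (commutator (H F)).map (H F).subtype := by
  set C := (commutator (H F)).map (H F).subtype with hC
  have hD : ∀ D : GL (Fin 2) F, (D, D) ∈ H F := fun D => rfl
  have k1 : ∀ g : GL (Fin 2) F, g.1.det = 1 → g ∈ C.comap (MonoidHom.inl (GL (Fin 2) F) (GL (Fin 2) F)) := by
    apply sl_comm hc
    intro D T hT
    have hT' : (T, (1 : GL (Fin 2) F)) ∈ H F := by
      change T.1.det = (1 : Matrix (Fin 2) (Fin 2) F).det
      rw [hT, Matrix.det_one]
    refine ⟨⁅⟨_, hD D⟩, ⟨_, hT'⟩⁆, Subgroup.commutator_mem_commutator (Subgroup.mem_top _) (Subgroup.mem_top _), ?_⟩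
    rw [map_commutatorElement]
    refine Prod.ext ?_ ?_
    · rfl
    · change D * 1 * D⁻¹ * 1⁻¹ = 1
      group
  have k2 : ∀ g : GL (Fin 2) F, g.1.det = 1 → g ∈ C.comap (MonoidHom.inr (GL (Fin 2) F) (GL (Fin 2) F)) := by
    apply sl_comm hc
    intro D T hT
    have hT' : ((1 : GL (Fin 2) F), T) ∈ H F := by
      change (1 : Matrix (Fin 2) (Fin 2) F).det = T.1.det
      rw [hT, Matrix.det_one]
    refine ⟨⁅⟨_, hD D⟩, ⟨_, hT'⟩⁆, Subgroup.commutator_mem_commutator (Subgroup.mem_top _) (Subgroup.mem_top _), ?_⟩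
    rw [map_commutatorElement]
    refine Prod.ext ?_ ?_
    · change D * 1 * D⁻¹ * 1⁻¹ = 1
      group
    · rfl
  have e : g = MonoidHom.inl (GL (Fin 2) F) (GL (Fin 2) F) g.1 * MonoidHom.inr (GL (Fin 2) F) (GL (Fin 2) F) g.2 := by
    refine Prod.ext ?_ ?_ <;> simp
  rw [e]
  exact C.mul_mem (k1 _ h1) (k2 _ h2)

def emb : SpecialLinearGroup (Fin 2) F × SpecialLinearGroup (Fin 2) F →* H F :=
  ((Matrix.SpecialLinearGroup.toGL.prodMap Matrix.SpecialLinearGroup.toGL)).codRestrict _ (by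
    intro x
    change x.1.1.det = x.2.1.det
    rw [x.1.2, x.2.2])

end

/-- PΩ^+_4(q) is isomorphic to PSL_2(q) x PSL_2(q) for q at least 3. -/
theorem result {F : Type*} [Field F] [Fintype F] (hF : 3 ≤ Fintype.card F) : Nonempty (Cfsg.POmega F (Cfsg.quadFormPlus 2 F) ≃* Matrix.ProjectiveSpecialLinearGroup (Fin 2) F × Matrix.ProjectiveSpecialLinearGroup (Fin 2) F) := by
  classical
  have hc : ∃ a : F, a ≠ 0 ∧ a ≠ 1 := by
    by_contra hcon
    push Not at hcon
    have h1 : (Finset.univ : Finset F) ⊆ {0, 1} := by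
      intro x _
      rw [Finset.mem_insert, Finset.mem_singleton]
      by_cases hx : x = 0
      · exact Or.inl hx
      · exact Or.inr (hcon x hx)
    have h2 := Finset.card_le_card h1
    have h3 := Finset.card_le_two (a := (0 : F)) (b := 1)
    rw [Finset.card_univ] at h2
    omega
  let ρ : SpecialLinearGroup (Fin 2) F × SpecialLinearGroup (Fin 2) F →* isometryGroup F (quadFormPlus 2 F) := rho.comp emb
  have hρ : ∀ x, ρ x ∈ commutator (isometryGroup F (quadFormPlus 2 F)) := by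
    intro x
    obtain ⟨y, hy, hyx⟩ := mem_comm hc (emb x).1 x.1.2 x.2.2
    have hyx' : y = emb x := Subtype.ext hyx
    rw [hyx'] at hy
    have h4 : (commutator (H F)).map rho ≤ commutator (isometryGroup F (quadFormPlus 2 F)) := by
      rw [commutator_def, Subgroup.map_commutator]
      exact Subgroup.commutator_mono le_top le_top
    exact h4 ⟨_, hy, rfl⟩
  have hone : ∀ x, ρ x = 1 → ∃ c : F, c ^ 2 = 1 ∧ x.1.1 = c • 1 ∧ x.2.1 = c • 1 := by
    intro x hx
    obtain ⟨c, hc, hc'⟩ := rho_one (g := emb x) hx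
    have hc1 : x.1.1 = c • 1 := hc
    refine ⟨c, ?_, hc1, hc'⟩
    have := x.1.2
    rw [hc1, Matrix.det_smul, Matrix.det_one, Fintype.card_fin, mul_one] at this
    exact this
  have hv1 : ∀ x ∈ ρ.ker, ∀ y ∈ ρ.ker, x.1.1 0 0 = y.1.1 0 0 → x = y := by
    intro x hx y hy hxy
    obtain ⟨c, -, h1, h2⟩ := hone x hx
    obtain ⟨d, -, h3, h4⟩ := hone y hy
    have hcd : c = d := by simpa [h1, h3] using hxy
    exact Prod.ext (Subtype.ext (by rw [h1, h3, hcd])) (Subtype.ext (by rw [h2, h4, hcd]))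
  have hv2 : ∀ x ∈ ρ.ker, (x.1.1 0 0) ^ 2 = 1 := by
    intro x hx
    obtain ⟨c, hc, h1, -⟩ := hone x hx
    rw [h1]; simpa using hc
  have hX := card_range ρ
  rw [Nat.card_prod] at hX
  set q := Fintype.card F with hq
  have h1q : 1 < q := Fintype.one_lt_card
  have hSL := Cfsg.Agent.S0242.result (F := F) rfl 2 (by norm_num)
  rw [Fin.prod_univ_two] at hSL
  have hO := Cfsg.Agent.S0287.result (F := F) rfl 2 (by norm_num)
  have hmul := Subgroup.card_mul_index (commutator (isometryGroup F (quadFormPlus 2 F)))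
  have hf := qf_of_quad (qPlus 2 F) (nondeg_plus 2 F)
  rw [qPlus_coe] at hf
  have hcard : Nat.card (commutator (isometryGroup F (quadFormPlus 2 F))) ≤ Nat.card ρ.range := by
    rw [hO] at hmul
    obtain ⟨k, hk⟩ : ∃ k, q = k + 2 := ⟨q - 2, by omega⟩
    rw [← hq] at hSL hmul
    rw [hk] at hSL hmul
    have e1 : k + 2 - 1 = k + 1 := by omega
    have e2 : (k + 2) ^ 2 - (k + 2) ^ ((0 : Fin 2) : ℕ) = (k + 1) * (k + 3) := by
      rw [Fin.val_zero, pow_zero]
      have : (k + 2) ^ 2 = (k + 1) * (k + 3) + 1 := by ring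
      omega
    have e3 : (k + 2) ^ 2 - (k + 2) ^ ((1 : Fin 2) : ℕ) = (k + 1) * (k + 2) := by
      rw [Fin.val_one, pow_one]
      have : (k + 2) ^ 2 = (k + 1) * (k + 2) + (k + 2) := by ring
      omega
    rw [e1, e2, e3] at hSL
    have e4 : Nat.card (SpecialLinearGroup (Fin 2) F) = (k + 3) * ((k + 1) * (k + 2)) := by
      apply Nat.eq_of_mul_eq_mul_left (show 0 < k + 1 by omega)
      rw [hSL]; ring
    have e5 : (k + 2) ^ (2 * (0 + 1)) - 1 = (k + 1) * (k + 3) := by
      have : (k + 2) ^ (2 * (0 + 1)) = (k + 1) * (k + 3) + 1 := by ring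
      omega
    have e8 : (k + 2) ^ 2 - 1 = (k + 1) * (k + 3) := by
      have : (k + 2) ^ 2 = (k + 1) * (k + 3) + 1 := by ring
      omega
    rw [show Finset.range (2 - 1) = Finset.range 1 from rfl, Finset.prod_range_one, e5] at hmul
    rw [e4] at hX
    by_cases h2 : (2 : F) = 0
    · rw [index_even hf h2 (Or.inl hc) (by simp)] at hmul
      have hk1 := card_le_one' h2 ρ.ker (fun x => x.1.1 0 0) hv1 hv2
      have e6 : (k + 3) * ((k + 1) * (k + 2)) * ((k + 3) * ((k + 1) * (k + 2))) ≤ Nat.card ρ.range * 1 := by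
        rw [hX]; exact Nat.mul_le_mul_left _ hk1
      have e7 : 2 * (k + 2) ^ (2 * (2 - 1)) * ((k + 1) * (k + 3)) * ((k + 1) * (k + 3)) = 2 * ((k + 3) * ((k + 1) * (k + 2)) * ((k + 3) * ((k + 1) * (k + 2)))) := by
        rw [show 2 * (2 - 1) = 2 from rfl]; ring
      rw [e7] at hmul
      omega
    · rw [index_odd hf h2 (Or.inl hc) (by simp)] at hmul
      have hk1 := card_le_two' ρ.ker (fun x => x.1.1 0 0) hv1 hv2
      have e6 : (k + 3) * ((k + 1) * (k + 2)) * ((k + 3) * ((k + 1) * (k + 2))) ≤ Nat.card ρ.range * 2 := by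
        rw [hX]; exact Nat.mul_le_mul_left _ hk1
      have e7 : 2 * (k + 2) ^ (2 * (2 - 1)) * ((k + 1) * (k + 3)) * ((k + 1) * (k + 3)) = 2 * ((k + 3) * ((k + 1) * (k + 2)) * ((k + 3) * ((k + 1) * (k + 2)))) := by
        rw [show 2 * (2 - 1) = 2 from rfl]; ring
      rw [e7] at hmul
      omega
  let π : SpecialLinearGroup (Fin 2) F × SpecialLinearGroup (Fin 2) F →* ProjectiveSpecialLinearGroup (Fin 2) F × ProjectiveSpecialLinearGroup (Fin 2) F :=
    (QuotientGroup.mk' (Subgroup.center (SpecialLinearGroup (Fin 2) F))).prodMap (QuotientGroup.mk' (Subgroup.center (SpecialLinearGroup (Fin 2) F)))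
  have hπ : Function.Surjective π := by
    rintro ⟨a, b⟩
    obtain ⟨a', rfl⟩ := QuotientGroup.mk'_surjective _ a
    obtain ⟨b', rfl⟩ := QuotientGroup.mk'_surjective _ b
    exact ⟨(a', b'), rfl⟩
  have hπ1 : ∀ x, π x = 1 ↔ x.1 ∈ Subgroup.center (SpecialLinearGroup (Fin 2) F) ∧ x.2 ∈ Subgroup.center (SpecialLinearGroup (Fin 2) F) := by
    intro x
    rw [← QuotientGroup.eq_one_iff, ← QuotientGroup.eq_one_iff]
    exact Prod.ext_iff
  refine po_equiv ρ π hπ hρ hcard ?_
  intro x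
  rw [hπ1]
  constructor
  · rintro ⟨h1, h2⟩ y
    congr 1
    exact Prod.ext (Subgroup.mem_center_iff.1 h1 y.1).symm (Subgroup.mem_center_iff.1 h2 y.2).symm
  · intro hx
    have key : ∀ y, ρ ((y * x)⁻¹ * (x * y)) = 1 := by
      intro y
      rw [map_mul, map_inv, hx y, inv_mul_cancel]
    constructor
    · rw [Subgroup.mem_center_iff]
      intro y
      obtain ⟨c, hc, h1, h2⟩ := hone _ (key (y, 1))
      have h3 : (((y, 1) * x)⁻¹ * (x * (y, 1))).2 = (1 : SpecialLinearGroup (Fin 2) F) := by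
        change (1 * x.2)⁻¹ * (x.2 * 1) = 1
        group
      rw [h3] at h2
      have h4 : c = 1 := by
        have := congrFun (congrFun h2 0) 0
        simpa using this.symm
      rw [h4, one_smul] at h1
      have h5 : (y * x.1)⁻¹ * (x.1 * y) = 1 := Subtype.ext h1
      rw [inv_mul_eq_one] at h5
      exact h5
    · rw [Subgroup.mem_center_iff]
      intro y
      obtain ⟨c, hc, h1, h2⟩ := hone _ (key (1, y))
      have h3 : (((1, y) * x)⁻¹ * (x * (1, y))).1 = (1 : SpecialLinearGroup (Fin 2) F) := by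
        change (1 * x.1)⁻¹ * (x.1 * 1) = 1
        group
      rw [h3] at h1
      have h4 : c = 1 := by
        have := congrFun (congrFun h1 0) 0
        simpa using this.symm
      rw [h4, one_smul] at h2
      have h5 : (y * x.2)⁻¹ * (x.2 * y) = 1 := Subtype.ext h2
      rw [inv_mul_eq_one] at h5
      exact h5

end Cfsg.Agent.S0299
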