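import Cfsg.Statements.S0300
import Cfsg.Agent.H9.PO2
import Cfsg.Agent.H9.PO3
import Cfsg.Agent.S0242
import Cfsg.Agent.S0288

set_option autoImplicit false
open Cfsg

namespace Cfsg.Agent.S0300

open Matrix Cfsg CfsgH9.Og CfsgH9.ClForms CfsgH9.PO

section
variable {F K : Type*} [Field F] [Field K] {a b : F} {i : F →+* K} {σ : K →+* K} {θ : K} {c1 c2 : K → F} (h : QE a b i σ θ c1 c2)

abbrev I4 := (Fin 1 ⊕ Fin 1) ⊕ Fin 2

/-- hermitian matrices -/
def toM (i : F →+* K) (σ : K →+* K) (θ : K) (v : I4 → F) : Matrix (Fin 2) (Fin 2) K :=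
  !![- i (v (Sum.inl (Sum.inl 0))), i (v (Sum.inr 0)) + θ * i (v (Sum.inr 1)); σ (i (v (Sum.inr 0)) + θ * i (v (Sum.inr 1))), i (v (Sum.inl (Sum.inr 0)))]

def frM (c1 c2 : K → F) (M : Matrix (Fin 2) (Fin 2) K) : I4 → F :=
  Sum.elim (Sum.elim (fun _ => - c1 (M 0 0)) (fun _ => c1 (M 1 1))) ![c1 (M 0 1), c2 (M 0 1)]

def HmM (σ : K →+* K) (M : Matrix (Fin 2) (Fin 2) K) : Prop := ∀ j k, σ (M j k) = M k j

/-- conjugate transpose -/
def st (σ : K →+* K) (g : Matrix (Fin 2) (Fin 2) K) : Matrix (Fin 2) (Fin 2) K := Matrix.of fun j k => σ (g k j)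

theorem st_mul (g g' : Matrix (Fin 2) (Fin 2) K) : st σ (g * g') = st σ g' * st σ g := by
  ext j k
  simp only [st, Matrix.of_apply, Matrix.mul_apply, map_sum, map_mul]
  exact Finset.sum_congr rfl (fun _ _ => mul_comm _ _)

theorem st_one : st σ (1 : Matrix (Fin 2) (Fin 2) K) = 1 := by
  ext j k
  fin_cases j <;> fin_cases k <;> simp [st]

include h in
theorem st_st (g : Matrix (Fin 2) (Fin 2) K) : st σ (st σ g) = g := by
  ext j k
  simp only [st, Matrix.of_apply, h.ss]

theorem hm_iff (M : Matrix (Fin 2) (Fin 2) K) : HmM σ M ↔ st σ M = M := by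
  constructor
  · intro h
    ext j k
    exact h k j
  · intro h j k
    have := congrFun (congrFun h k) j
    exact this

theorem det_st (g : Matrix (Fin 2) (Fin 2) K) : (st σ g).det = σ g.det := by
  rw [Matrix.det_fin_two, Matrix.det_fin_two]
  simp only [st, Matrix.of_apply, map_sub, map_mul]
  ring

include h

theorem frM_toM (v : I4 → F) : frM c1 c2 (toM i σ θ v) = v := by
  have e1 : c1 (- i (v (Sum.inl (Sum.inl 0)))) = - v (Sum.inl (Sum.inl 0)) := by
    rw [← map_neg, h.c1_i]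
  ext j
  rcases j with (j | j) | j <;> fin_cases j
  · simp [frM, toM, e1]
  · simp [frM, toM, h.c1_i]
  · simp [frM, toM, h.c1u]
  · simp [frM, toM, h.c2u]

theorem hm_toM (v : I4 → F) : HmM σ (toM i σ θ v) := by
  intro j k
  fin_cases j <;> fin_cases k <;> simp [toM, h.si, h.ss]

theorem toM_frM {M : Matrix (Fin 2) (Fin 2) K} (hM : HmM σ M) : toM i σ θ (frM c1 c2 M) = M := by
  have h00 := hM 0 0
  have h11 := hM 1 1
  have h01 := hM 0 1
  have e0 := h.fixed h00
  have e1 := h.fixed h11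
  have e2 := (h.dec (M 0 1)).symm
  ext j k
  fin_cases j <;> fin_cases k
  · simp [toM, frM, e0]
  · simp [toM, frM, e2]
  · change σ (i (c1 (M 0 1)) + θ * i (c2 (M 0 1))) = M 1 0
    rw [e2, h01]
  · simp [toM, frM, e1]

theorem hm_conj {M : Matrix (Fin 2) (Fin 2) K} (hM : HmM σ M) (g : Matrix (Fin 2) (Fin 2) K) : HmM σ (g * M * st σ g) := by
  rw [hm_iff] at hM ⊢
  rw [st_mul, st_mul, st_st h, hM, Matrix.mul_assoc]

theorem toM_inj {u v : I4 → F} (huv : toM i σ θ u = toM i σ θ v) : u = v := by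
  rw [← frM_toM h u, huv, frM_toM h]

theorem frM_add (M N : Matrix (Fin 2) (Fin 2) K) : frM c1 c2 (M + N) = frM c1 c2 M + frM c1 c2 N := by
  ext j
  rcases j with (j | j) | j <;> fin_cases j
  · simp [frM, h.c1_add]; ring
  · simp [frM, h.c1_add]
  · simp [frM, h.c1_add]
  · simp [frM, h.c2_add]

theorem frM_smul (c : F) (M : Matrix (Fin 2) (Fin 2) K) : frM c1 c2 (i c • M) = c • frM c1 c2 M := by
  ext j
  rcases j with (j | j) | j <;> fin_cases j
  · simp [frM, h.c1_smul]
  · simp [frM, h.c1_smul]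
  · simp [frM, h.c1_smul]
  · simp [frM, h.c2_smul]

omit h in
theorem toM_add (u v : I4 → F) : toM i σ θ (u + v) = toM i σ θ u + toM i σ θ v := by
  ext j k; fin_cases j <;> fin_cases k <;> simp [toM] <;> ring

theorem toM_smul (c : F) (v : I4 → F) : toM i σ θ (c • v) = i c • toM i σ θ v := by
  ext j k; fin_cases j <;> fin_cases k <;> simp [toM, h.si] <;> ring

def act (g : Matrix (Fin 2) (Fin 2) K) : Matrix I4 I4 F := LinearMap.toMatrix'
  { toFun := fun v => frM c1 c2 (g * toM i σ θ v * st σ g)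
    map_add' := by
      intro u v
      rw [toM_add, Matrix.mul_add, Matrix.add_mul, frM_add h]
    map_smul' := by
      intro c v
      rw [toM_smul h, Matrix.mul_smul, Matrix.smul_mul, frM_smul h]; rfl }

theorem toM_act (g : Matrix (Fin 2) (Fin 2) K) (v : I4 → F) : toM i σ θ (act h g *ᵥ v) = g * toM i σ θ v * st σ g := by
  rw [act, LinearMap.toMatrix'_mulVec]
  exact toM_frM h (hm_conj h (hm_toM h v) g)

omit h in
theorem ext4 {A B : Matrix I4 I4 F} (h : ∀ x, A *ᵥ x = B *ᵥ x) : A = B := Matrix.ext_of_mulVec_single fun i => h _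

def rho0 : SpecialLinearGroup (Fin 2) K →* GL I4 F := MonoidHom.toHomUnits
  { toFun := fun g => act h g.1
    map_one' := by
      apply ext4
      intro v
      apply toM_inj h
      rw [toM_act, one_mulVec]
      change (1 : Matrix (Fin 2) (Fin 2) K) * _ * st σ (1 : Matrix (Fin 2) (Fin 2) K) = _
      rw [st_one, Matrix.one_mul, Matrix.mul_one]
    map_mul' := by
      intro g g'
      apply ext4
      intro v
      rw [← mulVec_mulVec]
      apply toM_inj h
      rw [toM_act, toM_act, toM_act]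
      change (g.1 * g'.1) * _ * st σ (g.1 * g'.1) = _
      rw [st_mul]
      simp only [Matrix.mul_assoc] }

theorem toM_rho0 (g : SpecialLinearGroup (Fin 2) K) (v : I4 → F) : toM i σ θ ((rho0 h g).1 *ᵥ v) = g.1 * toM i σ θ v * st σ g.1 := toM_act h _ _

theorem Q_eq (v : I4 → F) : i (quadFormMinus 1 F a b v) = - (toM i σ θ v).det := by
  have h1 := h.tr
  have h2 := h.nm
  rw [quadFormMinus, toM, Matrix.det_fin_two_of, Fin.sum_univ_one]
  simp only [map_add, map_mul, map_pow, h.si]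
  rw [← h1, ← h2]
  ring

def rho : SpecialLinearGroup (Fin 2) K →* isometryGroup F (quadFormMinus 1 F a b) := (rho0 h).codRestrict _ (by
  intro g u v
  change quadFormMinus 1 F a b ((rho0 h g).1 *ᵥ u) = quadFormMinus 1 F a b u
  apply i.injective
  rw [Q_eq h, Q_eq h, toM_rho0, Matrix.det_mul, Matrix.det_mul, det_st, g.2, map_one, one_mul, mul_one])

theorem rho_one (x : SpecialLinearGroup (Fin 2) K) (hx : rho h x = 1) : ∃ c : K, c ^ 2 = 1 ∧ x.1 = c • 1 := by
  have h0 : ∀ M, HmM σ M → x.1 * M * st σ x.1 = M := by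
    intro M hM
    have h3 : (rho0 h x).1 = 1 := congrArg (fun x : isometryGroup F (quadFormMinus 1 F a b) => (x : GL I4 F).1) hx
    have h4 := toM_rho0 h x (frM c1 c2 M)
    rw [h3, one_mulVec, toM_frM h hM] at h4
    exact h4.symm
  have h1 := h0 1 ((hm_iff 1).2 st_one)
  rw [Matrix.mul_one] at h1
  have h1' : st σ x.1 * x.1 = 1 := mul_eq_one_comm.1 h1
  have h2 : ∀ M, HmM σ M → x.1 * M = M * x.1 := by
    intro M hM
    conv_rhs => rw [← h0 M hM]
    rw [Matrix.mul_assoc _ _ x.1, h1', Matrix.mul_one]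
  have k1 := h2 !![1, 0; 0, 0] (by intro j k; fin_cases j <;> fin_cases k <;> simp)
  have k2 := h2 !![0, 1; 1, 0] (by intro j k; fin_cases j <;> fin_cases k <;> simp)
  have a1 := congrFun (congrFun k1 0) 1
  have a2 := congrFun (congrFun k1 1) 0
  have b1 := congrFun (congrFun k2 0) 1
  simp [Matrix.mul_apply, Fin.sum_univ_two] at a1 a2 b1
  have e : x.1 = x.1 0 0 • (1 : Matrix (Fin 2) (Fin 2) K) := by
    ext j k
    fin_cases j <;> fin_cases k
    · simp
    · simp [← a1]
    · simp [a2]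
    · simp [b1]
  refine ⟨x.1 0 0, ?_, e⟩
  have := x.2
  rw [e, Matrix.det_smul, Matrix.det_one, Fintype.card_fin, mul_one] at this
  exact this

end

/-- PΩ^-_4(q) is isomorphic to PSL_2(q^2). -/
theorem result {F K : Type*} [Field F] [Fintype F] [Field K] [Fintype K] {q : ℕ} (hF : Fintype.card F = q) (hK : Fintype.card K = q ^ 2) (a b : F) (hab : ∀ z₁ z₂ : F, z₁ ^ 2 + a * z₁ * z₂ + b * z₂ ^ 2 = 0 → z₁ = 0 ∧ z₂ = 0) : Nonempty (Cfsg.POmega F (Cfsg.quadFormMinus 1 F a b) ≃* Matrix.ProjectiveSpecialLinearGroup (Fin 2) K) := by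
  classical
  obtain ⟨i, σ, θ, c1, c2, h, hσ⟩ := exists_QE hF hK a b hab
  have hq1 : 1 < q := by rw [← hF]; exact Fintype.one_lt_card
  set ρ := rho h with hρdef
  have hc : ∃ a : K, a ≠ 0 ∧ a ^ 2 ≠ 1 := by
    by_contra hcon
    push Not at hcon
    have h1 : (Finset.univ : Finset K) ⊆ {0, 1, -1} := by
      intro x _
      rw [Finset.mem_insert, Finset.mem_insert, Finset.mem_singleton]
      by_cases hx : x = 0
      · exact Or.inl hx
      · right
        have h2 : (x - 1) * (x + 1) = 0 := by linear_combination hcon x hx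
        rcases mul_eq_zero.1 h2 with h1 | h1
        · left; exact sub_eq_zero.1 h1
        · right; exact eq_neg_of_add_eq_zero_left h1
    have h2 := Finset.card_le_card h1
    have h3 := Finset.card_le_three (a := (0 : K)) (b := 1) (c := -1)
    rw [Finset.card_univ, hK] at h2
    have : 2 ^ 2 ≤ q ^ 2 := Nat.pow_le_pow_left hq1 2
    omega
  have hρ : ∀ x, ρ x ∈ commutator (isometryGroup F (quadFormMinus 1 F a b)) := by
    intro x
    have h4 : (commutator (SpecialLinearGroup (Fin 2) K)).map ρ ≤ commutator (isometryGroup F (quadFormMinus 1 F a b)) := by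
      rw [commutator_def, Subgroup.map_commutator]
      exact Subgroup.commutator_mono le_top le_top
    obtain ⟨d, hd, hd1⟩ := hc
    rw [Matrix.SL2.commutator_eq_top hd hd1] at h4
    exact h4 ⟨x, Subgroup.mem_top _, rfl⟩
  have hv1 : ∀ x ∈ ρ.ker, ∀ y ∈ ρ.ker, x.1 0 0 = y.1 0 0 → x = y := by
    intro x hx y hy hxy
    obtain ⟨c, -, h1⟩ := rho_one h x hx
    obtain ⟨d, -, h3⟩ := rho_one h y hy
    have hcd : c = d := by simpa [h1, h3] using hxy
    exact Subtype.ext (by rw [h1, h3, hcd])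
  have hv2 : ∀ x ∈ ρ.ker, (x.1 0 0) ^ 2 = 1 := by
    intro x hx
    obtain ⟨c, hc, h1⟩ := rho_one h x hx
    rw [h1]; simpa using hc
  have hO : Nat.card (isometryGroup F (quadFormMinus 1 F a b)) = 2 * Nat.card (SpecialLinearGroup (Fin 2) K) := by
    have hO := Cfsg.Agent.S0288.result hF 2 (by norm_num) a b hab
    have hSL := Cfsg.Agent.S0242.result hK 2 (by norm_num)
    rw [Fin.prod_univ_two] at hSL
    rw [show Finset.range (2 - 1) = Finset.range 1 from rfl, Finset.prod_range_one] at hO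
    change Nat.card (isometryGroup F (quadFormMinus 1 F a b)) = _ at hO
    rw [hO]
    obtain ⟨k, rfl⟩ : ∃ k, q = k + 1 := ⟨q - 1, by omega⟩
    have e1 : (k + 1) ^ 2 - 1 = k * (k + 2) := by
      have : (k + 1) ^ 2 = k * (k + 2) + 1 := by ring
      omega
    have e2 : ((k + 1) ^ 2) ^ 2 - ((k + 1) ^ 2) ^ ((0 : Fin 2) : ℕ) = k * (k + 2) * ((k + 1) ^ 2 + 1) := by
      rw [Fin.val_zero, pow_zero]
      have : ((k + 1) ^ 2) ^ 2 = k * (k + 2) * ((k + 1) ^ 2 + 1) + 1 := by ring
      omega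
    have e3 : ((k + 1) ^ 2) ^ 2 - ((k + 1) ^ 2) ^ ((1 : Fin 2) : ℕ) = k * (k + 2) * (k + 1) ^ 2 := by
      rw [Fin.val_one, pow_one]
      have : ((k + 1) ^ 2) ^ 2 = k * (k + 2) * (k + 1) ^ 2 + (k + 1) ^ 2 := by ring
      omega
    rw [e1, e2, e3] at hSL
    have hk : 0 < k * (k + 2) := Nat.mul_pos (by omega) (by omega)
    have e4 : Nat.card (SpecialLinearGroup (Fin 2) K) = (k * (k + 2) * ((k + 1) ^ 2 + 1)) * (k + 1) ^ 2 := by
      apply Nat.eq_of_mul_eq_mul_left hk
      rw [hSL]; ring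
    have e5 : (k + 1) ^ (2 * (0 + 1)) - 1 = k * (k + 2) := by
      have : (k + 1) ^ (2 * (0 + 1)) = k * (k + 2) + 1 := by ring
      omega
    rw [e5, e4]
    ring
  have h2K : (2 : F) = 0 ↔ (2 : K) = 0 := by
    rw [← map_ofNat i 2, map_eq_zero]
  have hcard : Nat.card (commutator (isometryGroup F (quadFormMinus 1 F a b))) ≤ Nat.card ρ.range := by
    by_cases h2 : (2 : F) = 0
    · apply comm_le_of_index
      have hX := card_range ρ
      have hk := card_le_one' (h2K.1 h2) ρ.ker (fun x => x.1 0 0) hv1 hv2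
      have hk1 : Nat.card ρ.ker = 1 := le_antisymm hk Nat.card_pos
      rw [hk1, mul_one] at hX
      rw [hO, hX]
    · have h2' : (2 : K) ≠ 0 := fun h' => h2 (h2K.2 h')
      have hf := qf_of_quad (qMinus 1 a b) (nondeg_minus 1 hab)
      rw [qMinus_coe] at hf
      exact card_final ρ hO (Or.inl ⟨index_odd hf h2 (Or.inl (two_c (h2 := h2))) (by simp), card_le_two' _ (fun x => x.1 0 0) hv1 hv2⟩)
  refine po_equiv ρ (QuotientGroup.mk' (Subgroup.center (SpecialLinearGroup (Fin 2) K))) (QuotientGroup.mk'_surjective _) hρ hcard ?_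
  intro x
  rw [QuotientGroup.mk'_apply, QuotientGroup.eq_one_iff]
  constructor
  · intro hx y
    rw [Subgroup.mem_center_iff.1 hx y]
  · intro hx
    have key : ∀ j k : Fin 2, j ≠ k → Matrix.transvection j k 1 * x.1 = x.1 * Matrix.transvection j k 1 := by
      intro j k hjk
      set y : SpecialLinearGroup (Fin 2) K := ⟨Matrix.transvection j k 1, Matrix.det_transvection_of_ne j k hjk 1⟩ with hy
      have h3 : ρ ((y * x)⁻¹ * (x * y)) = 1 := by
        rw [map_mul, map_inv, hx y, inv_mul_cancel]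
      obtain ⟨c, hc, h1⟩ := rho_one h _ h3
      have h4 : x.1 * y.1 = c • (y.1 * x.1) := by
        have h5 : (y * x) * ((y * x)⁻¹ * (x * y)) = x * y := by group
        have h6 := congrArg Subtype.val h5
        change (y.1 * x.1) * ((y * x)⁻¹ * (x * y) : SpecialLinearGroup (Fin 2) K).1 = x.1 * y.1 at h6
        rw [h1, Matrix.mul_smul, Matrix.mul_one] at h6
        exact h6.symm
      have h5 : x.1 * y.1 * (x⁻¹ : SpecialLinearGroup (Fin 2) K).1 = c • y.1 := by
        rw [h4, Matrix.smul_mul, Matrix.mul_assoc]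
        have : x.1 * (x⁻¹ : SpecialLinearGroup (Fin 2) K).1 = 1 := by
          change (x * x⁻¹ : SpecialLinearGroup (Fin 2) K).1 = 1
          rw [mul_inv_cancel]; rfl
        rw [this, Matrix.mul_one]
      have h6 := congrArg Matrix.trace h5
      rw [Matrix.trace_mul_comm, ← Matrix.mul_assoc, Matrix.trace_smul] at h6
      have h7 : (x⁻¹ : SpecialLinearGroup (Fin 2) K).1 * x.1 = 1 := by
        change (x⁻¹ * x : SpecialLinearGroup (Fin 2) K).1 = 1
        rw [inv_mul_cancel]; rfl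
      have h8 : y.1.trace = 2 := by
        rw [hy]
        change (Matrix.transvection j k 1).trace = 2
        rw [Matrix.transvection, Matrix.trace_add, Matrix.trace_one, Matrix.trace_single_eq_of_ne _ _ _ hjk, add_zero, Fintype.card_fin]
        norm_num
      rw [h7, Matrix.one_mul, h8, smul_eq_mul] at h6
      have hc1 : c = 1 := by
        by_cases h2 : (2 : K) = 0
        · have h9 : (c - 1) ^ 2 = 0 := by linear_combination hc + (1 - c) * h2
          exact sub_eq_zero.1 (pow_eq_zero_iff two_ne_zero |>.1 h9)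
        · apply mul_right_cancel₀ h2
          rw [← h6, one_mul]
      rw [hc1, one_smul] at h4
      exact h4.symm
    obtain ⟨c, hc⟩ := scalar_of_comm key
    rw [Subgroup.mem_center_iff]
    intro y
    apply Subtype.ext
    change y.1 * x.1 = x.1 * y.1
    rw [hc, Matrix.mul_smul, Matrix.smul_mul, Matrix.mul_one, Matrix.one_mul]

end Cfsg.Agent.S0300
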