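import Cfsg.Statements.S0301
import Cfsg.Agent.H9.PO2
import Cfsg.Agent.H9.SpBridge
import Cfsg.Agent.S0245
import Cfsg.Agent.S0269
import Cfsg.Agent.S0286

set_option autoImplicit false
open Cfsg

namespace Cfsg.Agent.S0301

open Matrix Cfsg CfsgH9.Og CfsgH9.ClForms CfsgH9.PO

section
variable {F : Type*} [Field F]

theorem pf_conj (g : Matrix (Fin 4) (Fin 4) F) (hg : g.det = 1) {X : Matrix (Fin 4) (Fin 4) F} (hX : AltM X) : pf (g * X * gᵀ) = pf X := by
  have hu : g.det ≠ 0 := by rw [hg]; exact one_ne_zero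
  set g' : GL (Fin 4) F := Matrix.GeneralLinearGroup.mkOfDetNeZero g hu
  have h1 := rho6_mem g' hg (frM X) (frM X)
  change quadFormPlus 3 F ((rho6 g').1 *ᵥ (frM X)) = quadFormPlus 3 F (frM X) at h1
  rw [Q6_eq, Q6_eq, toM_rho6, toM_frM hX] at h1
  exact h1

abbrev I5 := Unit ⊕ (Fin 2 ⊕ Fin 2)

def toM5 (v : I5 → F) : Matrix (Fin 4) (Fin 4) F :=
  !![0, v (Sum.inr (Sum.inl 0)), v (Sum.inl ()), v (Sum.inr (Sum.inl 1));
     - v (Sum.inr (Sum.inl 0)), 0, v (Sum.inr (Sum.inr 1)), - v (Sum.inl ());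
     - v (Sum.inl ()), - v (Sum.inr (Sum.inr 1)), 0, v (Sum.inr (Sum.inr 0));
     - v (Sum.inr (Sum.inl 1)), v (Sum.inl ()), - v (Sum.inr (Sum.inr 0)), 0]

def frM5 (M : Matrix (Fin 4) (Fin 4) F) : I5 → F :=
  Sum.elim (fun _ => M 0 2) (Sum.elim ![M 0 1, M 0 3] ![M 2 3, M 1 2])

def PM (M : Matrix (Fin 4) (Fin 4) F) : Prop := AltM M ∧ M 0 2 + M 1 3 = 0

theorem frM5_toM5 (v : I5 → F) : frM5 (toM5 v) = v := by
  ext i
  rcases i with ⟨⟩ | i | i
  · simp [frM5, toM5]
  · fin_cases i <;> simp [frM5, toM5]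
  · fin_cases i <;> simp [frM5, toM5]

theorem pm_toM5 (v : I5 → F) : PM (toM5 v) := by
  refine ⟨?_, ?_⟩
  · intro i
    refine ⟨?_, ?_⟩
    · fin_cases i <;> simp [toM5]
    · intro j
      fin_cases i <;> fin_cases j <;> simp [toM5]
  · simp [toM5]

theorem toM5_frM5 {M : Matrix (Fin 4) (Fin 4) F} (hM : PM M) : toM5 (frM5 M) = M := by
  obtain ⟨h, h'⟩ := hM
  have h0 := (h 0).1
  have h1 := (h 1).1
  have h2 := (h 2).1
  have h3 := (h 3).1
  have h01 := (h 0).2 1
  have h02 := (h 0).2 2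
  have h03 := (h 0).2 3
  have h12 := (h 1).2 2
  have h13 := (h 1).2 3
  have h23 := (h 2).2 3
  have h5 : M 1 3 = - M 0 2 := by linear_combination h'
  ext i j
  fin_cases i <;> fin_cases j <;> simp [frM5, toM5, h0, h1, h2, h3, h01, h02, h03, h12, h13, h23, h5]

def J4 (F : Type*) [Field F] : Matrix (Fin 4) (Fin 4) F := !![0, 0, -1, 0; 0, 0, 0, -1; 1, 0, 0, 0; 0, 1, 0, 0]

theorem alt_J4 : AltM (J4 F) := by
  intro i
  refine ⟨?_, ?_⟩
  · fin_cases i <;> simp [J4]
  · intro j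
    fin_cases i <;> fin_cases j <;> simp [J4]

theorem alt_add {M N : Matrix (Fin 4) (Fin 4) F} (hM : AltM M) (hN : AltM N) : AltM (M + N) := by
  intro i
  refine ⟨by rw [Matrix.add_apply, (hM i).1, (hN i).1, add_zero], fun j => ?_⟩
  rw [Matrix.add_apply, Matrix.add_apply, (hM i).2, (hN i).2]; ring

theorem pf_J4 (M : Matrix (Fin 4) (Fin 4) F) : M 0 2 + M 1 3 = pf (M + J4 F) - pf M - pf (J4 F) := by
  simp [pf, J4]
  ring

theorem pm_conj {g : Matrix (Fin 4) (Fin 4) F} (hg : g.det = 1) (hJ : g * J4 F * gᵀ = J4 F) {M : Matrix (Fin 4) (Fin 4) F} (hM : PM M) : PM (g * M * gᵀ) := by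
  refine ⟨alt_conj hM.1 g, ?_⟩
  have e : g * M * gᵀ + J4 F = g * (M + J4 F) * gᵀ := by
    rw [Matrix.mul_add, Matrix.add_mul, hJ]
  rw [pf_J4, e, pf_conj g hg hM.1, pf_conj g hg (alt_add hM.1 alt_J4), ← pf_J4]
  exact hM.2

theorem toM5_inj {u v : I5 → F} (h : toM5 u = toM5 v) : u = v := by
  rw [← frM5_toM5 u, h, frM5_toM5]

def act5 (g : Matrix (Fin 4) (Fin 4) F) : Matrix I5 I5 F := LinearMap.toMatrix'
  { toFun := fun v => frM5 (g * toM5 v * gᵀ)
    map_add' := by
      intro u v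
      have : toM5 (u + v) = toM5 u + toM5 v := by
        ext i j; fin_cases i <;> fin_cases j <;> simp [toM5] <;> ring
      rw [this, Matrix.mul_add, Matrix.add_mul]
      ext i
      rcases i with ⟨⟩ | i | i
      · simp [frM5]
      · fin_cases i <;> simp [frM5]
      · fin_cases i <;> simp [frM5]
    map_smul' := by
      intro c v
      have : toM5 (c • v) = c • toM5 v := by
        ext i j; fin_cases i <;> fin_cases j <;> simp [toM5]
      rw [this, Matrix.mul_smul, Matrix.smul_mul]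
      ext i
      rcases i with ⟨⟩ | i | i
      · simp [frM5]
      · fin_cases i <;> simp [frM5]
      · fin_cases i <;> simp [frM5] }

theorem toM5_act {g : Matrix (Fin 4) (Fin 4) F} (hg : g.det = 1) (hJ : g * J4 F * gᵀ = J4 F) (v : I5 → F) : toM5 (act5 g *ᵥ v) = g * toM5 v * gᵀ := by
  rw [act5, LinearMap.toMatrix'_mulVec]
  exact toM5_frM5 (pm_conj hg hJ (pm_toM5 v))

theorem ext5 {A B : Matrix I5 I5 F} (h : ∀ x, A *ᵥ x = B *ᵥ x) : A = B := Matrix.ext_of_mulVec_single fun i => h _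

/-- coordinates -/
def e4 : Fin 4 ≃ Fin 2 ⊕ Fin 2 where
  toFun := ![Sum.inl 0, Sum.inl 1, Sum.inr 0, Sum.inr 1]
  invFun := Sum.elim ![0, 1] ![2, 3]
  left_inv := by decide
  right_inv := by decide

def g4 (g : Matrix.symplecticGroup (Fin 2) F) : Matrix (Fin 4) (Fin 4) F := g.1.submatrix e4 e4

theorem J4_eq : (Matrix.J (Fin 2) F).submatrix e4 e4 = J4 F := by
  ext i j
  fin_cases i <;> fin_cases j <;> simp [e4, J4, Matrix.J]

theorem g4_det (g : Matrix.symplecticGroup (Fin 2) F) : (g4 g).det = 1 := by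
  rw [g4, Matrix.det_submatrix_equiv_self]
  exact SymplecticGroup.det_eq_one g.2

theorem g4_J (g : Matrix.symplecticGroup (Fin 2) F) : g4 g * J4 F * (g4 g)ᵀ = J4 F := by
  rw [← J4_eq, g4, Matrix.transpose_submatrix, Matrix.submatrix_mul_equiv, Matrix.submatrix_mul_equiv]
  congr 1
  exact SymplecticGroup.mem_iff.1 g.2

theorem g4_mul (g h : Matrix.symplecticGroup (Fin 2) F) : g4 (g * h) = g4 g * g4 h := by
  rw [g4, g4, g4, Matrix.submatrix_mul_equiv]; rfl

theorem g4_one : g4 (1 : Matrix.symplecticGroup (Fin 2) F) = 1 := by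
  rw [g4]
  exact Matrix.submatrix_one_equiv e4

def rho0 : Matrix.symplecticGroup (Fin 2) F →* GL I5 F := MonoidHom.toHomUnits
  { toFun := fun g => act5 (g4 g)
    map_one' := by
      apply ext5
      intro v
      apply toM5_inj
      rw [toM5_act (g4_det _) (g4_J _), g4_one, Matrix.one_mul, Matrix.transpose_one, Matrix.mul_one, one_mulVec]
    map_mul' := by
      intro g h
      apply ext5
      intro v
      rw [← mulVec_mulVec]
      apply toM5_inj
      rw [toM5_act (g4_det _) (g4_J _), toM5_act (g4_det _) (g4_J _), toM5_act (g4_det _) (g4_J _), g4_mul, Matrix.transpose_mul]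
      simp only [Matrix.mul_assoc] }

theorem toM_rho0 (g : Matrix.symplecticGroup (Fin 2) F) (v : I5 → F) : toM5 ((rho0 g).1 *ᵥ v) = g4 g * toM5 v * (g4 g)ᵀ := toM5_act (g4_det _) (g4_J _) v

theorem Q5_eq (v : I5 → F) : quadFormOdd 2 F v = pf (toM5 v) := by
  rw [quadFormOdd, pf, Fin.sum_univ_two]
  simp [toM5]
  ring

def rho : Matrix.symplecticGroup (Fin 2) F →* isometryGroup F (quadFormOdd 2 F) := rho0.codRestrict _ (by
  intro g u v
  change quadFormOdd 2 F ((rho0 g).1 *ᵥ u) = quadFormOdd 2 F u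
  rw [Q5_eq, Q5_eq, toM_rho0, pf_conj _ (g4_det g) (pm_toM5 u).1])

theorem rho_one (h2 : (2 : F) ≠ 0) (g : Matrix.symplecticGroup (Fin 2) F) (h : rho g = 1) : ∃ c : F, c ^ 2 = 1 ∧ g.1 = c • 1 := by
  have hu : (g4 g).det ≠ 0 := by rw [g4_det]; exact one_ne_zero
  set g' : GL (Fin 4) F := Matrix.GeneralLinearGroup.mkOfDetNeZero (g4 g) hu with hg'
  have h0 : ∀ v, g4 g * toM5 v * (g4 g)ᵀ = toM5 v := by
    intro v
    have h3 : (rho0 g).1 = 1 := congrArg (fun x : isometryGroup F (quadFormOdd 2 F) => (x : GL I5 F).1) h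
    rw [← toM_rho0, h3, one_mulVec]
  have h1 : rho6 g' = 1 := by
    apply Units.ext
    apply ext6
    intro v
    apply toM_inj
    rw [toM_rho6, Units.val_one, one_mulVec]
    change g4 g * toM v * (g4 g)ᵀ = toM v
    set t : F := ((toM v) 0 2 + (toM v) 1 3) / 2 with ht
    have hP : PM (toM v + t • J4 F) := by
      refine ⟨alt_add (alt_toM v) ?_, ?_⟩
      · intro i
        refine ⟨by rw [Matrix.smul_apply, (alt_J4 i).1, smul_zero], fun j => ?_⟩
        rw [Matrix.smul_apply, Matrix.smul_apply, (alt_J4 i).2, smul_neg]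
      · rw [Matrix.add_apply, Matrix.add_apply, Matrix.smul_apply, Matrix.smul_apply]
        have e1 : J4 F 0 2 = -1 := rfl
        have e2 : J4 F 1 3 = -1 := rfl
        rw [e1, e2, ht, smul_eq_mul]
        field_simp
        ring
    have h3 := h0 (frM5 (toM v + t • J4 F))
    rw [toM5_frM5 hP, Matrix.mul_add, Matrix.add_mul, Matrix.mul_smul, Matrix.smul_mul, g4_J] at h3
    exact add_right_cancel h3
  obtain ⟨c, hc, hg⟩ := rho6_one h1
  refine ⟨c, hc, ?_⟩
  have hg4 : g.1.submatrix e4 e4 = c • 1 := hg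
  have h5 : g.1 = (g.1.submatrix e4 e4).submatrix e4.symm e4.symm := by
    rw [Matrix.submatrix_submatrix]
    simp
  have h6 : (1 : Matrix (Fin 4) (Fin 4) F).submatrix e4.symm e4.symm = 1 := Matrix.submatrix_one_equiv e4.symm
  have h7 : (c • (1 : Matrix (Fin 4) (Fin 4) F)).submatrix e4.symm e4.symm = c • ((1 : Matrix (Fin 4) (Fin 4) F).submatrix e4.symm e4.symm) := rfl
  rw [h5, hg4, h7, h6]

end

/-- PΩ_5(q) is isomorphic to PSp_4(q) for q odd. -/
theorem result {F : Type*} [Field F] [Fintype F] (hodd : Odd (Fintype.card F)) : Nonempty (Cfsg.POmega F (Cfsg.quadFormOdd 2 F) ≃* Cfsg.PSp 2 F) := by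
  classical
  have h2 := two_ne hodd
  have hf := qf_of_quad (qOdd 2 F) (nondeg_odd 2 F h2)
  rw [qOdd_coe] at hf
  have h3q : 3 ≤ Fintype.card F := by
    have := Fintype.one_lt_card (α := F)
    obtain ⟨k, hk⟩ := hodd
    omega
  have hρ : ∀ x, rho x ∈ commutator (isometryGroup F (quadFormOdd 2 F)) := by
    intro x
    have h4 : (commutator (Matrix.symplecticGroup (Fin 2) F)).map rho ≤ commutator (isometryGroup F (quadFormOdd 2 F)) := by
      rw [commutator_def, Subgroup.map_commutator]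
      exact Subgroup.commutator_mono le_top le_top
    rw [Cfsg.Agent.S0269.result 2 (Or.inr (Or.inl ⟨rfl, h3q⟩))] at h4
    exact h4 ⟨x, Subgroup.mem_top _, rfl⟩
  have hv1 : ∀ x ∈ (rho (F := F)).ker, ∀ y ∈ (rho (F := F)).ker, x.1 (Sum.inl 0) (Sum.inl 0) = y.1 (Sum.inl 0) (Sum.inl 0) → x = y := by
    intro x hx y hy hxy
    obtain ⟨c, -, h1⟩ := rho_one h2 x hx
    obtain ⟨d, -, h3⟩ := rho_one h2 y hy
    have hcd : c = d := by simpa [h1, h3] using hxy
    exact Subtype.ext (by rw [h1, h3, hcd])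
  have hv2 : ∀ x ∈ (rho (F := F)).ker, (x.1 (Sum.inl 0) (Sum.inl 0)) ^ 2 = 1 := by
    intro x hx
    obtain ⟨c, hc, h1⟩ := rho_one h2 x hx
    rw [h1]; simpa using hc
  have hcard := card_final (rho (F := F)) (by
    rw [Cfsg.Agent.S0245.result (F := F) rfl 2, Cfsg.Agent.S0286.result (F := F) rfl hodd 2]; ring)
    (Or.inl ⟨index_odd hf h2 (Or.inr (by simp)) (by simp), card_le_two' _ (fun x => x.1 (Sum.inl 0) (Sum.inl 0)) hv1 hv2⟩)
  refine po_equiv rho (QuotientGroup.mk' (Subgroup.center (Matrix.symplecticGroup (Fin 2) F))) (QuotientGroup.mk'_surjective _) hρ hcard ?_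
  intro x
  rw [QuotientGroup.mk'_apply, QuotientGroup.eq_one_iff]
  constructor
  · intro hx y
    rw [Subgroup.mem_center_iff.1 hx y]
  · intro hx
    have key : ∀ y ∈ CfsgH9.SpBridge.tset 2 F, y * x = x * y := by
      rintro y ⟨w, d, hy⟩
      have h3 : rho ((y * x)⁻¹ * (x * y)) = 1 := by
        rw [map_mul, map_inv, hx y, inv_mul_cancel]
      obtain ⟨c, hc, h1⟩ := rho_one h2 _ h3
      have h4 : x.1 * y.1 = c • (y.1 * x.1) := by
        have h5 : (y * x) * ((y * x)⁻¹ * (x * y)) = x * y := by group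
        have h6 := congrArg Subtype.val h5
        change (y.1 * x.1) * ((y * x)⁻¹ * (x * y) : Matrix.symplecticGroup (Fin 2) F).1 = x.1 * y.1 at h6
        rw [h1, Matrix.mul_smul, Matrix.mul_one] at h6
        exact h6.symm
      have h5 : x.1 * y.1 * (x⁻¹ : Matrix.symplecticGroup (Fin 2) F).1 = c • y.1 := by
        rw [h4, Matrix.smul_mul, Matrix.mul_assoc]
        have : x.1 * (x⁻¹ : Matrix.symplecticGroup (Fin 2) F).1 = 1 := by
          change (x * x⁻¹ : Matrix.symplecticGroup (Fin 2) F).1 = 1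
          rw [mul_inv_cancel]; rfl
        rw [this, Matrix.mul_one]
      have h6 := congrArg Matrix.trace h5
      rw [Matrix.trace_mul_comm, ← Matrix.mul_assoc, Matrix.trace_smul] at h6
      have h7 : (x⁻¹ : Matrix.symplecticGroup (Fin 2) F).1 * x.1 = 1 := by
        change (x⁻¹ * x : Matrix.symplecticGroup (Fin 2) F).1 = 1
        rw [inv_mul_cancel]; rfl
      have h8 : y.1.trace = 4 := by
        rw [hy, sympTransvection, Matrix.trace_add, Matrix.trace_one, Matrix.trace_smul, Matrix.trace_vecMulVec]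
        have : w ⬝ᵥ (Matrix.J (Fin 2) F *ᵥ w) = 0 := (CfsgH9.SpGen.sympForm_isSymplectic (F := F) 2).alternating w
        rw [this, smul_zero, add_zero, Fintype.card_sum, Fintype.card_fin]
        norm_num
      rw [h7, Matrix.one_mul, h8, smul_eq_mul] at h6
      have h4' : (4 : F) ≠ 0 := by
        have : (4 : F) = 2 * 2 := by norm_num
        rw [this]; exact mul_ne_zero h2 h2
      have hc1 : c = 1 := by
        apply mul_right_cancel₀ h4'
        rw [← h6, one_mul]
      rw [hc1, one_smul] at h4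
      exact (Subtype.ext h4).symm
    rw [Subgroup.mem_center_iff]
    intro y
    have h9 : y ∈ Subgroup.closure (CfsgH9.SpBridge.tset 2 F) := by
      rw [CfsgH9.SpBridge.closure_eq_top]; exact Subgroup.mem_top _
    have h10 : Subgroup.closure (CfsgH9.SpBridge.tset 2 F) ≤ Subgroup.centralizer {x} := by
      rw [Subgroup.closure_le]
      intro z hz
      rw [SetLike.mem_coe, Subgroup.mem_centralizer_singleton_iff]
      exact (key z hz)
    have h11 := h10 h9
    rw [Subgroup.mem_centralizer_singleton_iff] at h11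
    exact h11

end Cfsg.Agent.S0301
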