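import Cfsg.Statements.S0303
import Cfsg.Agent.H9.PO2
import Cfsg.Agent.H9.PO3
import Cfsg.Agent.H9.UnStd
import Cfsg.Agent.H9.UnSimple
import Cfsg.Agent.S0278
import Cfsg.Agent.S0288
import Cfsg.Agent.S0754

set_option autoImplicit false
open Cfsg

namespace Cfsg.Agent.S0303

open Matrix Cfsg CfsgH9.Og CfsgH9.ClForms CfsgH9.PO

set_option maxHeartbeats 400000 in
theorem center_of_perfect {X Γ : Type*} [Group X] [Group Γ] (ρ : X →* Γ) (hker : ρ.ker ≤ Subgroup.center X) (hperf : commutator X = ⊤)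
    (x : X) (hx : ∀ y, ρ (x * y) = ρ (y * x)) : x ∈ Subgroup.center X := by
  have h1 : ∀ y, x * y * x⁻¹ * y⁻¹ ∈ Subgroup.center X := by
    intro y
    apply hker
    rw [MonoidHom.mem_ker, show x * y * x⁻¹ * y⁻¹ = (x * y) * (y * x)⁻¹ by group, map_mul, map_inv, hx y, mul_inv_cancel]
  let f : X →* Subgroup.center X :=
    { toFun := fun y => ⟨x * y * x⁻¹ * y⁻¹, h1 y⟩
      map_one' := by apply Subtype.ext; simp
      map_mul' := by
        intro y z
        apply Subtype.ext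
        change x * (y * z) * x⁻¹ * (y * z)⁻¹ = (x * y * x⁻¹ * y⁻¹) * (x * z * x⁻¹ * z⁻¹)
        have h3 : y⁻¹ * (x * z * x⁻¹ * z⁻¹) = (x * z * x⁻¹ * z⁻¹) * y⁻¹ := Subgroup.mem_center_iff.1 (h1 z) y⁻¹
        rw [mul_assoc (x * y * x⁻¹) y⁻¹, h3]
        simp only [_root_.mul_inv_rev, mul_assoc, inv_mul_cancel_left] }
  have h2 : f.ker = ⊤ := by
    have hc : ∀ u v : Subgroup.center X, u * v = v * u := fun u v => Subtype.ext (Subgroup.mem_center_iff.1 v.2 u.1)
    rw [eq_top_iff, ← hperf, commutator_def, Subgroup.commutator_le]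
    intro u _ v _
    rw [MonoidHom.mem_ker, map_commutatorElement, commutatorElement_def, hc (f u) (f v), mul_assoc, mul_assoc, mul_inv_cancel_left, mul_inv_cancel]
  rw [Subgroup.mem_center_iff]
  intro y
  have h3 : y ∈ f.ker := by rw [h2]; exact Subgroup.mem_top _
  have h4 : x * y * x⁻¹ * y⁻¹ = 1 := congrArg Subtype.val h3
  have h5 : x * y * x⁻¹ * y⁻¹ * (y * x) = 1 * (y * x) := by rw [h4]
  rw [one_mul] at h5
  rw [← h5]; group

section
variable {F K : Type*} [Field F] [Field K]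

/-- the polar form -/
def pol (w z : I6 → K) : K := (w ∘ Sum.swap) ⬝ᵥ z

theorem pol_eq (w z : I6 → K) : pol w z = quadFormPlus 3 K (w + z) - quadFormPlus 3 K w - quadFormPlus 3 K z := by
  simp only [pol, dotProduct, Fintype.sum_sum_type, Function.comp, Sum.swap_inl, Sum.swap_inr, quadFormPlus, Fin.sum_univ_three, Pi.add_apply]
  ring

theorem act_mul (g h : Matrix (Fin 4) (Fin 4) K) : act (g * h) = act g * act h := by
  apply ext6
  intro v
  rw [← mulVec_mulVec]
  apply toM_inj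
  rw [toM_act, toM_act, toM_act, Matrix.transpose_mul]
  simp only [Matrix.mul_assoc]

theorem act_one : act (1 : Matrix (Fin 4) (Fin 4) K) = 1 := by
  apply ext6
  intro v
  apply toM_inj
  rw [toM_act, Matrix.one_mul, Matrix.transpose_one, Matrix.mul_one, one_mulVec]

theorem act_form {g : Matrix (Fin 4) (Fin 4) K} (hg : g.det = 1) (w : I6 → K) : quadFormPlus 3 K (act g *ᵥ w) = quadFormPlus 3 K w := by
  have hu : g.det ≠ 0 := by rw [hg]; exact one_ne_zero
  have h1 := rho6_mem (Matrix.GeneralLinearGroup.mkOfDetNeZero g hu) hg w w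
  exact h1

theorem act_pol {g : Matrix (Fin 4) (Fin 4) K} (hg : g.det = 1) (w z : I6 → K) : pol (act g *ᵥ w) (act g *ᵥ z) = pol w z := by
  rw [pol_eq, pol_eq, ← mulVec_add, act_form hg, act_form hg, act_form hg]

/-- explicit coordinates of the action -/
theorem act_dot (g : Matrix (Fin 4) (Fin 4) K) (w z : I6 → K) : (act g *ᵥ w) ⬝ᵥ z = w ⬝ᵥ (act gᵀ *ᵥ z) := by
  have e : ∀ (g : Matrix (Fin 4) (Fin 4) K) (w : I6 → K), act g *ᵥ w = frM (g * toM w * gᵀ) := by
    intro g w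
    rw [act, LinearMap.toMatrix'_mulVec]; rfl
  rw [e, e]
  simp only [dotProduct, Fintype.sum_sum_type, Fin.sum_univ_three, frM, Sum.elim_inl, Sum.elim_inr, Matrix.mul_apply, Fin.sum_univ_four, Matrix.transpose_apply, toM,
    Matrix.of_apply, Matrix.cons_val', Matrix.cons_val_zero, Matrix.cons_val_one, Matrix.cons_val]
  ring

theorem act_sigma (σ : K →+* K) (g : Matrix (Fin 4) (Fin 4) K) (w : I6 → K) : (fun j => σ ((act g *ᵥ w) j)) = act (g.map σ) *ᵥ (fun j => σ (w j)) := by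
  have e : ∀ (g : Matrix (Fin 4) (Fin 4) K) (w : I6 → K), act g *ᵥ w = frM (g * toM w * gᵀ) := by
    intro g w
    rw [act, LinearMap.toMatrix'_mulVec]; rfl
  rw [e, e]
  have h1 : toM (fun j => σ (w j)) = (toM w).map σ := by
    ext j k; fin_cases j <;> fin_cases k <;> simp [toM]
  rw [h1, ← Matrix.transpose_map, ← Matrix.map_mul, ← Matrix.map_mul]
  ext j
  rcases j with j | j <;> fin_cases j <;> simp [frM]

/-- the semilinear map -/
def tau (σ : K →+* K) (w : I6 → K) : I6 → K := fun j => σ (w (Sum.swap j))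

theorem tau_eq (σ : K →+* K) (w : I6 → K) : tau σ w = (fun j => σ (w j)) ∘ Sum.swap := rfl

theorem pol_nondeg {w w' : I6 → K} (h : ∀ z, pol w z = pol w' z) : w = w' := by
  have h1 : w ∘ Sum.swap = w' ∘ Sum.swap := by
    ext j
    have := h (Pi.single j 1)
    simpa [pol] using this
  have h2 : (w ∘ Sum.swap) ∘ Sum.swap = (w' ∘ Sum.swap) ∘ Sum.swap := by rw [h1]
  rw [Function.comp_assoc, Function.comp_assoc] at h2
  have e : (Sum.swap ∘ Sum.swap : I6 → I6) = id := by ext j; simp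
  rwa [e, Function.comp_id, Function.comp_id] at h2

theorem tau_act {σ : K →+* K} {g : Matrix (Fin 4) (Fin 4) K} (hg : g.det = 1) (hu : (g.map σ) * gᵀ = 1) (w : I6 → K) :
    tau σ (act g *ᵥ w) = act g *ᵥ (tau σ w) := by
  apply pol_nondeg
  intro z
  have hu' : g * (g.map σ)ᵀ = 1 := by
    have := congrArg Matrix.transpose hu
    rwa [Matrix.transpose_mul, Matrix.transpose_transpose, Matrix.transpose_one] at this
  have e0 : ∀ (w : I6 → K) z, pol (w ∘ Sum.swap) z = w ⬝ᵥ z := by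
    intro w z
    rw [pol, Function.comp_assoc]
    have e : (Sum.swap ∘ Sum.swap : I6 → I6) = id := by ext j; simp
    rw [e, Function.comp_id]
  have e1 : act g *ᵥ (act (g.map σ)ᵀ *ᵥ z) = z := by
    rw [mulVec_mulVec, ← act_mul, hu', act_one, one_mulVec]
  rw [tau_eq, e0, act_sigma, act_dot]
  conv_rhs => rw [← e1]
  rw [act_pol hg, tau_eq, e0]

end

section
variable {F K : Type*} [Field F] [Field K] {a b : F} {i : F →+* K} {σ : K →+* K} {θ : K} {c1 c2 : K → F} (h : QE a b i σ θ c1 c2)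

abbrev J6 := (Fin 2 ⊕ Fin 2) ⊕ Fin 2

/-- scalars describing a hyperbolic basis of the hermitian plane -/
structure HB (σ : K →+* K) (l m t : K) : Prop where
  l1 : 1 + l * σ l = 0
  m1 : 1 + m * σ m = 0
  t1 : σ t * (1 + l * σ m) = 1
  lm : l ≠ m

variable {l m t : K} (hb : HB σ l m t)

def enc (i : F →+* K) (σ : K →+* K) (θ l m t : K) (v : J6 → F) : I6 → K :=
  let P : K := i (v (Sum.inl (Sum.inl 0))) + θ * i (v (Sum.inl (Sum.inl 1)))
  let R : K := (θ * i (v (Sum.inl (Sum.inr 0))) - i (v (Sum.inl (Sum.inr 1)))) / (θ - σ θ)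
  let U : Fin 3 → K := ![P + t * R, l * P + t * m * R, i (v (Sum.inr 0)) + θ * i (v (Sum.inr 1))]
  Sum.elim U (fun j => σ (U j))

def dec (c1 c2 : K → F) (σ : K →+* K) (θ l m t : K) (w : I6 → K) : J6 → F :=
  let P : K := (m * w (Sum.inl 0) - w (Sum.inl 1)) / (m - l)
  let R : K := (w (Sum.inl 1) - l * w (Sum.inl 0)) / (m - l) / t * (θ - σ θ)
  Sum.elim (Sum.elim ![c1 P, c2 P] ![c2 R, - c1 R]) ![c1 (w (Sum.inl 2)), c2 (w (Sum.inl 2))]

include hb in
theorem t_ne : t ≠ 0 := by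
  intro h0
  have := hb.t1
  rw [h0, map_zero, zero_mul] at this
  exact zero_ne_one this

include h hb

theorem dec_enc (v : J6 → F) : dec c1 c2 σ θ l m t (enc i σ θ l m t v) = v := by
  have ht := t_ne hb
  have hlm : m - l ≠ 0 := sub_ne_zero.2 (Ne.symm hb.lm)
  have hθ : θ - σ θ ≠ 0 := sub_ne_zero.2 (Ne.symm h.ne)
  set P : K := i (v (Sum.inl (Sum.inl 0))) + θ * i (v (Sum.inl (Sum.inl 1))) with hP
  set R : K := (θ * i (v (Sum.inl (Sum.inr 0))) - i (v (Sum.inl (Sum.inr 1)))) / (θ - σ θ) with hR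
  have w0 : enc i σ θ l m t v (Sum.inl 0) = P + t * R := rfl
  have w1 : enc i σ θ l m t v (Sum.inl 1) = l * P + t * m * R := rfl
  have w2 : enc i σ θ l m t v (Sum.inl 2) = i (v (Sum.inr 0)) + θ * i (v (Sum.inr 1)) := rfl
  have e1 : (m * (P + t * R) - (l * P + t * m * R)) / (m - l) = P := by
    rw [div_eq_iff hlm]; ring
  have e2 : (l * P + t * m * R - l * (P + t * R)) / (m - l) / t * (θ - σ θ) = i (- v (Sum.inl (Sum.inr 1))) + θ * i (v (Sum.inl (Sum.inr 0))) := by
    have : (l * P + t * m * R - l * (P + t * R)) / (m - l) / t = R := by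
      rw [div_div, div_eq_iff (mul_ne_zero hlm ht)]; ring
    rw [this, hR, div_mul_cancel₀ _ hθ, map_neg]; ring
  ext j
  rcases j with (j | j) | j <;> fin_cases j
  · change c1 ((m * enc i σ θ l m t v (Sum.inl 0) - enc i σ θ l m t v (Sum.inl 1)) / (m - l)) = _
    rw [w0, w1, e1, hP, h.c1u]; rfl
  · change c2 ((m * enc i σ θ l m t v (Sum.inl 0) - enc i σ θ l m t v (Sum.inl 1)) / (m - l)) = _
    rw [w0, w1, e1, hP, h.c2u]; rfl
  · change c2 ((enc i σ θ l m t v (Sum.inl 1) - l * enc i σ θ l m t v (Sum.inl 0)) / (m - l) / t * (θ - σ θ)) = _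
    rw [w0, w1, e2, h.c2u]; rfl
  · change - c1 ((enc i σ θ l m t v (Sum.inl 1) - l * enc i σ θ l m t v (Sum.inl 0)) / (m - l) / t * (θ - σ θ)) = _
    rw [w0, w1, e2, h.c1u, neg_neg]; rfl
  · change c1 (enc i σ θ l m t v (Sum.inl 2)) = _
    rw [w2, h.c1u]; rfl
  · change c2 (enc i σ θ l m t v (Sum.inl 2)) = _
    rw [w2, h.c2u]; rfl

theorem enc_dec {w : I6 → K} (hw : tau σ w = w) : enc i σ θ l m t (dec c1 c2 σ θ l m t w) = w := by
  have ht := t_ne hb
  have hlm : m - l ≠ 0 := sub_ne_zero.2 (Ne.symm hb.lm)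
  have hθ : θ - σ θ ≠ 0 := sub_ne_zero.2 (Ne.symm h.ne)
  set P : K := (m * w (Sum.inl 0) - w (Sum.inl 1)) / (m - l) with hP
  set R : K := (w (Sum.inl 1) - l * w (Sum.inl 0)) / (m - l) / t * (θ - σ θ) with hR
  have hPd : i (c1 P) + θ * i (c2 P) = P := (h.dec P).symm
  have hRd : (θ * i (c2 R) - i (- c1 R)) / (θ - σ θ) = (w (Sum.inl 1) - l * w (Sum.inl 0)) / (m - l) / t := by
    rw [map_neg, sub_neg_eq_add, add_comm, ← h.dec R, hR, mul_div_assoc, div_self hθ, mul_one]
  have hU : ∀ j : Fin 3, enc i σ θ l m t (dec c1 c2 σ θ l m t w) (Sum.inl j) = w (Sum.inl j) := by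
    intro j
    fin_cases j
    · change i (c1 P) + θ * i (c2 P) + t * ((θ * i (c2 R) - i (- c1 R)) / (θ - σ θ)) = w (Sum.inl 0)
      rw [hPd, hRd, hP]
      field_simp
      ring
    · change l * (i (c1 P) + θ * i (c2 P)) + t * m * ((θ * i (c2 R) - i (- c1 R)) / (θ - σ θ)) = w (Sum.inl 1)
      rw [hPd, hRd, hP]
      field_simp
      ring
    · exact (h.dec _).symm
  ext j
  rcases j with j | j
  · exact hU j
  · change σ (enc i σ θ l m t (dec c1 c2 σ θ l m t w) (Sum.inl j)) = w (Sum.inr j)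
    rw [hU]
    exact congrFun hw (Sum.inr j)

omit hb in
theorem tau_enc (v : J6 → F) : tau σ (enc i σ θ l m t v) = enc i σ θ l m t v := by
  ext j
  rcases j with j | j
  · change σ (σ (enc i σ θ l m t v (Sum.inl j))) = _
    rw [h.ss]
  · rfl

omit h hb in
theorem enc_add (u v : J6 → F) : enc i σ θ l m t (u + v) = enc i σ θ l m t u + enc i σ θ l m t v := by
  have hU : ∀ j : Fin 3, enc i σ θ l m t (u + v) (Sum.inl j) = enc i σ θ l m t u (Sum.inl j) + enc i σ θ l m t v (Sum.inl j) := by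
    intro j
    fin_cases j <;> simp [enc] <;> ring
  ext j
  rcases j with j | j
  · exact hU j
  · change σ (enc i σ θ l m t (u + v) (Sum.inl j)) = σ (enc i σ θ l m t u (Sum.inl j)) + σ (enc i σ θ l m t v (Sum.inl j))
    rw [hU, map_add]

omit hb in
theorem enc_smul (c : F) (v : J6 → F) : enc i σ θ l m t (c • v) = i c • enc i σ θ l m t v := by
  have hU : ∀ j : Fin 3, enc i σ θ l m t (c • v) (Sum.inl j) = i c * enc i σ θ l m t v (Sum.inl j) := by
    intro j
    fin_cases j <;> simp [enc] <;> ring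
  ext j
  rcases j with j | j
  · exact hU j
  · change σ (enc i σ θ l m t (c • v) (Sum.inl j)) = i c * σ (enc i σ θ l m t v (Sum.inl j))
    rw [hU, map_mul, h.si]

omit hb in
theorem dec_add (w z : I6 → K) : dec c1 c2 σ θ l m t (w + z) = dec c1 c2 σ θ l m t w + dec c1 c2 σ θ l m t z := by
  have e1 : (m * (w + z) (Sum.inl 0) - (w + z) (Sum.inl 1)) / (m - l) = (m * w (Sum.inl 0) - w (Sum.inl 1)) / (m - l) + (m * z (Sum.inl 0) - z (Sum.inl 1)) / (m - l) := by
    simp only [Pi.add_apply]; ring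
  have e2 : ((w + z) (Sum.inl 1) - l * (w + z) (Sum.inl 0)) / (m - l) / t * (θ - σ θ) = (w (Sum.inl 1) - l * w (Sum.inl 0)) / (m - l) / t * (θ - σ θ) + (z (Sum.inl 1) - l * z (Sum.inl 0)) / (m - l) / t * (θ - σ θ) := by
    simp only [Pi.add_apply]; ring
  ext j
  rcases j with (j | j) | j <;> fin_cases j
  · change c1 _ = c1 _ + c1 _
    rw [e1, h.c1_add]
  · change c2 _ = c2 _ + c2 _
    rw [e1, h.c2_add]
  · change c2 _ = c2 _ + c2 _
    rw [e2, h.c2_add]
  · change - c1 _ = - c1 _ + - c1 _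
    rw [e2, h.c1_add]; ring
  · exact h.c1_add _ _
  · exact h.c2_add _ _

omit hb in
theorem dec_smul (c : F) (w : I6 → K) : dec c1 c2 σ θ l m t (i c • w) = c • dec c1 c2 σ θ l m t w := by
  have e1 : (m * (i c • w) (Sum.inl 0) - (i c • w) (Sum.inl 1)) / (m - l) = i c * ((m * w (Sum.inl 0) - w (Sum.inl 1)) / (m - l)) := by
    simp only [Pi.smul_apply, smul_eq_mul]; ring
  have e2 : ((i c • w) (Sum.inl 1) - l * (i c • w) (Sum.inl 0)) / (m - l) / t * (θ - σ θ) = i c * ((w (Sum.inl 1) - l * w (Sum.inl 0)) / (m - l) / t * (θ - σ θ)) := by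
    simp only [Pi.smul_apply, smul_eq_mul]; ring
  ext j
  rcases j with (j | j) | j <;> fin_cases j
  · change c1 _ = c * c1 _
    rw [e1, h.c1_smul]
  · change c2 _ = c * c2 _
    rw [e1, h.c2_smul]
  · change c2 _ = c * c2 _
    rw [e2, h.c2_smul]
  · change - c1 _ = c * - c1 _
    rw [e2, h.c1_smul]; ring
  · exact h.c1_smul _ _
  · exact h.c2_smul _ _

theorem Q_eq (v : J6 → F) : i (quadFormMinus 2 F a b v) = quadFormPlus 3 K (enc i σ θ l m t v) := by
  have hθ : θ - σ θ ≠ 0 := sub_ne_zero.2 (Ne.symm h.ne)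
  set P : K := i (v (Sum.inl (Sum.inl 0))) + θ * i (v (Sum.inl (Sum.inl 1))) with hP
  set R : K := (θ * i (v (Sum.inl (Sum.inr 0))) - i (v (Sum.inl (Sum.inr 1)))) / (θ - σ θ) with hR
  set U2 : K := i (v (Sum.inr 0)) + θ * i (v (Sum.inr 1)) with hU2
  have e0 : quadFormPlus 3 K (enc i σ θ l m t v) = (P + t * R) * σ (P + t * R) + (l * P + t * m * R) * σ (l * P + t * m * R) + U2 * σ U2 := by
    rw [quadFormPlus, Fin.sum_univ_three]; rfl
  have e1 : (P + t * R) * σ (P + t * R) + (l * P + t * m * R) * σ (l * P + t * m * R) = P * σ R + R * σ P := by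
    have h1 := hb.l1
    have h2 := hb.m1
    have h3 := hb.t1
    have h4 : t * (1 + m * σ l) = 1 := by
      have := congrArg σ h3
      rw [map_mul, map_add, map_mul, map_one, h.ss, h.ss] at this
      linear_combination this
    simp only [map_add, map_mul]
    linear_combination (P * σ P) * h1 + (t * σ t * R * σ R) * h2 + (P * σ R) * h3 + (R * σ P) * h4
  have hRδ : R * (θ - σ θ) = θ * i (v (Sum.inl (Sum.inr 0))) - i (v (Sum.inl (Sum.inr 1))) := by
    rw [hR, div_mul_cancel₀ _ hθ]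
  have hσR : σ R * (σ θ - θ) = σ θ * i (v (Sum.inl (Sum.inr 0))) - i (v (Sum.inl (Sum.inr 1))) := by
    have := congrArg σ hRδ
    rw [map_mul, map_sub, map_sub, map_mul, h.ss, h.si, h.si] at this
    exact this
  have hσP : σ P = i (v (Sum.inl (Sum.inl 0))) + σ θ * i (v (Sum.inl (Sum.inl 1))) := by
    rw [hP, map_add, map_mul, h.si, h.si]
  have e2 : P * σ R + R * σ P = i (v (Sum.inl (Sum.inl 0))) * i (v (Sum.inl (Sum.inr 0))) + i (v (Sum.inl (Sum.inl 1))) * i (v (Sum.inl (Sum.inr 1))) := by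
    apply mul_right_cancel₀ hθ
    rw [hσP, hP]
    linear_combination (i (v (Sum.inl (Sum.inl 0))) + σ θ * i (v (Sum.inl (Sum.inl 1)))) * hRδ - (i (v (Sum.inl (Sum.inl 0))) + θ * i (v (Sum.inl (Sum.inl 1)))) * hσR
  have e3 : U2 * σ U2 = i (v (Sum.inr 0)) ^ 2 + i a * i (v (Sum.inr 0)) * i (v (Sum.inr 1)) + i b * i (v (Sum.inr 1)) ^ 2 := by
    have h1 := h.tr
    have h2 := h.nm
    rw [hU2, map_add, map_mul, h.si, h.si, ← h1, ← h2]; ring
  rw [e0, e1, e2, e3, quadFormMinus, Fin.sum_univ_two]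
  simp only [map_add, map_mul, map_pow]

def rmat (l m t : K) (g : Matrix (Fin 4) (Fin 4) K) : Matrix J6 J6 F := LinearMap.toMatrix'
  { toFun := fun v => dec c1 c2 σ θ l m t (act g *ᵥ (enc i σ θ l m t v))
    map_add' := by
      intro u v
      rw [enc_add, mulVec_add, dec_add h]
    map_smul' := by
      intro c v
      rw [enc_smul h, mulVec_smul, dec_smul h]; rfl }

theorem enc_rmat {g : Matrix (Fin 4) (Fin 4) K} (hg : g.det = 1) (hu : (g.map σ) * gᵀ = 1) (v : J6 → F) :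
    enc i σ θ l m t (rmat h l m t g *ᵥ v) = act g *ᵥ (enc i σ θ l m t v) := by
  rw [rmat, LinearMap.toMatrix'_mulVec]
  apply enc_dec h hb
  rw [tau_act hg hu, tau_enc h]

theorem enc_inj {u v : J6 → F} (huv : enc i σ θ l m t u = enc i σ θ l m t v) : u = v := by
  rw [← dec_enc h hb u, huv, dec_enc h hb]

omit h hb in
theorem extJ {A B : Matrix J6 J6 F} (h : ∀ x, A *ᵥ x = B *ᵥ x) : A = B := Matrix.ext_of_mulVec_single fun i => h _

omit hb h in
theorem su_eq {q : ℕ} (hσ : ∀ x, σ x = x ^ q) (g : SU 4 K q) : ((g.1.1).map σ) * (g.1.1)ᵀ = 1 := by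
  rw [mul_eq_one_comm]
  have h1 : (g.1.1)ᵀ * (g.1.1).map σ = 1 := by
    ext j k
    have h2 : hermForm 4 K q (g.1.1 *ᵥ (Pi.single j 1)) (g.1.1 *ᵥ (Pi.single k 1)) = hermForm 4 K q (Pi.single j 1) (Pi.single k 1) := g.2 _ _
    rw [hermForm, hermForm] at h2
    simp only [Matrix.mulVec_single_one, Matrix.col_apply] at h2
    rw [Matrix.mul_apply]
    have h3 : ∀ x, (g.1.1)ᵀ j x * ((g.1.1).map σ) x k = g.1.1 x j * g.1.1 x k ^ q := by
      intro x
      rw [Matrix.transpose_apply, Matrix.map_apply, hσ]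
    rw [Finset.sum_congr rfl (fun x _ => h3 x), h2]
    have h4 : ∀ x, (Pi.single j (1 : K) : Fin 4 → K) x * (Pi.single k (1 : K) : Fin 4 → K) x ^ q = if x = j then (if x = k then 1 else 0) else 0 := by
      intro x
      rw [← hσ, Pi.single_apply, Pi.single_apply]
      split_ifs <;> simp
    rw [Finset.sum_congr rfl (fun x _ => h4 x), Finset.sum_ite_eq' Finset.univ j, if_pos (Finset.mem_univ _), Matrix.one_apply]
  exact h1

theorem exists_rho {q : ℕ} (hσ : ∀ x, σ x = x ^ q) : ∃ ρ : SU 4 K q →* isometryGroup F (quadFormMinus 2 F a b),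
    ∀ g, ρ g = 1 → ∃ c : K, c ^ 2 = 1 ∧ g.1.1 = c • 1 := by
  have hkey : ∀ (g : SU 4 K q) v, enc i σ θ l m t (rmat h l m t g.1.1 *ᵥ v) = act g.1.1 *ᵥ (enc i σ θ l m t v) :=
    fun g v => enc_rmat h hb g.1.2 (su_eq hσ g) v
  let ρ0 : SU 4 K q →* GL J6 F := MonoidHom.toHomUnits
    { toFun := fun g => rmat h l m t g.1.1
      map_one' := by
        apply extJ
        intro v
        apply enc_inj h hb
        rw [hkey, one_mulVec]
        change act (1 : Matrix (Fin 4) (Fin 4) K) *ᵥ _ = _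
        rw [act_one, one_mulVec]
      map_mul' := by
        intro g g'
        apply extJ
        intro v
        rw [← mulVec_mulVec]
        apply enc_inj h hb
        rw [hkey, hkey, hkey]
        change act (g.1.1 * g'.1.1) *ᵥ _ = _
        rw [act_mul, mulVec_mulVec] }
  have hρ0 : ∀ g, (ρ0 g).1 = rmat h l m t g.1.1 := fun g => rfl
  refine ⟨ρ0.codRestrict _ (by
    intro g u v
    change quadFormMinus 2 F a b ((ρ0 g).1 *ᵥ u) = quadFormMinus 2 F a b u
    apply i.injective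
    rw [Q_eq h hb, Q_eq h hb, hρ0, hkey, act_form g.1.2]), ?_⟩
  intro g hg
  have h3 : rmat h l m t g.1.1 = 1 := congrArg (fun x : isometryGroup F (quadFormMinus 2 F a b) => (x : GL J6 F).1) hg
  have h4 : ∀ w, tau σ w = w → act g.1.1 *ᵥ w = w := by
    intro w hw
    have h5 := hkey g (dec c1 c2 σ θ l m t w)
    rw [h3, one_mulVec, enc_dec h hb hw] at h5
    exact h5.symm
  have hθ : θ - σ θ ≠ 0 := sub_ne_zero.2 (Ne.symm h.ne)
  have hθ' : σ θ - θ ≠ 0 := sub_ne_zero.2 h.ne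
  have h5 : ∀ w : I6 → K, act g.1.1 *ᵥ w = w := by
    intro w
    set be : I6 → K := (θ - σ θ)⁻¹ • (w - tau σ w) with hbe
    set al : I6 → K := w - θ • be with hal
    have tt : ∀ w : I6 → K, tau σ (tau σ w) = w := by
      intro w
      ext j
      change σ (σ (w (Sum.swap (Sum.swap j)))) = w j
      rw [h.ss, Sum.swap_swap]
    have tsub : ∀ u v : I6 → K, tau σ (u - v) = tau σ u - tau σ v := by
      intro u v; ext j; exact map_sub σ _ _
    have tsm : ∀ (c : K) (u : I6 → K), tau σ (c • u) = σ c • tau σ u := by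
      intro c u; ext j; exact map_mul σ _ _
    have hb1 : tau σ be = be := by
      rw [hbe, tsm, tsub, tt, map_inv₀, map_sub, h.ss]
      ext j
      simp only [Pi.smul_apply, Pi.sub_apply, smul_eq_mul]
      field_simp
      ring
    have ha1 : tau σ al = al := by
      rw [hal, tsub, tsm, hb1, hbe]
      ext j
      simp only [Pi.smul_apply, Pi.sub_apply, smul_eq_mul]
      field_simp
      ring
    have hw : w = al + θ • be := by rw [hal]; abel
    have e1 := h4 _ hb1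
    have e2 := h4 _ ha1
    conv_lhs => rw [hw, mulVec_add, mulVec_smul, e1, e2]
    exact hw.symm
  have hu : g.1.1.det ≠ 0 := by rw [g.1.2]; exact one_ne_zero
  have h6 : rho6 (Matrix.GeneralLinearGroup.mkOfDetNeZero g.1.1 hu) = 1 := by
    apply Units.ext
    apply ext6
    intro w
    rw [Units.val_one, one_mulVec]
    exact h5 w
  exact rho6_one h6

end

/-- PΩ^-_6(q) is isomorphic to PSU_4(q). -/
theorem result {F K : Type*} [Field F] [Fintype F] [Field K] [Fintype K] {q : ℕ} (hF : Fintype.card F = q) (hK : Fintype.card K = q ^ 2) (a b : F) (hab : ∀ z₁ z₂ : F, z₁ ^ 2 + a * z₁ * z₂ + b * z₂ ^ 2 = 0 → z₁ = 0 ∧ z₂ = 0) : Nonempty (Cfsg.POmega F (Cfsg.quadFormMinus 2 F a b) ≃* Cfsg.PSU 4 K q) := by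
  classical
  obtain ⟨i, σ, θ, c1, c2, h, hσ⟩ := exists_QE hF hK a b hab
  have hq1 : 1 < q := by rw [← hF]; exact Fintype.one_lt_card
  have hσ1 : σ ≠ RingHom.id K := by
    intro h0
    apply h.ne
    rw [h0]; rfl
  obtain ⟨l, m, t, hb⟩ : ∃ l m t : K, HB σ l m t := by
    have h1 := Cfsg.Agent.S0754.result hK (-1) (by simp) (by rw [← hσ, map_neg, map_one])
    have h2 : Nontrivial {x : K // x ^ (q + 1) = -1} := by
      rw [← Finite.one_lt_card_iff_nontrivial, h1]; omega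
    obtain ⟨⟨l, hl⟩, ⟨m, hm⟩, hlm⟩ := h2
    have hl' : 1 + l * σ l = 0 := by rw [hσ, ← pow_succ', hl]; ring
    have hm' : 1 + m * σ m = 0 := by rw [hσ, ← pow_succ', hm]; ring
    have hne : 1 + l * σ m ≠ 0 := by
      intro h0
      have h3 : (l - m) * σ m = 0 := by linear_combination h0 - hm'
      rcases mul_eq_zero.1 h3 with h4 | h4
      · exact hlm (Subtype.ext (sub_eq_zero.1 h4))
      · rw [h4, mul_zero, add_zero] at hm'
        exact one_ne_zero hm'
    refine ⟨l, m, σ (1 + l * σ m)⁻¹, hl', hm', ?_, fun h0 => hlm (Subtype.ext h0)⟩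
    rw [h.ss, inv_mul_cancel₀ hne]
  obtain ⟨ρ, hρ1⟩ := exists_rho h hb hσ
  have hperf : commutator (SU 4 K q) = ⊤ := by
    have hIS : CfsgH9.Un.IsSU (hermForm 4 K q) (CfsgH9.Un.suGL 4 K q) :=
      ⟨CfsgH9.Un.suGL_inj, CfsgH9.Un.suGL_iso, CfsgH9.Un.suGL_det, fun g h1 h2 => CfsgH9.Un.exists_su h1 h2⟩
    exact hIS.perfect (CfsgH9.Un.hm_std hK hσ hσ1 h.ss) (by simp) (Or.inl (by simp))
  have hρ : ∀ x, ρ x ∈ commutator (isometryGroup F (quadFormMinus 2 F a b)) := by
    intro x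
    have h4 : (commutator (SU 4 K q)).map ρ ≤ commutator (isometryGroup F (quadFormMinus 2 F a b)) := by
      rw [commutator_def, Subgroup.map_commutator]
      exact Subgroup.commutator_mono le_top le_top
    rw [hperf] at h4
    exact h4 ⟨x, Subgroup.mem_top _, rfl⟩
  have hv1 : ∀ x ∈ ρ.ker, ∀ y ∈ ρ.ker, x.1.1 0 0 = y.1.1 0 0 → x = y := by
    intro x hx y hy hxy
    obtain ⟨c, -, h1⟩ := hρ1 x hx
    obtain ⟨d, -, h3⟩ := hρ1 y hy
    have hcd : c = d := by simpa [h1, h3] using hxy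
    exact Subtype.ext (Subtype.ext (by rw [h1, h3, hcd]))
  have hv2 : ∀ x ∈ ρ.ker, (x.1.1 0 0) ^ 2 = 1 := by
    intro x hx
    obtain ⟨c, hc, h1⟩ := hρ1 x hx
    rw [h1]; simpa using hc
  have hO : Nat.card (isometryGroup F (quadFormMinus 2 F a b)) = 2 * Nat.card (SU 4 K q) := by
    have hO := Cfsg.Agent.S0288.result hF 3 (by norm_num) a b hab
    have hSU := Cfsg.Agent.S0278.result hK 4 (by norm_num)
    change Nat.card (isometryGroup F (quadFormMinus 2 F a b)) = _ at hO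
    rw [show Finset.range (3 - 1) = Finset.range 2 from rfl, Finset.prod_range_succ, Finset.prod_range_one] at hO
    rw [Finset.prod_range_succ, Finset.prod_range_succ, Finset.prod_range_succ, Finset.prod_range_one, if_pos (by decide), if_neg (by decide), if_pos (by decide), if_neg (by decide)] at hSU
    have hp1 : ∀ j, 1 ≤ q ^ j := fun j => Nat.one_le_pow _ _ (by omega)
    apply Nat.eq_of_mul_eq_mul_left (show 0 < q + 1 by omega)
    rw [hO, show (q + 1) * (2 * Nat.card (SU 4 K q)) = 2 * ((q + 1) * Nat.card (SU 4 K q)) by ring, hSU]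
    have e6 : 4 * (4 - 1) / 2 = 6 := rfl
    rw [e6]
    ring_nf
  haveI : Finite (SU 4 K q) := inferInstance
  have h2K : (2 : F) = 0 ↔ (2 : K) = 0 := by
    rw [← map_ofNat i 2, map_eq_zero]
  have hcard : Nat.card (commutator (isometryGroup F (quadFormMinus 2 F a b))) ≤ Nat.card ρ.range := by
    by_cases h2 : (2 : F) = 0
    · apply comm_le_of_index
      have hX := card_range ρ
      have hk := card_le_one' (h2K.1 h2) ρ.ker (fun x => x.1.1 0 0) hv1 hv2
      have hk1 : Nat.card ρ.ker = 1 := le_antisymm hk Nat.card_pos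
      rw [hk1, mul_one] at hX
      rw [hO, hX]
    · have hf := qf_of_quad (qMinus 2 a b) (nondeg_minus 2 hab)
      rw [qMinus_coe] at hf
      exact card_final ρ hO (Or.inl ⟨index_odd hf h2 (Or.inl (two_c (h2 := h2))) (by simp), card_le_two' _ (fun x => x.1.1 0 0) hv1 hv2⟩)
  have hkc : ρ.ker ≤ Subgroup.center (SU 4 K q) := by
    intro x hx
    obtain ⟨c, -, hc⟩ := hρ1 x hx
    rw [Subgroup.mem_center_iff]
    intro y
    apply Subtype.ext
    apply Subtype.ext
    change y.1.1 * x.1.1 = x.1.1 * y.1.1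
    rw [hc, Matrix.mul_smul, Matrix.smul_mul, Matrix.mul_one, Matrix.one_mul]
  refine po_equiv ρ (QuotientGroup.mk' (Subgroup.center (SU 4 K q))) (QuotientGroup.mk'_surjective _) hρ hcard ?_
  intro x
  rw [QuotientGroup.mk'_apply, QuotientGroup.eq_one_iff]
  constructor
  · intro hx y
    rw [Subgroup.mem_center_iff.1 hx y]
  · exact center_of_perfect ρ hkc hperf x

end Cfsg.Agent.S0303
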