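import Cfsg.Statements.S0304
import Cfsg.Agent.H9.SpBridge

set_option autoImplicit false
open Cfsg

namespace Cfsg.Agent.S0304

open Matrix Cfsg

section
variable {F : Type*} [Field F] {m : ℕ}

theorem sf_expand (u v : Fin m ⊕ Fin m → F) : sympForm m F u v = ∑ i, (u (Sum.inr i) * v (Sum.inl i) - u (Sum.inl i) * v (Sum.inr i)) := by
  rw [sympForm, Matrix.J, dotProduct, Fintype.sum_sum_type]
  have h1 : ∀ i : Fin m, ((fromBlocks (0 : Matrix (Fin m) (Fin m) F) (-1 : Matrix (Fin m) (Fin m) F) (1 : Matrix (Fin m) (Fin m) F) (0 : Matrix (Fin m) (Fin m) F)) *ᵥ v) (Sum.inl i) = - v (Sum.inr i) := by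
    intro i
    simp [mulVec, dotProduct, Matrix.one_apply]
  have h2 : ∀ i : Fin m, ((fromBlocks (0 : Matrix (Fin m) (Fin m) F) (-1 : Matrix (Fin m) (Fin m) F) (1 : Matrix (Fin m) (Fin m) F) (0 : Matrix (Fin m) (Fin m) F)) *ᵥ v) (Sum.inr i) = v (Sum.inl i) := by
    intro i
    simp [mulVec, dotProduct, Matrix.one_apply]
  simp only [h1, h2]
  rw [Finset.sum_sub_distrib, add_comm]
  simp only [mul_neg, Finset.sum_neg_distrib]
  rw [sub_eq_add_neg]

theorem sf_nondeg {u : Fin m ⊕ Fin m → F} (h : ∀ v, sympForm m F u v = 0) : u = 0 := by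
  classical
  ext i
  rcases i with i | i
  · have := h (Pi.single (Sum.inr i) 1)
    rw [sf_expand, Finset.sum_eq_single i] at this
    · simpa using this
    · intro j _ hj
      simp [Pi.single_apply, hj]
    · simp
  · have := h (Pi.single (Sum.inl i) 1)
    rw [sf_expand, Finset.sum_eq_single i] at this
    · simpa using this
    · intro j _ hj
      simp [Pi.single_apply, hj]
    · simp

variable [CharP F 2]

theorem two0 : (2 : F) = 0 := by exact_mod_cast CharP.cast_eq_zero F 2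

theorem sq_inj {a b : F} (h : a ^ 2 = b ^ 2) : a = b := by
  have h2 := two0 (F := F)
  have : (a - b) ^ 2 = 0 := by linear_combination h - (a * b - b ^ 2) * h2
  exact sub_eq_zero.1 (pow_eq_zero_iff two_ne_zero |>.1 this)

theorem q_polar (v w : Unit ⊕ (Fin m ⊕ Fin m) → F) :
    quadFormOdd m F (v + w) = quadFormOdd m F v + quadFormOdd m F w + sympForm m F (v ∘ Sum.inr) (w ∘ Sum.inr) := by
  have h2 := two0 (F := F)
  rw [sf_expand, quadFormOdd, quadFormOdd, quadFormOdd]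
  have e : ∑ i : Fin m, (v + w) (Sum.inr (Sum.inl i)) * (v + w) (Sum.inr (Sum.inr i)) =
      ∑ i : Fin m, v (Sum.inr (Sum.inl i)) * v (Sum.inr (Sum.inr i)) + ∑ i : Fin m, w (Sum.inr (Sum.inl i)) * w (Sum.inr (Sum.inr i)) +
      ∑ i, ((v ∘ Sum.inr) (Sum.inr i) * (w ∘ Sum.inr) (Sum.inl i) - (v ∘ Sum.inr) (Sum.inl i) * (w ∘ Sum.inr) (Sum.inr i)) := by
    rw [← Finset.sum_add_distrib, ← Finset.sum_add_distrib]
    apply Finset.sum_congr rfl
    intro i _
    simp only [Pi.add_apply, Function.comp_apply]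
    linear_combination (v (Sum.inr (Sum.inl i)) * w (Sum.inr (Sum.inr i))) * h2
  rw [e]
  simp only [Pi.add_apply]
  linear_combination (v (Sum.inl ()) * w (Sum.inl ())) * h2

theorem g_facts (g : isometryGroup F (quadFormOdd m F)) :
    (∀ v w, sympForm m F (((g : GL (Unit ⊕ (Fin m ⊕ Fin m)) F).1 *ᵥ v) ∘ Sum.inr) (((g : GL (Unit ⊕ (Fin m ⊕ Fin m)) F).1 *ᵥ w) ∘ Sum.inr) =
      sympForm m F (v ∘ Sum.inr) (w ∘ Sum.inr)) ∧
    (∀ i, (g : GL (Unit ⊕ (Fin m ⊕ Fin m)) F).1 (Sum.inr i) (Sum.inl ()) = 0) ∧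
    (g : GL (Unit ⊕ (Fin m ⊕ Fin m)) F).1 (Sum.inl ()) (Sum.inl ()) = 1 := by
  classical
  set G : Matrix (Unit ⊕ (Fin m ⊕ Fin m)) (Unit ⊕ (Fin m ⊕ Fin m)) F := (g : GL (Unit ⊕ (Fin m ⊕ Fin m)) F).1 with hG
  have hQ : ∀ v, quadFormOdd m F (G *ᵥ v) = quadFormOdd m F v := fun v => g.2 v v
  have h1 : ∀ v w, sympForm m F ((G *ᵥ v) ∘ Sum.inr) ((G *ᵥ w) ∘ Sum.inr) = sympForm m F (v ∘ Sum.inr) (w ∘ Sum.inr) := by
    intro v w
    have e1 := q_polar v w
    have e2 := q_polar (G *ᵥ v) (G *ᵥ w)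
    rw [← mulVec_add, hQ, hQ, hQ, e1] at e2
    exact (add_left_cancel e2).symm
  have h2 : ∀ i, G (Sum.inr i) (Sum.inl ()) = 0 := by
    have h3 : (G *ᵥ (Pi.single (Sum.inl ()) 1)) ∘ Sum.inr = 0 := by
      apply sf_nondeg
      intro w
      obtain ⟨w', hw'⟩ : ∃ w', (G *ᵥ w') ∘ Sum.inr = w := by
        refine ⟨((g : GL (Unit ⊕ (Fin m ⊕ Fin m)) F)⁻¹ : GL (Unit ⊕ (Fin m ⊕ Fin m)) F).1 *ᵥ (Sum.elim (fun _ => 0) w), ?_⟩
        rw [mulVec_mulVec, hG, ← Units.val_mul, mul_inv_cancel, Units.val_one, one_mulVec]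
        rfl
      rw [← hw', h1]
      have : (Pi.single (Sum.inl ()) 1 : Unit ⊕ (Fin m ⊕ Fin m) → F) ∘ Sum.inr = 0 := by
        ext i; simp
      rw [this, sf_expand]
      simp
    intro i
    have := congrFun h3 i
    simpa using this
  refine ⟨h1, h2, ?_⟩
  have h4 := hQ (Pi.single (Sum.inl ()) 1)
  rw [quadFormOdd, quadFormOdd] at h4
  simp [h2] at h4
  have h5 : (G (Sum.inl ()) (Sum.inl ())) ^ 2 = 1 ^ 2 := by simpa using h4
  exact sq_inj h5

end

/-- In characteristic 2, O_{2m+1}(q) is isomorphic to Sp_{2m}(q). -/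
theorem result {F : Type*} [Field F] [Fintype F] [CharP F 2] (m : ℕ) : Nonempty (Cfsg.isometryGroup F (Cfsg.quadFormOdd m F) ≃* Matrix.symplecticGroup (Fin m) F) := by
  classical
  -- the action on the quotient by the radical
  have hact : ∀ (g : isometryGroup F (quadFormOdd m F)) (v : (Unit ⊕ (Fin m ⊕ Fin m)) → F), ((g : GL (Unit ⊕ (Fin m ⊕ Fin m)) F).1 *ᵥ v) ∘ Sum.inr = ((g : GL (Unit ⊕ (Fin m ⊕ Fin m)) F).1).toBlocks₂₂ *ᵥ (v ∘ Sum.inr) := by
    intro g v
    obtain ⟨-, h2, -⟩ := g_facts g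
    ext i
    change (∑ j : (Unit ⊕ (Fin m ⊕ Fin m)), (g : GL (Unit ⊕ (Fin m ⊕ Fin m)) F).1 (Sum.inr i) j * v j) = ∑ j, (g : GL (Unit ⊕ (Fin m ⊕ Fin m)) F).1 (Sum.inr i) (Sum.inr j) * v (Sum.inr j)
    rw [Fintype.sum_sum_type]
    simp [h2]
  let φ : isometryGroup F (quadFormOdd m F) →* Matrix.symplecticGroup (Fin m) F :=
    { toFun := fun g => ⟨((g : GL (Unit ⊕ (Fin m ⊕ Fin m)) F).1).toBlocks₂₂, by
        rw [CfsgH9.SpBridge.mem_iff]
        intro u v
        have h1 := (g_facts g).1 (Sum.elim (fun _ => 0) u) (Sum.elim (fun _ => 0) v)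
        rw [hact, hact] at h1
        exact h1⟩
      map_one' := by
        apply Subtype.ext
        ext i j
        change (1 : Matrix (Unit ⊕ (Fin m ⊕ Fin m)) (Unit ⊕ (Fin m ⊕ Fin m)) F) (Sum.inr i) (Sum.inr j) = (1 : Matrix (Fin m ⊕ Fin m) (Fin m ⊕ Fin m) F) i j
        by_cases hij : i = j
        · rw [hij, Matrix.one_apply_eq, Matrix.one_apply_eq]
        · rw [Matrix.one_apply_ne hij, Matrix.one_apply_ne (fun h => hij (Sum.inr_injective h))]
      map_mul' := by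
        intro g h
        apply Subtype.ext
        change ((g : GL (Unit ⊕ (Fin m ⊕ Fin m)) F).1 * (h : GL (Unit ⊕ (Fin m ⊕ Fin m)) F).1).toBlocks₂₂ = ((g : GL (Unit ⊕ (Fin m ⊕ Fin m)) F).1).toBlocks₂₂ * ((h : GL (Unit ⊕ (Fin m ⊕ Fin m)) F).1).toBlocks₂₂
        obtain ⟨-, h2, -⟩ := g_facts g
        ext i j
        change (∑ k : (Unit ⊕ (Fin m ⊕ Fin m)), (g : GL (Unit ⊕ (Fin m ⊕ Fin m)) F).1 (Sum.inr i) k * (h : GL (Unit ⊕ (Fin m ⊕ Fin m)) F).1 k (Sum.inr j)) = ∑ k, (g : GL (Unit ⊕ (Fin m ⊕ Fin m)) F).1 (Sum.inr i) (Sum.inr k) * (h : GL (Unit ⊕ (Fin m ⊕ Fin m)) F).1 (Sum.inr k) (Sum.inr j)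
        rw [Fintype.sum_sum_type]
        simp [h2] }
  have hinj : Function.Injective φ := by
    rw [injective_iff_map_eq_one]
    intro g hg
    have hA : ((g : GL (Unit ⊕ (Fin m ⊕ Fin m)) F).1).toBlocks₂₂ = 1 := congrArg Subtype.val hg
    obtain ⟨-, h2, h3⟩ := g_facts g
    have hrow : ∀ j : Fin m ⊕ Fin m, (g : GL (Unit ⊕ (Fin m ⊕ Fin m)) F).1 (Sum.inl ()) (Sum.inr j) = 0 := by
      intro j
      have hQ : quadFormOdd m F ((g : GL (Unit ⊕ (Fin m ⊕ Fin m)) F).1 *ᵥ (Pi.single (Sum.inr j) 1)) = quadFormOdd m F (Pi.single (Sum.inr j) 1) := g.2 (Pi.single (Sum.inr j) 1) (Pi.single (Sum.inr j) 1)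
      have h4 : ∀ i, ((g : GL (Unit ⊕ (Fin m ⊕ Fin m)) F).1 *ᵥ (Pi.single (Sum.inr j) 1)) (Sum.inr i) = (Pi.single (Sum.inr j) 1 : (Unit ⊕ (Fin m ⊕ Fin m)) → F) (Sum.inr i) := by
        intro i
        have := congrFun (hact g (Pi.single (Sum.inr j) 1)) i
        rw [hA, one_mulVec] at this
        exact this
      rw [quadFormOdd, quadFormOdd] at hQ
      simp only [h4] at hQ
      have h5 := add_right_cancel hQ
      have h6 := sq_inj h5
      simpa using h6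
    apply Subtype.ext
    apply Units.ext
    ext i j
    rcases i with ⟨⟩ | i
    · rcases j with ⟨⟩ | j
      · rw [h3]; simp
      · rw [hrow]; simp
    · rcases j with ⟨⟩ | j
      · rw [h2]; simp
      · have := congrFun (congrFun hA i) j
        change (g : GL (Unit ⊕ (Fin m ⊕ Fin m)) F).1 (Sum.inr i) (Sum.inr j) = _ at this
        rw [this]
        change (1 : Matrix (Fin m ⊕ Fin m) (Fin m ⊕ Fin m) F) i j = (1 : Matrix (Unit ⊕ (Fin m ⊕ Fin m)) (Unit ⊕ (Fin m ⊕ Fin m)) F) (Sum.inr i) (Sum.inr j)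
        by_cases hij : i = j
        · rw [hij, Matrix.one_apply_eq, Matrix.one_apply_eq]
        · rw [Matrix.one_apply_ne hij, Matrix.one_apply_ne (fun h => hij (Sum.inr_injective h))]
  have hsurj : Function.Surjective φ := by
    intro A
    have hA := (CfsgH9.SpBridge.mem_iff A.1).1 A.2
    let q0 : (Fin m ⊕ Fin m → F) → F := fun u => ∑ i : Fin m, u (Sum.inl i) * u (Sum.inr i)
    have hq0 : ∀ u v, q0 (u + v) = q0 u + q0 v + sympForm m F u v := by
      intro u v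
      have h1 := q_polar (Sum.elim (fun _ => 0) u : (Unit ⊕ (Fin m ⊕ Fin m)) → F) (Sum.elim (fun _ => 0) v)
      simp only [quadFormOdd, Pi.add_apply, Sum.elim_inl, Sum.elim_inr] at h1
      have h2 : ((0 : F) + 0) ^ 2 = 0 := by ring
      have h3 : (0 : F) ^ 2 = 0 := by ring
      rw [h2, h3, zero_add, zero_add, zero_add] at h1
      exact h1
    have hq0s : ∀ (c : F) u, q0 (c • u) = c ^ 2 * q0 u := by
      intro c u
      simp only [q0, Pi.smul_apply, smul_eq_mul]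
      rw [Finset.mul_sum]
      exact Finset.sum_congr rfl (fun i _ => by ring)
    let f : (Fin m ⊕ Fin m → F) → F := fun u => q0 u + q0 (A.1 *ᵥ u)
    have h2 := two0 (F := F)
    have hfa : ∀ u v, f (u + v) = f u + f v := by
      intro u v
      simp only [f]
      rw [mulVec_add, hq0, hq0, hA]
      linear_combination (sympForm m F u v) * h2
    have hfs : ∀ (c : F) u, f (c • u) = c ^ 2 * f u := by
      intro c u
      simp only [f]
      rw [mulVec_smul, hq0s, hq0s]; ring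
    have hsq : ∀ a : F, ∃ b : F, b ^ 2 = a := by
      intro a
      have : Function.Injective (fun b : F => b ^ 2) := fun a b h => sq_inj h
      exact (Finite.injective_iff_surjective.1 this) a
    choose s hs using hsq
    let lam : Fin m ⊕ Fin m → F := fun j => s (f (Pi.single j 1))
    have hlam : ∀ u, (lam ⬝ᵥ u) ^ 2 = f u := by
      intro u
      have h3 : f u = ∑ j, (u j) ^ 2 * f (Pi.single j 1) := by
        have h4 : u = ∑ j, u j • (Pi.single j 1 : Fin m ⊕ Fin m → F) := by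
          ext k
          simp [Finset.sum_apply, Pi.single_apply]
        let fa : (Fin m ⊕ Fin m → F) →+ F := ⟨⟨f, by simp [f, q0]⟩, hfa⟩
        have h5 : f u = fa (∑ j, u j • (Pi.single j 1 : Fin m ⊕ Fin m → F)) := by rw [← h4]; rfl
        rw [h5, map_sum]
        exact Finset.sum_congr rfl (fun j _ => hfs _ _)
      rw [h3, dotProduct]
      have h6 : (∑ j, lam j * u j) ^ 2 = ∑ j, (lam j * u j) ^ 2 := by
        have := map_sum (frobenius F 2) (fun j => lam j * u j) Finset.univ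
        simpa [frobenius_def] using this
      rw [h6]
      exact Finset.sum_congr rfl (fun j _ => by rw [mul_pow, hs]; ring)
    let G : Matrix (Unit ⊕ (Fin m ⊕ Fin m)) (Unit ⊕ (Fin m ⊕ Fin m)) F := fromBlocks 1 (Matrix.of (fun _ j => lam j)) 0 A.1
    have hGd : G.det ≠ 0 := by
      have h3 : G.det = (1 : Matrix Unit Unit F).det * A.1.det := Matrix.det_fromBlocks_zero₂₁ _ _ _
      rw [h3, Matrix.det_one, one_mul]
      have h4 : IsUnit A.1.det := SymplecticGroup.symplectic_det A.2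
      exact h4.ne_zero
    let g : GL (Unit ⊕ (Fin m ⊕ Fin m)) F := Matrix.GeneralLinearGroup.mkOfDetNeZero G hGd
    have hG1 : ∀ v : (Unit ⊕ (Fin m ⊕ Fin m)) → F, (G *ᵥ v) (Sum.inl ()) = v (Sum.inl ()) + lam ⬝ᵥ (v ∘ Sum.inr) := by
      intro v
      change (∑ j : (Unit ⊕ (Fin m ⊕ Fin m)), G (Sum.inl ()) j * v j) = _
      rw [Fintype.sum_sum_type]
      simp [G, dotProduct]
    have hG2 : ∀ (v : (Unit ⊕ (Fin m ⊕ Fin m)) → F) i, (G *ᵥ v) (Sum.inr i) = (A.1 *ᵥ (v ∘ Sum.inr)) i := by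
      intro v i
      change (∑ j : (Unit ⊕ (Fin m ⊕ Fin m)), G (Sum.inr i) j * v j) = _
      rw [Fintype.sum_sum_type]
      simp [G, mulVec, dotProduct]
    have hgQ : ∀ v : (Unit ⊕ (Fin m ⊕ Fin m)) → F, quadFormOdd m F (G *ᵥ v) = quadFormOdd m F v := by
      intro v
      rw [quadFormOdd, hG1]
      simp only [hG2]
      have h3 := hlam (v ∘ Sum.inr)
      have h4 : quadFormOdd m F v = v (Sum.inl ()) ^ 2 + q0 (v ∘ Sum.inr) := rfl
      rw [h4]
      change (v (Sum.inl ()) + lam ⬝ᵥ (v ∘ Sum.inr)) ^ 2 + q0 (A.1 *ᵥ (v ∘ Sum.inr)) = _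
      simp only [f] at h3
      linear_combination h3 + (v (Sum.inl ()) * (lam ⬝ᵥ (v ∘ Sum.inr)) + q0 (A.1 *ᵥ (v ∘ Sum.inr))) * h2
    refine ⟨⟨g, fun v _ => hgQ v⟩, ?_⟩
    apply Subtype.ext
    change G.toBlocks₂₂ = A.1
    exact toBlocks_fromBlocks₂₂ _ _ _ _
  exact ⟨MulEquiv.ofBijective φ ⟨hinj, hsurj⟩⟩

end Cfsg.Agent.S0304
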