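import Cfsg.Statements.S0305
import Cfsg.Agent.H9.Dih
import Cfsg.Agent.S0287

set_option autoImplicit false
open Cfsg

namespace Cfsg.Agent.S0305

open CfsgH9.GL2p in
theorem key {F : Type*} [Field F] (g : GG F) : g ∈ Cfsg.isometryGroup F (fun v : Fin 2 → F => v 0 * v 1) ↔
    g.1 0 0 * g.1 1 0 = 0 ∧ g.1 0 1 * g.1 1 1 = 0 ∧ g.1 0 0 * g.1 1 1 + g.1 0 1 * g.1 1 0 = 1 := by
  have h0 : g ∈ Cfsg.isometryGroup F (fun v : Fin 2 → F => v 0 * v 1) ↔ ∀ u v : Fin 2 → F,
      (Matrix.mulVec g.1 u) 0 * (Matrix.mulVec g.1 u) 1 = u 0 * u 1 := Iff.rfl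
  rw [h0]
  simp only [Matrix.mulVec, dotProduct, Fin.sum_univ_two]
  constructor
  · intro h
    have e1 := h ![1, 0] 0
    have e2 := h ![0, 1] 0
    have e3 := h ![1, 1] 0
    simp at e1 e2 e3
    refine ⟨?_, ?_, ?_⟩
    · rcases e1 with e1 | e1 <;> rw [e1] <;> ring
    · rcases e2 with e2 | e2 <;> rw [e2] <;> ring
    · have e1' : g.1 0 0 * g.1 1 0 = 0 := by rcases e1 with e1 | e1 <;> rw [e1] <;> ring
      have e2' : g.1 0 1 * g.1 1 1 = 0 := by rcases e2 with e2 | e2 <;> rw [e2] <;> ring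
      linear_combination e3 - e1' - e2'
  · rintro ⟨e1, e2, e3⟩ u _
    linear_combination u 0 ^ 2 * e1 + u 1 ^ 2 * e2 + u 0 * u 1 * e3

open CfsgH9.GL2p in
/-- the rotations -/
def C {F : Type*} [Field F] : Subgroup ↥(Cfsg.isometryGroup F (fun v : Fin 2 → F => v 0 * v 1)) where
  carrier := {g | g.1.1 0 1 = 0 ∧ g.1.1 1 0 = 0}
  one_mem' := ⟨by simp, by simp⟩
  mul_mem' := by
    rintro a b ⟨a1, a2⟩ ⟨b1, b2⟩
    constructor
    · change (a.1 * b.1).1 0 1 = 0
      rw [gl_mul_apply, a1, b1]; ring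
    · change (a.1 * b.1).1 1 0 = 0
      rw [gl_mul_apply, a2, b2]; ring
  inv_mem' := by
    rintro a ⟨a1, a2⟩
    have hd := gl_det a.1
    rw [a1, zero_mul, sub_zero] at hd
    have h0 := left_ne_zero_of_mul hd
    have h1 := right_ne_zero_of_mul hd
    have hi : a.1 * (a.1)⁻¹ = 1 := mul_inv_cancel _
    constructor
    · have : (a.1 * (a.1)⁻¹).1 0 1 = 0 := by rw [hi]; simp
      rw [gl_mul_apply, a1, zero_mul, add_zero] at this
      exact (mul_eq_zero.mp this).resolve_left h0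
    · have : (a.1 * (a.1)⁻¹).1 1 0 = 0 := by rw [hi]; simp
      rw [gl_mul_apply, a2, zero_mul, zero_add] at this
      exact (mul_eq_zero.mp this).resolve_left h1

open CfsgH9.GL2p in
/-- the swap -/
noncomputable def w {F : Type*} [Field F] : ↥(Cfsg.isometryGroup F (fun v : Fin 2 → F => v 0 * v 1)) :=
  ⟨Matrix.GeneralLinearGroup.mkOfDetNeZero !![0, 1; 1, 0] (by rw [Matrix.det_fin_two_of]; simp), by
    rw [key]
    refine ⟨?_, ?_, ?_⟩ <;> simp [Matrix.GeneralLinearGroup.mkOfDetNeZero]⟩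

open CfsgH9.GL2p in
theorem w_ent {F : Type*} [Field F] : (w (F := F)).1.1 0 0 = 0 ∧ (w (F := F)).1.1 0 1 = 1 ∧ (w (F := F)).1.1 1 0 = 1 ∧ (w (F := F)).1.1 1 1 = 0 :=
  ⟨rfl, rfl, rfl, rfl⟩

/-- GO^+_2(q) is dihedral of order 2(q-1). -/
theorem result {F : Type*} [Field F] [Fintype F] {q : ℕ} (hF : Fintype.card F = q) : Nonempty (Cfsg.isometryGroup F (Cfsg.quadFormPlus 1 F) ≃* DihedralGroup (q - 1)) := by
  classical
  let e : Fin 2 ≃ Fin 1 ⊕ Fin 1 := (finSumFinEquiv : Fin 1 ⊕ Fin 1 ≃ Fin (1 + 1)).symm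
  have hQ : ∀ v : Fin 1 ⊕ Fin 1 → F, Cfsg.quadFormPlus 1 F v = (fun v : Fin 2 → F => v 0 * v 1) (v ∘ e) := by
    intro v
    simp [Cfsg.quadFormPlus, e]
    rfl
  have iso := CfsgH9.Dih.isoReindex e (Cfsg.quadFormPlus 1 F) (fun v : Fin 2 → F => v 0 * v 1) hQ
  have hq1 : 1 < q := by rw [← hF]; exact Fintype.one_lt_card
  have hcard : Nat.card ↥(Cfsg.isometryGroup F (fun v : Fin 2 → F => v 0 * v 1)) = 2 * (q - 1) := by
    rw [← Nat.card_congr iso.toEquiv, Cfsg.Agent.S0287.result hF 1 le_rfl]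
    simp
  have hent : ∀ x : ↥(Cfsg.isometryGroup F (fun v : Fin 2 → F => v 0 * v 1)), x ∈ C → x.1.1 0 0 * x.1.1 1 1 = 1 := by
    intro x hx
    have := ((key x.1).mp x.2).2.2
    rw [hx.1, zero_mul, add_zero] at this
    exact this
  have hC : Nat.card ↥(C (F := F)) = q - 1 := by
    have e2 : ↥(C (F := F)) ≃ Fˣ :=
      { toFun := fun x => Units.mk0 (x.1.1.1 0 0) (left_ne_zero_of_mul (by rw [hent x.1 x.2]; exact one_ne_zero))
        invFun := fun u => ⟨⟨Matrix.GeneralLinearGroup.mkOfDetNeZero !![(u : F), 0; 0, ((u⁻¹ : Fˣ) : F)] (by rw [Matrix.det_fin_two_of]; simp), by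
          rw [key]
          refine ⟨?_, ?_, ?_⟩ <;> simp [Matrix.GeneralLinearGroup.mkOfDetNeZero]⟩, rfl, rfl⟩
        left_inv := fun x => by
          apply Subtype.ext; apply Subtype.ext
          apply CfsgH9.GL2p.gl_ext
          · rfl
          · exact x.2.1.symm
          · exact x.2.2.symm
          · have := hent x.1 x.2
            change (x.1.1.1 0 0)⁻¹ = x.1.1.1 1 1
            exact inv_eq_of_mul_eq_one_right this
        right_inv := fun u => Units.ext rfl }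
    rw [Nat.card_congr e2, Nat.card_units, Nat.card_eq_fintype_card, hF]
  have hcyc : IsCyclic ↥(C (F := F)) := by
    let φ : ↥(C (F := F)) →* F :=
      { toFun := fun x => x.1.1.1 0 0
        map_one' := by simp
        map_mul' := fun x y => by
          change (x.1.1 * y.1.1).1 0 0 = _
          rw [CfsgH9.GL2p.gl_mul_apply, x.2.1, zero_mul, add_zero] }
    have hfin : Finite ↥(C (F := F)) := Nat.finite_of_card_ne_zero (by rw [hC]; omega)
    apply isCyclic_of_injective_ringHom φ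
    intro x y hxy
    have hxy' : x.1.1.1 0 0 = y.1.1.1 0 0 := hxy
    apply Subtype.ext; apply Subtype.ext
    apply CfsgH9.GL2p.gl_ext
    · exact hxy'
    · rw [x.2.1, y.2.1]
    · rw [x.2.2, y.2.2]
    · have h1 := hent x.1 x.2
      have h2 := hent y.1 y.2
      rw [hxy'] at h1
      exact mul_left_cancel₀ (left_ne_zero_of_mul (by rw [h2]; exact one_ne_zero)) (h1.trans h2.symm)
  have hfin : Finite ↥(Cfsg.isometryGroup F (fun v : Fin 2 → F => v 0 * v 1)) := Nat.finite_of_card_ne_zero (by rw [hcard]; omega)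
  obtain ⟨w0, w1, w2, w3⟩ := w_ent (F := F)
  obtain ⟨e3⟩ := CfsgH9.Dih.dihedral_of_cyclic (n := q - 1) C hcyc hC hcard (w := w) (by
      apply Subtype.ext
      apply CfsgH9.GL2p.gl_ext
      · change ((w (F := F)).1 * (w (F := F)).1).1 0 0 = 1
        rw [CfsgH9.GL2p.gl_mul_apply, w0, w1, w2]; ring
      · change ((w (F := F)).1 * (w (F := F)).1).1 0 1 = 0
        rw [CfsgH9.GL2p.gl_mul_apply, w0, w1, w3]; ring
      · change ((w (F := F)).1 * (w (F := F)).1).1 1 0 = 0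
        rw [CfsgH9.GL2p.gl_mul_apply, w0, w2, w3]; ring
      · change ((w (F := F)).1 * (w (F := F)).1).1 1 1 = 1
        rw [CfsgH9.GL2p.gl_mul_apply, w1, w2, w3]; ring) (by
      intro c hc
      rw [eq_inv_iff_mul_eq_one]
      have h1 := hent c hc
      have e : ∀ i j, ((w (F := F)).1 * c.1 * (w (F := F)).1 * c.1).1 i j = (1 : CfsgH9.GL2p.GG F).1 i j := by
        intro i j
        fin_cases i <;> fin_cases j <;> simp only [CfsgH9.GL2p.gl_mul_apply] <;> simp [w0, w1, w2, w3, hc.1, hc.2]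
        · linear_combination h1
        · linear_combination h1
      apply Subtype.ext
      exact CfsgH9.GL2p.gl_ext (e 0 0) (e 0 1) (e 1 0) (e 1 1)) (by
      intro h
      obtain ⟨h1, h2, h3⟩ := (key h.1).mp h.2
      by_cases ha : h.1.1 0 0 = 0
      · right
        rw [ha, zero_mul, zero_add] at h3
        have hb : h.1.1 0 1 ≠ 0 := left_ne_zero_of_mul (by rw [h3]; exact one_ne_zero)
        have hd : h.1.1 1 1 = 0 := (mul_eq_zero.mp h2).resolve_left hb
        constructor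
        · change ((w (F := F)).1 * h.1).1 0 1 = 0
          rw [CfsgH9.GL2p.gl_mul_apply, w0, w1, hd]; ring
        · change ((w (F := F)).1 * h.1).1 1 0 = 0
          rw [CfsgH9.GL2p.gl_mul_apply, w2, w3, ha]; ring
      · left
        have hc : h.1.1 1 0 = 0 := (mul_eq_zero.mp h1).resolve_left ha
        rw [hc, mul_zero, add_zero] at h3
        have hd : h.1.1 1 1 ≠ 0 := right_ne_zero_of_mul (by rw [h3]; exact one_ne_zero)
        exact ⟨(mul_eq_zero.mp h2).resolve_right hd, hc⟩)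
  exact ⟨iso.trans e3⟩

end Cfsg.Agent.S0305
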