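import Cfsg.Statements.S0306
import Cfsg.Agent.H9.Dih
import Cfsg.Agent.S0288

set_option autoImplicit false
open Cfsg

namespace Cfsg.Agent.S0306

open CfsgH9.GL2p

section

variable {F : Type*} [Field F]

/-- the binary form -/
abbrev q2 (a b : F) : (Fin 2 → F) → F := fun v => v 0 ^ 2 + a * v 0 * v 1 + b * v 1 ^ 2

theorem key (a b : F) (g : GG F) : g ∈ Cfsg.isometryGroup F (q2 a b) ↔
    g.1 0 0 ^ 2 + a * g.1 0 0 * g.1 1 0 + b * g.1 1 0 ^ 2 = 1 ∧
    g.1 0 1 ^ 2 + a * g.1 0 1 * g.1 1 1 + b * g.1 1 1 ^ 2 = b ∧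
    2 * (g.1 0 0 * g.1 0 1) + a * (g.1 0 0 * g.1 1 1 + g.1 0 1 * g.1 1 0) + 2 * b * (g.1 1 0 * g.1 1 1) = a := by
  have h0 : g ∈ Cfsg.isometryGroup F (q2 a b) ↔ ∀ u v : Fin 2 → F,
      (Matrix.mulVec g.1 u) 0 ^ 2 + a * (Matrix.mulVec g.1 u) 0 * (Matrix.mulVec g.1 u) 1 + b * (Matrix.mulVec g.1 u) 1 ^ 2 =
       u 0 ^ 2 + a * u 0 * u 1 + b * u 1 ^ 2 := Iff.rfl
  rw [h0]
  simp only [Matrix.mulVec, dotProduct, Fin.sum_univ_two]
  constructor
  · intro h
    have e1 := h ![1, 0] 0
    have e2 := h ![0, 1] 0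
    have e3 := h ![1, 1] 0
    simp at e1 e2 e3
    refine ⟨e1, e2, ?_⟩
    linear_combination e3 - e1 - e2
  · rintro ⟨e1, e2, e3⟩ u _
    linear_combination u 0 ^ 2 * e1 + u 1 ^ 2 * e2 + u 0 * u 1 * e3

/-- the rotations -/
def C (a b : F) : Subgroup ↥(Cfsg.isometryGroup F (q2 a b)) where
  carrier := {g | Commute g.1.1 !![0, -b; 1, a]}
  one_mem' := Commute.one_left _
  mul_mem' := fun ha hb => Commute.mul_left ha hb
  inv_mem' := fun {x} hx => by
    have hx' : Commute x.1.1 !![0, -b; 1, a] := hx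
    exact hx'.units_inv_left

theorem mem_C {a b : F} {g : ↥(Cfsg.isometryGroup F (q2 a b))} : g ∈ C a b ↔ g.1.1 0 1 = -b * g.1.1 1 0 ∧ g.1.1 1 1 = g.1.1 0 0 + a * g.1.1 1 0 := by
  constructor
  · intro h
    have h' : g.1.1 * !![0, -b; 1, a] = !![0, -b; 1, a] * g.1.1 := h
    have e00 := congrFun (congrFun h' 0) 0
    have e10 := congrFun (congrFun h' 1) 0
    simp [Matrix.mul_apply, Fin.sum_univ_two] at e00 e10
    exact ⟨by rw [e00]; ring, e10⟩
  · rintro ⟨h1, h2⟩
    change g.1.1 * !![0, -b; 1, a] = !![0, -b; 1, a] * g.1.1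
    ext i j
    fin_cases i <;> fin_cases j <;> simp [Matrix.mul_apply, Fin.sum_univ_two, h1, h2] <;> ring

/-- the swap -/
noncomputable def w (a b : F) : ↥(Cfsg.isometryGroup F (q2 a b)) :=
  ⟨Matrix.GeneralLinearGroup.mkOfDetNeZero !![1, a; 0, -1] (by rw [Matrix.det_fin_two_of]; simp), by
    rw [key]
    refine ⟨?_, ?_, ?_⟩ <;> simp [Matrix.GeneralLinearGroup.mkOfDetNeZero] <;> ring⟩

theorem w_ent (a b : F) : (w a b).1.1 0 0 = 1 ∧ (w a b).1.1 0 1 = a ∧ (w a b).1.1 1 0 = 0 ∧ (w a b).1.1 1 1 = -1 :=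
  ⟨rfl, rfl, rfl, rfl⟩

theorem last [Finite F] {a b : F} (hab : ∀ z₁ z₂ : F, z₁ ^ 2 + a * z₁ * z₂ + b * z₂ ^ 2 = 0 → z₁ = 0 ∧ z₂ = 0) {s t : F}
    (h1 : s ^ 2 + a * s * t + b * t ^ 2 = b) (h2 : 2 * s + a * t = a) : (s = 0 ∧ t = 1) ∨ (s = a ∧ t = -1) := by
  by_cases hc : (2 : F) = 0
  · have ha : a ≠ 0 := by
      rintro rfl
      have : Fintype F := Fintype.ofFinite F
      have h3 : ringChar F = 2 := by
        have := (ringChar.spec F 2).mp (by exact_mod_cast hc)
        exact (Nat.prime_dvd_prime_iff_eq (CharP.char_is_prime F (ringChar F)) Nat.prime_two).mp this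
      obtain ⟨r, hr⟩ : IsSquare b := FiniteField.isSquare_of_char_two h3 b
      have := (hab r 1 (by rw [hr]; linear_combination r * r * hc)).2
      exact one_ne_zero this
    have ht : t = 1 := by
      apply mul_left_cancel₀ ha
      linear_combination h2 - s * hc
    rw [ht] at h1
    have h3 : s * (s - a) = 0 := by linear_combination h1 - s * a * hc
    rcases mul_eq_zero.mp h3 with h | h
    · left; exact ⟨h, ht⟩
    · right; refine ⟨sub_eq_zero.mp h, ?_⟩
      rw [ht]; linear_combination hc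
  · have hD : a ^ 2 - 4 * b ≠ 0 := by
      intro h
      have h4 : (4 : F) ≠ 0 := by
        have : (4 : F) = 2 * 2 := by norm_num
        rw [this]; exact mul_ne_zero hc hc
      have := (hab (-a / 2) 1 (by field_simp; linear_combination -h)).2
      exact one_ne_zero this
    have h3 : (1 - t) * (1 + t) * (a ^ 2 - 4 * b) = 0 := by
      linear_combination 4 * h1 - (2 * s - a * t + a + 2 * a * t) * h2 + (0 : F) * h1
    rcases mul_eq_zero.mp h3 with h | h
    · rcases mul_eq_zero.mp h with h | h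
      · left
        have ht : t = 1 := by linear_combination -h
        refine ⟨?_, ht⟩
        rw [ht] at h2
        apply mul_left_cancel₀ hc; linear_combination h2
      · right
        have ht : t = -1 := by linear_combination h
        refine ⟨?_, ht⟩
        rw [ht] at h2
        apply mul_left_cancel₀ hc; linear_combination h2
    · exact absurd h hD

theorem cases_C [Finite F] {a b : F} (hab : ∀ z₁ z₂ : F, z₁ ^ 2 + a * z₁ * z₂ + b * z₂ ^ 2 = 0 → z₁ = 0 ∧ z₂ = 0)
    (h : ↥(Cfsg.isometryGroup F (q2 a b))) : h ∈ C a b ∨ w a b * h ∈ C a b := by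
  obtain ⟨e1, e2, e3⟩ := (key a b h.1).mp h.2
  set x := h.1.1 0 0
  set y := h.1.1 1 0
  set s := h.1.1 0 1 with hs
  set t := h.1.1 1 1 with ht
  -- `(s', t') = M(x,y)⁻¹ (s, t)`
  have k1 : ((x + a * y) * s + b * y * t) ^ 2 + a * ((x + a * y) * s + b * y * t) * (-y * s + x * t) + b * (-y * s + x * t) ^ 2 = b := by
    have : ((x + a * y) * s + b * y * t) ^ 2 + a * ((x + a * y) * s + b * y * t) * (-y * s + x * t) + b * (-y * s + x * t) ^ 2 =
      (x ^ 2 + a * x * y + b * y ^ 2) * (s ^ 2 + a * s * t + b * t ^ 2) := by ring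
    rw [this, e1, e2, one_mul]
  have k2 : 2 * ((x + a * y) * s + b * y * t) + a * (-y * s + x * t) = a := by linear_combination e3
  obtain ⟨w0, w1, w2, w3⟩ := w_ent a b
  rcases last hab k1 k2 with ⟨l1, l2⟩ | ⟨l1, l2⟩
  · left
    rw [mem_C]
    constructor
    · linear_combination -s * e1 + x * l1 - b * y * l2
    · linear_combination -t * e1 + y * l1 + (x + a * y) * l2
  · right
    have m1 : s = a * x + b * y := by linear_combination -s * e1 + x * l1 - b * y * l2
    have m2 : t = -x := by linear_combination -t * e1 + y * l1 + (x + a * y) * l2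
    rw [mem_C]
    have f00 : (w a b * h).1.1 0 0 = x + a * y := by
      change ((w a b).1 * h.1).1 0 0 = _
      rw [gl_mul_apply, w0, w1, one_mul]
    have f01 : (w a b * h).1.1 0 1 = s + a * t := by
      change ((w a b).1 * h.1).1 0 1 = _
      rw [gl_mul_apply, w0, w1, one_mul]
    have f10 : (w a b * h).1.1 1 0 = -y := by
      change ((w a b).1 * h.1).1 1 0 = _
      rw [gl_mul_apply, w2, w3]; ring
    have f11 : (w a b * h).1.1 1 1 = -t := by
      change ((w a b).1 * h.1).1 1 1 = _
      rw [gl_mul_apply, w2, w3]; ring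
    rw [f00, f01, f10, f11, m1, m2]
    constructor <;> ring

end

/-- GO^-_2(q) is dihedral of order 2(q+1). -/
theorem result {F : Type*} [Field F] [Fintype F] {q : ℕ} (hF : Fintype.card F = q) (a b : F) (hab : ∀ z₁ z₂ : F, z₁ ^ 2 + a * z₁ * z₂ + b * z₂ ^ 2 = 0 → z₁ = 0 ∧ z₂ = 0) : Nonempty (Cfsg.isometryGroup F (Cfsg.quadFormMinus 0 F a b) ≃* DihedralGroup (q + 1)) := by
  classical
  let e : Fin 2 ≃ (Fin 0 ⊕ Fin 0) ⊕ Fin 2 := (Equiv.emptySum (Fin 0 ⊕ Fin 0) (Fin 2)).symm
  have hQ : ∀ v : (Fin 0 ⊕ Fin 0) ⊕ Fin 2 → F, Cfsg.quadFormMinus 0 F a b v = q2 a b (v ∘ e) := by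
    intro v
    simp [Cfsg.quadFormMinus, e, q2]
  have iso := CfsgH9.Dih.isoReindex e (Cfsg.quadFormMinus 0 F a b) (q2 a b) hQ
  have hcard : Nat.card ↥(Cfsg.isometryGroup F (q2 a b)) = 2 * (q + 1) := by
    rw [← Nat.card_congr iso.toEquiv]
    have := Cfsg.Agent.S0288.result hF 1 le_rfl a b hab
    simpa using this
  have hfin : Finite ↥(Cfsg.isometryGroup F (q2 a b)) := Nat.finite_of_card_ne_zero (by rw [hcard]; omega)
  obtain ⟨w0, w1, w2, w3⟩ := w_ent a b
  have hN : ∀ x : ↥(Cfsg.isometryGroup F (q2 a b)), x.1.1 0 0 ^ 2 + a * x.1.1 0 0 * x.1.1 1 0 + b * x.1.1 1 0 ^ 2 = 1 :=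
    fun x => ((key a b x.1).mp x.2).1
  -- the number of rotations
  have hw2 : w a b * w a b = 1 := by
    apply Subtype.ext
    apply gl_ext
    · change ((w a b).1 * (w a b).1).1 0 0 = 1
      rw [gl_mul_apply, w0, w1, w2]; ring
    · change ((w a b).1 * (w a b).1).1 0 1 = 0
      rw [gl_mul_apply, w0, w1, w3]; ring
    · change ((w a b).1 * (w a b).1).1 1 0 = 0
      rw [gl_mul_apply, w0, w2, w3]; ring
    · change ((w a b).1 * (w a b).1).1 1 1 = 1
      rw [gl_mul_apply, w1, w2, w3]; ring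
  have hwC : w a b ∉ C a b := by
    rw [mem_C, w0, w1, w2, w3]
    rintro ⟨h1, h2⟩
    have h3 : a = 0 := by rw [h1]; ring
    have h4 : (2 : F) = 0 := by linear_combination -h2
    subst h3
    have h3 : ringChar F = 2 := by
      have := (ringChar.spec F 2).mp (by exact_mod_cast h4)
      exact (Nat.prime_dvd_prime_iff_eq (CharP.char_is_prime F (ringChar F)) Nat.prime_two).mp this
    obtain ⟨r, hr⟩ : IsSquare b := FiniteField.isSquare_of_char_two h3 b
    have := (hab r 1 (by rw [hr]; linear_combination r * r * h4)).2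
    exact one_ne_zero this
  have hC : Nat.card ↥(C a b) = q + 1 := by
    have h5 : (C a b).index = 2 := by
      rw [Subgroup.index_eq_two_iff]
      refine ⟨w a b, fun x => ?_⟩
      have key2 : ∀ y : ↥(Cfsg.isometryGroup F (q2 a b)), y ∈ C a b → y * w a b ∉ C a b := by
        intro y hy h
        apply hwC
        have := mul_mem (inv_mem hy) h
        rwa [inv_mul_cancel_left] at this
      by_cases hx : x ∈ C a b
      · right
        exact ⟨hx, key2 x hx⟩
      · left
        refine ⟨?_, hx⟩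
        rcases cases_C hab x⁻¹ with h | h
        · exact absurd (inv_mem_iff.mp h) hx
        · have := inv_mem h
          rw [_root_.mul_inv_rev, inv_inv, inv_eq_of_mul_eq_one_left hw2] at this
          exact this
    have h6 := Subgroup.card_mul_index (C a b)
    rw [h5, hcard] at h6
    omega
  have hcyc : IsCyclic ↥(C a b) := by
    obtain ⟨lam, hlam⟩ : ∃ x : AlgebraicClosure F, x ^ 2 - algebraMap F _ a * x + algebraMap F _ b = 0 := by
      let P : Polynomial (AlgebraicClosure F) := Polynomial.X ^ 2 + Polynomial.C (-(algebraMap F _ a)) * Polynomial.X + Polynomial.C (algebraMap F _ b)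
      have hdeg : P.degree = 2 := by
        have : P = Polynomial.C 1 * Polynomial.X ^ 2 + Polynomial.C (-(algebraMap F _ a)) * Polynomial.X + Polynomial.C (algebraMap F _ b) := by
          simp [P]
        rw [this]
        exact Polynomial.degree_quadratic one_ne_zero
      obtain ⟨x, hx⟩ := IsAlgClosed.exists_root P (by rw [hdeg]; norm_num)
      refine ⟨x, ?_⟩
      simp only [P, Polynomial.IsRoot, Polynomial.eval_add, Polynomial.eval_mul, Polynomial.eval_pow, Polynomial.eval_X,
        Polynomial.eval_C] at hx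
      rw [← hx]; ring
    let φ : ↥(C a b) →* AlgebraicClosure F :=
      { toFun := fun x => algebraMap F _ (x.1.1.1 0 0) + algebraMap F _ (x.1.1.1 1 0) * lam
        map_one' := by simp
        map_mul' := fun x y => by
          have hx := mem_C.mp x.2
          change algebraMap F _ ((x.1.1 * y.1.1).1 0 0) + algebraMap F _ ((x.1.1 * y.1.1).1 1 0) * lam = _
          rw [gl_mul_apply, gl_mul_apply, hx.1, hx.2]
          simp only [map_add, map_mul, map_neg]
          linear_combination -(algebraMap F _ (x.1.1.1 1 0)) * (algebraMap F _ (y.1.1.1 1 0)) * hlam }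
    apply isCyclic_of_injective_ringHom φ
    rw [injective_iff_map_eq_one']
    intro x
    constructor
    · intro h
      have h' : algebraMap F (AlgebraicClosure F) (x.1.1.1 0 0) + algebraMap F _ (x.1.1.1 1 0) * lam = 1 := h
      have hx := mem_C.mp x.2
      have hn := hN x.1
      have hy : x.1.1.1 1 0 = 0 := by
        by_contra hy
        set X := x.1.1.1 0 0
        set Y := x.1.1.1 1 0
        have hl : lam = algebraMap F _ ((1 - X) / Y) := by
          have hY : algebraMap F (AlgebraicClosure F) Y ≠ 0 := by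
            rw [Ne, map_eq_zero]; exact hy
          rw [map_div₀, map_sub, map_one, eq_div_iff hY]
          linear_combination h'
        rw [hl, ← map_pow, ← map_mul, ← map_sub, ← map_add, map_eq_zero] at hlam
        have := (hab ((1 - X) / Y) (-1) (by linear_combination hlam)).2
        exact one_ne_zero (neg_eq_zero.mp this)
      rw [hy, map_zero, zero_mul, add_zero] at h'
      have hX : x.1.1.1 0 0 = 1 := (algebraMap F (AlgebraicClosure F)).injective (by rw [h', map_one])
      apply Subtype.ext; apply Subtype.ext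
      apply gl_ext
      · exact hX
      · rw [hx.1, hy, mul_zero]; rfl
      · exact hy
      · rw [hx.2, hy, hX, mul_zero, add_zero]; rfl
    · rintro rfl; exact map_one _
  obtain ⟨e3⟩ := CfsgH9.Dih.dihedral_of_cyclic (n := q + 1) (C a b) hcyc hC hcard (w := w a b) hw2 (by
      intro c hc
      rw [eq_inv_iff_mul_eq_one]
      obtain ⟨c1, c2⟩ := mem_C.mp hc
      have h1 := hN c
      have e : ∀ i j, ((w a b).1 * c.1 * (w a b).1 * c.1).1 i j = (1 : GG F).1 i j := by
        intro i j
        fin_cases i <;> fin_cases j <;> simp only [gl_mul_apply] <;> simp [w0, w1, w2, w3, c1, c2]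
        · linear_combination h1
        · ring
        · ring
        · linear_combination h1
      apply Subtype.ext
      exact gl_ext (e 0 0) (e 0 1) (e 1 0) (e 1 1)) (fun h => cases_C hab h)
  exact ⟨iso.trans e3⟩

end Cfsg.Agent.S0306
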