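import Cfsg.Statements.S0307
import Mathlib

set_option autoImplicit false
open Cfsg

namespace Cfsg.Agent.S0307

/-- PSL_n(q) is normal in PGL_n(q) with cyclic quotient of order gcd(n, q-1): the image of the natural map PSL_n → PGL_n is the kernel of a surjective homomorphism onto the cyclic group of that order. -/
theorem result {F : Type*} [Field F] [Fintype F] {q : ℕ} (hF : Fintype.card F = q) (n : ℕ) (hn : 1 ≤ n) : ∃ g : Matrix.ProjGenLinGroup (Fin n) F →* Multiplicative (ZMod (Nat.gcd n (q - 1))), Function.Surjective g ∧ g.ker = (Matrix.ProjectiveSpecialLinearGroup.toPGL : Matrix.ProjectiveSpecialLinearGroup (Fin n) F →* Matrix.ProjGenLinGroup (Fin n) F).range := by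
  haveI : Nonempty (Fin n) := ⟨⟨0, hn⟩⟩
  let R : Subgroup Fˣ := (powMonoidHom n : Fˣ →* Fˣ).range
  have hcard : Nat.card (Fˣ ⧸ R) = Nat.gcd n (q - 1) := by
    have h1 : R.index * Nat.card R = Nat.card Fˣ := Subgroup.index_mul_card R
    have h2 : Nat.card R = Nat.card Fˣ / (Nat.card Fˣ).gcd n := IsCyclic.card_powMonoidHom_range (G := Fˣ) n
    have h3 : Nat.card Fˣ = q - 1 := by rw [Nat.card_units, Nat.card_eq_fintype_card, hF]
    have h4 : Nat.card (Fˣ ⧸ R) = R.index := rfl
    have hq1 : 0 < q - 1 := by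
      have := Fintype.one_lt_card (α := F)
      omega
    rw [h4]
    rw [h2, h3] at h1
    have h5 : 0 < (q - 1) / (q - 1).gcd n := Nat.div_pos (Nat.le_of_dvd hq1 (Nat.gcd_dvd_left _ _)) (Nat.gcd_pos_of_pos_left _ hq1)
    apply Nat.eq_of_mul_eq_mul_right h5
    rw [h1, Nat.gcd_comm n, Nat.mul_div_cancel' (Nat.gcd_dvd_left _ _)]
  haveI : IsCyclic (Fˣ ⧸ R) := isCyclic_of_surjective (QuotientGroup.mk' R) (QuotientGroup.mk'_surjective R)
  have e : (Fˣ ⧸ R) ≃* Multiplicative (ZMod (Nat.gcd n (q - 1))) := by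
    rw [← hcard]
    exact (zmodCyclicMulEquiv inferInstance).symm
  let φ : Matrix.ProjGenLinGroup (Fin n) F →* (Fˣ ⧸ R) :=
    Matrix.ProjGenLinGroup.lift ((QuotientGroup.mk' R).comp Matrix.GeneralLinearGroup.det) (by
      ext u
      rw [MonoidHom.comp_apply, MonoidHom.comp_apply, MonoidHom.one_apply, QuotientGroup.mk'_apply, QuotientGroup.eq_one_iff]
      refine ⟨u, ?_⟩
      apply Units.ext
      simp [powMonoidHom_apply])
  refine ⟨e.toMonoidHom.comp φ, ?_, ?_⟩
  · intro y
    obtain ⟨c, hc⟩ := e.surjective y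
    obtain ⟨u, rfl⟩ := QuotientGroup.mk'_surjective R c
    obtain ⟨A, hA⟩ := Matrix.GeneralLinearGroup.det_surjective (n := Fin n) u
    refine ⟨Matrix.ProjGenLinGroup.mk A, ?_⟩
    rw [← hc]
    show e (φ (Matrix.ProjGenLinGroup.mk A)) = _
    congr 1
    show QuotientGroup.mk' R (Matrix.GeneralLinearGroup.det A) = _
    rw [hA]
  · ext x
    induction x using Matrix.ProjGenLinGroup.induction_on with | mk A => ?_
    rw [MonoidHom.mem_ker]
    have h1 : (e.toMonoidHom.comp φ) (Matrix.ProjGenLinGroup.mk A) = 1 ↔ Matrix.GeneralLinearGroup.det A ∈ R := by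
      have h2 : (e.toMonoidHom.comp φ) (Matrix.ProjGenLinGroup.mk A) = e (QuotientGroup.mk' R (Matrix.GeneralLinearGroup.det A)) := rfl
      rw [h2, EmbeddingLike.map_eq_one_iff, QuotientGroup.mk'_apply, QuotientGroup.eq_one_iff]
    rw [h1]
    constructor
    · rintro ⟨u, hu⟩
      have hdet : (A * Matrix.GeneralLinearGroup.scalar (Fin n) u⁻¹ : Matrix.GeneralLinearGroup (Fin n) F).det = 1 := by
        rw [map_mul, ← hu]
        apply Units.ext
        simp [powMonoidHom_apply, mul_pow]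
      have hdet' : Matrix.det ((A * Matrix.GeneralLinearGroup.scalar (Fin n) u⁻¹ : Matrix.GeneralLinearGroup (Fin n) F) : Matrix (Fin n) (Fin n) F) = 1 :=
        congrArg Units.val hdet
      let B : Matrix.SpecialLinearGroup (Fin n) F := ⟨_, hdet'⟩
      refine ⟨QuotientGroup.mk B, ?_⟩
      have h3 : Matrix.ProjectiveSpecialLinearGroup.toPGL (QuotientGroup.mk B) =
        Matrix.ProjGenLinGroup.mk (Matrix.SpecialLinearGroup.toGL B) := rfl
      rw [h3, Matrix.ProjGenLinGroup.mk_eq_mk_iff]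
      refine ⟨u, ?_⟩
      apply Units.ext
      show (A * Matrix.GeneralLinearGroup.scalar (Fin n) u⁻¹ * Matrix.GeneralLinearGroup.scalar (Fin n) u : Matrix.GeneralLinearGroup (Fin n) F).1 = A.1
      rw [mul_assoc, ← map_mul, inv_mul_cancel, map_one, mul_one]
    · rintro ⟨y, hy⟩
      induction y using QuotientGroup.induction_on with | H B => ?_
      rw [Matrix.ProjectiveSpecialLinearGroup.toPGL_mk, Matrix.ProjGenLinGroup.mk_eq_mk_iff] at hy
      obtain ⟨u, hu⟩ := hy
      refine ⟨u, ?_⟩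
      rw [← hu, map_mul]
      apply Units.ext
      simp [powMonoidHom_apply]

end Cfsg.Agent.S0307
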