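import Cfsg.Statements.S0310
import Cfsg.Agent.H9.BN

set_option autoImplicit false
open Cfsg

namespace Cfsg.Agent.S0310

/-- For a set `J` of distinguished generators, the subgroup generated by `B` and `J` is exactly the union of
the double cosets `B n B` with `n` in the subgroup generated by `J` (so `B W_J B` is a subgroup). -/
theorem result {G : Type*} [Group G] (P : Cfsg.BNPair G) {J : Set G}
    (hJ : J ⊆ P.S) (g : G) :
    g ∈ P.parabolic J ↔ ∃ n ∈ Subgroup.closure J, g ∈ DoubleCoset.doubleCoset n (P.B : Set G) P.B := by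
  constructor
  · intro hg
    obtain ⟨w, hw, hgw⟩ := CfsgH9.BN.exists_mem_C_of_mem_parabolic hJ hg
    -- the representative
    have hrep : ∃ n : P.N, (n : G) ∈ Subgroup.closure J ∧ (QuotientGroup.mk n : CfsgH9.BN.Wg P) = w := by
      clear hgw
      induction hw using Subgroup.closure_induction with
      | mem x hx =>
        obtain ⟨t, ht, rfl⟩ := hx
        exact ⟨⟨t, P.subset t.2⟩, Subgroup.subset_closure ht, rfl⟩
      | one => exact ⟨1, Subgroup.one_mem _, rfl⟩
      | mul x y _ _ hx hy =>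
        obtain ⟨n, hn, rfl⟩ := hx
        obtain ⟨m, hm, rfl⟩ := hy
        exact ⟨n * m, Subgroup.mul_mem _ hn hm, rfl⟩
      | inv x _ hx =>
        obtain ⟨n, hn, rfl⟩ := hx
        exact ⟨n⁻¹, Subgroup.inv_mem _ hn, rfl⟩
    obtain ⟨n, hn, rfl⟩ := hrep
    exact ⟨n, hn, (CfsgH9.BN.mem_C_mk' n g).1 hgw⟩
  · rintro ⟨n, hn, hg⟩
    rw [DoubleCoset.mem_doubleCoset] at hg
    obtain ⟨b, hb, b', hb', rfl⟩ := hg
    exact Subgroup.mul_mem _ (Subgroup.mul_mem _ (Subgroup.mem_sup_left hb) (Subgroup.mem_sup_right hn))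
      (Subgroup.mem_sup_left hb')

end Cfsg.Agent.S0310
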