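import Cfsg.Statements.S0313
import Cfsg.Agent.H9.BN

set_option autoImplicit false
open Cfsg

namespace Cfsg.Agent.S0313

/-- Two standard parabolic subgroups of a group with a (B,N)-pair which are conjugate in `G` coincide. -/
theorem result {G : Type*} [Group G] (P : Cfsg.BNPair G) {J K : Set G}
    (hJ : J ⊆ P.S) (hK : K ⊆ P.S) (g : G)
    (h : (P.parabolic J).map (MulAut.conj g).toMonoidHom = P.parabolic K) :
    P.parabolic J = P.parabolic K := by
  have hg : g ∈ P.parabolic K := by
    refine CfsgH9.BN.mem_of_conj (P := P) (M := P.parabolic K) le_sup_left ?_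
    intro b hb
    rw [← h]
    exact ⟨b, Subgroup.mem_sup_left hb, rfl⟩
  ext x
  constructor
  · intro hx
    have h1 : g * x * g⁻¹ ∈ P.parabolic K := by
      rw [← h]
      exact ⟨x, hx, rfl⟩
    have h2 := (P.parabolic K).mul_mem ((P.parabolic K).mul_mem ((P.parabolic K).inv_mem hg) h1) hg
    have h3 : g⁻¹ * (g * x * g⁻¹) * g = x := by group
    rwa [h3] at h2
  · intro hx
    have h1 : g * x * g⁻¹ ∈ P.parabolic K :=
      (P.parabolic K).mul_mem ((P.parabolic K).mul_mem hg hx) ((P.parabolic K).inv_mem hg)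
    rw [← h] at h1
    obtain ⟨y, hy, hyx⟩ := h1
    have : y = x := by
      have h4 : g * y * g⁻¹ = g * x * g⁻¹ := hyx
      simpa using h4
    rw [← this]
    exact hy

end Cfsg.Agent.S0313
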