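import Cfsg.Statements.S0316
import Cfsg.Agent.H9.BN

set_option autoImplicit false
open Cfsg

namespace Cfsg.Agent.S0316

/-- The map `J ↦ P_J` is a lattice isomorphism from the power set of the set of distinguished generators onto the
subgroups containing `B`. -/
theorem result {G : Type*} [Group G] (P : Cfsg.BNPair G) :
    ∃ e : Set P.S ≃o {M : Subgroup G // P.B ≤ M},
      ∀ J : Set P.S, ((e J : {M : Subgroup G // P.B ≤ M}) : Subgroup G) = P.parabolic (Subtype.val '' J) := by
  refine ⟨{ toFun := fun J => ⟨P.parabolic (Subtype.val '' J), le_sup_left⟩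
            invFun := fun M => {s : P.S | (s : G) ∈ (M : Subgroup G)}
            left_inv := ?_
            right_inv := ?_
            map_rel_iff' := ?_ }, fun J => rfl⟩
  · intro J
    ext s
    constructor
    · intro hs
      have := CfsgH9.BN.mem_of_mem_parabolic (by rintro _ ⟨t, _, rfl⟩; exact t.2) s.2 hs
      obtain ⟨t, ht, hts⟩ := this
      rw [← Subtype.ext hts]
      exact ht
    · intro hs
      exact Subgroup.mem_sup_right (Subgroup.subset_closure ⟨s, hs, rfl⟩)
  · rintro ⟨M, hM⟩
    apply Subtype.ext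
    show P.parabolic (Subtype.val '' {s : P.S | (s : G) ∈ M}) = M
    conv_rhs => rw [CfsgH9.BN.eq_parabolic hM]
    congr 1
    ext x
    constructor
    · rintro ⟨t, ht, rfl⟩
      exact ⟨t.2, ht⟩
    · rintro ⟨hx, hxM⟩
      exact ⟨⟨x, hx⟩, hxM, rfl⟩
  · intro J K
    show P.parabolic (Subtype.val '' J) ≤ P.parabolic (Subtype.val '' K) ↔ J ⊆ K
    rw [CfsgH9.BN.parabolic_le_iff (by rintro _ ⟨t, _, rfl⟩; exact t.2) (by rintro _ ⟨t, _, rfl⟩; exact t.2)]
    exact Set.image_subset_image_iff Subtype.val_injective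

end Cfsg.Agent.S0316
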