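import Cfsg.Statements.S0321
import Cfsg.Agent.H9.BN

set_option autoImplicit false
open Cfsg

namespace Cfsg.Agent.S0321

/-- For `n ∈ N` not in `B`, the union `B ∪ B n B` is (the underlying set of) a subgroup exactly when `n` agrees
modulo `B ⊓ N` with one of the distinguished representatives; thus the distinguished involutions are
determined by `B` and `N`. -/
theorem result {G : Type*} [Group G] (P : Cfsg.BNPair G) {n : G}
    (hn : n ∈ P.N) (hnB : n ∉ P.B) :
    (∃ H : Subgroup G, (H : Set G) = (P.B : Set G) ∪ DoubleCoset.doubleCoset n (P.B : Set G) P.B) ↔ ∃ s ∈ P.S, s⁻¹ * n ∈ P.B := by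
  constructor
  · rintro ⟨H, hH⟩
    have hmem : ∀ x, x ∈ H ↔ x ∈ P.B ∨ x ∈ DoubleCoset.doubleCoset n (P.B : Set G) P.B := by
      intro x
      rw [← SetLike.mem_coe, hH]
      rfl
    have hBH : P.B ≤ H := fun x hx => (hmem x).2 (Or.inl hx)
    have hnn : n ∈ DoubleCoset.doubleCoset n (P.B : Set G) P.B := DoubleCoset.mem_doubleCoset_self _ _ _
    have hnH : n ∈ H := (hmem n).2 (Or.inr hnn)
    have hne : ({s ∈ P.S | s ∈ H} : Set G).Nonempty := by
      by_contra hcon
      rw [Set.not_nonempty_iff_eq_empty] at hcon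
      have := CfsgH9.BN.eq_parabolic (P := P) hBH
      rw [hcon] at this
      simp only [BNPair.parabolic, Subgroup.closure_empty, bot_le, sup_of_le_left] at this
      rw [this] at hnH
      exact hnB hnH
    obtain ⟨s, hs, hsH⟩ := hne
    refine ⟨s, hs, ?_⟩
    have hsn := ((hmem s).1 hsH).resolve_left (CfsgH9.BN.s_notMem ⟨s, hs⟩)
    have h1 : s ∈ CfsgH9.BN.C (QuotientGroup.mk (⟨n, hn⟩ : P.N) : CfsgH9.BN.Wg P) :=
      (CfsgH9.BN.mem_C_mk' _ _).2 hsn
    have h2 := CfsgH9.BN.C_unique (CfsgH9.BN.coe_mem_sg (⟨s, hs⟩ : P.S)) h1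
    exact (CfsgH9.BN.mk_eq_iff _ _).1 h2
  · rintro ⟨s, hs, hsn⟩
    refine ⟨P.parabolic {s}, ?_⟩
    have hns : (QuotientGroup.mk (⟨n, hn⟩ : P.N) : CfsgH9.BN.Wg P) = CfsgH9.BN.sg ⟨s, hs⟩ := by
      symm
      exact (CfsgH9.BN.mk_eq_iff _ _).2 hsn
    ext x
    constructor
    · intro hx
      obtain ⟨w, hw, hxw⟩ := CfsgH9.BN.exists_mem_C_of_mem_parabolic (P := P) (J := {s})
        (Set.singleton_subset_iff.2 hs) hx
      have hw' : w = 1 ∨ w = CfsgH9.BN.sg ⟨s, hs⟩ := by
        clear hxw
        induction hw using Subgroup.closure_induction with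
        | mem x hx =>
          obtain ⟨t, ht, rfl⟩ := hx
          right
          congr 1
          exact Subtype.ext ht
        | one => left; rfl
        | mul x y _ _ hx hy =>
          rcases hx with rfl | rfl
          · rcases hy with rfl | rfl
            · left; simp
            · right; simp
          · rcases hy with rfl | rfl
            · right; simp
            · left; exact CfsgH9.BN.sg_sq _
        | inv x _ hx =>
          rcases hx with rfl | rfl
          · left; simp
          · right; exact CfsgH9.BN.sg_inv _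
      rcases hw' with rfl | rfl
      · left
        exact CfsgH9.BN.mem_C_one.1 hxw
      · right
        rw [← hns, CfsgH9.BN.mem_C_mk'] at hxw
        exact hxw
    · rintro (hx | hx)
      · exact Subgroup.mem_sup_left hx
      · have h1 : n ∈ P.parabolic {s} := by
          have : n = s * (s⁻¹ * n) := by group
          rw [this]
          exact Subgroup.mul_mem _ (Subgroup.mem_sup_right (Subgroup.subset_closure rfl)) (Subgroup.mem_sup_left hsn)
        rw [DoubleCoset.mem_doubleCoset] at hx
        obtain ⟨b, hb, b', hb', rfl⟩ := hx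
        exact Subgroup.mul_mem _ (Subgroup.mul_mem _ (Subgroup.mem_sup_left hb) h1) (Subgroup.mem_sup_left hb')

end Cfsg.Agent.S0321
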