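import Cfsg.Statements.S0322
import Cfsg.Agent.H9.BN

set_option autoImplicit false
open Cfsg

namespace Cfsg.Agent.S0322

/-- A group with a (B,N)-pair of rank one acts doubly transitively on the left cosets of `B`. -/
theorem result {G : Type*} [Group G] (P : Cfsg.BNPair G) (h : P.rank = 1) : MulAction.IsMultiplyPretransitive G (G ⧸ P.B) 2 := by
  rw [MulAction.is_two_pretransitive_iff]
  have hS : ∃ s : P.S, ∀ t : P.S, t = s := by
    have h1 : Nat.card P.S = 1 := h
    rw [Nat.card_eq_one_iff_unique] at h1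
    obtain ⟨h1, h2⟩ := h1
    exact ⟨Classical.arbitrary _, fun t => Subsingleton.elim _ _⟩
  obtain ⟨s, hs⟩ := hS
  have hcase : ∀ g : G, g ∉ P.B → ∃ b ∈ P.B, ∃ b' ∈ P.B, g = b * s * b' := by
    intro g hg
    obtain ⟨w, hw⟩ := CfsgH9.BN.exists_mem_C (P := P) g
    have hw' : w = 1 ∨ w = CfsgH9.BN.sg s := by
      have hw2 : w ∈ Subgroup.closure (Set.range (CfsgH9.BN.sg : P.S → CfsgH9.BN.Wg P)) := by
        rw [CfsgH9.BN.sg_closure]; trivial
      clear hw
      induction hw2 using Subgroup.closure_induction with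
      | mem x hx =>
        obtain ⟨t, rfl⟩ := hx
        right
        rw [hs t]
      | one => left; rfl
      | mul x y _ _ hx hy =>
        rcases hx with rfl | rfl
        · rcases hy with rfl | rfl
          · left; simp
          · right; simp
        · rcases hy with rfl | rfl
          · right; simp
          · left; exact CfsgH9.BN.sg_sq _
      | inv x _ hx =>
        rcases hx with rfl | rfl
        · left; simp
        · right; exact CfsgH9.BN.sg_inv _
    rcases hw' with rfl | rfl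
    · exact absurd (CfsgH9.BN.mem_C_one.1 hw) hg
    · exact CfsgH9.BN.C_single (CfsgH9.BN.coe_mem_sg s) hw
  have key : ∀ a b : G ⧸ P.B, a ≠ b → ∃ m : G, m • ((1 : G) : G ⧸ P.B) = a ∧ m • ((s : G) : G ⧸ P.B) = b := by
    intro a b hab
    obtain ⟨x, rfl⟩ := QuotientGroup.mk_surjective a
    obtain ⟨y, rfl⟩ := QuotientGroup.mk_surjective b
    have hxy : x⁻¹ * y ∉ P.B := by
      intro h
      exact hab (QuotientGroup.eq.2 h)
    obtain ⟨b, hb, b', hb', he⟩ := hcase _ hxy
    refine ⟨x * b, ?_, ?_⟩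
    · show ((x * b * 1 : G) : G ⧸ P.B) = (x : G ⧸ P.B)
      rw [eq_comm, QuotientGroup.eq]
      simpa using hb
    · show ((x * b * s : G) : G ⧸ P.B) = (y : G ⧸ P.B)
      rw [QuotientGroup.eq]
      have : (x * b * (s : G))⁻¹ * y = (b * s)⁻¹ * (x⁻¹ * y) := by group
      rw [this, he]
      have h5 : (b * (s : G))⁻¹ * (b * s * b') = b' := by group
      rw [h5]
      exact hb'
  intro a b c d hab hcd
  obtain ⟨m, hm1, hm2⟩ := key a b hab
  obtain ⟨m', hm1', hm2'⟩ := key c d hcd
  refine ⟨m' * m⁻¹, ?_, ?_⟩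
  · rw [← hm1, mul_smul, inv_smul_smul, hm1']
  · rw [← hm2, mul_smul, inv_smul_smul, hm2']

end Cfsg.Agent.S0322
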