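import Cfsg.Statements.S0323

set_option autoImplicit false
open scoped Pointwise
open Cfsg

namespace Cfsg.Agent.S0323

/-- A doubly transitive action on a set with at least three points yields a (B,N)-pair of rank one:
`B` is the stabiliser of a point `x`, `N` the setwise stabiliser of a pair `{x, y}`. -/
theorem result {G Ω : Type*} [Group G] [MulAction G Ω]
    (h2 : MulAction.IsMultiplyPretransitive G Ω 2) {x y z : Ω} (hxy : x ≠ y) (hyz : y ≠ z) (hxz : x ≠ z) :
    ∃ P : Cfsg.BNPair G, P.B = MulAction.stabilizer G x ∧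
      P.N = MulAction.stabilizer G ({x, y} : Set Ω) ∧ P.rank = 1 := by
  rw [MulAction.is_two_pretransitive_iff] at h2
  obtain ⟨t, htx, hty⟩ := h2 hxy hxy.symm
  set B := MulAction.stabilizer G x with hB
  set N := MulAction.stabilizer G ({x, y} : Set Ω) with hN
  have hN1 : ∀ g : G, g ∈ N ↔ (g • x = x ∧ g • y = y) ∨ (g • x = y ∧ g • y = x) := by
    intro g
    rw [hN, MulAction.mem_stabilizer_iff, Set.smul_set_insert, Set.smul_set_singleton]
    constructor
    · intro h
      have h1 : g • x ∈ ({x, y} : Set Ω) := by rw [← h]; simp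
      have h3 : g • y ∈ ({x, y} : Set Ω) := by rw [← h]; simp
      have hne : g • x ≠ g • y := fun h => hxy (smul_left_cancel g h)
      simp only [Set.mem_insert_iff, Set.mem_singleton_iff] at h1 h3
      rcases h1 with h1 | h1 <;> rcases h3 with h3 | h3
      · exact absurd (h1.trans h3.symm) hne
      · exact Or.inl ⟨h1, h3⟩
      · exact Or.inr ⟨h1, h3⟩
      · exact absurd (h1.trans h3.symm) hne
    · rintro (⟨h1, h3⟩ | ⟨h1, h3⟩)
      · rw [h1, h3]
      · rw [h1, h3, Set.pair_comm]
  have htN : t ∈ N := (hN1 t).2 (Or.inr ⟨htx, hty⟩)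
  -- double coset fact
  have hdc : ∀ g g' : G, g • x ≠ x → g' • x ≠ x → ∃ b ∈ B, ∃ b' ∈ B, g' = b * g * b' := by
    intro g g' hg hg'
    obtain ⟨b, hb1, hb2⟩ := h2 (a := x) (b := g • x) (c := x) (d := g' • x) (Ne.symm hg) (Ne.symm hg')
    refine ⟨b, hb1, (b * g)⁻¹ * g', ?_, by group⟩
    rw [hB, MulAction.mem_stabilizer_iff, mul_smul, ← hb2, inv_smul_eq_iff, mul_smul]
  refine ⟨{ B := B
            N := N
            S := {t}
            sup_eq_top := ?_
            conj_mem := ?_
            subset := ?_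
            sq_mem := ?_
            inj := ?_
            closure_sup := ?_
            mul_mem_union := ?_
            conj_ne := ?_ }, rfl, rfl, ?_⟩
  · rw [eq_top_iff]
    intro g _
    by_cases hg : g • x = x
    · exact Subgroup.mem_sup_left hg
    · obtain ⟨b, hb, b', hb', rfl⟩ := hdc t g (by rw [htx]; exact hxy.symm) hg
      exact Subgroup.mul_mem _ (Subgroup.mul_mem _ (Subgroup.mem_sup_left hb) (Subgroup.mem_sup_right htN))
        (Subgroup.mem_sup_left hb')
  · rintro n hn s ⟨hs1, hs2⟩
    have h3 : s • x = x := hs1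
    have h4 : s • y = y := by
      rcases (hN1 s).1 hs2 with h | h
      · exact h.2
      · rw [h3] at h; exact absurd h.1 hxy
    have hn1 := (hN1 n).1 hn
    rw [hB, MulAction.mem_stabilizer_iff, mul_smul, mul_smul]
    rcases hn1 with h | h
    · have : n⁻¹ • x = x := by rw [inv_smul_eq_iff, h.1]
      rw [this, h3, h.1]
    · have : n⁻¹ • x = y := by rw [inv_smul_eq_iff, h.2]
      rw [this, h4, h.2]
  · simpa using htN
  · rintro s rfl
    rw [hB, MulAction.mem_stabilizer_iff, mul_smul, htx, hty]
  · rintro s rfl s' rfl _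
    rfl
  · refine le_antisymm (sup_le ?_ inf_le_right) ?_
    · rw [Subgroup.closure_le]; simpa using htN
    · intro n hn
      have ht : t ∈ Subgroup.closure {t} ⊔ (B ⊓ N) := Subgroup.mem_sup_left (Subgroup.subset_closure rfl)
      rcases (hN1 n).1 hn with h | h
      · exact Subgroup.mem_sup_right ⟨h.1, hn⟩
      · have : n = t * (t⁻¹ * n) := by group
        rw [this]
        refine Subgroup.mul_mem _ ht (Subgroup.mem_sup_right ⟨?_, N.mul_mem (N.inv_mem htN) hn⟩)
        show (t⁻¹ * n) • x = x
        rw [mul_smul, h.1, inv_smul_eq_iff, htx]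
  · rintro s rfl n hn b hb
    have hb' : b • x = x := hb
    rcases (hN1 n).1 hn with h | h
    · left
      rw [DoubleCoset.mem_doubleCoset]
      refine ⟨1, B.one_mem, n⁻¹ * b * n, ?_, by group⟩
      show (n⁻¹ * b * n) • x = x
      rw [mul_smul, mul_smul, h.1, hb', inv_smul_eq_iff, h.1]
    · by_cases hc : (s * b * n) • x = x
      · left
        rw [DoubleCoset.mem_doubleCoset]
        have hsn : (s * n) • x = x := by rw [mul_smul, h.1, hty]
        refine ⟨1, B.one_mem, (s * n)⁻¹ * (s * b * n), B.mul_mem (B.inv_mem hsn) hc, by group⟩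
      · right
        rw [DoubleCoset.mem_doubleCoset]
        exact hdc n _ (by rw [h.1]; exact hxy.symm) hc
  · rintro s rfl h
    obtain ⟨b, hb1, hb2⟩ := h2 hxy hxz
    have : s * b * s ∈ (B : Set G) := by
      rw [← h]
      exact ⟨b, hb1, rfl⟩
    have h3 : (s * b * s) • x = x := this
    rw [mul_smul, mul_smul, htx, hb2] at h3
    have h4 : z = s⁻¹ • x := by rw [eq_inv_smul_iff, h3]
    have h5 : s⁻¹ • x = y := by rw [inv_smul_eq_iff, hty]
    exact hyz (h4.trans h5).symm
  · show Nat.card ({t} : Set G) = 1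
    simp

end Cfsg.Agent.S0323
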