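import Cfsg.Statements.S0326
import Mathlib

set_option autoImplicit false
open Cfsg

namespace Cfsg.Agent.S0326

/-- The Suzuki–Tits ovoid over a finite field with `q` elements has `q² + 1` points. -/
theorem result {F : Type*} [Field F] [Fintype F] (m : ℕ) :
    Nat.card (Cfsg.suzukiOvoid F m) = Fintype.card F ^ 2 + 1 := by
  have hne : ∀ a b c : F, ![a, b, c, (1 : F)] ≠ (0 : Fin 4 → F) := fun a b c h =>
    one_ne_zero (α := F) (by simpa using congrFun h 3)
  have hne0 : ![(1 : F), 0, 0, 0] ≠ (0 : Fin 4 → F) := fun h =>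
    one_ne_zero (α := F) (by simpa using congrFun h 0)
  have h : Nat.card (Option (F × F)) = Fintype.card F ^ 2 + 1 := by
    rw [Nat.card_eq_fintype_card, Fintype.card_option, Fintype.card_prod, pow_two]
  rw [← h]
  apply Nat.card_congr
  refine (Equiv.ofBijective (fun o : Option (F × F) =>
    (match o with
      | none => ⟨Projectivization.mk F ![1, 0, 0, 0] hne0, _, hne0, rfl, Or.inl rfl⟩
      | some p => ⟨Projectivization.mk F ![p.1 * p.2 + p.1 ^ (2 ^ (m + 1) + 2) + p.2 ^ (2 ^ (m + 1)), p.2, p.1, 1]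
          (hne _ _ _), _, hne _ _ _, rfl, Or.inr ⟨p.1, p.2, rfl⟩⟩ : Cfsg.suzukiOvoid F m)) ⟨?_, ?_⟩).symm
  · rintro (_ | ⟨a, b⟩) (_ | ⟨c, d⟩) h
    · rfl
    · exfalso
      have h1 := congrArg Subtype.val h
      dsimp only at h1
      rw [Projectivization.mk_eq_mk_iff'] at h1
      obtain ⟨t, ht⟩ := h1
      have h3 := congrFun ht 3
      have h0 := congrFun ht 0
      simp at h3
      rw [h3, zero_smul] at h0
      simp at h0
    · exfalso
      have h1 := congrArg Subtype.val h
      dsimp only at h1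
      rw [Projectivization.mk_eq_mk_iff'] at h1
      obtain ⟨t, ht⟩ := h1
      have h3 := congrFun ht 3
      simp at h3
    · have h1 := congrArg Subtype.val h
      dsimp only at h1
      rw [Projectivization.mk_eq_mk_iff'] at h1
      obtain ⟨t, ht⟩ := h1
      have h3 := congrFun ht 3
      have h2 := congrFun ht 2
      have h1 := congrFun ht 1
      simp at h3
      subst h3
      simp at h1 h2
      rw [h1, h2]
  · rintro ⟨p, v, hv, rfl, rfl | ⟨x, y, rfl⟩⟩
    · exact ⟨none, rfl⟩
    · exact ⟨some (x, y), rfl⟩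

end Cfsg.Agent.S0326
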