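import Cfsg.Statements.S0327
import Cfsg.Agent.L.Sz.Simple

set_option autoImplicit false
open Cfsg

namespace Cfsg.Agent.S0327

/-- The Suzuki group (`m ≥ 1`) is a Zassenhaus group on the `q² + 1` points of the Suzuki–Tits ovoid. -/
theorem result {F : Type*} [Field F] [Fintype F] {m : ℕ} (hm : 1 ≤ m)
    (hF : Fintype.card F = 2 ^ (2 * m + 1)) :
    Cfsg.IsZassenhausGroup (Cfsg.Sz F m) (Cfsg.suzukiOvoid F m) := by
  haveI := CfsgL.Sz.char_two hF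
  haveI : Fact (Fintype.card F = 2 ^ (2 * m + 1)) := ⟨hF⟩
  haveI : Fact (1 ≤ m) := ⟨hm⟩
  refine ⟨CfsgL.Sz.isFaithful, CfsgL.Sz.isTwoTrans, ?_, ?_, ?_⟩
  · intro g a b c h1 h2 h3 h4 h5 h6
    exact CfsgL.Sz.eq_one_of_three h1 h2 h3 h4 h5 h6
  · obtain ⟨j, hj⟩ := CfsgL.Sz.exists_j (F := F) (m := m)
    refine ⟨CfsgL.Sz.hh m j, fun h => hj (CfsgL.Sz.hh_inj (m := m) (by rw [h, CfsgL.Sz.hh_one])),
      CfsgL.Sz.pinf F m, CfsgL.Sz.pzero F m, (CfsgL.Sz.pp_ne_inf _ _).symm, CfsgL.Sz.hh_inf j, ?_⟩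
    rw [CfsgL.Sz.hh_pp, mul_zero, mul_zero]
  · intro N hN htr
    have hs := CfsgL.Sz.isSimple (F := F) (m := m)
    rcases hs.eq_bot_or_eq_top_of_normal N hN with rfl | rfl
    · exfalso
      obtain ⟨g, hg⟩ := htr.exists_smul_eq (CfsgL.Sz.pinf F m) (CfsgL.Sz.pzero F m)
      have : g = 1 := Subtype.ext (Subgroup.mem_bot.1 g.2)
      rw [this, one_smul] at hg
      exact CfsgL.Sz.pp_ne_inf _ _ hg.symm
    · refine ⟨CfsgL.Sz.pinf F m, fun h => ?_⟩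
      have h1 : (⟨CfsgL.Sz.u m 0 1, Subgroup.mem_top _⟩ : (⊤ : Subgroup (Cfsg.Sz F m))) ∈
          MulAction.stabilizer (⊤ : Subgroup (Cfsg.Sz F m)) (CfsgL.Sz.pinf F m) := CfsgL.Sz.u_inf 0 1
      rw [h, Subgroup.mem_bot] at h1
      exact one_ne_zero (CfsgL.Sz.u_ne_one (congrArg Subtype.val h1)).2

end Cfsg.Agent.S0327
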