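import Cfsg.Statements.S0328
import Cfsg.Agent.L.Sz.Card

set_option autoImplicit false
open Cfsg

namespace Cfsg.Agent.S0328

/-- The stabiliser in the Suzuki group of the two ovoid points spanned by `(1,0,0,0)` and `(0,0,0,1)` is
isomorphic to the multiplicative group of the field (cyclic of order `q - 1`). -/
theorem result {F : Type*} [Field F] [Fintype F] {m : ℕ} (hm : 1 ≤ m)
    (hF : Fintype.card F = 2 ^ (2 * m + 1)) :
    Nonempty (↥(MulAction.stabilizer (Cfsg.Sz F m) (Cfsg.suzukiPointInfinity F) ⊓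
        MulAction.stabilizer (Cfsg.Sz F m) (Cfsg.suzukiPointZero F)) ≃* Fˣ) := by
  haveI := CfsgL.Sz.char_two hF
  haveI : Fact (Fintype.card F = 2 ^ (2 * m + 1)) := ⟨hF⟩
  haveI : Fact (1 ≤ m) := ⟨hm⟩
  have hz : Cfsg.suzukiPointZero F = (CfsgL.Sz.pzero F m).1 := by
    unfold Cfsg.suzukiPointZero
    change _ = Projectivization.mk F ![CfsgL.Sz.zz m 0 0, 0, 0, 1] _
    congr 1
    rw [CfsgL.Sz.zz00]
  have h : MulAction.stabilizer (Cfsg.Sz F m) (Cfsg.suzukiPointInfinity F) ⊓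
        MulAction.stabilizer (Cfsg.Sz F m) (Cfsg.suzukiPointZero F) = CfsgL.Sz.KK F m := by
    rw [hz]
    ext g
    rw [Subgroup.mem_inf, MulAction.mem_stabilizer_iff, MulAction.mem_stabilizer_iff, CfsgL.Sz.mem_KK]
    constructor
    · rintro ⟨h1, h2⟩
      exact CfsgL.Sz.fix_two' (Subtype.ext h1) (Subtype.ext h2)
    · rintro ⟨j, rfl⟩
      refine ⟨congrArg Subtype.val (CfsgL.Sz.hh_inf j), ?_⟩
      have : CfsgL.Sz.hh m j • CfsgL.Sz.pzero F m = CfsgL.Sz.pzero F m := by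
        rw [CfsgL.Sz.hh_pp, mul_zero, mul_zero]
      exact congrArg Subtype.val this
  exact ⟨(MulEquiv.subgroupCongr h).trans (CfsgL.Sz.KK_equiv F m)⟩

end Cfsg.Agent.S0328
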