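import Cfsg.Statements.S0329
import Cfsg.Agent.L.Sz.Card

set_option autoImplicit false
open Cfsg

namespace Cfsg.Agent.S0329

/-- The stabiliser in the Suzuki group of the ovoid point spanned by `(1,0,0,0)` has order `q² (q - 1)`. -/
theorem result {F : Type*} [Field F] [Fintype F] {m : ℕ} (hm : 1 ≤ m)
    (hF : Fintype.card F = 2 ^ (2 * m + 1)) :
    Nat.card (MulAction.stabilizer (Cfsg.Sz F m) (Cfsg.suzukiPointInfinity F)) =
      (2 ^ (2 * m + 1)) ^ 2 * (2 ^ (2 * m + 1) - 1) := by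
  haveI := CfsgL.Sz.char_two hF
  haveI : Fact (Fintype.card F = 2 ^ (2 * m + 1)) := ⟨hF⟩
  haveI : Fact (1 ≤ m) := ⟨hm⟩
  have h := CfsgL.Sz.card_BB (F := F) (m := m)
  rw [Nat.card_eq_fintype_card (α := F), hF] at h
  rw [← h]
  congr 1
  have : MulAction.stabilizer (Cfsg.Sz F m) (Cfsg.suzukiPointInfinity F) = CfsgL.Sz.BB F m := by
    ext g
    rw [MulAction.mem_stabilizer_iff, CfsgL.Sz.mem_BB]
    exact ⟨fun h => Subtype.ext h, fun h => congrArg Subtype.val h⟩
  rw [this]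

end Cfsg.Agent.S0329
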