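import Cfsg.Statements.S0331
import Cfsg.Agent.L.Sz.Syl

set_option autoImplicit false
open Cfsg

namespace Cfsg.Agent.S0331
open Subgroup

/-- For every odd prime `p` the Sylow `p`-subgroups of the Suzuki group are cyclic. -/
theorem result {F : Type*} [Field F] [Fintype F] {m : ℕ} (hm : 1 ≤ m)
    (hF : Fintype.card F = 2 ^ (2 * m + 1)) {p : ℕ} [Fact p.Prime] (hp : p ≠ 2)
    (P : Sylow p (Cfsg.Sz F m)) : IsCyclic P := by
  haveI := CfsgL.Sz.char_two hF
  haveI : Fact (Fintype.card F = 2 ^ (2 * m + 1)) := ⟨hF⟩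
  haveI : Fact (1 ≤ m) := ⟨hm⟩
  rcases subsingleton_or_nontrivial P with hP | hP
  · haveI := hP; infer_instance
  haveI := hP
  haveI := P.2.center_nontrivial
  obtain ⟨z, hz⟩ := _root_.exists_ne (1 : center P)
  have hz1 : (z : Cfsg.Sz F m) ≠ 1 := fun h => hz (Subtype.ext (Subtype.ext h))
  have hle : (P : Subgroup (Cfsg.Sz F m)) ≤ centralizer {(z : Cfsg.Sz F m)} := by
    intro y hy
    rw [mem_centralizer_singleton_iff]
    have := (mem_center_iff.1 z.2) ⟨y, hy⟩
    exact congrArg Subtype.val this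
  rcases CfsgL.Sz.cent_alt hz1 with h | h
  · exfalso
    have h1 : IsPGroup 2 P := h.to_le hle
    have h2 := P.2
    obtain ⟨g, hg⟩ := exists_ne (1 : P)
    obtain ⟨a, ha⟩ := h1 g
    obtain ⟨b, hb⟩ := h2 g
    have h3 : orderOf g ∣ 2 ^ a := orderOf_dvd_of_pow_eq_one ha
    have h4 : orderOf g ∣ p ^ b := orderOf_dvd_of_pow_eq_one hb
    have h5 : Nat.Coprime (2 ^ a) (p ^ b) :=
      Nat.Coprime.pow _ _ ((Nat.coprime_primes Nat.prime_two Fact.out).2 hp.symm)
    exact hg (orderOf_eq_one_iff.1 (Nat.eq_one_of_dvd_coprimes h5 h3 h4))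
  · haveI := h
    exact isCyclic_of_injective (inclusion hle) (inclusion_injective hle)

end Cfsg.Agent.S0331
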