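import Cfsg.Statements.S0332
import Cfsg.Agent.L.Sz.Syl

set_option autoImplicit false
open Cfsg

namespace Cfsg.Agent.S0332
open Subgroup

/-- The Suzuki group is a CN-group: every non-identity element has nilpotent centraliser. -/
theorem result {F : Type*} [Field F] [Fintype F] {m : ℕ} (hm : 1 ≤ m)
    (hF : Fintype.card F = 2 ^ (2 * m + 1)) : Cfsg.IsCNGroup (Cfsg.Sz F m) := by
  haveI := CfsgL.Sz.char_two hF
  haveI : Fact (Fintype.card F = 2 ^ (2 * m + 1)) := ⟨hF⟩
  haveI : Fact (1 ≤ m) := ⟨hm⟩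
  intro g hg
  rcases CfsgL.Sz.cent_alt hg with h | h
  · exact h.isNilpotent
  · letI := h.commGroup
    exact CommGroup.isNilpotent

end Cfsg.Agent.S0332
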