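import Cfsg.Statements.S0333
import Cfsg.Agent.L.Sz.Syl

set_option autoImplicit false
open Cfsg

namespace Cfsg.Agent.S0333
open Subgroup

/-- With `q = 2^(2m+1)` and `r = 2^m`, the Suzuki group has cyclic subgroups of orders `q + 2r + 1` and
`q - 2r + 1`; each is the centraliser of each of its non-identity elements and has index `4` in its normaliser. -/
theorem result {F : Type*} [Field F] [Fintype F] {m : ℕ} (hm : 1 ≤ m)
    (hF : Fintype.card F = 2 ^ (2 * m + 1)) :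
    ∀ k ∈ ({2 ^ (2 * m + 1) + 2 ^ (m + 1) + 1, 2 ^ (2 * m + 1) - 2 ^ (m + 1) + 1} : Set ℕ),
      ∃ U : Subgroup (Cfsg.Sz F m), IsCyclic U ∧ Nat.card U = k ∧
        (∀ u ∈ U, u ≠ 1 → Subgroup.centralizer {u} = U) ∧ Nat.card (Subgroup.normalizer (U : Set (Cfsg.Sz F m))) = 4 * k := by
  haveI := CfsgL.Sz.char_two hF
  haveI : Fact (Fintype.card F = 2 ^ (2 * m + 1)) := ⟨hF⟩
  haveI : Fact (1 ≤ m) := ⟨hm⟩
  obtain ⟨T₁, T₂, h₁, h₂, c₁, c₂, n₁, n₂, -⟩ := CfsgL.Sz.tori_exist (F := F) (m := m)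
  rw [Nat.card_eq_fintype_card (α := F), hF] at c₁ c₂
  intro k hk
  rcases hk with hk | hk
  · refine ⟨T₁, h₁.cyclic, c₁.trans hk.symm, fun u hu hu1 => h₁.cent hu hu1, ?_⟩
    rw [n₁, c₁, hk]
  · have hk : k = 2 ^ (2 * m + 1) - 2 ^ (m + 1) + 1 := hk
    have h3 : 2 ^ (m + 1) ≤ 2 ^ (2 * m + 1) := Nat.pow_le_pow_right (by norm_num) (by omega)
    have h4 : Nat.card T₂ = k := by omega
    refine ⟨T₂, h₂.cyclic, h4, fun u hu hu1 => h₂.cent hu hu1, ?_⟩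
    rw [n₂, h4]

end Cfsg.Agent.S0333
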