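import Cfsg.Statements.S0335
import Cfsg.Agent.L.Sz.Struct

set_option autoImplicit false
open Cfsg

namespace Cfsg.Agent.S0335
open CfsgL.Sz

/-- The Suzuki–Tits point set is an ovoid: any three distinct points of it are projectively independent
(no line of projective 3-space meets it in more than two points). -/
theorem result {F : Type*} [Field F] [Fintype F] {m : ℕ} (hm : 1 ≤ m)
    (hF : Fintype.card F = 2 ^ (2 * m + 1)) (p : Fin 3 ↪ Cfsg.suzukiOvoid F m) :
    Projectivization.Independent (fun i => (p i : Projectivization F (Fin 4 → F))) := by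
  haveI := CfsgL.Sz.char_two hF
  haveI : Fact (Fintype.card F = 2 ^ (2 * m + 1)) := ⟨hF⟩
  haveI : Fact (1 ≤ m) := ⟨hm⟩
  have h01 : (p 0 : Om F m) ≠ p 1 := fun h => absurd (p.injective h) (by decide)
  have h02 : (p 0 : Om F m) ≠ p 2 := fun h => absurd (p.injective h) (by decide)
  have h12 : (p 1 : Om F m) ≠ p 2 := fun h => absurd (p.injective h) (by decide)
  obtain ⟨g, hg0, hg1⟩ := exists_to_two h01
  have hg2 : g • (p 2 : Om F m) ≠ pinf F m := by
    rw [← hg0]; exact fun h => h02 (smul_left_cancel _ h).symm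
  obtain ⟨x, y, hxy⟩ := exists_pp hg2
  have hne : x ≠ 0 ∨ y ≠ 0 := by
    by_contra hcon
    push Not at hcon
    rw [hcon.1, hcon.2] at hxy
    apply h12
    apply smul_left_cancel g
    rw [hg1, hxy]
  let w : Fin 3 → Fin 4 → F := ![![1, 0, 0, 0], ![zz m 0 0, 0, 0, 1], ![zz m x y, y, x, 1]]
  have hw : LinearIndependent F w := by
    rw [Fintype.linearIndependent_iff]
    intro c hc
    have e0 := congrFun hc 0
    have e1 := congrFun hc 1
    have e2 := congrFun hc 2
    have e3 := congrFun hc 3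
    simp [w, Fin.sum_univ_three] at e0 e1 e2 e3
    have c2 : c 2 = 0 := by
      rcases hne with h | h
      · rcases e2 with e | e
        · exact e
        · exact absurd e h
      · rcases e1 with e | e
        · exact e
        · exact absurd e h
    have c1 : c 1 = 0 := by rw [c2, add_zero] at e3; exact e3
    have c0 : c 0 = 0 := by rw [c2, c1] at e0; simpa using e0
    intro i
    fin_cases i
    · exact c0
    · exact c1
    · exact c2
  have hinj : Function.Injective (Matrix.mulVecLin (g⁻¹).1.1) := by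
    intro a b hab
    have h1 : g.1.1.mulVec ((g⁻¹).1.1.mulVec a) = g.1.1.mulVec ((g⁻¹).1.1.mulVec b) := by
      change (g⁻¹).1.1.mulVec a = (g⁻¹).1.1.mulVec b at hab
      rw [hab]
    rw [Matrix.mulVec_mulVec, Matrix.mulVec_mulVec] at h1
    have h2 : g.1.1 * (g⁻¹).1.1 = 1 := by
      have : (g * g⁻¹).1.1 = g.1.1 * (g⁻¹).1.1 := rfl
      rw [← this, mul_inv_cancel]; rfl
    rw [h2, Matrix.one_mulVec, Matrix.one_mulVec] at h1
    exact h1
  have hl : LinearIndependent F (fun i => (Matrix.mulVecLin (g⁻¹).1.1) (w i)) :=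
    hw.map' _ (LinearMap.ker_eq_bot.2 hinj)
  have hmk := Projectivization.Independent.mk _ (fun i => hl.ne_zero i) hl
  convert hmk using 2 with i
  have hgen : ∀ (q : Om F m) (v : Fin 4 → F) (hv : v ≠ 0), (g • q : Om F m).1 = Projectivization.mk F v hv →
      ∀ hv' : (Matrix.mulVecLin (g⁻¹).1.1) v ≠ 0, (q : Projectivization F (Fin 4 → F)) =
        Projectivization.mk F ((Matrix.mulVecLin (g⁻¹).1.1) v) hv' := by
    intro q v hv hq hv'
    have h1 : q = g⁻¹ • (g • q) := by rw [inv_smul_smul]
    have h2 : (q : Projectivization F (Fin 4 → F)) = (g⁻¹).1 • (g • q : Om F m).1 := congrArg Subtype.val h1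
    rw [h2, hq]
    rfl
  fin_cases i
  · refine hgen (p 0) _ inf_vec_ne ?_ _
    rw [hg0]; rfl
  · refine hgen (p 1) _ (vec_ne_zero one_ne_zero) ?_ _
    rw [hg1]; rfl
  · refine hgen (p 2) _ (vec_ne_zero one_ne_zero) ?_ _
    rw [hxy]; rfl

end Cfsg.Agent.S0335
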