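import Cfsg.Statements.S0341
import Cfsg.Agent.H9.Zas4

set_option autoImplicit false
open Cfsg

namespace Cfsg.Agent.S0341

/-- If a finite group acts faithfully and doubly transitively, no non-identity element fixes three points, some
non-identity element fixes two points, and some normal subgroup acts regularly, then the number of points
is `2^p` with `p` prime. -/
theorem result {G Ω : Type*} [Group G]
    [MulAction G Ω] [Fintype Ω] [FaithfulSMul G Ω] (h2 : MulAction.IsMultiplyPretransitive G Ω 2)
    (h3 : ∀ g : G, ∀ a b c : Ω, a ≠ b → b ≠ c → a ≠ c → g • a = a → g • b = b → g • c = c → g = 1)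
    (hfix : ∃ g : G, g ≠ 1 ∧ ∃ a b : Ω, a ≠ b ∧ g • a = a ∧ g • b = b)
    (N : Subgroup G) [N.Normal] (hNt : MulAction.IsPretransitive N Ω)
    (hNr : ∀ a : Ω, MulAction.stabilizer N a = ⊥) :
    ∃ p : ℕ, p.Prime ∧ Fintype.card Ω = 2 ^ p := by
  haveI : Finite G := Finite.of_injective (MulAction.toPermHom G Ω) MulAction.toPerm_injective
  rw [← Nat.card_eq_fintype_card]
  refine CfsgH9.Zas.affine_zas h2 h3 hfix (N := N) inferInstance ⟨fun c d => ?_, fun m hm c h => ?_⟩
  · obtain ⟨m, hm⟩ := MulAction.exists_smul_eq N c d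
    exact ⟨m, m.2, hm⟩
  · have h6 : (⟨m, hm⟩ : N) ∈ MulAction.stabilizer N c := h
    rw [hNr c, Subgroup.mem_bot] at h6
    exact congrArg Subtype.val h6

end Cfsg.Agent.S0341
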