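import Cfsg.Statements.S0375
import Cfsg.Agent.L.GolayUniq3

set_option autoImplicit false
open Cfsg

namespace Cfsg.Agent.S0375
open CfsgL.GU

/-- A doubly even self-dual binary code of length 24 with no words of weight 4 is equivalent to the length-24 code built from the squares modulo 23. -/
theorem result (C : Submodule (ZMod 2) (Fin 24 → ZMod 2)) (hdim : Module.finrank (ZMod 2) C = 12) (horth : ∀ v ∈ C, ∀ w ∈ C, ∑ i, v i * w i = 0) (h4 : ∀ w ∈ C, 4 ∣ hammingNorm w) (hno4 : ∀ w ∈ C, hammingNorm w ≠ 4) : ∃ e : Fin 24 ≃ Cfsg.GolayPt, ∀ w : Cfsg.GolayPt → ZMod 2, w ∈ Cfsg.golayCode ↔ (fun i => w (e i)) ∈ C := by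
  have hmin : ∀ w ∈ C, w ≠ 0 → 8 ≤ hammingNorm w := by
    have hev : ∀ s ∈ fam C, ∀ t ∈ fam C, Even (s ∩ t).card := fun s hs t ht => fam_even horth hs ht
    intro w hw hne
    have h1 := h4 w hw
    have h2 := hno4 w hw
    have h3 : hammingNorm w ≠ 0 := by rwa [ne_eq, hammingNorm_eq_zero]
    omega
  obtain ⟨hG, _⟩ := fam_golay hdim horth hmin
  obtain ⟨E, hE⟩ := hG.unique G0_golay
  refine ⟨E, fun w => ?_⟩
  have e1 : w ∈ golayCode ↔ support₂ w ∈ G0 := by
    rw [mem_G0]
    constructor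
    · intro h
      exact ⟨w, h, rfl⟩
    · rintro ⟨v, hv, hvw⟩
      have : v = w := by rw [← ind2_sup2 v, hvw, ind2_sup2]
      rwa [← this]
  rw [e1, ← mem_fam', hE]
  have e2 : Finset.map E.toEmbedding (support₂ (fun i => w (E i))) = support₂ w := by
    ext p
    rw [Finset.mem_map_equiv]
    simp only [support₂, Finset.mem_filter, Finset.mem_univ, true_and, Equiv.apply_symm_apply]
  rw [e2]

end Cfsg.Agent.S0375
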