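import Cfsg.Statements.S0384
import Cfsg.Agent.L.Golay.Hexads

set_option autoImplicit false
open scoped Pointwise
open Cfsg

namespace Cfsg.Agent.S0384

/-- A dodecad stabiliser is sharply 5-transitive on the dodecad. -/
theorem result (d : Finset Cfsg.GolayPt) (hd : d ∈ Cfsg.dodecads) (x y : Fin 5 ↪ Cfsg.GolayPt) (hx : ∀ i, x i ∈ d) (hy : ∀ i, y i ∈ d) : ∃! g : MulAction.stabilizer Cfsg.M24 d, ∀ i, ((g : Cfsg.M24) : Equiv.Perm Cfsg.GolayPt) (x i) = y i := by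
  obtain ⟨g, hg, h⟩ := CfsgL.Golay.dod_five_trans hd x y hx hy
  obtain ⟨h1, h2⟩ := CfsgL.Golay.mem_st.1 hg
  refine ⟨⟨⟨g, h1⟩, h2⟩, h, ?_⟩
  intro k hk
  have h3 : (g⁻¹ * ((k : Cfsg.M24) : Equiv.Perm Cfsg.GolayPt)) = 1 := by
    apply CfsgL.Golay.sharp hd x hx
    · exact (CfsgL.Golay.st d).mul_mem ((CfsgL.Golay.st d).inv_mem hg)
        (CfsgL.Golay.mem_st.2 ⟨(k : Cfsg.M24).2, k.2⟩)
    · intro i
      rw [Equiv.Perm.mul_apply, hk i, ← h i]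
      simp
  apply Subtype.ext
  apply Subtype.ext
  exact (inv_mul_eq_one.1 h3).symm

end Cfsg.Agent.S0384
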