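import Cfsg.Statements.S0388
import Cfsg.Agent.L.Golay.Hexads

set_option autoImplicit false
open scoped Pointwise
open Cfsg

namespace Cfsg.Agent.S0388

/-- The stabiliser of a dodecad and a point on it is simple. -/
theorem result (d : Finset Cfsg.GolayPt) (hd : d ∈ Cfsg.dodecads) (p : Cfsg.GolayPt) (hp : p ∈ d) : IsSimpleGroup ↥(MulAction.stabilizer Cfsg.M24 d ⊓ MulAction.stabilizer Cfsg.M24 p) := by
  have h1 : MulAction.stabilizer Cfsg.M24 d ⊓ MulAction.stabilizer Cfsg.M24 p =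
      (CfsgL.Golay.st1 d p).subgroupOf Cfsg.M24 := by
    rw [CfsgL.Golay.stabilizer_set_eq]
    ext g
    rw [Subgroup.mem_inf, Subgroup.mem_subgroupOf, Subgroup.mem_subgroupOf, CfsgL.Golay.mem_st1]
    exact Iff.rfl
  rw [h1]
  have e : (CfsgL.Golay.st1 d p).subgroupOf Cfsg.M24 ≃* CfsgL.Golay.st1 d p :=
    Subgroup.subgroupOfEquivOfLe (inf_le_left.trans inf_le_left)
  exact e.isSimpleGroup_congr.2 (CfsgL.Golay.M11_simple hd hp)

end Cfsg.Agent.S0388
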