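import Cfsg.Statements.S0406
import Cfsg.Agent.L.Lat.Mat

set_option autoImplicit false
open Matrix
open Cfsg

namespace Cfsg.Agent.S0406
open CfsgL.Lat
open Finset

/-- A rank-24 even lattice with no roots and the stated numbers of vectors of norms 4, 6, 8 is isomorphic to the Leech lattice. -/
theorem result (B : Matrix (Fin 24) (Fin 24) ℤ) (hsymm : B.IsSymm) (hpos : ∀ x : Fin 24 → ℤ, x ≠ 0 → 0 < x ⬝ᵥ (B *ᵥ x)) (heven : ∀ x : Fin 24 → ℤ, (2 : ℤ) ∣ x ⬝ᵥ (B *ᵥ x)) (h2 : ∀ x : Fin 24 → ℤ, x ⬝ᵥ (B *ᵥ x) ≠ 2) (h4 : {x : Fin 24 → ℤ | x ⬝ᵥ (B *ᵥ x) = 4}.ncard = 196560) (h6 : {x : Fin 24 → ℤ | x ⬝ᵥ (B *ᵥ x) = 6}.ncard = 16773120) (h8 : {x : Fin 24 → ℤ | x ⬝ᵥ (B *ᵥ x) = 8}.ncard = 398034000) : ∃ f : (Fin 24 → ℤ) ≃+ Cfsg.leechLattice, ∀ x : Fin 24 → ℤ, Cfsg.sqNorm ((f x : Cfsg.leechLattice)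 : Cfsg.GolayPt → ℤ) = 8 * (x ⬝ᵥ (B *ᵥ x)) := by
  have h := rl_bm hsymm hpos heven h2 h4 h6 h8
  obtain ⟨x0, hx0⟩ := exists8 h
  obtain ⟨f, hf, _⟩ := main h hx0 none
  refine ⟨AddSubgroup.topEquiv.symm.trans f, fun x => ?_⟩
  rw [sqNorm_eq_dot]
  exact hf ⟨x, trivial⟩ ⟨x, trivial⟩

end Cfsg.Agent.S0406
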