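import Cfsg.Statements.S0407
import Cfsg.Agent.L.GolayUniq3
import Cfsg.Agent.L.SetSys

set_option autoImplicit false
open Cfsg

namespace Cfsg.Agent.S0407
open CfsgL.GU

/-- Uniqueness of the Steiner system S(5, 8, 24) up to isomorphism. -/
theorem result {α β : Type*} [Fintype α] [DecidableEq α] [Fintype β] [DecidableEq β] (hα : Fintype.card α = 24) (hβ : Fintype.card β = 24) {B : Set (Finset α)} {B' : Set (Finset β)} (hB : Cfsg.IsSteinerSystem 5 8 B) (hB' : Cfsg.IsSteinerSystem 5 8 B') : Cfsg.SetSystemIso B B' := by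
  have h1 := golay_of_steiner hα hB
  have h2 := golay_of_steiner hβ hB'
  obtain ⟨E, hE⟩ := h1.unique h2
  refine CfsgL.SS.iso_of E ?_
  have e1 : ∀ b ∈ B, b ∈ dualF B := fun b hb => by
    rw [mem_dualF]
    intro b' hb'
    exact CfsgL.Steiner.inter24_even hα hB hb' hb
  have e2 : ∀ b ∈ B', b ∈ dualF B' := fun b hb => by
    rw [mem_dualF]
    intro b' hb'
    exact CfsgL.Steiner.inter24_even hβ hB' hb' hb
  intro s
  rw [blocks_eq h1 hB e1, blocks_eq h2 hB' e2, hE, Finset.card_map]

end Cfsg.Agent.S0407
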