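import Cfsg.Statements.S0409
import Cfsg.Agent.L.S23

set_option autoImplicit false
open Cfsg

namespace Cfsg.Agent.S0409
open CfsgL.S23
open CfsgL.SS

/-- Uniqueness of the Steiner system S(4, 7, 23) up to isomorphism. -/
theorem result {α β : Type*} [Fintype α] [DecidableEq α] [Fintype β] [DecidableEq β] (hα : Fintype.card α = 23) (hβ : Fintype.card β = 23) {B : Set (Finset α)} {B' : Set (Finset β)} (hB : Cfsg.IsSteinerSystem 4 7 B) (hB' : Cfsg.IsSteinerSystem 4 7 B') : Cfsg.SetSystemIso B B' := by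
  obtain ⟨e, he⟩ := exists_iso hα hB hβ hB'
  exact iso_of e he

end Cfsg.Agent.S0409
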