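import Cfsg.Statements.S0412
import Cfsg.Agent.L.GolayUniq3
import Cfsg.Agent.L.SetSys
import Cfsg.Agent.L.Golay.Octads
import Cfsg.Agent.L.Golay.Simple3

set_option autoImplicit false
open Cfsg

namespace Cfsg.Agent.S0412
open CfsgL.GU

/-- Aut of an S(5, 8, 24) is simple of order 244823040 and 5-transitive on points. -/
theorem result {α : Type*} [Fintype α] [DecidableEq α] (hα : Fintype.card α = 24) {B : Set (Finset α)} (hB : Cfsg.IsSteinerSystem 5 8 B) : Cfsg.IsM24 (Cfsg.setSystemAut B) ∧ MulAction.IsMultiplyPretransitive (Cfsg.setSystemAut B) α 5 := by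
  have h1 := golay_of_steiner hα hB
  obtain ⟨E, hE⟩ := h1.unique G0_golay
  have e1 : ∀ b ∈ B, b ∈ dualF B := fun b hb => by
    rw [mem_dualF]
    intro b' hb'
    exact CfsgL.Steiner.inter24_even hα hB hb' hb
  have key : ∀ s, s ∈ B ↔ s.map E.toEmbedding ∈ octads := by
    intro s
    rw [blocks_eq h1 hB e1, hE, octads_eq, Finset.card_map]
  have e2 : setSystemAut octads = M24 := CfsgL.Golay.M24_eq_octads.symm
  refine ⟨⟨?_, ?_⟩, ?_⟩
  · refine CfsgL.SS.simple_of_equiv (CfsgL.SS.autEquiv E key) ?_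
    rw [e2]
    exact CfsgL.Golay.simple_M24
  · rw [Nat.card_congr (CfsgL.SS.autEquiv E key).toEquiv, e2]
    exact CfsgL.Golay.card_M24
  · refine CfsgL.SS.trans_transfer E key 5 ?_
    rw [e2]
    exact CfsgL.Golay.five_transitive

end Cfsg.Agent.S0412
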