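import Cfsg.Statements.S0413
import Cfsg.Agent.L.S23

set_option autoImplicit false
open Cfsg

namespace Cfsg.Agent.S0413
open CfsgL.S23
open CfsgL.SS

/-- Aut of an S(4, 7, 23) is simple of order 10200960 and 4-transitive. -/
theorem result {α : Type*} [Fintype α] [DecidableEq α] (hα : Fintype.card α = 23) {B : Set (Finset α)} (hB : Cfsg.IsSteinerSystem 4 7 B) : Cfsg.IsM23 (Cfsg.setSystemAut B) ∧ MulAction.IsMultiplyPretransitive (Cfsg.setSystemAut B) α 4 := by
  obtain ⟨e, he⟩ := exists_iso hα hB (by simp) B23_steiner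
  have hE := (autEquiv e he).trans autEquiv23
  refine ⟨⟨simple_of_equiv hE (CfsgL.Golay.simple_fx1 none), ?_⟩, trans_transfer e he 4 four_trans23⟩
  rw [Nat.card_congr hE.toEquiv]
  exact CfsgL.Golay.card_fx1 none

end Cfsg.Agent.S0413
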