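import Cfsg.Statements.S0414
import Cfsg.Agent.L.M22b

set_option autoImplicit false
open Cfsg

namespace Cfsg.Agent.S0414
open CfsgL.S22
open CfsgL.M22b
open CfsgL.SS
open CfsgL.Golay

/-- Aut of an S(3, 6, 22) has order 887040, is 3-transitive, and contains a simple subgroup of index 2. -/
theorem result {α : Type*} [Fintype α] [DecidableEq α] (hα : Fintype.card α = 22) {B : Set (Finset α)} (hB : Cfsg.IsSteinerSystem 3 6 B) : Nat.card (Cfsg.setSystemAut B) = 887040 ∧ MulAction.IsMultiplyPretransitive (Cfsg.setSystemAut B) α 3 ∧ ∃ H : Subgroup (Cfsg.setSystemAut B), H.index = 2 ∧ Cfsg.IsM22 H := by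
  obtain ⟨p, h, hi, hb, hp⟩ := exists_flag hα hB
  obtain ⟨q, h', hi', hb', hq⟩ := exists_flag card_P2 B22_steiner
  obtain ⟨E, hE, _⟩ := exists_iso hα hB card_P2 B22_steiner hi hi' hb hb' hp hq
  have e : setSystemAut B ≃* st pr := (autEquiv E hE).trans rhoE.symm
  have hc : Nat.card (setSystemAut B) = 887040 := by
    rw [Nat.card_congr e.toEquiv, card_pr]
  refine ⟨hc, trans_transfer E hE 3 three_trans, ?_⟩
  set H : Subgroup (setSystemAut B) := ((fx [none, some 0]).subgroupOf (st pr)).comap e.toMonoidHom with hH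
  have eH : H ≃* (fx [none, some 0]).subgroupOf (st pr) := by
    have : H = ((fx [none, some 0]).subgroupOf (st pr)).map e.symm.toMonoidHom := by
      rw [hH]
      exact (Subgroup.map_equiv_eq_comap_symm e.symm _).symm
    rw [this]
    exact (e.symm.subgroupMap _).symm
  have eH2 : H ≃* fx [none, some 0] := eH.trans (Subgroup.subgroupOfEquivOfLe fx_le_st)
  have hcH : Nat.card H = 443520 := by
    rw [Nat.card_congr eH2.toEquiv]
    exact card_fx2 (by simp)
  refine ⟨H, ?_, simple_of_equiv eH2 (simple_fx2 (by simp)), hcH⟩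
  have := Subgroup.card_mul_index H
  rw [hc, hcH] at this
  omega

end Cfsg.Agent.S0414
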