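import Cfsg.Statements.S0439


set_option autoImplicit false
open Cfsg

namespace Cfsg.Agent.S0439

/-- In the symmetric group of degree n ≥ 2, the set of transpositions is a conjugacy class of 3-transpositions which generates the group. -/
theorem result (n : ℕ) (hn : 2 ≤ n) : Cfsg.IsThreeTranspositionClass {σ : Equiv.Perm (Fin n) | σ.IsSwap} := by
  refine ⟨⟨?_, ?_⟩, ?_, ?_⟩
  · intro d hd
    exact Equiv.Perm.IsSwap.orderOf hd
  · intro d hd e he
    obtain ⟨a, b, hab, rfl⟩ := hd
    obtain ⟨c, f, hcf, rfl⟩ := he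
    have key : ∀ x y z : Fin n, x ≠ y → x ≠ z → y ≠ z →
        (Equiv.swap x y * Equiv.swap x z) ^ 3 = 1 := by
      intro x y z h1 h2 h3
      have := Equiv.Perm.isThreeCycle_swap_mul_swap_same h1 h2 h3
      rw [← this.orderOf, pow_orderOf_eq_one]
    by_cases h1 : a = c
    · subst h1
      by_cases h2 : b = f
      · subst h2; left; rw [Equiv.swap_mul_self, one_pow]
      · right; exact key a b f hab hcf h2
    by_cases h2 : a = f
    · subst h2
      by_cases h3 : b = c
      · subst h3; left; rw [Equiv.swap_comm a b, Equiv.swap_mul_self, one_pow]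
      · right; rw [Equiv.swap_comm c a]; exact key a b c hab h1 h3
    by_cases h3 : b = c
    · subst h3
      right; rw [Equiv.swap_comm a b]; exact key b a f hab.symm hcf h2
    by_cases h4 : b = f
    · subst h4
      right; rw [Equiv.swap_comm a b, Equiv.swap_comm c b]
      exact key b a c hab.symm h3 h1
    left
    have hd : (Equiv.swap a b).Disjoint (Equiv.swap c f) := by
      rw [Equiv.Perm.disjoint_iff_disjoint_support, Equiv.Perm.support_swap hab,
        Equiv.Perm.support_swap hcf]
      rw [Finset.disjoint_left]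
      intro x hx hx'
      simp only [Finset.mem_insert, Finset.mem_singleton] at hx hx'
      rcases hx with rfl | rfl <;> rcases hx' with h | h <;> first | exact h1 h | exact h2 h | exact h3 h | exact h4 h
    rw [hd.commute.mul_pow, pow_two, pow_two, Equiv.swap_mul_self, Equiv.swap_mul_self, one_mul]
  · have h01 : (⟨0, by omega⟩ : Fin n) ≠ ⟨1, by omega⟩ := by simp [Fin.ext_iff]
    refine ⟨Equiv.swap ⟨0, by omega⟩ ⟨1, by omega⟩, ⟨_, _, h01, rfl⟩, ?_⟩
    ext σ
    change σ.IsSwap ↔ IsConj _ σ
    constructor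
    · rintro ⟨a, b, hab, rfl⟩
      exact Equiv.Perm.isConj_swap h01 hab
    · intro h
      obtain ⟨c, rfl⟩ := isConj_iff.1 h
      refine ⟨c ⟨0, by omega⟩, c ⟨1, by omega⟩, fun h => h01 (c.injective h), ?_⟩
      rw [Equiv.mul_swap_eq_swap_mul, mul_assoc, mul_inv_cancel, mul_one]
  · exact Equiv.Perm.closure_isSwap

end Cfsg.Agent.S0439
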