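import Cfsg.Statements.S0442
import Mathlib

set_option autoImplicit false
open Cfsg

namespace Cfsg.Agent.S0442

/-- A standard trick for producing elements of an involution centraliser: for an involution a and an element g, let b be the conjugate g⁻¹ * a * g. If a * b has odd order 2m + 1 then g * (a * b) ^ m commutes with a; if a * b has even order 2m then (a * b) ^ m and (a * (g * a * g⁻¹)) ^ m commute with a. -/
theorem result {G : Type*} [Group G] (a g : G) (ha : orderOf a = 2) : (∀ m : ℕ, orderOf (a * (g⁻¹ * a * g)) = 2 * m + 1 → Commute (g * (a * (g⁻¹ * a * g)) ^ m) a) ∧ (∀ m : ℕ, orderOf (a * (g⁻¹ * a * g)) = 2 * m → Commute ((a * (g⁻¹ * a * g)) ^ m) a ∧ Commute ((a * (g * a * g⁻¹)) ^ m) a) := by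
  have ha2 : a * a = 1 := by rw [← pow_two, ← ha, pow_orderOf_eq_one]
  have hai : a⁻¹ = a := inv_eq_of_mul_eq_one_right ha2
  obtain ⟨b, hb⟩ : ∃ b, b = g⁻¹ * a * g := ⟨_, rfl⟩
  have hb2 : b * b = 1 := by
    rw [hb]
    calc g⁻¹ * a * g * (g⁻¹ * a * g) = g⁻¹ * (a * a) * g := by group
      _ = 1 := by rw [ha2]; group
  have hbi : b⁻¹ = b := inv_eq_of_mul_eq_one_right hb2
  have hinv : (a * b)⁻¹ = b * a := by rw [mul_inv_rev, hai, hbi]
  have hca : ∀ m : ℕ, a * (a * b) ^ m * a⁻¹ = ((a * b) ^ m)⁻¹ := by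
    intro m
    rw [← conj_pow, ← inv_pow, hinv]
    congr 1
    calc a * (a * b) * a⁻¹ = (a * a) * b * a⁻¹ := by group
      _ = b * a := by rw [ha2, hai, one_mul]
  rw [← hb]
  refine ⟨fun m hm => ?_, fun m hm => ?_⟩
  · have h1 : (a * b) ^ (2 * m + 1) = 1 := by rw [← hm]; exact pow_orderOf_eq_one _
    have h2 : (a * b) ^ m * (a * b) ^ m = b * a := by
      have : (a * b) ^ (2 * m + 1) = ((a * b) ^ m * (a * b) ^ m) * (a * b) := by
        rw [pow_succ, two_mul, pow_add]
      rw [this] at h1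
      rw [eq_inv_of_mul_eq_one_left h1, hinv]
    have h3 : (a * b) ^ m * a = b * (a * b) ^ m := by
      have h4 : a * (a * b) ^ m = ((a * b) ^ m)⁻¹ * a := by
        rw [← hca m]; group
      have h5 : (a * b) ^ m * a = ((a * b) ^ m * (a * b) ^ m) * (((a * b) ^ m)⁻¹ * a) := by group
      rw [h5, ← h4, h2]
      calc b * a * (a * (a * b) ^ m) = b * (a * a) * (a * b) ^ m := by group
        _ = _ := by rw [ha2, mul_one]
    show g * (a * b) ^ m * a = a * (g * (a * b) ^ m)
    rw [mul_assoc, h3, hb]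
    group
  · have h1 : (a * b) ^ (2 * m) = 1 := by rw [← hm]; exact pow_orderOf_eq_one _
    have h2 : ((a * b) ^ m)⁻¹ = (a * b) ^ m := by
      rw [two_mul, pow_add] at h1
      exact inv_eq_of_mul_eq_one_right h1
    have h3 : Commute ((a * b) ^ m) a := by
      have := hca m
      rw [h2] at this
      show (a * b) ^ m * a = a * (a * b) ^ m
      nth_rw 1 [← this]
      group
    refine ⟨h3, ?_⟩
    have hg : a * (g * a * g⁻¹) = g * (a * b)⁻¹ * g⁻¹ := by
      rw [hinv, hb]; group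
    obtain ⟨c, hc⟩ : ∃ c, c = a * (g * a * g⁻¹) := ⟨_, rfl⟩
    have h4 : (c ^ m)⁻¹ = c ^ m := by
      rw [hc, hg, conj_pow, inv_pow, h2]
      rw [mul_inv_rev, mul_inv_rev, h2]; group
    have h5 : a * c * a⁻¹ = c⁻¹ := by
      rw [hc, mul_inv_rev, mul_inv_rev, mul_inv_rev, inv_inv, hai]
      calc a * (a * (g * a * g⁻¹)) * a = (a * a) * (g * a * g⁻¹) * a := by group
        _ = _ := by rw [ha2, one_mul, mul_assoc g a g⁻¹]
    have h6 : a * c ^ m * a⁻¹ = c ^ m := by
      rw [← conj_pow, h5, inv_pow, h4]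
    rw [← hc]
    show c ^ m * a = a * c ^ m
    nth_rw 1 [← h6]
    group

end Cfsg.Agent.S0442
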