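import Cfsg.Statements.S0443


set_option autoImplicit false
open Cfsg

namespace Cfsg.Agent.S0443

/-- Two definitions of a 2-central involution agree: an element t of order 2 of a finite group lies in the centre of some Sylow 2-subgroup if and only if its centraliser contains some Sylow 2-subgroup. -/
theorem result {G : Type*} [Group G] [Finite G] (t : G) (ht : orderOf t = 2) : Cfsg.IsTwoCentralInvolution t ↔ ∃ P : Sylow 2 G, (P : Subgroup G) ≤ Subgroup.centralizer ({t} : Set G) := by
  constructor
  · rintro ⟨-, P, hP, hc⟩
    refine ⟨P, fun x hx => ?_⟩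
    rw [Subgroup.mem_centralizer_singleton_iff]
    exact hc x hx
  · rintro ⟨P, hP⟩
    have hc : ∀ x ∈ P, x * t = t * x := fun x hx =>
      (Subgroup.mem_centralizer_singleton_iff.1 (hP hx))
    refine ⟨ht, P, ?_, hc⟩
    have h1 : IsPGroup 2 (Subgroup.zpowers t) := by
      rw [IsPGroup.iff_card]
      exact ⟨1, by rw [Nat.card_zpowers, ht, pow_one]⟩
    have h2 := IsPGroup.inf_normalizer_sylow h1 P
    have h3 : t ∈ Subgroup.normalizer (P : Set G) := by
      change t ∈ Subgroup.normalizer ((P : Subgroup G) : Set G)
      rw [Subgroup.mem_normalizer_iff]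
      intro x
      constructor
      · intro hx
        have : t * x * t⁻¹ = x := by rw [← hc x hx]; group
        rw [this]; exact hx
      · intro hx
        have h4 := hc _ hx
        have : t * x * t⁻¹ = x := by
          have h5 : t * x = t * (t * x * t⁻¹) := by rw [← h4]; group
          exact (mul_left_cancel h5).symm
        rw [this] at hx; exact hx
    have h6 : t ∈ Subgroup.zpowers t ⊓ (P : Subgroup G) := h2 ▸ ⟨Subgroup.mem_zpowers t, h3⟩
    exact h6.2

end Cfsg.Agent.S0443
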