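import Cfsg.Statements.S0444
import Cfsg.Agent.L.Misc.Sym3

set_option autoImplicit false
open Cfsg

namespace Cfsg.Agent.S0444

/-- Two members of a set of 3-transpositions which do not commute generate a subgroup isomorphic to the symmetric group on three letters. -/
theorem result {G : Type*} [Group G] {E : Set G} (hE : Cfsg.IsThreeTranspositionSet E) {d e : G} (hd : d ∈ E) (he : e ∈ E) (h : ¬ Commute d e) : Nonempty (Subgroup.closure ({d, e} : Set G) ≃* Equiv.Perm (Fin 3)) := by
  have hd2 : d * d = 1 := by have := hE.1 d hd; rw [← pow_two, ← this, pow_orderOf_eq_one]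
  have he2 : e * e = 1 := by have := hE.1 e he; rw [← pow_two, ← this, pow_orderOf_eq_one]
  have hdi : d⁻¹ = d := inv_eq_of_mul_eq_one_right hd2
  have hei : e⁻¹ = e := inv_eq_of_mul_eq_one_right he2
  refine CfsgL.Misc.sym_three_of_inv hd2 he2 ?_ ?_ ?_
  · rcases hE.2 d hd e he with h1 | h1
    · exfalso; apply h
      have : d * e * (d * e) = 1 := by rw [← pow_two]; exact h1
      have h3 : d * e = (d * e)⁻¹ := eq_inv_of_mul_eq_one_left this
      rw [mul_inv_rev, hdi, hei] at h3
      exact h3
    · exact h1
  · rintro rfl; exact h (Commute.refl _)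
  · rintro rfl; exact h (Commute.one_left _)

end Cfsg.Agent.S0444
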