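import Cfsg.Statements.S0446


set_option autoImplicit false
open Cfsg

namespace Cfsg.Agent.S0446

/-- Every finite group of even order contains a 2-central involution, i.e. an element of order 2 in the centre of some Sylow 2-subgroup. -/
theorem result {G : Type*} [Group G] [Finite G] (h : Even (Nat.card G)) : ∃ t : G, Cfsg.IsTwoCentralInvolution t := by
  obtain ⟨P⟩ : Nonempty (Sylow 2 G) := inferInstance
  haveI : Fact (Nat.Prime 2) := ⟨Nat.prime_two⟩
  have hne : (P : Subgroup G) ≠ ⊥ := by
    apply Sylow.ne_bot_of_dvd_card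
    exact h.two_dvd
  haveI : Nontrivial (P : Subgroup G) := (Subgroup.nontrivial_iff_ne_bot _).2 hne
  haveI := P.isPGroup'.center_nontrivial
  have hc : 2 ∣ Nat.card (Subgroup.center (P : Subgroup G)) :=
    (P.isPGroup'.to_subgroup _).card_eq_or_dvd.resolve_left Finite.one_lt_card.ne'
  obtain ⟨t, ht⟩ := exists_prime_orderOf_dvd_card' 2 hc
  refine ⟨((t : (P : Subgroup G)) : G), ?_, P, (t : (P : Subgroup G)).2, fun x hx => ?_⟩
  · rw [Subgroup.orderOf_coe, Subgroup.orderOf_coe, ht]
  · have h2 := Subgroup.mem_center_iff.1 t.2 ⟨x, hx⟩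
    exact congrArg Subtype.val h2

end Cfsg.Agent.S0446
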