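import Cfsg.Statements.S0481


set_option autoImplicit false
open Cfsg

namespace Cfsg.Agent.S0481

/-- Large extraspecial subgroups: let z be an involution of a finite group G whose centraliser C contains a normal 2-subgroup Q with centre of order 2 and all squares central, such that every element of G centralising Q lies in Q. Then C contains a Sylow 2-subgroup of G, and any involution of G whose centraliser contains a Sylow 2-subgroup of G is conjugate to z. -/
theorem result {G : Type*} [Group G] [Finite G] (z : G) (hz : orderOf z = 2) (Q : Subgroup G) (hQC : Q ≤ Subgroup.centralizer ({z} : Set G)) (hQn : ∀ g ∈ Subgroup.centralizer ({z} : Set G), ∀ q ∈ Q, g * q * g⁻¹ ∈ Q) (hQ2 : IsPGroup 2 Q) (hZ : Nat.card (Subgroup.center Q) = 2) (hsq : ∀ x : Q, x ^ 2 ∈ Subgroup.center Q) (hlarge : Subgroup.centralizer (Q : Set G) ≤ Q) : (∃ P : Sylow 2 G, (P : Subgroup G) ≤ Subgroup.centralizer ({z} : Set G)) ∧ ∀ u : G, orderOf u = 2 → (∃ P : Sylow 2 G, (P : Subgroup G) ≤ Subgroup.centralizer ({u} : Set G)) → IsConj z u := by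
  haveI : Fact (Nat.Prime 2) := ⟨Nat.prime_two⟩
  have hzQ : z ∈ Q := by
    apply hlarge
    rw [Subgroup.mem_centralizer_iff]
    intro q hq
    exact (Subgroup.mem_centralizer_singleton_iff.1 (hQC hq))
  have hzc : (⟨z, hzQ⟩ : Q) ∈ Subgroup.center Q := by
    rw [Subgroup.mem_center_iff]
    intro q
    apply Subtype.ext
    exact (Subgroup.mem_centralizer_singleton_iff.1 (hQC q.2))
  have hz1 : z ≠ 1 := by
    rintro rfl
    rw [orderOf_one] at hz
    omega
  have honly : ∀ q : Q, q ∈ Subgroup.center Q → q = 1 ∨ (q : G) = z := by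
    intro q hq
    classical
    by_contra hcon
    push Not at hcon
    have h3 : (({1, (⟨z, hzQ⟩ : Q), q} : Finset Q)).card ≤ 2 := by
      rw [← hZ]
      change _ ≤ Nat.card ((Subgroup.center Q : Set Q))
      rw [Nat.card_coe_set_eq, ← Set.ncard_coe_finset]
      apply Set.ncard_le_ncard _ (Set.toFinite _)
      intro y hy
      simp only [Finset.coe_insert, Finset.coe_singleton, Set.mem_insert_iff,
        Set.mem_singleton_iff] at hy
      rcases hy with rfl | rfl | rfl
      · exact one_mem _
      · exact hzc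
      · exact hq
    rw [Finset.card_eq_three.2 ⟨_, _, _, ?_, ?_, ?_, rfl⟩] at h3
    · omega
    · intro h; exact hz1 (congrArg Subtype.val h).symm
    · intro h; exact hcon.1 h.symm
    · intro h; exact hcon.2 (congrArg Subtype.val h).symm
  obtain ⟨S, hS⟩ := hQ2.exists_le_sylow
  have hcen : ∀ x ∈ S, (∀ y ∈ S, y * x = x * y) → x = 1 ∨ x = z := by
    intro x hx hc
    have h1 : x ∈ Q := by
      apply hlarge
      rw [Subgroup.mem_centralizer_iff]
      intro q hq
      exact hc q (hS hq)
    rcases honly ⟨x, h1⟩ (by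
      rw [Subgroup.mem_center_iff]
      intro q
      apply Subtype.ext
      exact hc q (hS q.2)) with h | h
    · left; exact congrArg Subtype.val h
    · right; exact h
  have hSz : ∀ y ∈ S, y * z = z * y := by
    haveI : Nontrivial (S : Subgroup G) := ⟨⟨z, hS hzQ⟩, 1, fun h => hz1 (congrArg Subtype.val h)⟩
    haveI := S.isPGroup'.center_nontrivial
    obtain ⟨c, hc⟩ := exists_ne (1 : Subgroup.center (S : Subgroup G))
    have h1 := Subgroup.mem_center_iff.1 c.2
    have h2 : ∀ y ∈ S, y * ((c : (S : Subgroup G)) : G) = ((c : (S : Subgroup G)) : G) * y := by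
      intro y hy
      exact congrArg Subtype.val (h1 ⟨y, hy⟩)
    rcases hcen _ (c : (S : Subgroup G)).2 h2 with h | h
    · exfalso; apply hc
      apply Subtype.ext; apply Subtype.ext
      exact h
    · rw [h] at h2; exact h2
  refine ⟨⟨S, fun y hy => Subgroup.mem_centralizer_singleton_iff.2 (hSz y hy)⟩, ?_⟩
  rintro u hu ⟨P, hP⟩
  have huc : ∀ x ∈ P, x * u = u * x := fun x hx =>
    (Subgroup.mem_centralizer_singleton_iff.1 (hP hx))
  have huP : u ∈ P := by
    have h1 : IsPGroup 2 (Subgroup.zpowers u) := by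
      rw [IsPGroup.iff_card]
      exact ⟨1, by rw [Nat.card_zpowers, hu, pow_one]⟩
    have h2 := IsPGroup.inf_normalizer_sylow h1 P
    have h3 : u ∈ Subgroup.normalizer (P : Set G) := by
      change u ∈ Subgroup.normalizer ((P : Subgroup G) : Set G)
      rw [Subgroup.mem_normalizer_iff]
      intro x
      constructor
      · intro hx
        have : u * x * u⁻¹ = x := by rw [← huc x hx]; group
        rw [this]; exact hx
      · intro hx
        have h4 := huc _ hx
        have : u * x * u⁻¹ = x := by
          have h5 : u * x = u * (u * x * u⁻¹) := by rw [← h4]; group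
          exact (mul_left_cancel h5).symm
        rw [this] at hx; exact hx
    have h6 : u ∈ Subgroup.zpowers u ⊓ (P : Subgroup G) := h2 ▸ ⟨Subgroup.mem_zpowers u, h3⟩
    exact h6.2
  obtain ⟨g, hg⟩ := MulAction.exists_smul_eq G P S
  have hmem : ∀ x, x ∈ S ↔ g⁻¹ * x * g ∈ P := by
    intro x
    rw [← hg]
    change x ∈ ((g • P : Sylow 2 G) : Subgroup G) ↔ g⁻¹ * x * g ∈ (P : Subgroup G)
    rw [Sylow.coe_subgroup_smul, Subgroup.mem_pointwise_smul_iff_inv_smul_mem]
    simp [MulAut.smul_def, ← map_inv]
  have h1 : g * u * g⁻¹ ∈ S := by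
    rw [hmem]
    have : g⁻¹ * (g * u * g⁻¹) * g = u := by group
    rw [this]; exact huP
  have h2 : ∀ y ∈ S, y * (g * u * g⁻¹) = (g * u * g⁻¹) * y := by
    intro y hy
    have := huc _ ((hmem y).1 hy)
    calc y * (g * u * g⁻¹) = g * (g⁻¹ * y * g * u) * g⁻¹ := by group
      _ = g * (u * (g⁻¹ * y * g)) * g⁻¹ := by rw [this]
      _ = _ := by group
  rcases hcen _ h1 h2 with h | h
  · exfalso
    have : u = 1 := by
      have h3 : u = g⁻¹ * (g * u * g⁻¹) * g := by group
      rw [h3, h]; group
    rw [this, orderOf_one] at hu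
    omega
  · rw [isConj_comm, isConj_iff]
    exact ⟨g, h⟩

end Cfsg.Agent.S0481
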