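import Mathlib
import Cfsg.Agent.H3.Simp
import Cfsg.Agent.S0144
import Cfsg.Statements.S0493

set_option autoImplicit false
open Cfsg

namespace Cfsg.Agent.S0493

theorem arith : ∀ n : Fin 101, 0 < n.val → n.val % 4 ≠ 2 → n.val ≠ 60 → n.val ≠ 84 → n.val.primeFactors.card ≤ 2 := by decide +kernel

theorem pq_of_card (n : ℕ) (hn : n ≠ 0) (h : n.primeFactors.card ≤ 2) : ∃ p q a b : ℕ, p.Prime ∧ q.Prime ∧ n = p ^ a * q ^ b := by
  classical
  have h1 := Nat.prod_factorization_pow_eq_self hn
  have h2 : n = ∏ p ∈ n.primeFactors, p ^ n.factorization p := by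
    conv_lhs => rw [← h1]
    rfl
  have h3 : n.primeFactors.card = 0 ∨ n.primeFactors.card = 1 ∨ n.primeFactors.card = 2 := by omega
  rcases h3 with h3 | h3 | h3
  · rw [Finset.card_eq_zero] at h3
    rw [h3, Finset.prod_empty] at h2
    exact ⟨2, 2, 0, 0, Nat.prime_two, Nat.prime_two, by rw [h2]; norm_num⟩
  · obtain ⟨p, hp⟩ := Finset.card_eq_one.1 h3
    have hpp : p.Prime := Nat.prime_of_mem_primeFactors (by rw [hp]; exact Finset.mem_singleton_self p)
    rw [hp, Finset.prod_singleton] at h2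
    exact ⟨p, 2, n.factorization p, 0, hpp, Nat.prime_two, by rw [pow_zero, mul_one]; exact h2⟩
  · obtain ⟨p, q, hpq, hp⟩ := Finset.card_eq_two.1 h3
    have hpp : p.Prime := Nat.prime_of_mem_primeFactors (by rw [hp]; simp)
    have hqq : q.Prime := Nat.prime_of_mem_primeFactors (by rw [hp]; simp)
    rw [hp, Finset.prod_pair hpq] at h2
    exact ⟨p, q, n.factorization p, n.factorization q, hpp, hqq, h2⟩

/-- A finite simple group of order at most 100 that is not cyclic has order 60. -/
theorem result {G : Type*} [Group G] [Finite G] [IsSimpleGroup G]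
    (hG : ¬ IsCyclic G) (h : Nat.card G ≤ 100) : Nat.card G = 60 := by
  classical
  by_contra h60
  have hnp : ¬ (Nat.card G).Prime := by
    intro hp
    haveI : Fact (Nat.card G).Prime := ⟨hp⟩
    exact hG (isCyclic_of_prime_card rfl)
  have hnc := CfsgH3.Simp.not_comm_of_card hnp
  have hpos : 0 < Nat.card G := Nat.card_pos
  have hsolv : Group.IsSolvable G → False := by
    intro hs
    haveI := hs
    apply hnc
    have h1 := IsSimpleGroup.comm_iff_isSolvable (G := G)
    exact ⟨⟨h1.2 hs⟩⟩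
  by_cases h84 : Nat.card G = 84
  · haveI : Fact (Nat.Prime 7) := ⟨by norm_num⟩
    have h1 := CfsgH3.Simp.syl_dvd (G := G) (p := 7) (a := 1) (m := 12) (by rw [h84]; norm_num) (by norm_num)
    have h2 := CfsgH3.Simp.syl_mod (G := G) (p := 7)
    have h3 := CfsgH3.Simp.syl_ne_one (p := 7) hnc (by rw [h84]; norm_num)
    have h4 := Nat.le_of_dvd (by norm_num) h1
    interval_cases hc : Nat.card (Sylow 7 G) <;> omega
  by_cases h42 : Nat.card G % 4 = 2
  · haveI : Fact (Nat.Prime 2) := ⟨Nat.prime_two⟩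
    obtain ⟨P⟩ : Nonempty (Sylow 2 G) := inferInstance
    have hm : Nat.card G = 2 ^ 1 * (Nat.card G / 2) := by omega
    have hP : Nat.card P = 2 := by
      have := CfsgH3.Simp.card_syl hm (by omega) P
      rwa [pow_one] at this
    have hd : 2 ∣ Nat.card (Subgroup.normalizer ((P : Subgroup G) : Set G)) := by
      have h1 : Nat.card P ∣ Nat.card (Subgroup.normalizer ((P : Subgroup G) : Set G)) := Subgroup.card_dvd_of_le Subgroup.le_normalizer
      rwa [hP] at h1
    obtain ⟨m, hm'⟩ := hd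
    have h1 := CfsgH3.Simp.npc_of_gcd P hP hm' (by simp)
    exact CfsgH3.Simp.not_npc hnc (by omega) h1
  have h1 := arith ⟨Nat.card G, by omega⟩ hpos h42 h60 h84
  obtain ⟨p, q, a, b, hp, hq, hn⟩ := pq_of_card _ hpos.ne' h1
  exact hsolv (Cfsg.Agent.S0144.result p q a b hp hq hn)

end Cfsg.Agent.S0493
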