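import Cfsg.Statements.S0499
import Mathlib
import Cfsg.Agent.H3.NPC2
import Cfsg.Agent.H3.Fusion

set_option autoImplicit false
open Cfsg

namespace Cfsg.Agent.S0499

/-- A non-abelian finite simple group of even order has order divisible by 12, 16 or 56. -/
theorem result {G : Type*} [Group G] [Finite G] [IsSimpleGroup G]
    (hG : ¬ IsMulCommutative G) (h2 : Even (Nat.card G)) :
    12 ∣ Nat.card G ∨ 16 ∣ Nat.card G ∨ 56 ∣ Nat.card G := by
  by_contra hcon
  push Not at hcon
  obtain ⟨h12, h16, h56⟩ := hcon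
  haveI : Fact (Nat.Prime 2) := ⟨Nat.prime_two⟩
  have key : CfsgH3.HasNPC 2 G := by
    apply CfsgH3.hasNPC_frobenius
    intro X hX g hg hgc
    by_contra hgX
    obtain ⟨φ, hφd⟩ : ∃ φ : MulAut ↥X, φ = (Subgroup.normalizerMonoidHom X) ⟨g, hg⟩ := ⟨_, rfl⟩
    have hφ : φ ≠ 1 := by
      intro h
      apply hgX
      have h1 : (⟨g, hg⟩ : ↥(Subgroup.normalizer (X : Set G))) ∈ (Subgroup.normalizerMonoidHom X).ker := by
        rw [MonoidHom.mem_ker, ← hφd, h]
      rw [Subgroup.normalizerMonoidHom_ker, Subgroup.mem_subgroupOf] at h1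
      exact h1
    have hord : orderOf φ ∣ orderOf g := by
      have := orderOf_map_dvd (Subgroup.normalizerMonoidHom X) ⟨g, hg⟩
      rw [← hφd, Subgroup.orderOf_mk] at this
      exact this
    obtain ⟨r, hr, hrd⟩ := Nat.exists_prime_and_dvd (n := orderOf φ) (fun h => hφ (orderOf_eq_one_iff.1 h))
    have hr2 : r ≠ 2 := by
      rintro rfl
      have h1 : Nat.Coprime 2 2 := Nat.Coprime.coprime_dvd_left (hrd.trans hord) hgc
      norm_num at h1
    haveI := Fact.mk hr
    have hfin : orderOf φ ≠ 0 := by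
      intro h
      rw [h, zero_dvd_iff] at hord
      exact (orderOf_pos g).ne' hord
    obtain ⟨ψ, hψd⟩ : ∃ ψ : MulAut ↥X, ψ = φ ^ (orderOf φ / r) := ⟨_, rfl⟩
    have hψ : orderOf ψ = r := by rw [hψd]; exact orderOf_pow_orderOf_div hfin hrd
    have hrG : r ∣ Nat.card G := hrd.trans (hord.trans (orderOf_dvd_natCard g))
    let C : Subgroup ↥X := 
      { carrier := {x | ψ x = x}
        mul_mem' := fun {a b} ha hb => by
          change ψ (a * b) = a * b
          rw [map_mul, show ψ a = a from ha, show ψ b = b from hb]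
        one_mem' := map_one ψ
        inv_mem' := fun {a} ha => by
          change ψ a⁻¹ = a⁻¹
          rw [map_inv, show ψ a = a from ha] }
    have hCtop : C ≠ ⊤ := by
      intro h
      have h1 : ψ = 1 := by
        ext x
        have h2 : x ∈ C := by rw [h]; trivial
        exact congrArg Subtype.val (show ψ x = x from h2)
      rw [h1, orderOf_one] at hψ
      exact hr.one_lt.ne hψ
    have hzp : IsPGroup r (Subgroup.zpowers ψ) := IsPGroup.of_card (n := 1) (by rw [Nat.card_zpowers, hψ, pow_one])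
    have hmod := hzp.card_modEq_card_fixedPoints ↥X
    have hfix : MulAction.fixedPoints (Subgroup.zpowers ψ) ↥X = (C : Set ↥X) := by
      ext x
      rw [MulAction.mem_fixedPoints]
      constructor
      · intro h
        exact h ⟨ψ, Subgroup.mem_zpowers ψ⟩
      · rintro h ⟨y, hy⟩
        have h1 : ψ ∈ MulAction.stabilizer (MulAut ↥X) x := h
        have h2 : Subgroup.zpowers ψ ≤ MulAction.stabilizer (MulAut ↥X) x := by
          rw [Subgroup.zpowers_le]; exact h1
        exact h2 hy
    rw [hfix] at hmod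
    obtain ⟨j, hj⟩ := IsPGroup.iff_card.1 hX
    have hCdvd : Nat.card ↥C ∣ 2 ^ j := by rw [← hj]; exact C.card_subgroup_dvd_card
    obtain ⟨i, hij, hi⟩ := (Nat.dvd_prime_pow Nat.prime_two).1 hCdvd
    have hlt : i < j := by
      rcases Nat.lt_or_ge i j with h | h
      · exact h
      · exfalso
        apply hCtop
        apply Subgroup.eq_top_of_card_eq
        rw [hi, hj, le_antisymm hij h]
    have hXG : 2 ^ j ∣ Nat.card G := by rw [← hj]; exact X.card_subgroup_dvd_card
    have hj3 : j ≤ 3 := by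
      by_contra h
      push Not at h
      exact h16 ((show 16 ∣ 2 ^ j from (by norm_num : (16 : ℕ) = 2 ^ 4) ▸ pow_dvd_pow 2 h).trans hXG)
    have hmod2 : r ∣ 2 ^ j - 2 ^ i := by
      have h1 : Nat.card ↥X ≡ Nat.card ↥C [MOD r] := hmod
      rw [hj, hi] at h1
      exact (Nat.modEq_iff_dvd' (Nat.pow_le_pow_right (by norm_num) hlt.le)).1 h1.symm
    have hr37 : (r = 3 ∧ 4 ∣ 2 ^ j) ∨ (r = 7 ∧ 8 ∣ 2 ^ j) := by
      have hc : Nat.Coprime r 2 := (Nat.coprime_primes hr Nat.prime_two).2 hr2
      interval_cases j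
      · omega
      · have h0 : i = 0 := by omega
        rw [h0] at hmod2
        norm_num at hmod2
        exact (hr.one_lt.ne' hmod2).elim
      · interval_cases i
        · norm_num at hmod2
          exact Or.inl ⟨(Nat.prime_dvd_prime_iff_eq hr Nat.prime_three).1 hmod2, by norm_num⟩
        · norm_num at hmod2
          exact (hr2 ((Nat.prime_dvd_prime_iff_eq hr Nat.prime_two).1 hmod2)).elim
      · interval_cases i
        · norm_num at hmod2
          exact Or.inr ⟨(Nat.prime_dvd_prime_iff_eq hr (by norm_num)).1 hmod2, by norm_num⟩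
        · norm_num at hmod2
          have h1 : r ∣ 3 := hc.dvd_of_dvd_mul_left (show r ∣ 2 * 3 by norm_num; exact hmod2)
          exact Or.inl ⟨(Nat.prime_dvd_prime_iff_eq hr Nat.prime_three).1 h1, by norm_num⟩
        · norm_num at hmod2
          have h1 : r ∣ 2 := hc.dvd_of_dvd_mul_left (show r ∣ 2 * 2 by norm_num; exact hmod2)
          exact (hr2 ((Nat.prime_dvd_prime_iff_eq hr Nat.prime_two).1 h1)).elim
    rcases hr37 with ⟨h3, h4⟩ | ⟨h7, h8⟩
    · apply h12
      have h5 : 4 ∣ Nat.card G := h4.trans hXG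
      rw [h3] at hrG
      exact (Nat.Coprime.mul_dvd_of_dvd_of_dvd (by norm_num : Nat.Coprime 3 4) hrG h5)
    · apply h56
      have h5 : 8 ∣ Nat.card G := h8.trans hXG
      rw [h7] at hrG
      exact (Nat.Coprime.mul_dvd_of_dvd_of_dvd (by norm_num : Nat.Coprime 7 8) hrG h5)
  rcases key.simple with h | h
  · exact h (even_iff_two_dvd.1 h2)
  · apply hG
    haveI : IsCyclic G := isCyclic_of_prime_card h
    exact ⟨⟨fun a b => IsCyclic.commGroup.mul_comm a b⟩⟩

end Cfsg.Agent.S0499
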