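import Cfsg.Statements.S0502
import Cfsg.Agent.H1.PGrp2

set_option autoImplicit false
open Cfsg

namespace Cfsg.Agent.S0502

open scoped commutatorElement Pointwise

theorem klein_of {P : Type*} [Group P] {a b : P} (ha : a ≠ 1) (hb : b ≠ 1) (hab : a ≠ b) (ha2 : a * a = 1) (hb2 : b * b = 1) (hc : a * b = b * a) :
    ∃ K : Subgroup P, IsKleinFour K ∧ a ∈ K ∧ b ∈ K ∧ ∀ x ∈ K, x = 1 ∨ x = a ∨ x = b ∨ x = a * b := by
  let K : Subgroup P := 
    { carrier := {x | x = 1 ∨ x = a ∨ x = b ∨ x = a * b}
      one_mem' := Or.inl rfl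
      mul_mem' := by
        rintro x y (rfl | rfl | rfl | rfl) (rfl | rfl | rfl | rfl)
        · left; simp
        · right; left; simp
        · right; right; left; simp
        · right; right; right; simp
        · right; left; simp
        · left; exact ha2
        · right; right; right; rfl
        · right; right; left; rw [← mul_assoc, ha2, one_mul]
        · right; right; left; simp
        · right; right; right; exact hc.symm
        · left; exact hb2
        · right; left; rw [hc, ← mul_assoc, hb2, one_mul]
        · right; right; right; simp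
        · right; right; left; rw [hc, mul_assoc, ha2, mul_one]
        · right; left; rw [mul_assoc, hb2, mul_one]
        · left
          calc a * b * (a * b) = a * b * (b * a) := by rw [← hc]
            _ = a * (b * b) * a := by simp only [mul_assoc]
            _ = 1 := by rw [hb2, mul_one, ha2]
      inv_mem' := by
        rintro x (rfl | rfl | rfl | rfl)
        · left; simp
        · right; left; exact inv_eq_of_mul_eq_one_right ha2
        · right; right; left; exact inv_eq_of_mul_eq_one_right hb2
        · right; right; right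
          rw [mul_inv_rev, inv_eq_of_mul_eq_one_right ha2, inv_eq_of_mul_eq_one_right hb2, hc] }
  have hKmem : ∀ x, x ∈ K ↔ (x = 1 ∨ x = a ∨ x = b ∨ x = a * b) := fun x => Iff.rfl
  refine ⟨K, ?_, Or.inr (Or.inl rfl), Or.inr (Or.inr (Or.inl rfl)), fun x hx => hx⟩
  have hab1 : a * b ≠ 1 := by
    intro h
    apply hab
    have := eq_inv_of_mul_eq_one_left h
    rw [this]
    exact inv_eq_of_mul_eq_one_right hb2
  have haba : a * b ≠ a := fun h => hb (mul_eq_left.1 h)
  have habb : a * b ≠ b := fun h => ha (mul_eq_right.1 h)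
  classical
  have hset : (K : Set P) = (({1, a, b, a * b} : Finset P) : Set P) := by
    ext x; simp [hKmem]
  have hcard : Nat.card K = 4 := by
    have h1 : Nat.card K = (K : Set P).ncard := rfl
    rw [h1, hset, Set.ncard_coe_finset]
    rw [Finset.card_insert_of_notMem, Finset.card_insert_of_notMem, Finset.card_insert_of_notMem, Finset.card_singleton]
    · simp [habb.symm]
    · simp [hab, haba.symm]
    · simp [ha.symm, hb.symm, hab1.symm]
  have hexp : Monoid.exponent K = 2 := by
    have h1 : Monoid.exponent K ∣ 2 := by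
      apply Monoid.exponent_dvd_of_forall_pow_eq_one
      intro x
      have h2 := K.mul_mem x.2 x.2
      apply Subtype.ext
      rw [Subgroup.coe_pow, sq]
      rcases x.2 with h | h | h | h
      · rw [h, one_mul]; rfl
      · rw [h, ha2]; rfl
      · rw [h, hb2]; rfl
      · rw [h]
        calc a * b * (a * b) = a * b * (b * a) := by rw [← hc]
          _ = a * (b * b) * a := by simp only [mul_assoc]
          _ = 1 := by rw [hb2, mul_one, ha2]
    rcases (Nat.dvd_prime Nat.prime_two).1 h1 with h | h
    · rw [Monoid.exp_eq_one_iff] at h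
      haveI := h
      have : Nat.card K = 1 := Nat.card_unique
      omega
    · exact h
  exact { card_four := hcard, exponent_two := hexp }

/-- If a finite 2-group has a normal elementary abelian subgroup of order at least 8, then any two of its Klein
four-subgroups are joined by a chain of Klein four-subgroups with consecutive members commuting elementwise. -/
theorem result {P : Type*} [Group P] [Finite P] (hP : IsPGroup 2 P)
    (E : Subgroup P) [E.Normal] (hE : IsMulCommutative E) (hE2 : ∀ e ∈ E, e ^ 2 = 1) (hE8 : 8 ≤ Nat.card E) :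
    Cfsg.IsFourConnected P := by

  haveI hnil : Group.IsNilpotent P := hP.isNilpotent
  have hEc : ∀ a ∈ E, ∀ b ∈ E, a * b = b * a := fun a ha b hb => congrArg Subtype.val (hE.is_comm.comm ⟨a, ha⟩ ⟨b, hb⟩)
  have hEne : E ≠ ⊥ := by
    rintro rfl
    rw [Subgroup.card_bot] at hE8
    omega
  have hz := CfsgH1.nilpotent_normal_inf_center_ne_bot hEne
  obtain ⟨⟨z, hzm⟩, hz1⟩ : ∃ z : (E ⊓ Subgroup.center P : Subgroup P), z ≠ 1 := by
    haveI := (Subgroup.nontrivial_iff_ne_bot _).2 hz
    exact exists_ne 1
  have hz1' : z ≠ 1 := fun h => hz1 (Subtype.ext h)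
  have hzE : z ∈ E := hzm.1
  have hzZ : ∀ g : P, g * z = z * g := Subgroup.mem_center_iff.1 hzm.2
  have hE2' : ∀ e ∈ E, e * e = 1 := fun e he => by rw [← sq]; exact hE2 e he
  have hz2 : z * z = 1 := hE2' z hzE
  let R := (fun A B : Subgroup P => IsKleinFour A ∧ IsKleinFour B ∧ ∀ a ∈ A, ∀ b ∈ B, a * b = b * a)
  have hRs : ∀ A B, R A B → R B A := fun A B h => ⟨h.2.1, h.1, fun a ha b hb => (h.2.2 b hb a ha).symm⟩
  have key : ∀ U : Subgroup P, IsKleinFour U → ∃ F : Subgroup P, F ≤ E ∧ IsKleinFour F ∧ Relation.ReflTransGen R U F := by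
    intro U hU
    have hU4 : Nat.card U = 4 := hU.card_four
    have hU2 : ∀ x ∈ U, x * x = 1 := by
      intro x hx
      have h1 := Monoid.pow_exponent_eq_one (⟨x, hx⟩ : U)
      rw [hU.exponent_two, sq] at h1
      exact congrArg Subtype.val h1
    have hUc : ∀ x ∈ U, ∀ y ∈ U, x * y = y * x := by
      intro x hx y hy
      have h1 := hU2 _ (U.mul_mem hx hy)
      have e1 : x⁻¹ = x := inv_eq_of_mul_eq_one_right (hU2 x hx)
      have e2 : y⁻¹ = y := inv_eq_of_mul_eq_one_right (hU2 y hy)
      have e3 : (x * y)⁻¹ = x * y := inv_eq_of_mul_eq_one_right h1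
      rw [mul_inv_rev, e1, e2] at e3
      exact e3.symm
    obtain ⟨u, huU, hu1, huz⟩ : ∃ u ∈ U, u ≠ 1 ∧ u ≠ z := by
      by_contra hcon
      push Not at hcon
      have h1 : (U : Set P) ⊆ {1, z} := by
        intro x hx
        by_cases hx1 : x = 1
        · left; exact hx1
        · right; exact hcon x hx hx1
      have h2 : (U : Set P).ncard ≤ 2 := (Set.ncard_le_ncard h1 (Set.toFinite _)).trans (Set.ncard_pair hz1'.symm).le
      have h3 : Nat.card U = (U : Set P).ncard := rfl
      omega
    obtain ⟨K1, hK1, huK, hzK, hK1m⟩ := klein_of hu1 hz1' huz (hU2 u huU) hz2 (hzZ u)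
    have hR1 : R U K1 := by
      refine ⟨hU, hK1, fun a ha b hb => ?_⟩
      rcases hK1m b hb with rfl | rfl | rfl | rfl
      · simp
      · exact hUc a ha _ huU
      · exact hzZ a
      · rw [← mul_assoc, hUc a ha u huU, mul_assoc, hzZ a, mul_assoc]
    -- centralizer of `u` in `E`
    have huu : u * u = 1 := hU2 u huU
    have hui : u⁻¹ = u := inv_eq_of_mul_eq_one_right huu
    have hconj : ∀ e ∈ E, u * e * u⁻¹ ∈ E := fun e he => (inferInstance : E.Normal).conj_mem e he u
    letI : CommGroup E := { (inferInstance : Group E) with mul_comm := fun a b => Subtype.ext (hEc a a.2 b b.2) }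
    let θ : E →* E := 
      { toFun := fun e => e * ⟨u * e * u⁻¹, hconj e e.2⟩
        map_one' := by
          apply Subtype.ext
          change (1 : P) * (u * 1 * u⁻¹) = 1
          group
        map_mul' := by
          intro a b
          have h1 : (⟨u * ((a * b : E) : P) * u⁻¹, hconj _ (a * b).2⟩ : E) = ⟨u * a * u⁻¹, hconj a a.2⟩ * ⟨u * b * u⁻¹, hconj b b.2⟩ := by
            apply Subtype.ext
            change u * ((a : P) * b) * u⁻¹ = u * a * u⁻¹ * (u * b * u⁻¹)
            group
          rw [h1]
          exact mul_mul_mul_comm _ _ _ _ }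
    have hθ : ∀ e : E, ((θ e : E) : P) = e * (u * e * u⁻¹) := fun e => rfl
    have hker : ∀ e : E, e ∈ θ.ker ↔ u * e * u⁻¹ = e := by
      intro e
      rw [MonoidHom.mem_ker]
      constructor
      · intro h
        have h1 : (e : P) * (u * e * u⁻¹) = 1 := congrArg Subtype.val h
        have h2 : (e : P)⁻¹ = e := inv_eq_of_mul_eq_one_right (hE2' e e.2)
        rw [← eq_inv_of_mul_eq_one_right h1] at h2
        exact h2
      · intro h
        apply Subtype.ext
        rw [hθ, h]
        exact hE2' e e.2
    have hrange : θ.range ≤ θ.ker := by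
      rintro _ ⟨e, rfl⟩
      rw [hker, hθ]
      have h1 : u * ((e : P) * (u * e * u⁻¹)) * u⁻¹ = (u * e * u⁻¹) * ((u * u) * e * (u * u)⁻¹) := by group
      rw [h1, huu]
      simp only [one_mul, inv_one, mul_one]
      exact hEc _ (hconj e e.2) _ e.2
    have hcard : Nat.card θ.ker * Nat.card θ.range = Nat.card E := by
      rw [← Subgroup.index_ker]
      exact Subgroup.card_mul_index _
    have hle : Nat.card θ.range ≤ Nat.card θ.ker := Nat.le_of_dvd Nat.card_pos (Subgroup.card_dvd_of_le hrange)
    have h3 : 3 ≤ Nat.card θ.ker := by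
      by_contra hlt
      push Not at hlt
      have : Nat.card θ.ker ≤ 2 := by omega
      nlinarith
    obtain ⟨w, hwk, hw1, hwz⟩ : ∃ w ∈ θ.ker, (w : P) ≠ 1 ∧ (w : P) ≠ z := by
      by_contra hcon
      push Not at hcon
      have h1 : (θ.ker : Set E) ⊆ {1, ⟨z, hzE⟩} := by
        intro x hx
        by_cases hx1 : (x : P) = 1
        · left; exact Subtype.ext hx1
        · right; exact Subtype.ext (hcon x hx hx1)
      have h2 : (θ.ker : Set E).ncard ≤ 2 := by
        refine (Set.ncard_le_ncard h1 (Set.toFinite _)).trans (Set.ncard_pair ?_).le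
        intro h
        exact hz1' (congrArg Subtype.val h).symm
      have h4 : Nat.card θ.ker = (θ.ker : Set E).ncard := rfl
      omega
    have hwu : (w : P) * u = u * w := by
      have h1 := (hker w).1 hwk
      rw [mul_inv_eq_iff_eq_mul] at h1
      exact h1.symm
    obtain ⟨F, hF, hzF, hwF, hFm⟩ := klein_of hz1' hw1 (Ne.symm hwz) hz2 (hE2' w w.2) (hzZ w).symm
    have hFE : F ≤ E := by
      intro x hx
      rcases hFm x hx with rfl | rfl | rfl | rfl
      · exact E.one_mem
      · exact hzE
      · exact w.2
      · exact E.mul_mem hzE w.2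
    refine ⟨F, hFE, hF, (Relation.ReflTransGen.single hR1).tail ⟨hK1, hF, fun a ha b hb => ?_⟩⟩
    have hbu : b * u = u * b := by
      rcases hFm b hb with rfl | rfl | rfl | rfl
      · simp
      · exact (hzZ u).symm
      · exact hwu
      · rw [mul_assoc, hwu, ← mul_assoc, ← hzZ u, mul_assoc]
    rcases hK1m a ha with rfl | rfl | rfl | rfl
    · simp
    · exact hbu.symm
    · exact (hzZ b).symm
    · rw [mul_assoc, ← hzZ b, ← mul_assoc, ← hbu, mul_assoc]
  intro U V hU hV
  obtain ⟨F1, hF1E, hF1, h1⟩ := key U hU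
  obtain ⟨F2, hF2E, hF2, h2⟩ := key V hV
  have h3 : R F1 F2 := ⟨hF1, hF2, fun a ha b hb => hEc a (hF1E ha) b (hF2E hb)⟩
  have hsym : ∀ A B, Relation.ReflTransGen R A B → Relation.ReflTransGen R B A := by
    intro A B h
    induction h with
    | refl => exact Relation.ReflTransGen.refl
    | tail _ hbc ih => exact (Relation.ReflTransGen.single (hRs _ _ hbc)).trans ih
  have h4 : Relation.ReflTransGen R F2 V := hsym _ _ h2
  exact (h1.tail h3).trans h4


end Cfsg.Agent.S0502
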