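import Cfsg.Statements.S0505
import Mathlib
import Cfsg.Agent.L.Misc.CharPX

set_option autoImplicit false
open Cfsg

namespace Cfsg.Agent.S0505

/-- Let G be a finite group of even order in which the centralizer of every involution is solvable and has trivial
core (no nontrivial normal subgroup of odd order). Then G is of characteristic 2 type. -/
theorem result {G : Type*} [Group G] [Finite G]
    (h2 : Even (Nat.card G))
    (hs : ∀ t : G, orderOf t = 2 → Group.IsSolvable (Subgroup.centralizer ({t} : Set G)))
    (hc : ∀ t : G, orderOf t = 2 → Cfsg.oddCore (Subgroup.centralizer ({t} : Set G)) = ⊥) :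
    Cfsg.IsCharacteristicTwoType G := by
  haveI : Fact (Nat.Prime 2) := ⟨Nat.prime_two⟩
  refine ⟨h2, fun T hT hT1 => ?_⟩
  obtain ⟨x, hxT, hxo, hxc⟩ := CfsgL.PConLoc.exists_central T hT hT1
  have h1 : CfsgH1.CharP 2 ↥(Subgroup.centralizer ({x} : Set G)) :=
    CfsgH1.psolv_centralizer_pCore_le (CfsgH1.isPSolvable_of_isSolvable (Nat.card ↥(Subgroup.centralizer ({x} : Set G))) _ rfl (hs x hxo)) (hc x hxo)
  have hTM : T ≤ Subgroup.centralizer ({x} : Set G) := by
    intro t ht
    exact Subgroup.mem_centralizer_singleton_iff.2 (hxc t ht)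
  have h2 := CfsgL.CharPX.charP_cent_sub T hT _ hTM h1 (by
    intro g hg
    rw [Subgroup.mem_centralizer_singleton_iff]
    exact (Subgroup.mem_centralizer_iff.1 hg x hxT).symm)
  exact CfsgL.CharPX.charP_normalizer T hT h2

end Cfsg.Agent.S0505
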