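import Cfsg.Statements.S0514
import Mathlib
import Cfsg.Agent.L.Misc.DihAct

set_option autoImplicit false
open Cfsg

namespace Cfsg.Agent.S0514
open Pointwise

/-- In a finite group whose Sylow 2-subgroups are dihedral of order at least 4, the centralizer of any involution has a
normal subgroup of odd order whose index in the centralizer is a power of 2. -/
theorem result {X : Type*} [Group X] [Finite X]
    (S : Sylow 2 X) (n : ℕ) (hn : 2 ≤ n) (hS : Nonempty ((S : Subgroup X) ≃* DihedralGroup n)) (t : X)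
    (ht : orderOf t = 2) :
    ∃ N : Subgroup (Subgroup.centralizer ({t} : Set X)), N.Normal ∧ Odd (Nat.card N) ∧ ∃ k : ℕ, N.index = 2 ^ k := by
  classical
  haveI : Fact (Nat.Prime 2) := ⟨Nat.prime_two⟩
  obtain ⟨e⟩ := hS
  have key : CfsgH3.HasNPC 2 ↥(Subgroup.centralizer ({t} : Set X)) := by
    apply CfsgH3.hasNPC_frobenius
    intro Y hY g hg hgo
    have htC : t ∈ Subgroup.centralizer ({t} : Set X) := Subgroup.mem_centralizer_singleton_iff.2 rfl
    obtain ⟨t', ht'⟩ : ∃ t' : ↥(Subgroup.centralizer ({t} : Set X)), t' = ⟨t, htC⟩ := ⟨_, rfl⟩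
    have htc : ∀ c : ↥(Subgroup.centralizer ({t} : Set X)), c * t' = t' * c := by
      intro c
      rw [ht']
      exact Subtype.ext (Subgroup.mem_centralizer_singleton_iff.1 c.2)
    have hto : orderOf t' = 2 := by rw [ht', Subgroup.orderOf_mk]; exact ht
    have htz : ∀ c : ↥(Subgroup.centralizer ({t} : Set X)), ∀ z ∈ Subgroup.zpowers t', c * z = z * c := by
      intro c z hz
      obtain ⟨k, rfl⟩ := Subgroup.mem_zpowers_iff.1 hz
      exact (Commute.zpow_right (htc c) k)
    have hZn : (Subgroup.zpowers t').Normal := ⟨fun z hz c => by rw [htz c z hz, mul_inv_cancel_right]; exact hz⟩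
    have hZp : IsPGroup 2 ↥(Subgroup.zpowers t') := IsPGroup.of_card (n := 1) (by rw [Nat.card_zpowers, hto, pow_one])
    have hUp : IsPGroup 2 ↥(Y ⊔ Subgroup.zpowers t') := hY.to_sup_of_normal_right hZp
    have hgU : g ∈ Subgroup.normalizer ((Y ⊔ Subgroup.zpowers t' : Subgroup _) : Set ↥(Subgroup.centralizer ({t} : Set X))) := by
      rw [← CfsgH1.conj_smul_eq_self_iff, Subgroup.smul_sup, CfsgH1.conj_smul_eq_self_iff.2 hg,
        CfsgH1.conj_smul_eq_self_iff.2 (by rw [Subgroup.normalizer_eq_top_iff.2 hZn]; trivial)]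
    have hUm : IsPGroup 2 ↥((Y ⊔ Subgroup.zpowers t').map (Subgroup.centralizer ({t} : Set X)).subtype) := hUp.map _
    obtain ⟨-, φ, -, hφ⟩ := CfsgL.DihAct.exists_emb S e hUm
    have hgo' : Odd (orderOf g) := Nat.coprime_two_right.1 hgo
    have hall : ∀ u ∈ Y ⊔ Subgroup.zpowers t', g * u = u * g := by
      rcases CfsgL.DihAct.dih_act hUp (φ.comp ((Y ⊔ Subgroup.zpowers t').equivMapOfInjective _ (Subgroup.subtype_injective _)).toMonoidHom)
        (hφ.comp (MulEquiv.injective _)) hgo' hgU with h | ⟨h, -⟩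
      · exact h
      · refine CfsgL.ScnCon.cent_index_two hUp (D := Subgroup.zpowers t') le_sup_right ?_ hgo'
          (fun q hq => (Subgroup.mem_normalizer_iff.1 hgU q).1 hq) (fun d hd => htz g d hd)
        rw [Nat.card_zpowers, hto]; exact h
    rw [Subgroup.mem_centralizer_iff]
    intro y hy
    exact (hall y (le_sup_left (a := Y) hy)).symm
  obtain ⟨N, hN, hNc, k, hk⟩ := key
  exact ⟨N, hN, Nat.coprime_two_right.1 hNc, k, hk⟩

end Cfsg.Agent.S0514
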