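import Cfsg.Statements.S0519
import Mathlib
import Cfsg.Agent.L.Fus.NormalFour
import Cfsg.Agent.H3.MaxClIso
import Cfsg.Agent.H3.Rank2

set_option autoImplicit false
open Cfsg

namespace Cfsg.Agent.S0519

/-- Let P be a finite p-group in which every abelian normal subgroup is cyclic, but which has a non-cyclic abelian
subgroup. Then p = 2 and P is generalized quaternion, dihedral of order at least 16, or quasi-dihedral. -/
theorem result {P : Type*} [Group P] [Finite P] (p : ℕ) [Fact p.Prime]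
    (hP : IsPGroup p P) (hn : ∀ A : Subgroup P, A.Normal → IsMulCommutative A → IsCyclic A)
    (hm : ∃ B : Subgroup P, IsMulCommutative B ∧ ¬ IsCyclic B) :
    p = 2 ∧ ((∃ n : ℕ, Nonempty (P ≃* QuaternionGroup n)) ∨ (∃ n : ℕ, 8 ≤ n ∧ Nonempty (P ≃* DihedralGroup n)) ∨
      Cfsg.IsQuasiDihedral P) := by
  classical
  obtain ⟨B, hBc, hBnc⟩ := hm
  have hPnc : ¬ IsCyclic P := fun h => hBnc inferInstance
  -- elementary abelian normal subgroups of order `p ^ 2` do not exist
  have hno : ∀ A : Subgroup P, A.Normal → (∀ a ∈ A, ∀ b ∈ A, a * b = b * a) → (∀ a ∈ A, a ^ p = 1) → Nat.card A = p ^ 2 → False := by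
    intro A hA hAc hAp hcard
    have h1 := hn A hA ⟨⟨fun a b => Subtype.ext (hAc a a.2 b b.2)⟩⟩
    obtain ⟨c, hc⟩ := h1.exists_generator
    have h2 : orderOf c = Nat.card ↥A := orderOf_eq_card_of_forall_mem_zpowers hc
    have h3 : c ^ p = 1 := Subtype.ext (hAp c c.2)
    have h4 := Nat.le_of_dvd (Fact.out : p.Prime).pos (orderOf_dvd_of_pow_eq_one h3)
    rw [h2, hcard, pow_two] at h4
    have h5 := (Fact.out : p.Prime).two_le
    nlinarith
  have hp2 : p = 2 := by
    by_contra hp2
    obtain ⟨A, hA, hAc, hAp, hcard⟩ := CfsgH3.exists_normal_sq hp2 hP hPnc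
    exact hno A hA hAc hAp hcard
  refine ⟨hp2, ?_⟩
  subst hp2
  have hno4 : ∀ U : Subgroup P, U.Normal → Nat.card U = 4 → (∀ u ∈ U, u * u = 1) → False := by
    intro U hU hU4 hUe
    refine hno U hU ?_ (fun a ha => by rw [pow_two]; exact hUe a ha) (by rw [hU4]; norm_num)
    intro a ha b hb
    have h1 : (a * b)⁻¹ = a * b := inv_eq_of_mul_eq_one_right (hUe _ (U.mul_mem ha hb))
    rw [mul_inv_rev, inv_eq_of_mul_eq_one_right (hUe a ha), inv_eq_of_mul_eq_one_right (hUe b hb)] at h1
    exact h1.symm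
  rcases CfsgL.Fus.normal_four_or hP with ⟨U, hU, hU4, hUe⟩ | ⟨a, haN, haC, hai⟩
  · exact (hno4 U hU hU4 hUe).elim
  have hidx : (Subgroup.zpowers a).index = 2 := by
    have h1 : (Subgroup.zpowers a).index ≠ 0 := Subgroup.index_ne_zero_of_finite
    have h2 : (Subgroup.zpowers a).index ≠ 1 := by
      intro h
      rw [Subgroup.index_eq_one] at h
      exact hPnc ⟨a, fun x => (show x ∈ Subgroup.zpowers a by rw [h]; trivial)⟩
    omega
  obtain ⟨x, hx⟩ : ∃ x, x ∉ Subgroup.zpowers a := by
    by_contra hcon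
    push Not at hcon
    exact hPnc ⟨a, hcon⟩
  have hx2 : x * x ∈ Subgroup.zpowers a := by
    have := Subgroup.sq_mem_of_index_two hidx x
    rwa [pow_two] at this
  obtain ⟨t, ht⟩ := Subgroup.mem_zpowers_iff.1 (haN.conj_mem a (Subgroup.mem_zpowers a) x)
  have hxna : x * a ≠ a * x := by
    intro h
    apply hx
    rw [← haC, Subgroup.mem_centralizer_iff]
    intro y hy
    obtain ⟨k, rfl⟩ := Subgroup.mem_zpowers_iff.1 hy
    exact ((show Commute a x from h.symm).zpow_left k).eq
  obtain ⟨m, hm⟩ := (IsPGroup.iff_orderOf.1 hP) a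
  have hdvd : ∀ k : ℤ, a ^ k = 1 ↔ (2 ^ m : ℤ) ∣ k := by
    intro k
    rw [← orderOf_dvd_iff_zpow_eq_one, hm]; push_cast; rfl
  have ht2 : (2 ^ m : ℤ) ∣ t * t - 1 := by
    have h1 : x * (x * a * x⁻¹) * x⁻¹ = a := by
      obtain ⟨k, hk⟩ := Subgroup.mem_zpowers_iff.1 hx2
      calc x * (x * a * x⁻¹) * x⁻¹ = (x * x) * a * (x * x)⁻¹ := by group
        _ = a := by rw [← hk]; group
    rw [← ht, ← conj_zpow, ← ht, ← zpow_mul] at h1
    rw [← hdvd, zpow_sub, zpow_one, h1, mul_inv_cancel]
  have hcard : Nat.card P = 2 ^ (m + 1) := by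
    rw [← (Subgroup.zpowers a).card_mul_index, hidx, Nat.card_zpowers, hm, pow_succ]
  have hne1 : ¬ (2 ^ m : ℤ) ∣ t - 1 := by
    intro h
    rw [← hdvd, zpow_sub, zpow_one, mul_inv_eq_one] at h
    apply hxna
    rw [h] at ht
    exact (mul_inv_eq_iff_eq_mul.1 ht.symm)
  have hm1 : 1 ≤ m := by
    rcases Nat.eq_zero_or_pos m with h | h
    · exfalso; apply hne1; rw [h, pow_zero]; exact one_dvd _
    · exact h
  have hnonab : ∀ h : IsMulCommutative P, False := fun h => hxna (h.is_comm.comm x a)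
  have hm3 : 3 ≤ m := by
    by_contra hcon
    push Not at hcon
    -- |P| ≤ 8
    have hBtop : B ≠ ⊤ := by
      intro h
      apply hnonab
      refine ⟨⟨fun u v => ?_⟩⟩
      exact congrArg Subtype.val (hBc.is_comm.comm (⟨u, by rw [h]; trivial⟩ : ↥B) ⟨v, by rw [h]; trivial⟩)
    obtain ⟨j, hj⟩ := IsPGroup.iff_card.1 (hP.to_subgroup B)
    have h1 := B.card_mul_index
    rw [hj, hcard] at h1
    have h2 : B.index ≠ 1 := by rw [Ne, Subgroup.index_eq_one]; exact hBtop
    have hj2 : 2 ≤ j := by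
      by_contra hcon2
      push Not at hcon2
      apply hBnc
      interval_cases j
      · rw [pow_zero] at hj
        haveI : Subsingleton ↥B := (Nat.card_eq_one_iff_unique.1 hj).1
        infer_instance
      · rw [pow_one] at hj
        exact isCyclic_of_prime_card hj
    have h3 : j < m + 1 := by
      have h4 : 2 ^ j ≤ 2 ^ (m + 1) := by rw [← h1]; exact Nat.le_mul_of_pos_right _ (Nat.pos_of_ne_zero Subgroup.index_ne_zero_of_finite)
      have h5 : j ≤ m + 1 := (Nat.pow_le_pow_iff_right (by norm_num)).1 h4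
      rcases Nat.lt_or_ge j (m + 1) with h6 | h6
      · exact h6
      · exfalso
        have h7 : j = m + 1 := le_antisymm h5 h6
        rw [h7] at h1
        apply h2
        have h8 : 2 ^ (m + 1) * B.index = 2 ^ (m + 1) * 1 := by rw [h1, mul_one]
        exact Nat.eq_of_mul_eq_mul_left (by positivity) h8
    have hj' : j = 2 := by omega
    have hm' : m = 2 := by omega
    rw [hj', hm'] at h1
    have h9 : B.index = 2 := by omega
    exact hBnc (hn B (Subgroup.normal_of_index_eq_two h9) hBc)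
  obtain ⟨r, rfl⟩ := Nat.exists_eq_add_of_le' hm3
  -- the action
  have hodd : ¬ (2 : ℤ) ∣ t := by
    intro h
    have h1 : (2 : ℤ) ∣ t * t - 1 := (dvd_pow_self 2 (by omega)).trans ht2
    have h2 : (2 : ℤ) ∣ t * t := h.mul_right t
    have h3 := dvd_sub h2 h1
    have h4 : t * t - (t * t - 1) = 1 := by ring
    rw [h4] at h3
    omega
  have hcase := CfsgL.Fus.sqrt_one hm1 t ht2
  have e1 : r + 3 - 1 = r + 2 := rfl
  rw [e1] at hcase
  have hplus : (2 ^ (r + 2) : ℤ) ∣ t + 1 := by
    rcases hcase with h | h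
    · exfalso
      obtain ⟨s, hs⟩ := h
      rcases Int.even_or_odd' s with ⟨w, hw | hw⟩
      · apply hne1
        rw [hs, hw]
        exact ⟨w, by ring⟩
      · have h1 : x * a * x⁻¹ = a ^ (1 + 4 * ((2 ^ r : ℕ) : ℤ)) := by
          rw [← ht]
          have h2 : a ^ (t - (1 + 4 * ((2 ^ r : ℕ) : ℤ))) = 1 := by
            rw [hdvd]
            refine ⟨w, ?_⟩
            push_cast
            have : t = 1 + 2 ^ (r + 2) * (2 * w + 1) := by rw [← hw]; linarith
            rw [this]; ring
          rw [zpow_sub] at h2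
          exact mul_inv_eq_one.1 h2
        obtain ⟨U, hU, hU4, hUe⟩ := CfsgL.Fus.four_of_act (M := 2 ^ r) (Nat.one_le_two_pow) (by rw [hm]; ring) haN haC hx hx2 h1
        exact hno4 U hU hU4 hUe
    · exact h
  -- the derived group
  have hcomm : (_root_.commutator P).index = 4 := by
    have h1 : a ^ (t - 1) ∈ _root_.commutator P := by
      have h2 : a ^ (t - 1) = x * a * x⁻¹ * a⁻¹ := by rw [zpow_sub, zpow_one, ht]
      rw [h2]
      exact Subgroup.commutator_mem_commutator trivial trivial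
    -- a ^ 2 is a power of a ^ (t - 1)
    have h3 : a ^ (2 : ℤ) ∈ _root_.commutator P := by
      obtain ⟨s, hs⟩ := hplus
      -- t - 1 = 2 * (2^(r+1) s - 1), coprime part
      have hcop : IsCoprime (2 ^ (r + 1) * s - 1 : ℤ) (2 ^ (r + 2)) := by
        apply IsCoprime.pow_right
        rw [Int.isCoprime_iff_gcd_eq_one, Int.gcd_comm]
        have : ¬ (2 : ℤ) ∣ (2 ^ (r + 1) * s - 1) := by
          intro h
          have h4 : (2 : ℤ) ∣ 2 ^ (r + 1) * s := (dvd_pow_self 2 (by omega)).mul_right s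
          have h5 := dvd_sub h4 h
          have h6 : (2 ^ (r + 1) * s : ℤ) - (2 ^ (r + 1) * s - 1) = 1 := by ring
          rw [h6] at h5
          omega
        have h7 : IsCoprime (2 : ℤ) (2 ^ (r + 1) * s - 1) := (Prime.coprime_iff_not_dvd Int.prime_two).2 this
        exact Int.isCoprime_iff_gcd_eq_one.1 h7
      obtain ⟨u, v, huv⟩ := hcop
      have h4 : a ^ (2 : ℤ) = (a ^ (t - 1)) ^ u := by
        rw [← zpow_mul]
        have h5 : a ^ (2 - (t - 1) * u) = 1 := by
          rw [hdvd]
          refine ⟨v, ?_⟩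
          have ht' : t - 1 = 2 * (2 ^ (r + 1) * s - 1) := by
            have : t = 2 ^ (r + 2) * s - 1 := by linarith
            rw [this]; ring
          rw [ht']
          linear_combination (-2 : ℤ) * huv
        rw [zpow_sub] at h5
        exact mul_inv_eq_one.1 h5
      rw [h4]
      exact Subgroup.zpow_mem _ h1 u
    have h4 : Subgroup.zpowers (a ^ 2) ≤ _root_.commutator P := by
      rw [Subgroup.zpowers_le]; exact_mod_cast h3
    have h5 : (Subgroup.zpowers (a ^ 2)).index = 4 := by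
      have h6 := (Subgroup.zpowers (a ^ 2)).card_mul_index
      have h7 : orderOf (a ^ 2) = 2 ^ (r + 2) := by
        rw [orderOf_pow, hm, Nat.gcd_eq_right (dvd_pow_self 2 (by omega)), pow_succ]
        exact Nat.mul_div_cancel _ (by norm_num)
      rw [Nat.card_zpowers, h7, hcard] at h6
      have h8 : 2 ^ (r + 3 + 1) = 2 ^ (r + 2) * 4 := by ring
      rw [h8] at h6
      exact Nat.eq_of_mul_eq_mul_left (by positivity) h6
    have h6 : (_root_.commutator P).index ∣ 4 := by rw [← h5]; exact Subgroup.index_dvd_of_le h4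
    have h7 : 2 < (_root_.commutator P).index := by
      by_contra hcon
      push Not at hcon
      exact hPnc (CfsgH3.cyclic_of_index_commutator_le hP hcon)
    have h8 := Nat.le_of_dvd (by norm_num) h6
    interval_cases h : (_root_.commutator P).index
    · omega
    · rfl
  rcases CfsgH3.maxcl_iso hP hcomm (by
    rw [hcard]
    have : 2 ^ (r + 3 + 1) = 2 ^ r * 16 := by ring
    have h1 : 0 < 2 ^ r := by positivity
    omega) with ⟨k, ⟨e⟩⟩ | ⟨k, h1, u, v, hu, hv, huv⟩ | ⟨k, hk⟩
  · right; left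
    refine ⟨2 ^ (k + 2), ?_, ⟨e⟩⟩
    have h1 : Nat.card P = 2 * 2 ^ (k + 2) := by
      rw [Nat.card_congr e.toEquiv, DihedralGroup.nat_card]
    rw [hcard] at h1
    have h2 : 2 ^ (r + 3 + 1) = 2 ^ r * 16 := by ring
    have h3 : 0 < 2 ^ r := by positivity
    omega
  · right; right
    exact ⟨k + 3, by omega, h1, u, v, hu, hv, huv⟩
  · left; exact ⟨_, hk⟩

end Cfsg.Agent.S0519
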