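import Cfsg.Statements.S0522
import Mathlib
import Cfsg.Agent.H3.Transit
import Cfsg.Agent.H4.PSol
import Cfsg.Agent.H1.PSolv

set_option autoImplicit false
open Cfsg

namespace Cfsg.Agent.S0522

/-- Transitivity Theorem (odd-order setting). Let X be a finite group of odd order in which the normalizer of every
nontrivial p-subgroup is solvable, P a Sylow p-subgroup, and B an abelian subgroup of P, normalized by P, with
C_P(B) = B and containing an elementary abelian subgroup of order p^3. Then for every prime q ≠ p, any two q-subgroups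
that are maximal among the q-subgroups normalized by B are conjugate by an element of the centralizer of B. -/
theorem result {X : Type*} [Group X] [Finite X] (hX : Odd (Nat.card X)) (p : ℕ)
    [Fact p.Prime] (hloc : ∀ T : Subgroup X, IsPGroup p T → T ≠ ⊥ → Group.IsSolvable (Subgroup.normalizer (T : Set X)))
    (P : Sylow p X) (B : Subgroup X) (hBP : B ≤ (P : Subgroup X))
    (hBn : ∀ x ∈ (P : Subgroup X), ∀ b ∈ B, x * b * x⁻¹ ∈ B) (hBa : IsMulCommutative B)
    (hBc : (P : Subgroup X) ⊓ Subgroup.centralizer (B : Set X) = B)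
    (hB3 : ∃ E : Subgroup X, E ≤ B ∧ (∀ e ∈ E, e ^ p = 1) ∧ p ^ 3 ≤ Nat.card E)
    (q : ℕ) [Fact q.Prime] (hqp : q ≠ p) (Q₁ Q₂ : Subgroup X)
    (h₁ : IsPGroup q Q₁ ∧ B ≤ Subgroup.normalizer (Q₁ : Set X) ∧
      ∀ R : Subgroup X, IsPGroup q R → B ≤ Subgroup.normalizer (R : Set X) → Q₁ ≤ R → R = Q₁)
    (h₂ : IsPGroup q Q₂ ∧ B ≤ Subgroup.normalizer (Q₂ : Set X) ∧
      ∀ R : Subgroup X, IsPGroup q R → B ≤ Subgroup.normalizer (R : Set X) → Q₂ ≤ R → R = Q₂) :
    ∃ c ∈ Subgroup.centralizer (B : Set X), Q₂ = Q₁.map (MulAut.conj c).toMonoidHom := by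
  classical
  have hp2 : p ≠ 2 := by
    rintro rfl
    obtain ⟨E, hEB, hE2, hE3⟩ := hB3
    have h1 : ∀ e ∈ E, e = 1 := by
      intro e he
      have h2 : orderOf e ∣ 2 := orderOf_dvd_of_pow_eq_one (hE2 e he)
      have h3 : orderOf e ∣ Nat.card X := orderOf_dvd_natCard e
      exact orderOf_eq_one_iff.1 (Nat.eq_one_of_dvd_coprimes (Nat.coprime_two_left.2 hX) h2 h3)
    have h2 : E = ⊥ := by
      rw [eq_bot_iff]
      intro e he
      rw [Subgroup.mem_bot]; exact h1 e he
    rw [h2, Subgroup.card_bot] at hE3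
    norm_num at hE3
  have hBc' : ∀ a ∈ B, ∀ b ∈ B, a * b = b * a := by
    intro a ha b hb
    exact congrArg Subtype.val (hBa.is_comm.comm (⟨a, ha⟩ : ↥B) ⟨b, hb⟩)
  have hBp : IsPGroup p ↥B := P.isPGroup'.to_le hBP
  have hBCl : B ≤ Subgroup.centralizer (B : Set X) := by
    intro b hb
    rw [Subgroup.mem_centralizer_iff]
    intro a ha
    exact hBc' a ha b hb
  have hPN : (P : Subgroup X) ≤ Subgroup.normalizer (B : Set X) := by
    intro x hx
    rw [Subgroup.mem_normalizer_iff]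
    intro b
    refine ⟨fun hb => hBn x hx b hb, fun hb => ?_⟩
    have := hBn x⁻¹ ((P : Subgroup X).inv_mem hx) _ hb
    have e : x⁻¹ * (x * b * x⁻¹) * x⁻¹⁻¹ = b := by group
    rwa [e] at this
  have hfull : ∀ x ∈ Subgroup.centralizer (B : Set X), (∃ k, x ^ p ^ k = 1) → x ∈ B := by
    intro x hx ⟨k, hk⟩
    have hCN : Subgroup.centralizer (B : Set X) ≤ Subgroup.normalizer (B : Set X) := Subgroup.centralizer_le_normalizer _
    haveI hCn : ((Subgroup.centralizer (B : Set X)).subgroupOf (Subgroup.normalizer (B : Set X))).Normal := by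
      refine ⟨?_⟩
      rintro ⟨c, hcN⟩ hc ⟨v, hv⟩
      change v * c * v⁻¹ ∈ Subgroup.centralizer (B : Set X)
      have hc' : c ∈ Subgroup.centralizer (B : Set X) := hc
      rw [Subgroup.mem_centralizer_iff] at hc' ⊢
      intro y hy
      have h1 : v⁻¹ * y * v ∈ B := by
        have := (Subgroup.mem_normalizer_iff.1 (inv_mem hv) y).1 hy
        rwa [inv_inv] at this
      have h2 := hc' _ h1
      calc y * (v * c * v⁻¹) = v * ((v⁻¹ * y * v) * c) * v⁻¹ := by group
        _ = v * (c * (v⁻¹ * y * v)) * v⁻¹ := by rw [h2]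
        _ = v * c * v⁻¹ * y := by group
    have h1 := CfsgH3.relIndex_dvd_index_of_normal_right ((P : Subgroup X).subgroupOf (Subgroup.normalizer (B : Set X)))
      ((Subgroup.centralizer (B : Set X)).subgroupOf (Subgroup.normalizer (B : Set X)))
    rw [Subgroup.relIndex_subgroupOf hCN] at h1
    have h2 : ((P : Subgroup X).subgroupOf (Subgroup.normalizer (B : Set X))).index ∣ (P : Subgroup X).index :=
      Subgroup.relIndex_dvd_index_of_le hPN
    have h3 : (P : Subgroup X).relIndex (Subgroup.centralizer (B : Set X)) = B.relIndex (Subgroup.centralizer (B : Set X)) := by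
      rw [← Subgroup.inf_relIndex_right, hBc]
    rw [h3] at h1
    have h4 : Nat.Coprime p (B.relIndex (Subgroup.centralizer (B : Set X))) := by
      rw [Nat.Prime.coprime_iff_not_dvd Fact.out]
      intro h5
      exact P.not_dvd_index (h5.trans (h1.trans h2))
    haveI hBn' : (B.subgroupOf (Subgroup.centralizer (B : Set X))).Normal := by
      refine ⟨?_⟩
      rintro ⟨b, hbC⟩ hb ⟨c, hc⟩
      change c * b * c⁻¹ ∈ B
      have := Subgroup.mem_centralizer_iff.1 hc b hb
      rw [← this, mul_inv_cancel_right]; exact hb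
    have h5 : (QuotientGroup.mk' (B.subgroupOf (Subgroup.centralizer (B : Set X)))) ⟨x, hx⟩ = 1 := by
      rw [← orderOf_eq_one_iff]
      apply Nat.eq_one_of_dvd_coprimes (Nat.Coprime.pow_left k h4)
      · apply orderOf_dvd_of_pow_eq_one
        rw [← map_pow]
        have : (⟨x, hx⟩ : ↥(Subgroup.centralizer (B : Set X))) ^ p ^ k = 1 := Subtype.ext hk
        rw [this, map_one]
      · have := orderOf_dvd_natCard ((QuotientGroup.mk' (B.subgroupOf (Subgroup.centralizer (B : Set X)))) ⟨x, hx⟩)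
        exact this
    rw [QuotientGroup.mk'_apply, QuotientGroup.eq_one_iff] at h5
    exact h5
  obtain ⟨E, hEB, hE2, hE3⟩ := hB3
  obtain ⟨c, hc, hcQ⟩ := CfsgH3.transit (p := p)
    (fun T hT hT1 => CfsgH4.isPConstrained_of_psolvable (CfsgH1.isPSolvable_of_isSolvable (Nat.card ↥(Subgroup.normalizer (T : Set X))) _ rfl (hloc T hT hT1)))
    (Or.inl hp2) hBp hBc' hEB ⟨⟨⟨fun a b => Subtype.ext (hBc' a (hEB a.2) b (hEB b.2))⟩⟩, hE2⟩ hE3 hfull hqp _ Q₁ Q₂ rfl
    ⟨⟨h₁.1, h₁.2.1⟩, h₁.2.2⟩ ⟨⟨h₂.1, h₂.2.1⟩, h₂.2.2⟩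
  exact ⟨c, Subgroup.map_subtype_le _ hc, hcQ.symm⟩

end Cfsg.Agent.S0522
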