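import Cfsg.Statements.S0534
import Cfsg.Agent.H1.SSolv3

set_option autoImplicit false
open Cfsg

namespace Cfsg.Agent.S0534

open scoped commutatorElement Pointwise

/-- Let G be a finite solvable group and A a finite abelian group such that every prime dividing the order of A divides the order of G and, for each prime p dividing the order of G, the exponent of p in the order of A is one less than its exponent in the order of G. Then G × A has a subgroup of every order dividing its order. -/
theorem result {G A : Type*} [Group G] [CommGroup A] [Finite G] [Finite A] [Group.IsSolvable G] (hA : ∀ p : ℕ, p.Prime → p ∣ Nat.card A → p ∣ Nat.card G) (hexp : ∀ p : ℕ, p.Prime → p ∣ Nat.card G → (Nat.card A).factorization p + 1 = (Nat.card G).factorization p) : Cfsg.HasSubgroupOfEveryOrder (G × A) := by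
  intro d hd
  rw [Nat.card_prod] at hd
  have hGpos : 0 < Nat.card G := Nat.card_pos
  have hApos : 0 < Nat.card A := Nat.card_pos
  have hd0 : d ≠ 0 := by
    rintro rfl
    have := Nat.eq_zero_of_zero_dvd hd
    exact absurd this (Nat.mul_ne_zero hGpos.ne' hApos.ne')
  have hdf : ∀ p : ℕ, d.factorization p ≤ (Nat.card G).factorization p + (Nat.card A).factorization p := by
    intro p
    have h1 := (Nat.factorization_le_iff_dvd hd0 (Nat.mul_ne_zero hGpos.ne' hApos.ne')).2 hd p
    rwa [Nat.factorization_mul hGpos.ne' hApos.ne', Finsupp.add_apply] at h1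
  let π : Set ℕ := {p | (Nat.card G).factorization p ≤ d.factorization p}
  obtain ⟨H, hH1, hH2, -⟩ := (CfsgH1.hallD_of_solvable (G := G) π).exists_ge (K := ⊥) (by
    rw [Subgroup.card_bot]; exact CfsgH1.PiNum.one)
  have hHpos : 0 < Nat.card H := Nat.card_pos
  have hHi : H.index ≠ 0 := Subgroup.index_ne_zero_of_finite
  have hmul := Subgroup.card_mul_index H
  have hfac : ∀ p : ℕ, (Nat.card G).factorization p = (Nat.card H).factorization p + H.index.factorization p := by
    intro p
    rw [← hmul, Nat.factorization_mul hHpos.ne' hHi, Finsupp.add_apply]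
  have hfacH : ∀ p : ℕ, p.Prime → (p ∈ π → (Nat.card H).factorization p = (Nat.card G).factorization p) ∧
      (p ∉ π → (Nat.card H).factorization p = 0) := by
    intro p hp
    constructor
    · intro hpi
      have h1 : H.index.factorization p = 0 := by
        apply Nat.factorization_eq_zero_of_not_dvd
        intro h
        exact hH2 p hp h hpi
      rw [hfac p, h1, add_zero]
    · intro hpi
      apply Nat.factorization_eq_zero_of_not_dvd
      intro h
      exact hpi (hH1 p hp h)
  have hHd : Nat.card H ∣ d := by
    rw [← Nat.factorization_le_iff_dvd hHpos.ne' hd0]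
    intro p
    by_cases hp : p.Prime
    · by_cases hpi : p ∈ π
      · rw [(hfacH p hp).1 hpi]; exact hpi
      · rw [(hfacH p hp).2 hpi]; exact Nat.zero_le _
    · rw [Nat.factorization_eq_zero_of_not_prime _ hp]; exact Nat.zero_le _
  obtain ⟨m, hm⟩ := hHd
  have hm0 : m ≠ 0 := by rintro rfl; rw [mul_zero] at hm; exact hd0 hm
  have hmA : m ∣ Nat.card A := by
    rw [← Nat.factorization_le_iff_dvd hm0 hApos.ne']
    intro p
    by_cases hp : p.Prime
    · have h1 : d.factorization p = (Nat.card H).factorization p + m.factorization p := by
        rw [hm, Nat.factorization_mul hHpos.ne' hm0, Finsupp.add_apply]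
      have h2 := hdf p
      by_cases hpG : p ∣ Nat.card G
      · have h3 := hexp p hp hpG
        by_cases hpi : p ∈ π
        · rw [(hfacH p hp).1 hpi] at h1
          omega
        · rw [(hfacH p hp).2 hpi] at h1
          have h4 : ¬ (Nat.card G).factorization p ≤ d.factorization p := hpi
          omega
      · have h3 : (Nat.card G).factorization p = 0 := Nat.factorization_eq_zero_of_not_dvd hpG
        have h4 : (Nat.card A).factorization p = 0 := Nat.factorization_eq_zero_of_not_dvd (fun h => hpG (hA p hp h))
        omega
    · rw [Nat.factorization_eq_zero_of_not_prime _ hp]; exact Nat.zero_le _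
  obtain ⟨B, hB⟩ := CfsgH1.clt_of_comm (G := A) mul_comm m hmA
  refine ⟨H.prod B, ?_⟩
  rw [hm, ← hB, ← Nat.card_prod]
  exact Nat.card_congr (Subgroup.prodEquiv H B).toEquiv

end Cfsg.Agent.S0534
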