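import Cfsg.Statements.S0535
import Cfsg.Agent.H1.Three
import Cfsg.Agent.H4.Burnside

set_option autoImplicit false
open Cfsg

namespace Cfsg.Agent.S0535

open scoped commutatorElement Pointwise

theorem main (n : ℕ) : ∀ (G : Type*) [Group G] [Finite G], Nat.card G = n →
    (∀ H : Subgroup G, H ≠ ⊥ → ∀ p : ℕ, p.Prime → p ∣ Nat.card H → ∃ K : Subgroup H, K ≠ ⊤ ∧ ∃ k : ℕ, K.index = p ^ k) →
    Group.IsSolvable G := by
  induction n using Nat.strong_induction_on with
  | _ n IH =>
  intro G _ _ hn hG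
  have hsub : ∀ K : Subgroup G, K ≠ ⊤ → Group.IsSolvable K := by
    intro K hK
    refine IH _ (hn ▸ CfsgH1.card_lt_card_of_ne_top hK) K rfl ?_
    intro H hH p hp hpd
    let e := H.equivMapOfInjective K.subtype K.subtype_injective
    obtain ⟨L, hL, k, hk⟩ := hG (H.map K.subtype) (by
      intro h
      apply hH
      rw [Subgroup.map_eq_bot_iff_of_injective _ K.subtype_injective] at h
      exact h) p hp (by rwa [← Nat.card_congr e.toEquiv])
    refine ⟨L.comap e.toMonoidHom, ?_, k, ?_⟩
    · intro h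
      apply hL
      rw [eq_top_iff]
      intro x _
      obtain ⟨y, rfl⟩ := e.surjective x
      have : y ∈ L.comap e.toMonoidHom := by rw [h]; trivial
      exact this
    · rw [Subgroup.index_comap_of_surjective L e.surjective, hk]
  have hex : ∀ p : ℕ, p.Prime → p ∣ Nat.card G → ∃ K : Subgroup G, Group.IsSolvable K ∧ ∃ k : ℕ, K.index = p ^ k := by
    intro p hp hpd
    have hne : (⊤ : Subgroup G) ≠ ⊥ := by
      intro h
      have h1 : Nat.card G = 1 := by rw [← Subgroup.card_top (G := G), h, Subgroup.card_bot]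
      rw [h1] at hpd
      exact hp.ne_one (Nat.dvd_one.1 hpd)
    obtain ⟨L, hL, k, hk⟩ := hG ⊤ hne p hp (by rwa [Subgroup.card_top])
    have hLi : (L.map (⊤ : Subgroup G).subtype).index = L.index := by
      have h1 := Subgroup.index_map_equiv L (Subgroup.topEquiv (G := G))
      exact h1
    refine ⟨L.map (⊤ : Subgroup G).subtype, hsub _ ?_, k, by rw [hLi, hk]⟩
    intro h
    rw [h, Subgroup.index_top] at hLi
    exact hL (Subgroup.index_eq_one.1 hLi.symm)
  by_cases h3 : ∃ p q r : ℕ, p.Prime ∧ q.Prime ∧ r.Prime ∧ p ≠ q ∧ p ≠ r ∧ q ≠ r ∧ p ∣ Nat.card G ∧ q ∣ Nat.card G ∧ r ∣ Nat.card G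
  · obtain ⟨p, q, r, hp, hq, hr, hpq, hpr, hqr, hpd, hqd, hrd⟩ := h3
    obtain ⟨H1, hs1, a, ha⟩ := hex p hp hpd
    obtain ⟨H2, hs2, b, hb⟩ := hex q hq hqd
    obtain ⟨H3, hs3, c, hc⟩ := hex r hr hrd
    refine CfsgH1.three_solvable _ G rfl H1 H2 H3 hs1 hs2 hs3 (CfsgH1.isFact_of_coprime ?_) (CfsgH1.isFact_of_coprime ?_) ?_
    · rw [ha, hb]; exact Nat.Coprime.pow _ _ ((Nat.coprime_primes hp hq).2 hpq)
    · rw [ha, hc]; exact Nat.Coprime.pow _ _ ((Nat.coprime_primes hp hr).2 hpr)
    · rw [hb, hc]; exact Nat.Coprime.pow _ _ ((Nat.coprime_primes hq hr).2 hqr)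
  · -- at most two primes
    by_cases h1 : Nat.card G = 1
    · haveI : Subsingleton G := (Nat.card_eq_one_iff_unique.1 h1).1
      infer_instance
    obtain ⟨p, hp, hpd⟩ := Nat.exists_prime_and_dvd h1
    haveI : Fact p.Prime := ⟨hp⟩
    by_cases h2 : ∃ q : ℕ, q.Prime ∧ q ≠ p ∧ q ∣ Nat.card G
    · obtain ⟨q, hq, hqp, hqd⟩ := h2
      have hfac : Nat.card G = p ^ (Nat.card G).factorization p * q ^ (Nat.card G).factorization q := by
        have hsub2 : (Nat.card G).primeFactors = {p, q} := by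
          ext r
          rw [Nat.mem_primeFactors, Finset.mem_insert, Finset.mem_singleton]
          constructor
          · rintro ⟨hr, hrd, -⟩
            by_contra hcon
            push Not at hcon
            exact h3 ⟨p, q, r, hp, hq, hr, hqp.symm, hcon.1.symm, hcon.2.symm, hpd, hqd, hrd⟩
          · rintro (rfl | rfl)
            · exact ⟨hp, hpd, Nat.card_pos.ne'⟩
            · exact ⟨hq, hqd, Nat.card_pos.ne'⟩
        conv_lhs => rw [← Nat.prod_factorization_pow_eq_self (Nat.card_pos (α := G)).ne']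
        rw [Finsupp.prod, Nat.support_factorization, hsub2, Finset.prod_pair hqp.symm]
      exact CfsgH4.burnside_pq hp hq _ G _ _ rfl hfac
    · push Not at h2
      apply CfsgH1.isSolvable_of_isPGroup (p := p)
      rw [IsPGroup.iff_card]
      exact ⟨_, Nat.eq_prime_pow_of_unique_prime_dvd Nat.card_pos.ne' (fun {r} hr hrd => by
        by_contra hne
        exact h2 r hr hne hrd)⟩

/-- Suppose that for every nontrivial subgroup H of a finite group and every prime p dividing the order of H there is a proper subgroup of H whose index in H is a power of p. Then the group is solvable. -/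
theorem result {G : Type*} [Group G] [Finite G] (h : ∀ H : Subgroup G, H ≠ ⊥ → ∀ p : ℕ, p.Prime → p ∣ Nat.card H → ∃ K : Subgroup H, K ≠ ⊤ ∧ ∃ k : ℕ, K.index = p ^ k) : Group.IsSolvable G := by

  exact main _ G rfl h

end Cfsg.Agent.S0535
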