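import Cfsg.Statements.S0537
import Cfsg.Agent.H1.MinNon

set_option autoImplicit false
open Cfsg

namespace Cfsg.Agent.S0537

open scoped commutatorElement Pointwise

/-- A finite non-abelian group in which every proper subgroup is abelian is either of prime-power order, or is generated by a cyclic Sylow p-subgroup and a normal Sylow q-subgroup that is elementary abelian, for distinct primes p and q. -/
theorem result {G : Type*} [Group G] [Finite G] (hna : ¬ IsMulCommutative G) (h : ∀ H : Subgroup G, H ≠ ⊤ → IsMulCommutative H) : (∃ p : ℕ, p.Prime ∧ IsPGroup p G) ∨ ∃ p q : ℕ, p.Prime ∧ q.Prime ∧ p ≠ q ∧ ∃ (P : Sylow p G) (Q : Sylow q G), IsCyclic P ∧ (Q : Subgroup G).Normal ∧ Cfsg.IsElementaryAbelian q (Q : Subgroup G) ∧ (P : Subgroup G) ⊔ Q = ⊤ := by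
  have hcomm : ∀ H : Subgroup G, H ≠ ⊤ → ∀ x ∈ H, ∀ y ∈ H, x * y = y * x := by
    intro H hH x hx y hy
    have := (h H hH).is_comm.comm ⟨x, hx⟩ ⟨y, hy⟩
    exact congrArg Subtype.val this
  by_cases hp : ∃ p : ℕ, p.Prime ∧ IsPGroup p G
  · exact Or.inl hp
  push Not at hp
  right
  have hpt : ∀ p : ℕ, p.Prime → ∀ S : Subgroup G, IsPGroup p S → S ≠ ⊤ := by
    rintro p hpp S hS rfl
    exact hp p hpp (hS.of_equiv Subgroup.topEquiv)
  have hnn : ¬ Group.IsNilpotent G := by
    intro hnil
    apply hna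
    refine ⟨⟨CfsgH1.comm_of_nilpotent_primary ?_⟩⟩
    intro p hpp S hS
    exact hcomm S (hpt p hpp S hS)
  have hmin : Cfsg.IsMinimalNonNilpotent G := by
    refine ⟨hnn, fun H hH => ?_⟩
    letI : CommGroup H := { (inferInstance : Group H) with mul_comm := fun a b => Subtype.ext (hcomm H hH a a.2 b b.2) }
    infer_instance
  obtain ⟨p, q, hpp, hqp, hpq, P, Q, hPc, hQn, hPQ⟩ := CfsgH1.min_non_nilpotent hmin
  haveI : Fact p.Prime := ⟨hpp⟩
  haveI : Fact q.Prime := ⟨hqp⟩
  refine ⟨p, q, hpp, hqp, hpq, P, Q, hPc, hQn, ⟨h _ (hpt q hqp _ Q.2), ?_⟩, hPQ⟩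
  have hQab := hcomm (Q : Subgroup G) (hpt q hqp _ Q.2)
  have hPab := hcomm (P : Subgroup G) (hpt p hpp _ P.2)
  have hcop : (Nat.card (P : Subgroup G)).Coprime (Nat.card (Q : Subgroup G)) := by
    obtain ⟨a, ha⟩ := IsPGroup.iff_card.1 P.2
    obtain ⟨b, hb⟩ := IsPGroup.iff_card.1 Q.2
    rw [ha, hb]
    exact Nat.Coprime.pow _ _ ((Nat.coprime_primes hpp hqp).2 hpq)
  -- P does not centralize Q
  have hPQc : ¬ (P : Subgroup G) ≤ Subgroup.centralizer ((Q : Subgroup G) : Set G) := by
    intro hle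
    have h1 : Subgroup.centralizer ((P : Subgroup G) : Set G) = ⊤ := by
      rw [eq_top_iff, ← hPQ]
      refine sup_le ?_ (Subgroup.le_centralizer_iff.1 hle)
      intro x hx
      rw [Subgroup.mem_centralizer_iff]
      intro y hy
      exact hPab y hy x hx
    have h2 : Subgroup.centralizer ((Q : Subgroup G) : Set G) = ⊤ := by
      rw [eq_top_iff, ← hPQ]
      refine sup_le hle ?_
      intro x hx
      rw [Subgroup.mem_centralizer_iff]
      intro y hy
      exact hQab y hy x hx
    have h3 : Subgroup.center G = ⊤ := by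
      rw [eq_top_iff, ← hPQ]
      refine sup_le ?_ ?_
      · intro x hx
        rw [Subgroup.mem_center_iff]
        intro g
        have : g ∈ Subgroup.centralizer ((P : Subgroup G) : Set G) := by rw [h1]; trivial
        exact (Subgroup.mem_centralizer_iff.1 this x hx).symm
      · intro x hx
        rw [Subgroup.mem_center_iff]
        intro g
        have : g ∈ Subgroup.centralizer ((Q : Subgroup G) : Set G) := by rw [h2]; trivial
        exact (Subgroup.mem_centralizer_iff.1 this x hx).symm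
    apply hna
    refine ⟨⟨fun x y => ?_⟩⟩
    have : y ∈ Subgroup.center G := by rw [h3]; trivial
    exact Subgroup.mem_center_iff.1 this x
  let W : Subgroup G :=
    { carrier := {x | x ∈ (Q : Subgroup G) ∧ x ^ q = 1}
      one_mem' := ⟨(Q : Subgroup G).one_mem, one_pow _⟩
      mul_mem' := by
        rintro a b ⟨ha, ha'⟩ ⟨hb, hb'⟩
        refine ⟨(Q : Subgroup G).mul_mem ha hb, ?_⟩
        rw [(show Commute a b from hQab a ha b hb).mul_pow, ha', hb', one_mul]
      inv_mem' := by
        rintro a ⟨ha, ha'⟩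
        exact ⟨(Q : Subgroup G).inv_mem ha, by rw [inv_pow, ha', inv_one]⟩ }
  have hWn : W.Normal := ⟨by
    rintro x ⟨hx, hx'⟩ g
    exact ⟨hQn.conj_mem x hx g, by rw [conj_pow, hx', mul_one, mul_inv_cancel]⟩⟩
  have hWQ : W ≤ (Q : Subgroup G) := fun x hx => hx.1
  have hWt : W ⊔ (P : Subgroup G) = ⊤ := by
    by_contra hne
    have h1 := hcomm _ hne
    apply hPQc
    have h2 := CfsgH1.coprime_abelian_trivial_of_prime (A := (P : Subgroup G)) (V := (Q : Subgroup G)) hQab
      (CfsgH1.le_normalizer_of_normal _ _) hcop (by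
        intro v hv hvp a ha
        have h3 : orderOf v = q := by
          obtain ⟨k, hk⟩ := IsPGroup.iff_orderOf.1 Q.2 ⟨v, hv⟩
          rw [Subgroup.orderOf_mk] at hk
          rw [hk] at hvp ⊢
          exact (Nat.prime_dvd_prime_iff_eq hvp hqp).1 (by
            have hk0 : k ≠ 0 := by rintro rfl; rw [pow_zero] at hvp; exact Nat.not_prime_one hvp
            have := hvp.dvd_of_dvd_pow (dvd_refl (q ^ k))
            exact this)
        have h4 : v ∈ W := ⟨hv, by rw [← h3, pow_orderOf_eq_one]⟩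
        exact h1 a (le_sup_right (a := W) ha) v (le_sup_left (a := W) h4))
    rw [Subgroup.commutator_eq_bot_iff_le_centralizer] at h2
    exact Subgroup.le_centralizer_iff.1 h2
  have hWcard : W = (Q : Subgroup G) := by
    apply Subgroup.eq_of_le_of_card_ge hWQ
    have hcop' : (Nat.card (P : Subgroup G)).Coprime (Nat.card W) :=
      Nat.Coprime.coprime_dvd_right (Subgroup.card_dvd_of_le hWQ) hcop
    have h1 := CfsgH1.card_sup_of_disjoint (CfsgH1.le_normalizer_of_normal (P : Subgroup G) W) (CfsgH1.inf_eq_bot_of_coprime hcop')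
    have h2 := CfsgH1.card_sup_of_disjoint (CfsgH1.le_normalizer_of_normal (P : Subgroup G) (Q : Subgroup G)) (CfsgH1.inf_eq_bot_of_coprime hcop)
    rw [sup_comm, hWt] at h1
    rw [hPQ, h1] at h2
    exact (Nat.eq_of_mul_eq_mul_left Nat.card_pos h2).ge
  intro a ha
  rw [← hWcard] at ha
  exact ha.2

end Cfsg.Agent.S0537
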