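import Cfsg.Statements.S0541
import Cfsg.Agent.H1.ZipUniq
import Cfsg.Agent.H1.CopExtra

set_option autoImplicit false
open Pointwise
open Cfsg

namespace Cfsg.Agent.S0541

open scoped commutatorElement Pointwise

/-- Let Z and Y be subgroups of a finite group G and p a prime. Suppose that for every g in G the subgroup generated by the conjugates of g Z g⁻¹ under Y is a p-group. Then there is a Sylow p-subgroup P of G such that Y normalizes the subgroup generated by all conjugates of Z contained in P. -/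
theorem result {G : Type*} [Group G] [Finite G] (p : ℕ) [Fact p.Prime] (Z Y : Subgroup G) (h : ∀ g : G, IsPGroup p ↥(⨆ y ∈ Y, MulAut.conj (y * g) • Z)) : ∃ P : Sylow p G, Y ≤ Subgroup.normalizer ((⨆ g ∈ {g : G | MulAut.conj g • Z ≤ (P : Subgroup G)}, MulAut.conj g • Z : Subgroup G) : Set G) := by
  classical
  let good : Set (Set (Subgroup G)) := {Δ | (∀ B ∈ Δ, ∃ g : G, B = MulAut.conj g • Z) ∧ 
    (∀ B ∈ Δ, ∀ y ∈ Y, MulAut.conj y • B ∈ Δ) ∧ IsPGroup p (sSup Δ : Subgroup G)}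
  have hne : good.Nonempty := ⟨∅, fun B hB => absurd hB (Set.notMem_empty B), fun B hB => absurd hB (Set.notMem_empty B), by
    rw [sSup_empty]; exact IsPGroup.of_bot⟩
  obtain ⟨Δ, ⟨hΔ1, hΔ2, hΔ3⟩, hΔmax⟩ := Set.exists_max_image good (fun Δ => Δ.ncard) (Set.toFinite _) hne
  set D := (sSup Δ : Subgroup G) with hD
  obtain ⟨P, hP⟩ := hΔ3.exists_le_sylow
  have hYD : Y ≤ Subgroup.normalizer (D : Set G) := by
    intro y hy
    rw [← CfsgH1.conj_smul_eq_self_iff]
    apply CfsgH1.eq_of_le_of_card_le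
    · change D.map (MulAut.conj y).toMonoidHom ≤ D
      rw [Subgroup.map_le_iff_le_comap, hD]
      refine sSup_le fun B hB => ?_
      rw [← Subgroup.map_le_iff_le_comap]
      exact le_sSup (hΔ2 B hB y hy)
    · rw [CfsgH1.card_conj_smul]
  set ZP : Set (Subgroup G) := {B | (∃ g : G, B = MulAut.conj g • Z) ∧ B ≤ (P : Subgroup G)} with hZP
  have hsub : Δ ⊆ ZP := fun B hB => ⟨hΔ1 B hB, (le_sSup hB).trans hP⟩
  have hPnil : Group.IsNilpotent (P : Subgroup G) := P.2.isNilpotent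
  have heq : Δ = ZP := by
    by_contra hne2
    obtain ⟨X, ⟨⟨g, hg⟩, hXP⟩, hXΔ, hXn⟩ := CfsgH1.exists_mem_le_normalizer_internal (K := (P : Subgroup G)) (S := ZP) (S₀ := Δ)
      (fun B hB => ⟨hB.2, CfsgH2.isSubnormal_of_isNilpotent _⟩) (by
        rintro B ⟨⟨x, rfl⟩, hBP⟩ z hz
        refine ⟨⟨z * x, by rw [map_mul, mul_smul]⟩, ?_⟩
        have := CfsgH1.conj_smul_mono z hBP
        rwa [CfsgH1.conj_smul_of_mem hz] at this) ((Set.ssubset_iff_subset_ne).2 ⟨hsub, hne2⟩)
    let E : Set (Subgroup G) := {B | ∃ y ∈ Y, B = MulAut.conj y • X}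
    have hE : (sSup E : Subgroup G) ≤ ⨆ y ∈ Y, MulAut.conj (y * g) • Z := by
      refine sSup_le ?_
      rintro B ⟨y, hy, rfl⟩
      rw [hg, ← mul_smul, ← map_mul]
      exact le_iSup₂_of_le y hy le_rfl
    have hEp : IsPGroup p (sSup E : Subgroup G) := (h g).to_le hE
    have hEn : (sSup E : Subgroup G) ≤ Subgroup.normalizer (D : Set G) := by
      refine sSup_le ?_
      rintro B ⟨y, hy, rfl⟩
      intro x hx
      rw [CfsgH1.mem_conj_smul] at hx
      have e : x = y * (y⁻¹ * x * y) * y⁻¹ := by group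
      rw [e]
      exact Subgroup.mul_mem _ (Subgroup.mul_mem _ (hYD hy) (hXn hx)) (Subgroup.inv_mem _ (hYD hy))
    have hgood : (Δ ∪ E) ∈ good := by
      refine ⟨?_, ?_, ?_⟩
      · rintro B (hB | ⟨y, hy, rfl⟩)
        · exact hΔ1 B hB
        · exact ⟨y * g, by rw [hg, map_mul, mul_smul]⟩
      · rintro B (hB | ⟨y, hy, rfl⟩) z hz
        · exact Or.inl (hΔ2 B hB z hz)
        · exact Or.inr ⟨z * y, Y.mul_mem hz hy, by rw [map_mul, mul_smul]⟩
      · rw [sSup_union]
        exact CfsgH1.isPGroup_sup hΔ3 hEp hEn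
    have h1 := hΔmax _ hgood
    have h2 : Δ.ncard < (Δ ∪ E).ncard := by
      apply Set.ncard_lt_ncard _ (Set.toFinite _)
      rw [Set.ssubset_iff_subset_ne]
      refine ⟨Set.subset_union_left, ?_⟩
      intro he
      apply hXΔ
      rw [he]
      exact Or.inr ⟨1, Y.one_mem, by simp⟩
    exact absurd h1 (not_le.2 h2)
  refine ⟨P, ?_⟩
  have h1 : (⨆ g ∈ {g : G | MulAut.conj g • Z ≤ (P : Subgroup G)}, MulAut.conj g • Z : Subgroup G) = D := by
    apply le_antisymm
    · refine iSup₂_le fun g hg => ?_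
      have : MulAut.conj g • Z ∈ Δ := by rw [heq]; exact ⟨⟨g, rfl⟩, hg⟩
      exact le_sSup this
    · refine sSup_le fun B hB => ?_
      obtain ⟨⟨g, rfl⟩, hg⟩ := hsub hB
      exact le_iSup₂_of_le (f := fun (g : G) (_ : g ∈ {g : G | MulAut.conj g • Z ≤ (P : Subgroup G)}) => MulAut.conj g • Z) g hg le_rfl
  rw [h1]
  exact hYD

end Cfsg.Agent.S0541
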