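import Cfsg.Statements.S0542
import Cfsg.Agent.H1.Zipper

set_option autoImplicit false
open Cfsg

namespace Cfsg.Agent.S0542

open scoped commutatorElement Pointwise

theorem key {G : Type*} [Group G] [Finite G] (p : ℕ) [Fact p.Prime] (H : Subgroup G) (hH : H.IsSubnormal) (S : Sylow p G) : 
    CfsgH1.IsSylowOf p ((S : Subgroup G) ⊓ H) H := by
  induction hH with
  | top => rw [inf_top_eq]; exact CfsgH1.sylow_isSylowOf S
  | step H K h_le hSubn hN ih =>
    have h1 := CfsgH1.isSylowOf_inf_of_normal ih h_le (CfsgH1.le_normalizer_of_normal_subgroupOf h_le hN)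
    rwa [inf_assoc, inf_eq_right.2 h_le] at h1

/-- A Sylow p-subgroup of a finite group meets every subnormal subgroup H in a Sylow p-subgroup of H. -/
theorem result {G : Type*} [Group G] [Finite G] (p : ℕ) [Fact p.Prime] (H : Subgroup G) (hH : H.IsSubnormal) (S : Sylow p G) : ∃ Q : Sylow p H, (Q : Subgroup H) = (S : Subgroup G).subgroupOf H := by

  obtain ⟨Q, hQ⟩ := key p H hH S
  refine ⟨Q, ?_⟩
  ext x
  constructor
  · intro hx
    have h1 : (x : G) ∈ (Q : Subgroup H).map H.subtype := ⟨x, hx, rfl⟩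
    rw [hQ] at h1
    exact h1.1
  · intro hx
    have h1 : (x : G) ∈ (S : Subgroup G) ⊓ H := ⟨hx, x.2⟩
    rw [← hQ] at h1
    obtain ⟨y, hy, hyx⟩ := h1
    have : y = x := Subtype.ext hyx
    rw [← this]; exact hy

end Cfsg.Agent.S0542
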