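import Cfsg.Statements.S0547
import Cfsg.Agent.H1.Prim

set_option autoImplicit false
open Cfsg

namespace Cfsg.Agent.S0547

open scoped commutatorElement Pointwise

/-- Let a finite solvable group G act faithfully and primitively on a set, and let M be a minimal normal subgroup of G. Then M is transitive with trivial point stabilizers, and the number of points equals the order of M, which is a prime power p ^ d with d ≥ 1. -/
theorem result {G : Type*} [Group G] [Finite G] [Group.IsSolvable G] {Ω : Type*} [Nonempty Ω] [MulAction G Ω] [FaithfulSMul G Ω] (hprim : MulAction.IsPreprimitive G Ω) (M : Subgroup G) [M.Normal] (hM : M ≠ ⊥) (hmin : ∀ K : Subgroup G, K.Normal → K ≤ M → K = ⊥ ∨ K = M) : MulAction.IsPretransitive M Ω ∧ (∀ ω : Ω, MulAction.stabilizer M ω = ⊥) ∧ ∃ p d : ℕ, p.Prime ∧ 0 < d ∧ Nat.card Ω = p ^ d ∧ Nat.card M = p ^ d := by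
  haveI := hprim
  have hkey : ∀ x : G, x ≠ 1 → ∃ a : Ω, x • a ≠ a := by
    intro x hx
    by_contra hcon
    push Not at hcon
    apply hx
    apply FaithfulSMul.eq_of_smul_eq_smul (α := Ω)
    intro a
    rw [one_smul]; exact hcon a
  obtain ⟨m, hm⟩ := Subgroup.ne_bot_iff_exists_ne_one.1 hM
  have hm1 : (m : G) ≠ 1 := fun h => hm (Subtype.ext h)
  obtain ⟨a0, ha0⟩ := hkey _ hm1
  haveI : Nontrivial Ω := ⟨⟨_, _, ha0⟩⟩
  have hco : ∀ ω : Ω, IsCoatom (MulAction.stabilizer G ω) := fun ω => MulAction.IsPreprimitive.isCoatom_stabilizer_of_isPreprimitive G ω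
  have hcore : ∀ ω : Ω, (MulAction.stabilizer G ω).normalCore = ⊥ := by
    intro ω
    rw [Subgroup.eq_bot_iff_forall]
    intro x hx
    apply FaithfulSMul.eq_of_smul_eq_smul (α := Ω)
    intro a
    obtain ⟨g, rfl⟩ := MulAction.exists_smul_eq G ω a
    have h1 := hx g⁻¹
    rw [inv_inv] at h1
    have h2 : (g⁻¹ * x * g) • ω = ω := h1
    rw [one_smul]
    calc x • g • ω = g • ((g⁻¹ * x * g) • ω) := by rw [← mul_smul, ← mul_smul]; congr 1; group
      _ = g • ω := by rw [h2]
  obtain ⟨hab, p, hp, hMp⟩ := CfsgH1.elemAb_of_minNormal hM hmin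
  haveI : Fact p.Prime := ⟨hp⟩
  have htr : MulAction.IsPretransitive M Ω := by
    apply MulAction.IsQuasiPreprimitive.isPretransitive_of_normal (G := G)
    intro h
    have : a0 ∈ MulAction.fixedPoints M Ω := by rw [h]; trivial
    exact ha0 (this m)
  have hst : ∀ ω : Ω, MulAction.stabilizer M ω = ⊥ := by
    intro ω
    obtain ⟨hC, hinf⟩ := CfsgH1.cf_abelian (hco ω) (hcore ω) hM hab
    rw [Subgroup.eq_bot_iff_forall]
    intro x hx
    have : (x : G) ∈ M ⊓ MulAction.stabilizer G ω := ⟨x.2, hx⟩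
    rw [hinf, Subgroup.mem_bot] at this
    exact Subtype.ext this
  refine ⟨htr, hst, ?_⟩
  have hpg : IsPGroup p M := CfsgH1.isPGroup_of_forall_pow_eq_one hMp
  obtain ⟨d, hd⟩ := IsPGroup.iff_card.1 hpg
  have hd0 : 0 < d := by
    rcases Nat.eq_zero_or_pos d with h | h
    · rw [h, pow_zero] at hd
      exact absurd (Subgroup.card_eq_one.1 hd) hM
    · exact h
  refine ⟨p, d, hp, hd0, ?_, hd⟩
  rw [← hd]
  obtain ⟨ω⟩ := (inferInstance : Nonempty Ω)
  haveI := htr
  have h1 := MulAction.index_stabilizer_of_transitive (G := M) ω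
  rw [hst ω, Subgroup.index_bot] at h1
  exact h1.symm

end Cfsg.Agent.S0547
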