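import Cfsg.Statements.S0548
import Cfsg.Agent.H1.Prim

set_option autoImplicit false
open Cfsg

namespace Cfsg.Agent.S0548

open scoped commutatorElement Pointwise

/-- Let a finite solvable group G act faithfully and primitively on a set, let M be a minimal normal subgroup and H the stabilizer of a point. Then H is a complement to M, no non-identity element of H centralizes M, and the only subgroups of M normalized by H are the trivial subgroup and M. -/
theorem result {G : Type*} [Group G] [Finite G] [Group.IsSolvable G] {Ω : Type*} [MulAction G Ω] [FaithfulSMul G Ω] (hprim : MulAction.IsPreprimitive G Ω) (M : Subgroup G) [M.Normal] (hM : M ≠ ⊥) (hmin : ∀ K : Subgroup G, K.Normal → K ≤ M → K = ⊥ ∨ K = M) (ω : Ω) : Subgroup.IsComplement' M (MulAction.stabilizer G ω) ∧ MulAction.stabilizer G ω ⊓ Subgroup.centralizer (M : Set G) = ⊥ ∧ ∀ K : Subgroup G, K ≤ M → MulAction.stabilizer G ω ≤ Subgroup.normalizer (K : Set G) → K = ⊥ ∨ K = M := by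
  haveI := hprim
  haveI : Nontrivial Ω := by
    by_contra h
    rw [not_nontrivial_iff_subsingleton] at h
    apply hM
    rw [Subgroup.eq_bot_iff_forall]
    intro x hx
    apply FaithfulSMul.eq_of_smul_eq_smul (α := Ω)
    intro a
    exact Subsingleton.elim _ _
  have hco : IsCoatom (MulAction.stabilizer G ω) := MulAction.IsPreprimitive.isCoatom_stabilizer_of_isPreprimitive G ω
  have hcore : (MulAction.stabilizer G ω).normalCore = ⊥ := by
    rw [Subgroup.eq_bot_iff_forall]
    intro x hx
    apply FaithfulSMul.eq_of_smul_eq_smul (α := Ω)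
    intro a
    obtain ⟨g, rfl⟩ := MulAction.exists_smul_eq G ω a
    have h1 := hx g⁻¹
    rw [inv_inv] at h1
    have h2 : (g⁻¹ * x * g) • ω = ω := h1
    rw [one_smul]
    calc x • g • ω = g • ((g⁻¹ * x * g) • ω) := by rw [← mul_smul, ← mul_smul]; congr 1; group
      _ = g • ω := by rw [h2]
  obtain ⟨hab, -, -, -⟩ := CfsgH1.elemAb_of_minNormal hM hmin
  obtain ⟨hC, hinf⟩ := CfsgH1.cf_abelian hco hcore hM hab
  have hsup := CfsgH1.cf_sup hco hcore hM
  refine ⟨CfsgH1.isComplement'_of_inf_sup hinf hsup, by rw [hC, inf_comm]; exact hinf, ?_⟩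
  intro K hK hKn
  apply hmin K _ hK
  rw [← Subgroup.normalizer_eq_top_iff, eq_top_iff, ← hsup]
  refine sup_le ?_ hKn
  refine le_trans ?_ (Subgroup.centralizer_le_normalizer _)
  intro x hx
  rw [Subgroup.mem_centralizer_iff]
  intro y hy
  exact hab y (hK hy) x hx

end Cfsg.Agent.S0548
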