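import Cfsg.Statements.S0552
import Cfsg.Agent.H1.Fit

set_option autoImplicit false
open Cfsg

namespace Cfsg.Agent.S0552

open scoped commutatorElement Pointwise

/-- Let σ be an automorphism of a finite solvable group G fixing every element of the Fitting subgroup. If σ is not the identity then the order of σ and the order of G have a common prime factor. -/
theorem result {G : Type*} [Group G] [Finite G] [Group.IsSolvable G] (σ : G ≃* G) (hσ : ∀ x ∈ Cfsg.fittingSubgroup G, σ x = x) (hne : σ ≠ MulEquiv.refl G) : ¬ (orderOf σ).Coprime (Nat.card G) := by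
  intro hcop
  apply hne
  have hF : Subgroup.centralizer (Cfsg.fittingSubgroup G : Set G) ≤ Cfsg.fittingSubgroup G := CfsgH1.centralizer_fitting_le
  haveI hFn : (Cfsg.fittingSubgroup G).Normal := inferInstance
  have h1 : ∀ g : G, g⁻¹ * σ g ∈ Cfsg.fittingSubgroup G := by
    intro g
    apply hF
    rw [Subgroup.mem_centralizer_iff]
    intro f hf
    have h2 : g * f * g⁻¹ ∈ Cfsg.fittingSubgroup G := hFn.conj_mem f hf g
    have h3 := hσ _ h2
    rw [map_mul, map_mul, map_inv, hσ f hf] at h3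
    -- σ g f σ g⁻¹ = g f g⁻¹
    have e1 : f * (g⁻¹ * σ g) = g⁻¹ * (g * f * g⁻¹) * σ g := by group
    rw [e1, ← h3]; group
  have h4 : ∀ (g : G) (n : ℕ), (σ ^ n) g = g * (g⁻¹ * σ g) ^ n := by
    intro g n
    induction n with
    | zero => simp
    | succ n ih =>
      have h5 : σ ((g⁻¹ * σ g) ^ n) = (g⁻¹ * σ g) ^ n := hσ _ (Subgroup.pow_mem _ (h1 g) n)
      rw [pow_succ' σ, MulAut.mul_apply, ih, map_mul, h5, pow_succ' (g⁻¹ * σ g), ← mul_assoc, ← mul_assoc, mul_inv_cancel, one_mul]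
  apply MulEquiv.ext
  intro g
  have h6 := h4 g (orderOf σ)
  rw [pow_orderOf_eq_one, MulAut.one_apply] at h6
  have h7 : (g⁻¹ * σ g) ^ orderOf σ = 1 := (mul_eq_left.1 h6.symm)
  have h8 : g⁻¹ * σ g = 1 := by
    have h9 : orderOf (g⁻¹ * σ g) ∣ orderOf σ := orderOf_dvd_of_pow_eq_one h7
    have h10 : orderOf (g⁻¹ * σ g) ∣ Nat.card G := orderOf_dvd_natCard _
    exact orderOf_eq_one_iff.1 (Nat.eq_one_of_dvd_coprimes hcop h9 h10)
  exact (inv_mul_eq_one.1 h8).symm

end Cfsg.Agent.S0552
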