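import Cfsg.Statements.S0553
import Cfsg.Agent.H1.Huppert

set_option autoImplicit false
open Cfsg

namespace Cfsg.Agent.S0553

open scoped commutatorElement Pointwise

/-- Let G be a nontrivial finite solvable group in which every maximal subgroup has order coprime to its index. Then for some prime p dividing the order of G the Sylow p-subgroups of G are normal. -/
theorem result {G : Type*} [Group G] [Finite G] [Group.IsSolvable G] [Nontrivial G] (h : ∀ M : Subgroup G, IsCoatom M → (Nat.card M).Coprime M.index) : ∃ p : ℕ, p.Prime ∧ p ∣ Nat.card G ∧ ∀ P : Sylow p G, (P : Subgroup G).Normal := by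
  classical
  -- quotient by the Frattini subgroup
  have hΦt : frattini G ≠ ⊤ := by
    intro h
    obtain ⟨M, hM⟩ : ∃ M : Subgroup G, IsCoatom M := by
      rcases eq_top_or_exists_le_coatom (⊥ : Subgroup G) with h1 | ⟨M, hM, -⟩
      · exact absurd h1 bot_ne_top
      · exact ⟨M, hM⟩
    have h2 := CfsgH1.le_frattini_iff.1 h.ge M hM
    exact hM.1 (top_le_iff.1 h2)
  haveI : Nontrivial (G ⧸ frattini G) := QuotientGroup.nontrivial_iff.2 hΦt
  obtain ⟨N, hN, hNe, hNmin, hNab, p, hp, -, hNp⟩ := CfsgH1.exists_minNormal_pgroup (G := G ⧸ frattini G)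
  haveI := hN
  haveI : Fact p.Prime := ⟨hp⟩
  set π := QuotientGroup.mk' (frattini G) with hπ
  have hπs := QuotientGroup.mk'_surjective (frattini G)
  have hN' : ¬ N.comap π ≤ frattini G := by
    intro h
    apply hNe
    rw [eq_bot_iff]
    intro x hx
    obtain ⟨y, rfl⟩ := hπs x
    exact (QuotientGroup.eq_one_iff y).2 (h hx)
  obtain ⟨M, hM, hNM, hsup⟩ := CfsgH1.exists_isCoatom_not_le hN'
  have hΦM : frattini G ≤ M := CfsgH1.le_frattini_iff.1 le_rfl M hM
  have hM' : IsCoatom (M.map π) := CfsgH1.isCoatom_map_of_le hM hΦM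
  have hMi : (M.map π).index = M.index := CfsgH1.index_map_mk hΦM
  have hNM' : ¬ N ≤ M.map π := by
    intro h
    apply hNM
    intro x hx
    obtain ⟨y, hy, hyx⟩ := h hx
    have h1 : y⁻¹ * x ∈ frattini G := QuotientGroup.eq.1 hyx
    have h2 := M.mul_mem hy (hΦM h1)
    rwa [mul_inv_cancel_left] at h2
  have hsup' := CfsgH1.sup_eq_top_of_isCoatom hM' hNM'
  have hinf : N ⊓ M.map π = ⊥ := by
    haveI := CfsgH1.inf_normal_of_abelian hNab hsup'
    rcases hNmin _ this inf_le_left with h1 | h1
    · exact h1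
    · exact absurd (inf_eq_left.1 h1) hNM'
  have hidx := CfsgH1.index_eq_of_sup hsup'
  rw [hinf, Subgroup.card_bot, mul_one, hMi] at hidx
  obtain ⟨k, hk⟩ := IsPGroup.iff_card.1 hNp
  have hk0 : k ≠ 0 := by
    rintro rfl
    rw [pow_zero] at hk
    exact hNe (Subgroup.card_eq_one.1 hk)
  have hMp : ¬ p ∣ Nat.card M := by
    intro hd
    have h1 := h M hM
    rw [hidx, hk] at h1
    exact hp.one_lt.ne' (Nat.eq_one_of_dvd_coprimes (h1.coprime_dvd_left hd) dvd_rfl (dvd_pow_self p hk0))
  have hpd : p ∣ Nat.card G := by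
    rw [← Subgroup.card_mul_index M, hidx, hk]
    exact (dvd_pow_self p hk0).mul_left _
  refine ⟨p, hp, hpd, ?_⟩
  intro P
  -- the image of P is N
  have hPN : (P : Subgroup G).map π = N := by
    have h1 : N ≤ ((P.mapSurjective hπs : Sylow p (G ⧸ frattini G)) : Subgroup (G ⧸ frattini G)) := hNp.le_sylow_of_normal _
    have h2 : ((P.mapSurjective hπs : Sylow p (G ⧸ frattini G)) : Subgroup (G ⧸ frattini G)) = (P : Subgroup G).map π := rfl
    rw [h2] at h1
    symm
    apply Subgroup.eq_of_le_of_card_ge h1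
    rw [← hidx]
    -- |P| divides index M
    have h3 : Nat.card (P : Subgroup G) ∣ M.index := by
      have h4 : Nat.card (P : Subgroup G) ∣ Nat.card M * M.index := by
        rw [Subgroup.card_mul_index]; exact Subgroup.card_subgroup_dvd_card _
      obtain ⟨a, ha⟩ := IsPGroup.iff_card.1 P.2
      rw [ha] at h4 ⊢
      exact (Nat.Coprime.pow_left a ((hp.coprime_iff_not_dvd).2 hMp)).dvd_of_dvd_mul_left h4
    have h5 : Nat.card ((P : Subgroup G).map π) ∣ Nat.card (P : Subgroup G) := Subgroup.card_map_dvd _ _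
    exact Nat.le_of_dvd (Nat.pos_of_ne_zero Subgroup.index_ne_zero_of_finite) (h5.trans h3)
  have hn : (frattini G ⊔ (P : Subgroup G)).Normal := by
    have h1 : (N.comap π).Normal := inferInstance
    rw [← hPN, QuotientGroup.comap_map_mk'] at h1
    exact h1
  haveI := hn
  have h1 := CfsgH1.frattini_arg_sup (CfsgH1.isSylowOf_of_le (CfsgH1.sylow_isSylowOf P) (le_sup_right (a := frattini G)) le_top)
  rw [sup_assoc, sup_eq_right.2 (Subgroup.le_normalizer (H := (P : Subgroup G)))] at h1
  exact Subgroup.normalizer_eq_top_iff.1 (CfsgH1.eq_top_of_frattini_sup le_rfl h1)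

end Cfsg.Agent.S0553
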