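import Cfsg.Statements.S0554
import Cfsg.Agent.H1.MinNormal
import Cfsg.Agent.H1.Fit

set_option autoImplicit false
open Cfsg

namespace Cfsg.Agent.S0554

open scoped commutatorElement Pointwise

theorem update_prod {G : Type*} [Group G] {N : Subgroup G} (hN : N.Normal) : ∀ (t : ℕ) (s : Fin t → G) (n : G) (_ : n ∈ N) (j : Fin t),
    ∃ n' ∈ N, (List.ofFn s).prod * n = (List.ofFn (Function.update s j (s j * n'))).prod := by
  intro t
  induction t with
  | zero => intro s n hn j; exact j.elim0
  | succ t ih =>
    intro s n hn j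
    refine Fin.cases ?_ ?_ j
    · refine ⟨(List.ofFn (fun i : Fin t => s i.succ)).prod * n * ((List.ofFn (fun i : Fin t => s i.succ)).prod)⁻¹, hN.conj_mem n hn _, ?_⟩
      rw [List.ofFn_succ, List.ofFn_succ, List.prod_cons, List.prod_cons]
      simp only [Function.update_self]
      have : (fun i : Fin t => Function.update s 0 (s 0 * ((List.ofFn (fun i : Fin t => s i.succ)).prod * n * ((List.ofFn (fun i : Fin t => s i.succ)).prod)⁻¹)) i.succ) = fun i => s i.succ := by
        funext i
        rw [Function.update_of_ne (Fin.succ_ne_zero i)]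
      rw [this]; group
    · intro j
      obtain ⟨n', hn', h⟩ := ih (fun i => s i.succ) n hn j
      refine ⟨n', hn', ?_⟩
      rw [List.ofFn_succ, List.ofFn_succ, List.prod_cons, List.prod_cons, mul_assoc, h]
      rw [Function.update_of_ne (Fin.succ_ne_zero j).symm]
      congr 3
      funext i
      by_cases hij : i = j
      · subst hij; rw [Function.update_self, Function.update_self]
      · rw [Function.update_of_ne hij, Function.update_of_ne (fun h => hij (Fin.succ_injective _ h))]

theorem main (n : ℕ) : ∀ (G : Type*) [Group G] [Finite G] [Group.IsSolvable G], Nat.card G = n → ∀ (t : ℕ) (p : Fin t → ℕ) (hp : ∀ i, (p i).Prime) 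
    (hall : ∀ q : ℕ, q.Prime → q ∣ Nat.card G → ∃ i, p i = q) (S : (i : Fin t) → Sylow (p i) G), ∀ g : G, ∃ s : (i : Fin t) → G, 
    (∀ i, s i ∈ (S i : Subgroup G)) ∧ g = (List.ofFn s).prod := by
  induction n using Nat.strong_induction_on with
  | _ n IH =>
  intro G _ _ _ hn t p hp hall S g
  rcases subsingleton_or_nontrivial G with hsub | hnt
  · exact ⟨fun _ => 1, fun i => one_mem _, Subsingleton.elim _ _⟩
  obtain ⟨N, hN, hNe, -, -, q, hq, -, hNq⟩ := CfsgH1.exists_minNormal_pgroup (G := G)
  haveI := hN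
  haveI : Fact q.Prime := ⟨hq⟩
  haveI hpf : ∀ i, Fact (p i).Prime := fun i => ⟨hp i⟩
  have hqd : q ∣ Nat.card G := by
    obtain ⟨k, hk⟩ := IsPGroup.iff_card.1 hNq
    have hk0 : k ≠ 0 := by
      rintro rfl
      rw [pow_zero] at hk
      exact hNe (Subgroup.card_eq_one.1 hk)
    exact (hk ▸ dvd_pow_self q hk0 : q ∣ Nat.card N).trans (Subgroup.card_subgroup_dvd_card N)
  obtain ⟨j, hj⟩ := hall q hq hqd
  have hNS : N ≤ (S j : Subgroup G) := by
    have h1 : IsPGroup (p j) N := by rw [hj]; exact hNq
    exact h1.le_sylow_of_normal (S j)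
  obtain ⟨s', hs', hg⟩ := IH _ (hn ▸ CfsgH1.card_quotient_lt hNe) (G ⧸ N) rfl t p hp 
    (fun q hq hqd => hall q hq (hqd.trans (Subgroup.card_quotient_dvd_card N))) 
    (fun i => (S i).mapSurjective (QuotientGroup.mk'_surjective N)) (g : G ⧸ N)
  have hex : ∀ i, ∃ x ∈ (S i : Subgroup G), QuotientGroup.mk' N x = s' i := by
    intro i
    obtain ⟨x, hx, hxe⟩ := hs' i
    exact ⟨x, hx, hxe⟩
  choose s hs hse using hex
  have h1 : QuotientGroup.mk' N ((List.ofFn s).prod) = (g : G ⧸ N) := by
    rw [map_list_prod, List.map_ofFn, hg]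
    congr 2
    funext i
    exact hse i
  have h2 : ((List.ofFn s).prod)⁻¹ * g ∈ N := QuotientGroup.eq.1 h1
  obtain ⟨n', hn', h3⟩ := update_prod hN t s _ h2 j
  refine ⟨Function.update s j (s j * n'), ?_, ?_⟩
  · intro i
    by_cases hij : i = j
    · subst hij
      rw [Function.update_self]
      exact mul_mem (hs i) (hNS hn')
    · rw [Function.update_of_ne hij]; exact hs i
  · rw [← h3]; group

/-- Let G be a finite solvable group and let S assign to each of t distinct primes, including every prime divisor of the order of G, a Sylow subgroup of G. Then every element of G is a product s_0 s_1 ⋯ s_(t-1) with s_i in S i, the factors taken in the given order. -/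
theorem result {G : Type*} [Group G] [Finite G] [Group.IsSolvable G] (t : ℕ) (p : Fin t → ℕ) (hp : ∀ i, (p i).Prime) (hinj : Function.Injective p) (hall : ∀ q : ℕ, q.Prime → q ∣ Nat.card G → ∃ i, p i = q) (S : (i : Fin t) → Sylow (p i) G) : ∀ g : G, ∃ s : (i : Fin t) → G, (∀ i, s i ∈ (S i : Subgroup G)) ∧ g = (List.ofFn s).prod := by

  exact main _ G rfl t p hp hall S

end Cfsg.Agent.S0554
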