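import Cfsg.Statements.S0555
import Cfsg.Agent.H1.Huppert

set_option autoImplicit false
open Cfsg

namespace Cfsg.Agent.S0555

open scoped commutatorElement Pointwise

/-- Let i ≥ 1. If in the derived series of a group the quotient of the i-th term by the (i+1)-st and the quotient of the (i+1)-st by the (i+2)-nd are both cyclic, then the (i+1)-st and (i+2)-nd terms coincide. -/
theorem result {G : Type*} [Group G] (i : ℕ) (hi : 1 ≤ i) (h₁ : IsCyclic (↥(derivedSeries G i) ⧸ (derivedSeries G (i + 1)).subgroupOf (derivedSeries G i))) (h₂ : IsCyclic (↥(derivedSeries G (i + 1)) ⧸ (derivedSeries G (i + 2)).subgroupOf (derivedSeries G (i + 1)))) : derivedSeries G (i + 1) = derivedSeries G (i + 2) := by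
  set D := derivedSeries G (i + 2) with hD
  haveI hDn : D.Normal := derivedSeries_normal G (i + 2)
  set A := derivedSeries G i with hA
  set B := derivedSeries G (i + 1) with hB
  haveI hBn : B.Normal := derivedSeries_normal G (i + 1)
  have hDdef : D = ⁅B, B⁆ := derivedSeries_succ G (i + 1)
  have hBdef : B = ⁅A, A⁆ := derivedSeries_succ G i
  have hDB : D ≤ B := by rw [hDdef]; exact Subgroup.commutator_le_left _ _
  have hBA : B ≤ A := derivedSeries_antitone G (Nat.le_succ i)
  set π := QuotientGroup.mk' D with hπ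
  have hπs := QuotientGroup.mk'_surjective D
  haveI : (B.map π).Normal := hBn.map π hπs
  -- B.map π is cyclic
  haveI hBc : IsCyclic (B.map π) := by
    let f : (↥B ⧸ D.subgroupOf B) →* (B.map π) := QuotientGroup.lift _ (π.subgroupMap B) (by
      intro x hx
      rw [MonoidHom.mem_ker]
      apply Subtype.ext
      exact (QuotientGroup.eq_one_iff (x : G)).2 hx)
    refine isCyclic_of_surjective f ?_
    intro y
    obtain ⟨x, hx⟩ := π.subgroupMap_surjective B y
    exact ⟨(x : ↥B ⧸ D.subgroupOf B), hx⟩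
  have hcent := CfsgH1.commutator_le_centralizer_of_cyclic (B.map π)
  have hAc : A.map π ≤ Subgroup.centralizer (B.map π : Set (G ⧸ D)) := by
    refine le_trans ?_ hcent
    have h1 : A ≤ commutator G := by
      rw [← derivedSeries_one]
      exact derivedSeries_antitone G hi
    refine (Subgroup.map_mono h1).trans ?_
    rw [_root_.commutator_def, _root_.commutator_def, Subgroup.map_commutator]
    exact Subgroup.commutator_mono le_top le_top
  -- A/B cyclic generated by a
  obtain ⟨a', ha'⟩ := h₁.exists_generator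
  obtain ⟨a, rfl⟩ := QuotientGroup.mk_surjective a'
  have hgen : ∀ x ∈ A, ∃ k : ℤ, ∃ b ∈ B, x = (a : G) ^ k * b := by
    intro x hx
    obtain ⟨k, hk⟩ := Subgroup.mem_zpowers_iff.1 (ha' ((⟨x, hx⟩ : A) : ↥A ⧸ B.subgroupOf A))
    refine ⟨k, ((a : G) ^ k)⁻¹ * x, ?_, by group⟩
    rw [← QuotientGroup.mk_zpow, QuotientGroup.eq] at hk
    exact hk
  have hab : ∀ x ∈ A, ∀ y ∈ A, ⁅x, y⁆ ∈ D := by
    intro x hx y hy
    obtain ⟨k, b, hb, rfl⟩ := hgen x hx
    obtain ⟨l, c, hc, rfl⟩ := hgen y hy
    rw [← QuotientGroup.eq_one_iff]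
    change π ⁅(a : G) ^ k * b, (a : G) ^ l * c⁆ = 1
    rw [map_commutatorElement, commutatorElement_eq_one_iff_mul_comm]
    have h1 : Commute (π b) (π a) := by
      have := Subgroup.mem_centralizer_iff.1 (hAc ⟨a, a.2, rfl⟩) (π b) ⟨b, hb, rfl⟩
      exact this
    have h2 : Commute (π c) (π a) := by
      have := Subgroup.mem_centralizer_iff.1 (hAc ⟨a, a.2, rfl⟩) (π c) ⟨c, hc, rfl⟩
      exact this
    have h3 : Commute (π b) (π c) := by
      have := Subgroup.mem_centralizer_iff.1 (hAc ⟨c, hBA hc, rfl⟩) (π b) ⟨b, hb, rfl⟩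
      exact this
    rw [map_mul, map_mul, map_zpow, map_zpow]
    have h4 : Commute (π a ^ k) (π a ^ l) := (Commute.refl (π a)).zpow_zpow k l
    exact ((h4.mul_left (h1.zpow_right l)).mul_right ((h2.symm.zpow_left k).mul_left h3))
  apply le_antisymm ?_ hDB
  rw [hBdef, Subgroup.commutator_le]
  exact hab

end Cfsg.Agent.S0555
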