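import Cfsg.Statements.S0556
import Cfsg.Agent.H1.FrobThm
import Cfsg.Agent.H1.FrobConj
import Cfsg.Agent.H1.Prim
import Cfsg.Agent.H1.CoprimeSylow

set_option autoImplicit false
open Cfsg

namespace Cfsg.Agent.S0556

open scoped commutatorElement Pointwise

/-- If a finite group has a maximal subgroup that is abelian, then the third term of its derived series is trivial (so the group is solvable of derived length at most three). -/
theorem result {G : Type*} [Group G] [Finite G] (A : Subgroup G) (hA : IsCoatom A) [IsMulCommutative A] : derivedSeries G 3 = ⊥ := by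
  have hAab : ∀ x ∈ A, ∀ y ∈ A, x * y = y * x := by
    intro x hx y hy
    exact congrArg Subtype.val ((inferInstance : IsMulCommutative A).is_comm.comm ⟨x, hx⟩ ⟨y, hy⟩)
  have hbotA : ⁅A, A⁆ = (⊥ : Subgroup G) := by
    rw [Subgroup.commutator_eq_bot_iff_le_centralizer]
    intro x hx
    rw [Subgroup.mem_centralizer_iff]
    intro y hy
    exact hAab y hy x hx
  by_cases hn : A.Normal
  · haveI := hn
    obtain ⟨x, hx⟩ : ∃ x, x ∉ A := by
      by_contra hcon
      push Not at hcon
      exact hA.1 ((Subgroup.eq_top_iff' _).2 hcon)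
    have hsup : A ⊔ Subgroup.zpowers x = ⊤ := by
      apply hA.2
      refine lt_of_le_of_ne le_sup_left (fun h => hx ?_)
      rw [h]; exact le_sup_right (a := A) (Subgroup.mem_zpowers x)
    have h1 : derivedSeries G 1 ≤ A := by
      rw [derivedSeries_one, _root_.commutator_def, Subgroup.commutator_le]
      intro a _ b _
      rw [← QuotientGroup.eq_one_iff]
      have e1 : ((⁅a, b⁆ : G) : G ⧸ A) = ⁅(a : G ⧸ A), (b : G ⧸ A)⁆ := map_commutatorElement (QuotientGroup.mk' A) a b
      rw [e1, commutatorElement_eq_one_iff_mul_comm]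
      have hs := CfsgH1.quotient_surjective_of_sup A hsup
      obtain ⟨u, hu⟩ := hs (a : G ⧸ A)
      obtain ⟨v, hv⟩ := hs (b : G ⧸ A)
      rw [← hu, ← hv, ← map_mul, ← map_mul]
      congr 1
      obtain ⟨u, i, rfl⟩ := u
      obtain ⟨v, j, rfl⟩ := v
      exact Subtype.ext ((Commute.refl x).zpow_zpow i j).eq
    have h2 : derivedSeries G 2 = ⊥ := by
      rw [derivedSeries_succ, eq_bot_iff, ← hbotA]
      exact Subgroup.commutator_mono h1 h1
    rw [derivedSeries_succ, h2, Subgroup.commutator_bot_left]
  · -- A is self-normalizing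
    have hnorm : Subgroup.normalizer (A : Set G) = A := by
      rcases hA.le_iff.1 (Subgroup.le_normalizer (H := A)) with h | h
      · exact absurd (Subgroup.normalizer_eq_top_iff.1 h) hn
      · exact h
    set Z := Subgroup.center G with hZ
    have hZA : Z ≤ A := by
      by_contra hcon
      apply hn
      have h1 := CfsgH1.sup_eq_top_of_isCoatom hA hcon
      rw [← Subgroup.normalizer_eq_top_iff, eq_top_iff, ← h1]
      refine sup_le ?_ Subgroup.le_normalizer
      intro z hz
      rw [← CfsgH1.conj_smul_eq_self_iff]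
      ext y
      rw [CfsgH1.mem_conj_smul]
      have : z⁻¹ * y * z = y := by
        rw [mul_assoc, Subgroup.mem_center_iff.1 hz y, inv_mul_cancel_left]
      rw [this]
    have hTI0 : ∀ g : G, g ∉ A → A ⊓ (MulAut.conj g • A) ≤ Z := by
      intro g hg x hx
      have hsup : A ⊔ (MulAut.conj g • A) = ⊤ := by
        apply hA.2
        refine lt_of_le_of_ne le_sup_left (fun h => hg ?_)
        have h1 : MulAut.conj g • A ≤ A := by
          calc MulAut.conj g • A ≤ A ⊔ (MulAut.conj g • A) := le_sup_right
            _ = A := h.symm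
        have h2 : MulAut.conj g • A = A := by
          apply Subgroup.eq_of_le_of_card_ge h1
          rw [CfsgH1.card_conj_smul]
        rw [← hnorm]
        exact CfsgH1.conj_smul_eq_self_iff.1 h2
      rw [hZ, Subgroup.mem_center_iff]
      intro y
      have hy : y ∈ Subgroup.centralizer ({x} : Set G) := by
        have h3 : A ⊔ (MulAut.conj g • A) ≤ Subgroup.centralizer ({x} : Set G) := by
          apply sup_le
          · intro a ha
            rw [Subgroup.mem_centralizer_iff]
            rintro _ rfl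
            exact hAab _ hx.1 a ha
          · intro a ha
            rw [Subgroup.mem_centralizer_iff]
            intro x' hx'
            rw [Set.mem_singleton_iff] at hx'
            rw [hx']
            have h4 := CfsgH1.mem_conj_smul.1 ha
            have h5 := CfsgH1.mem_conj_smul.1 hx.2
            have h6 := hAab _ h5 _ h4
            have e1 : g⁻¹ * x * g * (g⁻¹ * a * g) = g⁻¹ * (x * a) * g := by group
            have e2 : g⁻¹ * a * g * (g⁻¹ * x * g) = g⁻¹ * (a * x) * g := by group
            rw [e1, e2] at h6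
            exact mul_left_cancel (mul_right_cancel h6)
        exact h3 (by rw [hsup]; trivial)
      exact (Subgroup.mem_centralizer_iff.1 hy x rfl).symm
    set π := QuotientGroup.mk' Z with hπ
    have hπs := QuotientGroup.mk'_surjective Z
    have hcomap : (A.map π).comap π = A := by
      rw [hπ, QuotientGroup.comap_map_mk', sup_eq_right.2 hZA]
    have hmem : ∀ g : G, π g ∈ A.map π ↔ g ∈ A := by
      intro g
      rw [← Subgroup.mem_comap, hcomap]
    have hTI : ∀ g : G ⧸ Z, g ∉ A.map π → A.map π ⊓ (MulAut.conj g • A.map π) = ⊥ := by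
      intro g hg
      obtain ⟨g, rfl⟩ := hπs g
      rw [hmem] at hg
      rw [Subgroup.eq_bot_iff_forall]
      rintro x ⟨hx1, hx2⟩
      obtain ⟨x, rfl⟩ := hπs x
      change π x ∈ A.map π at hx1
      change π x ∈ MulAut.conj (π g) • A.map π at hx2
      rw [hmem] at hx1
      rw [CfsgH1.mem_conj_smul, ← map_inv, ← map_mul, ← map_mul, hmem] at hx2
      exact (QuotientGroup.eq_one_iff x).2 (hTI0 g hg ⟨hx1, CfsgH1.mem_conj_smul.2 hx2⟩)
    obtain ⟨N, -, hNn, hNc⟩ := CfsgH1.frobenius_kernel hTI
    have hAco : IsCoatom (A.map π) := CfsgH1.isCoatom_map_of_le hA hZA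
    have hNA : N ⊓ A.map π = ⊥ := hNc.isCompl.inf_eq_bot
    have hNsup : N ⊔ A.map π = ⊤ := hNc.sup_eq_top
    have hNne : N ≠ ⊥ := by
      rintro rfl
      rw [bot_sup_eq] at hNsup
      exact hAco.1 hNsup
    have hAmab : ∀ x ∈ A.map π, ∀ y ∈ A.map π, x * y = y * x := by
      rintro _ ⟨x, hx, rfl⟩ _ ⟨y, hy, rfl⟩
      rw [← map_mul, ← map_mul, hAab x hx y hy]
    have hcop : (Nat.card (A.map π)).Coprime (Nat.card N) := by
      have h1 := CfsgH1.coprime_index_of_ti hTI
      rwa [hNc.index_eq_card] at h1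
    -- no proper invariant subgroups
    have hinv : ∀ K : Subgroup (G ⧸ Z), K ≤ N → K ≠ ⊥ → A.map π ≤ Subgroup.normalizer (K : Set (G ⧸ Z)) → K = N := by
      intro K hKN hK hKA
      have h1 : K ⊔ A.map π = ⊤ := by
        apply hAco.2
        refine lt_of_le_of_ne le_sup_right (fun h => hK ?_)
        rw [eq_bot_iff, ← hNA]
        refine le_inf hKN ?_
        rw [h]; exact le_sup_left
      apply Subgroup.eq_of_le_of_card_ge hKN
      have h2 := CfsgH1.card_sup_of_disjoint hKA (by
        rw [eq_bot_iff, ← hNA, inf_comm]; exact inf_le_inf_right _ hKN)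
      rw [sup_comm, h1, Subgroup.card_top] at h2
      have h3 := hNc.card_mul
      rw [h2, mul_comm] at h3
      exact (Nat.eq_of_mul_eq_mul_left Nat.card_pos h3).le
    obtain ⟨p, hp, hpd⟩ := Nat.exists_prime_and_dvd (n := Nat.card N) (by
      intro h; exact hNne (Subgroup.card_eq_one.1 h))
    haveI : Fact p.Prime := ⟨hp⟩
    obtain ⟨⟨P, hP, hPA⟩, -⟩ := CfsgH1.coprime_sylow (A := A.map π) (K := N) (CfsgH1.le_normalizer_of_normal _ _) hcop
      (Or.inl (CfsgH1.isSolvable_of_abelian hAmab)) p
    have hPN : P = N := by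
      refine hinv P (CfsgH1.isSylowOf_le hP) ?_ hPA
      rintro rfl
      have h1 := (CfsgH1.isSylowOf_iff.1 hP).2.2
      rw [Subgroup.relIndex_bot_left] at h1
      exact h1 hpd
    have hNp : IsPGroup p N := hPN ▸ CfsgH1.isSylowOf_isPGroup hP
    have hNab : ⁅N, N⁆ = (⊥ : Subgroup (G ⧸ Z)) := by
      by_contra hne
      have h1 := hinv ⁅N, N⁆ (Subgroup.commutator_le_left N N) hne (CfsgH1.le_normalizer_of_normal _ _)
      haveI : Group.IsNilpotent N := hNp.isNilpotent
      exact hne (CfsgH1.eq_bot_of_le_commutator (H := ⁅N, N⁆) (L := N) inferInstance (Subgroup.commutator_le_left N N) (by rw [h1, h1]))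
    have hd1 : derivedSeries (G ⧸ Z) 1 ≤ N := by
      rw [derivedSeries_one, _root_.commutator_def, Subgroup.commutator_le]
      intro a _ b _
      rw [← QuotientGroup.eq_one_iff]
      have e1 : ((⁅a, b⁆ : G ⧸ Z) : (G ⧸ Z) ⧸ N) = ⁅(a : (G ⧸ Z) ⧸ N), (b : (G ⧸ Z) ⧸ N)⁆ := map_commutatorElement (QuotientGroup.mk' N) a b
      rw [e1, commutatorElement_eq_one_iff_mul_comm]
      have hs := CfsgH1.quotient_surjective_of_sup N hNsup
      obtain ⟨u, hu⟩ := hs (a : (G ⧸ Z) ⧸ N)
      obtain ⟨v, hv⟩ := hs (b : (G ⧸ Z) ⧸ N)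
      rw [← hu, ← hv, ← map_mul, ← map_mul]
      congr 1
      exact Subtype.ext (hAmab u u.2 v v.2)
    have hd2 : derivedSeries (G ⧸ Z) 2 = ⊥ := by
      rw [derivedSeries_succ, eq_bot_iff, ← hNab]
      exact Subgroup.commutator_mono hd1 hd1
    have hd3 : derivedSeries G 2 ≤ Z := by
      have h1 := map_derivedSeries_le_derivedSeries π 2
      rw [hd2, le_bot_iff, Subgroup.map_eq_bot_iff, hπ, QuotientGroup.ker_mk'] at h1
      exact h1
    rw [derivedSeries_succ, Subgroup.commutator_eq_bot_iff_le_centralizer]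
    refine hd3.trans ?_
    intro z hz
    rw [Subgroup.mem_centralizer_iff]
    intro y _
    exact Subgroup.mem_center_iff.1 hz y

end Cfsg.Agent.S0556
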