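import Cfsg.Statements.S0557
import Cfsg.Agent.H1.PiComp

set_option autoImplicit false
open Cfsg

namespace Cfsg.Agent.S0557

open scoped commutatorElement Pointwise

theorem focal_mono {G : Type*} [Group G] {K L : Subgroup G} (h : K ≤ L) : Subgroup.focalSubgroup K ≤ Subgroup.focalSubgroup L := by
  rw [Subgroup.focalSubgroup_def, Subgroup.focalSubgroup_def]
  apply Subgroup.closure_mono
  rintro g ⟨hg, x, hx, u, rfl⟩
  exact ⟨h hg, x, h hx, u, rfl⟩

theorem focal_map {G : Type*} [Group G] (K : Subgroup G) (X : Subgroup K) :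
    (Subgroup.focalSubgroup X).map K.subtype ≤ Subgroup.focalSubgroup (X.map K.subtype) := by
  rw [Subgroup.focalSubgroup_def, MonoidHom.map_closure, Subgroup.focalSubgroup_def]
  apply Subgroup.closure_mono
  rintro _ ⟨g, ⟨hg, x, hx, u, rfl⟩, rfl⟩
  exact ⟨⟨_, hg, rfl⟩, x, ⟨x, hx, rfl⟩, u, rfl⟩

theorem focal_iter {G : Type*} [Group G] (K : Subgroup G) (n : ℕ) : ∀ (X : Subgroup K) (Y : Subgroup G), X.map K.subtype ≤ Y →
    ((fun K : Subgroup K => Subgroup.focalSubgroup K)^[n] X).map K.subtype ≤ (fun K : Subgroup G => Subgroup.focalSubgroup K)^[n] Y := by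
  induction n with
  | zero => intro X Y h; exact h
  | succ n ih =>
    intro X Y h
    rw [Function.iterate_succ_apply, Function.iterate_succ_apply]
    exact ih _ _ ((focal_map K X).trans (focal_mono h))

theorem ker_inf {G : Type*} [Group G] [Finite G] (H : Subgroup G) (hHall : (Nat.card H).Coprime H.index) :
    Function.Surjective (Subgroup.transferFocal H) ∧ (Subgroup.transferFocal H).ker ⊓ H = Subgroup.focalSubgroup H := by
  have hcop : (Nat.card (H ⧸ H.focalSubgroupOf)).Coprime H.index := 
    Nat.Coprime.coprime_dvd_left (Subgroup.card_quotient_dvd_card _) hHall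
  have happ : ∀ y : H ⧸ H.focalSubgroupOf, (powCoprime (G := H ⧸ H.focalSubgroupOf) hcop) y = y ^ H.index := fun _ => rfl
  constructor
  · intro x
    obtain ⟨y, hy⟩ := (powCoprime (G := H ⧸ H.focalSubgroupOf) hcop).surjective x
    obtain ⟨y, rfl⟩ := QuotientGroup.mk_surjective y
    exact ⟨y, by rw [Subgroup.transferFocal_eq_pow, ← happ]; exact hy⟩
  · ext x
    constructor
    · rintro ⟨h1, h2⟩
      have h3 : Subgroup.transferFocal H ((⟨x, h2⟩ : H) : G) = 1 := h1
      rw [Subgroup.transferFocal_eq_pow] at h3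
      have h4 : (powCoprime (G := H ⧸ H.focalSubgroupOf) hcop) ((⟨x, h2⟩ : H) : H ⧸ H.focalSubgroupOf) = 
          (powCoprime (G := H ⧸ H.focalSubgroupOf) hcop) 1 := by
        rw [happ, happ, one_pow]; exact h3
      have h5 := (powCoprime (G := H ⧸ H.focalSubgroupOf) hcop).injective h4
      exact (QuotientGroup.eq_one_iff (⟨x, h2⟩ : H)).1 h5
    · intro hx
      have hxH := Subgroup.focalSubgroup_le H hx
      refine ⟨?_, hxH⟩
      change Subgroup.transferFocal H ((⟨x, hxH⟩ : H) : G) = 1
      rw [Subgroup.transferFocal_eq_pow]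
      have : ((⟨x, hxH⟩ : H) : H ⧸ H.focalSubgroupOf) = 1 := (QuotientGroup.eq_one_iff _).2 hx
      rw [this, one_pow]

theorem main (n : ℕ) : ∀ (G : Type*) [Group G] [Finite G] (H : Subgroup G) (_ : (Nat.card H).Coprime H.index) 
    (_ : (fun K : Subgroup G => Subgroup.focalSubgroup K)^[n] H = ⊥), ∃ N : Subgroup G, N.Normal ∧ Nat.card N = H.index := by
  induction n with
  | zero =>
    intro G _ _ H _ h
    have h' : H = ⊥ := h
    refine ⟨⊤, inferInstance, ?_⟩
    rw [h', Subgroup.card_top, Subgroup.index_bot]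
  | succ n ih =>
    intro G _ _ H hHall h
    rw [Function.iterate_succ_apply] at h
    obtain ⟨hsurj, hker⟩ := ker_inf H hHall
    set K := (Subgroup.transferFocal H).ker with hK
    set H1 := Subgroup.focalSubgroup H with hH1
    have hH1K : H1 ≤ K := by rw [← hker]; exact inf_le_left
    have hH1H : H1 ≤ H := Subgroup.focalSubgroup_le H
    have hKi : K.index = (H.focalSubgroupOf).index := by
      rw [Subgroup.index_eq_card, Subgroup.index_eq_card]
      exact Nat.card_congr (QuotientGroup.quotientKerEquivOfSurjective _ hsurj).toEquiv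
    have hcH1 : Nat.card (H1.subgroupOf K) = Nat.card H1 := Nat.card_congr (Subgroup.subgroupOfEquivOfLe hH1K).toEquiv
    have hcH2 : Nat.card (H.focalSubgroupOf) = Nat.card H1 := Nat.card_congr (Subgroup.subgroupOfEquivOfLe hH1H).toEquiv
    have e1 := Subgroup.card_mul_index K
    have e2 := Subgroup.card_mul_index H
    have e3 := Subgroup.card_mul_index (H.focalSubgroupOf)
    have e4 := Subgroup.card_mul_index (H1.subgroupOf K)
    rw [hcH2] at e3
    rw [hcH1] at e4
    have hi : (H1.subgroupOf K).index = H.index := by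
      have hpos : 0 < (H.focalSubgroupOf).index := Nat.pos_of_ne_zero Subgroup.index_ne_zero_of_finite
      have hpos1 : 0 < Nat.card H1 := Nat.card_pos
      have h5 : Nat.card H1 * (H1.subgroupOf K).index * (H.focalSubgroupOf).index = Nat.card H1 * H.index * (H.focalSubgroupOf).index := by
        rw [e4, ← hKi, e1, ← e2, ← e3, hKi]; ring
      exact Nat.eq_of_mul_eq_mul_left hpos1 (Nat.eq_of_mul_eq_mul_right hpos h5)
    have hcop : (Nat.card (H1.subgroupOf K)).Coprime (H1.subgroupOf K).index := by
      rw [hi, hcH1]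
      exact Nat.Coprime.coprime_dvd_left (Subgroup.card_dvd_of_le hH1H) hHall
    obtain ⟨N, hN, hNc⟩ := ih K (H1.subgroupOf K) hcop (by
      have h6 := focal_iter K n (H1.subgroupOf K) H1 (by
        rw [Subgroup.map_subgroupOf_eq_of_le hH1K])
      rw [h, le_bot_iff, Subgroup.map_eq_bot_iff_of_injective _ K.subtype_injective] at h6
      exact h6)
    rw [hi] at hNc
    have hNi : N.index = Nat.card H1 := by
      have e5 := Subgroup.card_mul_index N
      rw [hNc, ← e4, hi, mul_comm] at e5
      exact Nat.eq_of_mul_eq_mul_right (Nat.pos_of_ne_zero Subgroup.index_ne_zero_of_finite) e5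
    refine ⟨N.map K.subtype, ?_, ?_⟩
    · refine ⟨?_⟩
      rintro _ ⟨x, hx, rfl⟩ g
      have hKn : K.Normal := by rw [hK]; infer_instance
      have hy : g * (x : G) * g⁻¹ ∈ K := hKn.conj_mem x x.2 g
      refine ⟨⟨_, hy⟩, ?_, rfl⟩
      change (⟨_, hy⟩ : K) ∈ N
      rw [← QuotientGroup.eq_one_iff, ← orderOf_eq_one_iff]
      have h7 : orderOf ((⟨_, hy⟩ : K) : K ⧸ N) ∣ Nat.card H1 := by
        rw [← hNi, Subgroup.index_eq_card]; exact orderOf_dvd_natCard _
      have h8 : orderOf ((⟨_, hy⟩ : K) : K ⧸ N) ∣ H.index := by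
        have h9 : orderOf ((⟨_, hy⟩ : K) : K ⧸ N) ∣ orderOf (⟨_, hy⟩ : K) := orderOf_map_dvd (QuotientGroup.mk' N) _
        have h10 : orderOf (⟨_, hy⟩ : K) = orderOf x := by
          rw [Subgroup.orderOf_mk, ← Subgroup.orderOf_coe x]
          exact (orderOf_injective (MulAut.conj g).toMonoidHom (MulAut.conj g).injective (x : G))
        rw [h10] at h9
        exact h9.trans (hNc ▸ Subgroup.orderOf_dvd_natCard N hx)
      exact Nat.eq_one_of_dvd_coprimes (Nat.Coprime.coprime_dvd_left (Subgroup.card_dvd_of_le hH1H) hHall) h7 h8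
    · rw [← hNc]
      exact (Nat.card_congr (N.equivMapOfInjective K.subtype K.subtype_injective).toEquiv).symm

/-- Let H be a subgroup of a finite group G with order coprime to its index. If iterating the focal-subgroup construction starting from H reaches the trivial subgroup after finitely many steps, then H has a normal complement in G. -/
theorem result {G : Type*} [Group G] [Finite G] (H : Subgroup G) (hHall : (Nat.card H).Coprime H.index) (n : ℕ) (hfoc : (fun K : Subgroup G => Subgroup.focalSubgroup K)^[n] H = ⊥) : ∃ N : Subgroup G, N.Normal ∧ Subgroup.IsComplement' N H := by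

  obtain ⟨N, hN, hNc⟩ := main n G H hHall hfoc
  refine ⟨N, hN, ?_⟩
  apply Subgroup.isComplement'_of_coprime
  · rw [hNc, mul_comm, Subgroup.card_mul_index]
  · rw [hNc]; exact hHall.symm

end Cfsg.Agent.S0557
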