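import Cfsg.Statements.S0561
import Cfsg.Agent.H1.FactHall

set_option autoImplicit false
open Pointwise
open Cfsg

namespace Cfsg.Agent.S0561

open scoped commutatorElement Pointwise

/-- Let the finite solvable group G be the product HK of subgroups, and let A be normal in H and B normal in K, where A and B are Hall subgroups of G (order coprime to index). Then for all x, y the product set of xAx⁻¹ and yBy⁻¹ is a subgroup of G. -/
theorem result {G : Type*} [Group G] [Finite G] [Group.IsSolvable G] (H K A B : Subgroup G) (hHK : ∀ g : G, ∃ h ∈ H, ∃ k ∈ K, g = h * k) (hA : A ≤ H) (hAn : (A.subgroupOf H).Normal) (hB : B ≤ K) (hBn : (B.subgroupOf K).Normal) (hAh : (Nat.card A).Coprime A.index) (hBh : (Nat.card B).Coprime B.index) (x y : G) : ∃ S : Subgroup G, (S : Set G) = ((MulAut.conj x • A : Subgroup G) : Set G) * ((MulAut.conj y • B : Subgroup G) : Set G) := by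
  have hAn' : H ≤ Subgroup.normalizer (A : Set G) := CfsgH1.le_normalizer_of_normal_subgroupOf hA hAn
  have hBn' : K ≤ Subgroup.normalizer (B : Set G) := CfsgH1.le_normalizer_of_normal_subgroupOf hB hBn
  obtain ⟨z, hz1, hz2⟩ := CfsgH1.fact_sim_conj (H := H) (K := K) hHK hAn' hBn' x y
  have key := CfsgH1.fact_hall_perm (Nat.card G) G rfl H K A B hHK hA hAn' hB hBn' hAh hBh
  refine ⟨MulAut.conj z • (A ⊔ B), ?_⟩
  rw [← hz1, ← hz2]
  apply Set.Subset.antisymm
  · intro g hg
    have hg' : z⁻¹ * g * z ∈ A ⊔ B := CfsgH1.mem_conj_smul.1 hg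
    obtain ⟨a, ha, b, hb, hab⟩ := key _ hg'
    refine Set.mem_mul.2 ⟨z * a * z⁻¹, ?_, z * b * z⁻¹, ?_, ?_⟩
    · change z * a * z⁻¹ ∈ MulAut.conj z • A
      rw [CfsgH1.mem_conj_smul]
      have : z⁻¹ * (z * a * z⁻¹) * z = a := by group
      rwa [this]
    · change z * b * z⁻¹ ∈ MulAut.conj z • B
      rw [CfsgH1.mem_conj_smul]
      have : z⁻¹ * (z * b * z⁻¹) * z = b := by group
      rwa [this]
    · have : z * a * z⁻¹ * (z * b * z⁻¹) = z * (a * b) * z⁻¹ := by group
      rw [this, hab]; group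
  · rintro _ ⟨a, ha, b, hb, rfl⟩
    have h1 : a ∈ MulAut.conj z • (A ⊔ B) := CfsgH1.conj_smul_mono z le_sup_left ha
    have h2 : b ∈ MulAut.conj z • (A ⊔ B) := CfsgH1.conj_smul_mono z le_sup_right hb
    exact Subgroup.mul_mem _ h1 h2

end Cfsg.Agent.S0561
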