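import Cfsg.Statements.S0563
import Cfsg.Agent.H1.KW4

set_option autoImplicit false
open Pointwise
open Cfsg

namespace Cfsg.Agent.S0563

open scoped commutatorElement Pointwise

/-- If a finite group G is the product AB of two nilpotent subgroups of coprime orders, then G is solvable, and for every Sylow p-subgroup P of A and Sylow q-subgroup Q of B the product set PQ is a subgroup. -/
theorem result {G : Type*} [Group G] [Finite G] (A B : Subgroup G) (hA : Group.IsNilpotent A) (hB : Group.IsNilpotent B) (hcop : (Nat.card A).Coprime (Nat.card B)) (hAB : ∀ g : G, ∃ a ∈ A, ∃ b ∈ B, g = a * b) : Group.IsSolvable G ∧ ∀ (p q : ℕ) [Fact p.Prime] [Fact q.Prime] (P : Sylow p A) (Q : Sylow q B), ∃ S : Subgroup G, (S : Set G) = (((P : Subgroup A).map A.subtype : Subgroup G) : Set G) * (((Q : Subgroup B).map B.subtype : Subgroup G) : Set G) := by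
  have hs := CfsgH1.kw_coprime (Nat.card G) G rfl A B hA hB hcop hAB
  refine ⟨hs, ?_⟩
  intro p q hp hq P Q
  have hindex : ∀ (X Y : Subgroup G), (Nat.card X).Coprime (Nat.card Y) → CfsgH1.IsFact X Y → X.index = Nat.card Y := by
    intro X Y hXY hf
    have h1 := CfsgH1.isFact_iff_card.1 hf
    rw [CfsgH1.inf_eq_bot_of_coprime hXY, Subgroup.card_bot, mul_one, ← Subgroup.card_mul_index X] at h1
    exact Nat.eq_of_mul_eq_mul_left Nat.card_pos h1
  have hall : ∀ (r : ℕ) [Fact r.Prime] (X Y : Subgroup G), (Nat.card X).Coprime (Nat.card Y) → CfsgH1.IsFact X Y → 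
      ∀ R : Subgroup G, CfsgH1.IsSylowOf r R X → (Nat.card R).Coprime R.index := by
    intro r hr X Y hXY hf R hR
    obtain ⟨h1, h2, h3⟩ := CfsgH1.isSylowOf_iff.1 hR
    obtain ⟨k, hk⟩ := IsPGroup.iff_card.1 h2
    rw [← Subgroup.relIndex_mul_index h1, hindex X Y hXY hf]
    apply Nat.Coprime.mul_right
    · rw [hk]
      exact Nat.Coprime.pow_left _ ((Nat.Prime.coprime_iff_not_dvd hr.out).2 h3)
    · exact Nat.Coprime.coprime_dvd_left (Subgroup.card_dvd_of_le h1) hXY
  have hP : CfsgH1.IsSylowOf p ((P : Subgroup A).map A.subtype) A := ⟨P, rfl⟩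
  have hQ : CfsgH1.IsSylowOf q ((Q : Subgroup B).map B.subtype) B := ⟨Q, rfl⟩
  have key := CfsgH1.fact_hall_perm (Nat.card G) G rfl A B _ _ hAB (CfsgH1.isSylowOf_le hP) 
    (Subgroup.le_normalizer.trans (CfsgH1.normalizer_le_of_nilpotent hA hP)) (CfsgH1.isSylowOf_le hQ) 
    (Subgroup.le_normalizer.trans (CfsgH1.normalizer_le_of_nilpotent hB hQ)) 
    (hall p A B hcop hAB _ hP) (hall q B A hcop.symm (CfsgH1.IsFact.symm hAB) _ hQ)
  refine ⟨(P : Subgroup A).map A.subtype ⊔ (Q : Subgroup B).map B.subtype, ?_⟩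
  apply Set.Subset.antisymm
  · intro g hg
    obtain ⟨a, ha, b, hb, hab⟩ := key g hg
    exact Set.mem_mul.2 ⟨a, ha, b, hb, hab⟩
  · rintro _ ⟨a, ha, b, hb, rfl⟩
    exact Subgroup.mul_mem _ (Subgroup.mem_sup_left ha) (Subgroup.mem_sup_right hb)

end Cfsg.Agent.S0563
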