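import Cfsg.Statements.S0564
import Cfsg.Agent.H1.KW4

set_option autoImplicit false
open Cfsg

namespace Cfsg.Agent.S0564

open scoped commutatorElement Pointwise

/-- The Kegel–Wielandt Theorem: a finite group G = AB with A and B nilpotent subgroups is solvable. -/
theorem result {G : Type*} [Group G] [Finite G] (A B : Subgroup G) (hA : Group.IsNilpotent A) (hB : Group.IsNilpotent B) (hAB : ∀ g : G, ∃ a ∈ A, ∃ b ∈ B, g = a * b) : Group.IsSolvable G := by
  exact CfsgH1.kegel_wielandt (Nat.card G) G rfl A B hA hB hAB

end Cfsg.Agent.S0564
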