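import Cfsg.Statements.S0567
import Cfsg.Agent.H1.Ito

set_option autoImplicit false
open Cfsg

namespace Cfsg.Agent.S0567

open scoped commutatorElement Pointwise

/-- A subgroup H of a group G is subnormal exactly when, for some m, the subgroup obtained from G by taking the commutator with H m times in succession is contained in H. -/
theorem result {G : Type*} [Group G] (H : Subgroup G) : H.IsSubnormal ↔ ∃ m : ℕ, (fun K : Subgroup G => ⁅K, H⁆)^[m] ⊤ ≤ H := by
  constructor
  · intro hH
    obtain ⟨n, f, hmono, hnorm, h0, hnt⟩ := Subgroup.IsSubnormal.isSubnormal_iff.1 hH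
    have key : ∀ m : ℕ, m ≤ n → (fun K : Subgroup G => ⁅K, H⁆)^[m] ⊤ ≤ f (n - m) := by
      intro m
      induction m with
      | zero => intro _; rw [Nat.sub_zero, hnt]; exact le_top
      | succ m ih =>
        intro hm
        rw [Function.iterate_succ_apply']
        have h1 := ih (by omega)
        have h2 : n - m = (n - (m + 1)) + 1 := by omega
        rw [h2] at h1
        rw [Subgroup.commutator_le]
        intro x hx h hh
        have hx' := h1 hx
        have hh' : h ∈ f (n - (m + 1)) := by
          rw [← h0] at hh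
          exact hmono (Nat.zero_le _) hh
        have h3 := hnorm (n - (m + 1))
        have h4 := h3.conj_mem ⟨h, hmono (Nat.le_succ _) hh'⟩ hh' ⟨x, hx'⟩
        rw [Subgroup.mem_subgroupOf] at h4
        change x * h * x⁻¹ ∈ f (n - (m + 1)) at h4
        have : ⁅x, h⁆ = (x * h * x⁻¹) * h⁻¹ := by rw [commutatorElement_def]
        rw [this]
        exact Subgroup.mul_mem _ h4 (Subgroup.inv_mem _ hh')
    refine ⟨n, ?_⟩
    have := key n le_rfl
    rwa [Nat.sub_self, h0] at this
  · rintro ⟨m, hm⟩
    have key : ∀ i : ℕ, (H ⊔ (fun K : Subgroup G => ⁅K, H⁆)^[i] ⊤).IsSubnormal := by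
      intro i
      induction i with
      | zero =>
        rw [Function.iterate_zero_apply, sup_top_eq]
        exact Subgroup.IsSubnormal.top
      | succ i ih =>
        set K := (fun K : Subgroup G => ⁅K, H⁆)^[i] ⊤ with hK
        have hK' : (fun K : Subgroup G => ⁅K, H⁆)^[i + 1] ⊤ = ⁅K, H⁆ := by
          rw [Function.iterate_succ_apply']
        rw [hK']
        have hle : ⁅K, H⁆ ≤ H ⊔ K := by
          rw [Subgroup.commutator_le]
          intro x hx y hy
          rw [commutatorElement_def]
          exact Subgroup.mul_mem _ (Subgroup.mul_mem _ (Subgroup.mul_mem _ (Subgroup.mem_sup_right hx) (Subgroup.mem_sup_left hy)) 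
            (Subgroup.inv_mem _ (Subgroup.mem_sup_right hx))) (Subgroup.inv_mem _ (Subgroup.mem_sup_left hy))
        refine Subgroup.IsSubnormal.step (H ⊔ ⁅K, H⁆) (H ⊔ K) (sup_le le_sup_left hle) ih ?_
        apply CfsgH1.normal_subgroupOf_of_le_normalizer
        have h1 : H ≤ Subgroup.normalizer ((H ⊔ ⁅K, H⁆ : Subgroup G) : Set G) := 
          CfsgH1.le_normalizer_sup Subgroup.le_normalizer (CfsgH1.le_normalizer_commutator_right K H)
        refine sup_le h1 ?_
        -- K normalizes H ⊔ [K,H]
        have h2 : K ≤ Subgroup.normalizer ((⁅K, H⁆ : Subgroup G) : Set G) := CfsgH1.le_normalizer_commutator_left K H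
        rw [CfsgH1.le_normalizer_iff_conj]
        intro x hx
        have h3 : H ⊔ ⁅K, H⁆ ≤ (H ⊔ ⁅K, H⁆).comap (MulAut.conj x).toMonoidHom := by
          refine sup_le ?_ ?_
          · intro h hh
            change x * h * x⁻¹ ∈ H ⊔ ⁅K, H⁆
            have : x * h * x⁻¹ = ⁅x, h⁆ * h := by rw [commutatorElement_def]; group
            rw [this]
            exact Subgroup.mul_mem _ (Subgroup.mem_sup_right (Subgroup.commutator_mem_commutator hx hh)) (Subgroup.mem_sup_left hh)
          · intro y hy
            change x * y * x⁻¹ ∈ H ⊔ ⁅K, H⁆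
            exact Subgroup.mem_sup_right (CfsgH1.le_normalizer_iff_conj.1 h2 x hx y hy)
        intro y hy
        exact h3 hy
    have := key m
    rwa [sup_eq_left.2 hm] at this

end Cfsg.Agent.S0567
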