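import Cfsg.Statements.S0568
import Cfsg.Agent.H1.SysNorm2

set_option autoImplicit false
open Cfsg

namespace Cfsg.Agent.S0568

open scoped commutatorElement Pointwise

/-- Let D be the system normalizer of a Hall complement system of a finite solvable group G, and let A < B be normal subgroups with no normal subgroup of G strictly between them (a chief factor). If G centralizes B modulo A then B ≤ A ⊔ D (D covers the factor); otherwise B ∩ D ≤ A (D avoids it). -/
theorem result {G : Type*} [Group G] [Finite G] [Group.IsSolvable G] (K : Nat.Primes → Subgroup G) (hK : Cfsg.IsComplementSystem K) (A B : Subgroup G) [A.Normal] [B.Normal] (hAB : A < B) (hchief : ∀ N : Subgroup G, N.Normal → A ≤ N → N ≤ B → N = A ∨ N = B) : (⁅B, (⊤ : Subgroup G)⁆ ≤ A → B ≤ A ⊔ Cfsg.systemNormalizer K) ∧ (¬ ⁅B, (⊤ : Subgroup G)⁆ ≤ A → B ⊓ Cfsg.systemNormalizer K ≤ A) := by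
  set π := QuotientGroup.mk' A with hπ
  have hπs := QuotientGroup.mk'_surjective A
  have hmap := CfsgH1.systemNormalizer_map hK A
  have hKm := CfsgH1.compSys_map hK A
  haveI hBn : (B.map π).Normal := Subgroup.Normal.map inferInstance π hπs
  have hcen : ⁅B, (⊤ : Subgroup G)⁆ ≤ A ↔ B.map π ≤ Subgroup.center (G ⧸ A) := by
    rw [Subgroup.commutator_le]
    constructor
    · rintro h _ ⟨b, hb, rfl⟩
      rw [Subgroup.mem_center_iff]
      intro y
      obtain ⟨g, rfl⟩ := hπs y
      have h1 := h b hb g (Subgroup.mem_top g)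
      rw [← QuotientGroup.eq_one_iff] at h1
      have e1 : ((⁅b, g⁆ : G) : G ⧸ A) = ⁅π b, π g⁆ := map_commutatorElement (QuotientGroup.mk' A) b g
      rw [e1, commutatorElement_eq_one_iff_mul_comm] at h1
      exact h1.symm
    · intro h b hb g _
      have h1 := Subgroup.mem_center_iff.1 (h ⟨b, hb, rfl⟩) (π g)
      rw [← QuotientGroup.eq_one_iff]
      have e1 : ((⁅b, g⁆ : G) : G ⧸ A) = ⁅π b, π g⁆ := map_commutatorElement (QuotientGroup.mk' A) b g
      rw [e1, commutatorElement_eq_one_iff_mul_comm]
      exact h1.symm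
  constructor
  · intro h
    rw [hcen] at h
    have h1 : B.map π ≤ (Cfsg.systemNormalizer K).map π := by
      rw [← hmap]
      exact h.trans CfsgH1.center_le_systemNormalizer
    rw [← QuotientGroup.comap_map_mk']
    exact (Subgroup.le_comap_map π B).trans (Subgroup.comap_mono h1)
  · intro h
    rw [hcen] at h
    have hne : B.map π ≠ ⊥ := by
      intro hb
      rw [Subgroup.map_eq_bot_iff, hπ, QuotientGroup.ker_mk'] at hb
      exact hAB.not_ge hb
    have hmin : ∀ N : Subgroup (G ⧸ A), N.Normal → N ≤ B.map π → N = ⊥ ∨ N = B.map π := by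
      intro N hN hNB
      have h1 : A ≤ N.comap π := by
        intro x hx
        rw [Subgroup.mem_comap, hπ, QuotientGroup.mk'_apply, (QuotientGroup.eq_one_iff x).2 hx]; exact one_mem _
      have h2 : N.comap π ≤ B := by
        have h3 := Subgroup.comap_mono (f := π) hNB
        rw [hπ, QuotientGroup.comap_map_mk', sup_eq_right.2 hAB.le] at h3
        exact h3
      have h4 : (N.comap π).map π = N := Subgroup.map_comap_eq_self_of_surjective hπs N
      rcases hchief (N.comap π) (hN.comap π) h1 h2 with h3 | h3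
      · left
        rw [← h4, h3, Subgroup.map_eq_bot_iff, hπ, QuotientGroup.ker_mk']
      · right
        rw [← h4, h3]
    have h1 := CfsgH1.systemNormalizer_avoid hKm hne hmin h
    intro x hx
    have h2 : π x ∈ B.map π ⊓ Cfsg.systemNormalizer (fun p => (K p).map (QuotientGroup.mk' A)) := by
      refine ⟨⟨x, hx.1, rfl⟩, ?_⟩
      rw [hmap]
      exact ⟨x, hx.2, rfl⟩
    rw [h1, Subgroup.mem_bot] at h2
    exact (QuotientGroup.eq_one_iff x).1 h2

end Cfsg.Agent.S0568
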