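import Cfsg.Statements.S0570
import Cfsg.Agent.H1.SysNorm3

set_option autoImplicit false
open Cfsg

namespace Cfsg.Agent.S0570

open scoped commutatorElement Pointwise

/-- Let G be a finite group with a nilpotent normal subgroup F such that G modulo F is nilpotent (nilpotent length at most two). Then a subgroup of G is a Carter subgroup if and only if it is the system normalizer of some Hall complement system. -/
theorem result {G : Type*} [Group G] [Finite G] (F : Subgroup G) [F.Normal] (hF : Group.IsNilpotent F) (hGF : Group.IsNilpotent (G ⧸ F)) (C : Subgroup G) : Cfsg.IsCarterSubgroup C ↔ ∃ K : Nat.Primes → Subgroup G, Cfsg.IsComplementSystem K ∧ C = Cfsg.systemNormalizer K := by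
  haveI : Group.IsSolvable G := CfsgH1.isSolvable_of_normal_quotient F (by haveI := hF; infer_instance) (by haveI := hGF; infer_instance)
  have key : ∀ C : Subgroup G, CfsgH1.IsC C → ∃ K : Nat.Primes → Subgroup G, Cfsg.IsComplementSystem K ∧ C = Cfsg.systemNormalizer K := by
    intro C hC
    obtain ⟨K, hK, hred, hle⟩ := CfsgH1.carter_contains_some hC
    exact ⟨K, hK, le_antisymm (CfsgH1.carter_eq_of_metanilpotent hF hGF hC hK hred) hle⟩
  constructor
  · exact key C
  · rintro ⟨K, hK, rfl⟩
    obtain ⟨C0, hC0⟩ := (CfsgH1.carter_aux _ G rfl).1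
    obtain ⟨K0, hK0, hCe⟩ := key C0 hC0
    obtain ⟨g, hg⟩ := CfsgH1.compSys_conj hK0 hK
    have h1 : K = fun p => MulAut.conj g • K0 p := funext (fun p => (hg p).symm)
    have h2 := hC0.conj g
    rw [hCe, ← CfsgH1.systemNormalizer_conj, ← h1] at h2
    exact h2

end Cfsg.Agent.S0570
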