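import Cfsg.Statements.S0575
import Cfsg.Agent.H1.CopExtra

set_option autoImplicit false
open Cfsg

namespace Cfsg.Agent.S0575

open scoped commutatorElement Pointwise

/-- If H is a normal subgroup of a finite group G, then the Frattini subgroup of H, viewed in G, lies in the Frattini subgroup of G. -/
theorem result {G : Type*} [Group G] [Finite G] (H : Subgroup G) [H.Normal] : (frattini ↥H).map H.subtype ≤ frattini G := by
  rw [CfsgH1.le_frattini_iff]
  intro M hM
  by_contra hn
  haveI : ((frattini H).map H.subtype).Normal := CfsgH1.normal_map_characteristic _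
  have h1 := CfsgH1.sup_eq_top_of_isCoatom hM hn
  have h2 : M.subgroupOf H = ⊤ := by
    apply CfsgH1.eq_top_of_frattini_sup (F := frattini H) le_rfl
    rw [eq_top_iff]
    intro x _
    have hx : (x : G) ∈ (frattini H).map H.subtype ⊔ M := by rw [h1]; trivial
    obtain ⟨y, hy, m, hm, hym⟩ := Subgroup.mem_sup_of_normal_left.1 hx
    obtain ⟨z, hz, rfl⟩ := hy
    have hmH : m ∈ H := by
      have : m = (H.subtype z)⁻¹ * x := by rw [← hym]; group
      rw [this]
      exact H.mul_mem (H.inv_mem z.2) x.2
    have : x = z * ⟨m, hmH⟩ := Subtype.ext hym.symm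
    rw [this]
    exact Subgroup.mul_mem _ (Subgroup.mem_sup_left hz) (Subgroup.mem_sup_right hm)
  apply hn
  rw [Subgroup.subgroupOf_eq_top] at h2
  exact (Subgroup.map_subtype_le _).trans h2

end Cfsg.Agent.S0575
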