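import Cfsg.Statements.S0576
import Cfsg.Agent.H1.Frat
import Cfsg.Agent.H1.SSolv3

set_option autoImplicit false
open Cfsg

namespace Cfsg.Agent.S0576

open scoped commutatorElement Pointwise

/-- Let H be a normal subgroup of a finite group G with H contained in the Frattini subgroup of G. Then the group of inner automorphisms of H is contained in the Frattini subgroup of the automorphism group of H. -/
theorem result {G : Type*} [Group G] [Finite G] (H : Subgroup G) [H.Normal] (hH : H ≤ frattini G) : (MulAut.conj : ↥H →* MulAut ↥H).range ≤ frattini (MulAut ↥H) := by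
  haveI : Finite (MulAut H) := Finite.of_injective (fun f : MulAut H => (f : H → H)) DFunLike.coe_injective
  rw [CfsgH1.le_frattini_iff]
  intro M hM
  let φ : G →* MulAut H := MulAut.conjNormal
  have hφ : ∀ h : H, φ (h : G) = MulAut.conj h := by
    intro h
    apply MulEquiv.ext
    intro x
    apply Subtype.ext
    rw [MulAut.conjNormal_apply]; rfl
  by_contra hcon
  have hsup : (MulAut.conj : ↥H →* MulAut ↥H).range ⊔ M = ⊤ := CfsgH1.sup_eq_top_of_isCoatom hM hcon
  haveI hInn : ((MulAut.conj : ↥H →* MulAut ↥H).range).Normal := by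
    refine ⟨?_⟩
    rintro _ ⟨x, rfl⟩ g
    refine ⟨g x, ?_⟩
    apply MulEquiv.ext
    intro y
    change g x * y * (g x)⁻¹ = g (x * g.symm y * x⁻¹)
    rw [map_mul, map_mul, map_inv, MulEquiv.apply_symm_apply]
  have h1 : H ⊔ M.comap φ = ⊤ := by
    rw [eq_top_iff]
    intro g _
    have h2 : φ g ∈ (MulAut.conj : ↥H →* MulAut ↥H).range ⊔ M := by rw [hsup]; trivial
    obtain ⟨_, ⟨x, rfl⟩, m, hm, hxm⟩ := Subgroup.mem_sup_of_normal_left.1 h2
    have h3 : φ ((x : G)⁻¹ * g) = m := by
      rw [map_mul, map_inv, hφ, ← hxm, inv_mul_cancel_left]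
    have h4 : (x : G)⁻¹ * g ∈ M.comap φ := by
      rw [Subgroup.mem_comap, h3]; exact hm
    have h5 : g = (x : G) * ((x : G)⁻¹ * g) := by group
    rw [h5]
    exact mul_mem (le_sup_left (a := H) x.2) (le_sup_right (a := H) h4)
  have h6 := CfsgH1.eq_top_of_frattini_sup hH h1
  apply hcon
  rintro _ ⟨x, rfl⟩
  have h7 : (x : G) ∈ M.comap φ := by rw [h6]; trivial
  rw [Subgroup.mem_comap, hφ] at h7
  exact h7

end Cfsg.Agent.S0576
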