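import Cfsg.Statements.S0577
import Cfsg.Agent.H1.MinNon
import Cfsg.Agent.H1.CopExtra
import Cfsg.Agent.H1.Frat

set_option autoImplicit false
open Cfsg

namespace Cfsg.Agent.S0577

open scoped commutatorElement Pointwise

/-- Let G be a finite minimal non-nilpotent group and Q a normal Sylow q-subgroup of G, and let D be the commutator subgroup of Q regarded in G (a normal subgroup). Then G modulo D is non-abelian and all its proper subgroups are abelian. -/
theorem result {G : Type*} [Group G] [Finite G] (hG : Cfsg.IsMinimalNonNilpotent G) (q : ℕ) [Fact q.Prime] (hq : q ∣ Nat.card G) (Q : Sylow q G) (hQ : (Q : Subgroup G).Normal) (D : Subgroup G) [D.Normal] (hD : D = (commutator ↥(Q : Subgroup G)).map (Q : Subgroup G).subtype) : ¬ IsMulCommutative (G ⧸ D) ∧ ∀ K : Subgroup (G ⧸ D), K ≠ ⊤ → IsMulCommutative K := by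
  obtain ⟨p, r, hp, hr, hpr, P, R, hPc, hRn, hPR⟩ := CfsgH1.min_non_nilpotent hG
  obtain ⟨hnn, hsub⟩ := hG
  haveI : Fact p.Prime := ⟨hp⟩
  haveI : Fact r.Prime := ⟨hr⟩
  have hqp := (Fact.out : q.Prime)
  have hcop : (Nat.card (P : Subgroup G)).Coprime (Nat.card (R : Subgroup G)) := by
    obtain ⟨a, ha⟩ := IsPGroup.iff_card.1 P.2
    obtain ⟨b, hb⟩ := IsPGroup.iff_card.1 R.2
    rw [ha, hb]
    exact Nat.Coprime.pow _ _ ((Nat.coprime_primes hp hr).2 hpr)
  have hcard := CfsgH1.card_sup_of_disjoint (CfsgH1.le_normalizer_of_normal (P : Subgroup G) (R : Subgroup G)) (CfsgH1.inf_eq_bot_of_coprime hcop)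
  rw [hPR, Subgroup.card_top] at hcard
  -- P is not normal
  have hPnn : ¬ (P : Subgroup G).Normal := by
    intro hPn
    apply hnn
    apply CfsgH1.nilpotent_of_sylow_normal
    intro s hs S
    haveI : Fact s.Prime := ⟨hs⟩
    by_cases hsp : s = p
    · subst hsp
      have : S = P := by
        obtain ⟨g, hg⟩ := MulAction.exists_smul_eq G P S
        rw [← hg]
        exact Sylow.smul_eq_of_normal
      rw [this]; exact hPn
    · by_cases hsr : s = r
      · subst hsr
        have : S = R := by
          obtain ⟨g, hg⟩ := MulAction.exists_smul_eq G R S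
          rw [← hg]
          exact Sylow.smul_eq_of_normal
        rw [this]; exact hRn
      · have : (S : Subgroup G) = ⊥ := by
          apply Subgroup.card_eq_one.1
          obtain ⟨k, hk⟩ := IsPGroup.iff_card.1 S.2
          have h1 : Nat.card (S : Subgroup G) ∣ Nat.card (P : Subgroup G) * Nat.card (R : Subgroup G) := hcard ▸ Subgroup.card_subgroup_dvd_card _
          obtain ⟨a, ha⟩ := IsPGroup.iff_card.1 P.2
          obtain ⟨b, hb⟩ := IsPGroup.iff_card.1 R.2
          rw [ha, hb, hk] at h1
          have h2 : (s ^ k).Coprime (p ^ a * r ^ b) := Nat.Coprime.mul_right 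
            (Nat.Coprime.pow _ _ ((Nat.coprime_primes hs hp).2 hsp)) (Nat.Coprime.pow _ _ ((Nat.coprime_primes hs hr).2 hsr))
          rw [hk]
          exact Nat.eq_one_of_dvd_coprimes h2 dvd_rfl h1
        rw [this]; infer_instance
  have hrq : r = q := by
    have h1 : q ∣ Nat.card (P : Subgroup G) * Nat.card (R : Subgroup G) := hcard ▸ hq
    obtain ⟨a, ha⟩ := IsPGroup.iff_card.1 P.2
    obtain ⟨b, hb⟩ := IsPGroup.iff_card.1 R.2
    rcases (hqp.dvd_mul).1 h1 with h2 | h2
    · exfalso
      rw [ha] at h2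
      have h3 : q = p := (Nat.prime_dvd_prime_iff_eq hqp hp).1 (hqp.dvd_of_dvd_pow h2)
      subst h3
      apply hPnn
      have : P = Q := by
        haveI := hQ
        obtain ⟨g, hg⟩ := MulAction.exists_smul_eq G Q P
        rw [← hg]
        exact Sylow.smul_eq_of_normal
      rw [this]; exact hQ
    · rw [hb] at h2
      exact ((Nat.prime_dvd_prime_iff_eq hqp hr).1 (hqp.dvd_of_dvd_pow h2)).symm
  subst hrq
  have hRQ : R = Q := by
    haveI := hQ
    obtain ⟨g, hg⟩ := MulAction.exists_smul_eq G Q R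
    rw [← hg]
    exact Sylow.smul_eq_of_normal
  subst hRQ
  have hPQc : ¬ (P : Subgroup G) ≤ Subgroup.centralizer ((R : Subgroup G) : Set G) := by
    intro hle
    apply hPnn
    rw [← Subgroup.normalizer_eq_top_iff, eq_top_iff, ← hPR]
    exact sup_le Subgroup.le_normalizer ((Subgroup.le_centralizer_iff.1 hle).trans (Subgroup.centralizer_le_normalizer _))
  constructor
  · intro hab
    apply hPQc
    have hcomm : ∀ x y : G, ⁅x, y⁆ ∈ D := by
      intro x y
      rw [← QuotientGroup.eq_one_iff]
      have e1 : ((⁅x, y⁆ : G) : G ⧸ D) = ⁅(x : G ⧸ D), (y : G ⧸ D)⁆ := map_commutatorElement (QuotientGroup.mk' D) x y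
      rw [e1, commutatorElement_eq_one_iff_mul_comm]
      exact hab.is_comm.comm _ _
    haveI : Group.IsNilpotent (R : Subgroup G) := R.2.isNilpotent
    refine CfsgH1.coprime_trivial_of_frattini (A := (P : Subgroup G)) (K := (R : Subgroup G)) (CfsgH1.le_normalizer_of_normal _ _) ?_ ?_
    · exact Nat.Coprime.coprime_dvd_right (Subgroup.card_subgroup_dvd_card _) hcop
    · intro a ha k hk
      have h1 := hcomm a k
      rw [hD] at h1
      exact Subgroup.map_mono CfsgH1.commutator_le_frattini h1
  · intro K hK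
    have hprim : ∀ s : ℕ, s.Prime → ∀ S : Subgroup (G ⧸ D), IsPGroup s S → ∀ x ∈ S, ∀ y ∈ S, x * y = y * x := by
      intro s hs S hS
      haveI : Fact s.Prime := ⟨hs⟩
      obtain ⟨S', hS'⟩ := hS.exists_le_sylow
      suffices h : ∃ T : Sylow s (G ⧸ D), ∀ x ∈ (T : Subgroup (G ⧸ D)), ∀ y ∈ (T : Subgroup (G ⧸ D)), x * y = y * x by
        obtain ⟨T, hT⟩ := h
        obtain ⟨g, hg⟩ := MulAction.exists_smul_eq (G ⧸ D) T S'
        have hconj : ∀ x ∈ S, g⁻¹ * x * g ∈ (T : Subgroup (G ⧸ D)) := by
          intro x hx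
          have h1 : x ∈ (S' : Subgroup (G ⧸ D)) := hS' hx
          rw [← hg] at h1
          exact CfsgH1.mem_conj_smul.1 h1
        intro x hx y hy
        have h2 := hT _ (hconj x hx) _ (hconj y hy)
        have e1 : g⁻¹ * x * g * (g⁻¹ * y * g) = g⁻¹ * (x * y) * g := by group
        have e2 : g⁻¹ * y * g * (g⁻¹ * x * g) = g⁻¹ * (y * x) * g := by group
        rw [e1, e2] at h2
        exact mul_left_cancel (mul_right_cancel h2)
      obtain ⟨T0⟩ := (inferInstance : Nonempty (Sylow s G))
      refine ⟨T0.mapSurjective (QuotientGroup.mk'_surjective D), ?_⟩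
      suffices h : ∀ a ∈ (T0 : Subgroup G), ∀ b ∈ (T0 : Subgroup G), ⁅a, b⁆ ∈ D by
        rintro _ ⟨a, ha, rfl⟩ _ ⟨b, hb, rfl⟩
        have h1 := h a ha b hb
        rw [← QuotientGroup.eq_one_iff] at h1
        have e1 : ((⁅a, b⁆ : G) : G ⧸ D) = ⁅(a : G ⧸ D), (b : G ⧸ D)⁆ := map_commutatorElement (QuotientGroup.mk' D) a b
        rw [e1, commutatorElement_eq_one_iff_mul_comm] at h1
        exact h1
      by_cases hsp : s = p
      · subst hsp
        intro a ha b hb
        obtain ⟨g, hg⟩ := MulAction.exists_smul_eq G P T0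
        have hconj : ∀ x ∈ (T0 : Subgroup G), g⁻¹ * x * g ∈ (P : Subgroup G) := by
          intro x hx
          rw [← hg] at hx
          exact CfsgH1.mem_conj_smul.1 hx
        letI : CommGroup (P : Subgroup G) := IsCyclic.commGroup
        have h2 := congrArg Subtype.val (mul_comm (⟨_, hconj a ha⟩ : (P : Subgroup G)) ⟨_, hconj b hb⟩)
        have h3 : g⁻¹ * a * g * (g⁻¹ * b * g) = g⁻¹ * b * g * (g⁻¹ * a * g) := h2
        have e1 : g⁻¹ * a * g * (g⁻¹ * b * g) = g⁻¹ * (a * b) * g := by group
        have e2 : g⁻¹ * b * g * (g⁻¹ * a * g) = g⁻¹ * (b * a) * g := by group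
        rw [e1, e2] at h3
        have h4 : a * b = b * a := mul_left_cancel (mul_right_cancel h3)
        rw [commutatorElement_eq_one_iff_mul_comm.2 h4]
        exact one_mem _
      · by_cases hsr : s = r
        · subst hsr
          have : T0 = R := by
            obtain ⟨g, hg⟩ := MulAction.exists_smul_eq G R T0
            rw [← hg]
            exact Sylow.smul_eq_of_normal
          intro a ha b hb
          rw [this] at ha hb
          rw [hD]
          refine ⟨⁅(⟨a, ha⟩ : (R : Subgroup G)), ⟨b, hb⟩⁆, ?_, rfl⟩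
          exact Subgroup.commutator_mem_commutator (Subgroup.mem_top _) (Subgroup.mem_top _)
        · have : (T0 : Subgroup G) = ⊥ := by
            apply Subgroup.card_eq_one.1
            obtain ⟨k, hk⟩ := IsPGroup.iff_card.1 T0.2
            have h1 : Nat.card (T0 : Subgroup G) ∣ Nat.card (P : Subgroup G) * Nat.card (R : Subgroup G) := hcard ▸ Subgroup.card_subgroup_dvd_card _
            obtain ⟨a, ha⟩ := IsPGroup.iff_card.1 P.2
            obtain ⟨b, hb⟩ := IsPGroup.iff_card.1 R.2
            rw [ha, hb, hk] at h1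
            have h2 : (s ^ k).Coprime (p ^ a * r ^ b) := Nat.Coprime.mul_right 
              (Nat.Coprime.pow _ _ ((Nat.coprime_primes hs hp).2 hsp)) (Nat.Coprime.pow _ _ ((Nat.coprime_primes hs hr).2 hsr))
            rw [hk]
            exact Nat.eq_one_of_dvd_coprimes h2 dvd_rfl h1
          intro a ha b hb
          rw [this, Subgroup.mem_bot] at ha
          rw [ha]
          rw [commutatorElement_one_left]; exact one_mem _
    have hL : K.comap (QuotientGroup.mk' D) ≠ ⊤ := by
      intro h
      apply hK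
      rw [← Subgroup.map_comap_eq_self_of_surjective (QuotientGroup.mk'_surjective D) K, h, ← MonoidHom.range_eq_map]
      exact MonoidHom.range_eq_top.2 (QuotientGroup.mk'_surjective D)
    haveI := hsub _ hL
    haveI hKn : Group.IsNilpotent K := by
      have h1 := CfsgH1.isNilpotent_map (QuotientGroup.mk' D) this
      rwa [Subgroup.map_comap_eq_self_of_surjective (QuotientGroup.mk'_surjective D) K] at h1
    refine ⟨⟨CfsgH1.comm_of_nilpotent_primary ?_⟩⟩
    intro s hs S hS x hx y hy
    apply Subtype.ext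
    exact hprim s hs (S.map K.subtype) (hS.map K.subtype) x ⟨x, hx, rfl⟩ y ⟨y, hy, rfl⟩

end Cfsg.Agent.S0577
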