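import Cfsg.Statements.S0578
import Cfsg.Agent.H1.MinNon
import Cfsg.Agent.H1.PNilp

set_option autoImplicit false
open Cfsg

namespace Cfsg.Agent.S0578

open scoped commutatorElement Pointwise

/-- If in a finite group the normalizer of each abelian subgroup coincides with its centralizer, then the group is abelian. -/
theorem result {G : Type*} [Group G] [Finite G] (h : ∀ A : Subgroup G, IsMulCommutative A → Subgroup.normalizer (A : Set G) = Subgroup.centralizer (A : Set G)) : IsMulCommutative G := by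
  have habc : ∀ A : Subgroup G, (∀ x ∈ A, ∀ y ∈ A, x * y = y * x) → Subgroup.normalizer (A : Set G) = Subgroup.centralizer (A : Set G) := by
    intro A hA
    exact h A ⟨⟨fun a b => Subtype.ext (hA a a.2 b b.2)⟩⟩
  -- Sylow subgroups are abelian
  have hS : ∀ p : ℕ, p.Prime → ∀ P : Sylow p G, ∀ x ∈ (P : Subgroup G), ∀ y ∈ (P : Subgroup G), x * y = y * x := by
    intro p hp P
    haveI : Fact p.Prime := ⟨hp⟩
    haveI : Group.IsNilpotent (P : Subgroup G) := P.2.isNilpotent
    obtain ⟨A, ⟨hAn, hAab⟩, hAmax⟩ := CfsgH1.exists_maximal_of_set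
      {N : Subgroup (P : Subgroup G) | N.Normal ∧ ∀ x ∈ N, ∀ y ∈ N, x * y = y * x}
      ⟨⊥, inferInstance, by
        intro x hx y hy
        rw [Subgroup.mem_bot] at hx hy
        rw [hx, hy]⟩
    haveI := hAn
    have hAc := CfsgH1.centralizer_eq_of_max_abelian_normal (N := A) hAab (fun M hM hMab hle => hAmax M ⟨hM, hMab⟩ hle)
    have h1 := habc (A.map (P : Subgroup G).subtype) (by
      rintro _ ⟨x, hx, rfl⟩ _ ⟨y, hy, rfl⟩
      exact congrArg Subtype.val (hAab x hx y hy))
    have h2 : (P : Subgroup G) ≤ Subgroup.centralizer (A.map (P : Subgroup G).subtype : Set G) := by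
      rw [← h1]
      apply CfsgH1.le_normalizer_of_normal_subgroupOf (Subgroup.map_subtype_le A)
      rw [Subgroup.subgroupOf, Subgroup.comap_map_eq_self_of_injective (P : Subgroup G).subtype_injective]
      exact hAn
    have h3 : A = ⊤ := by
      rw [← hAc, eq_top_iff]
      intro x _
      rw [Subgroup.mem_centralizer_iff]
      intro y hy
      apply Subtype.ext
      exact Subgroup.mem_centralizer_iff.1 (h2 x.2) (y : G) ⟨y, hy, rfl⟩
    intro x hx y hy
    have := hAab ⟨x, hx⟩ (by rw [h3]; trivial) ⟨y, hy⟩ (by rw [h3]; trivial)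
    exact congrArg Subtype.val this
  have hnpc : ∀ p : ℕ, p.Prime → Cfsg.HasNormalPComplement p G := by
    intro p hp
    haveI : Fact p.Prime := ⟨hp⟩
    obtain ⟨P⟩ := (inferInstance : Nonempty (Sylow p G))
    exact CfsgH1.burnside_npc P (habc _ (hS p hp P)).le
  -- each commutator has trivial p-part
  have hcomm : ∀ x y : G, ⁅x, y⁆ = 1 := by
    intro x y
    rw [← orderOf_eq_one_iff]
    by_contra hne
    obtain ⟨p, hp, hpd⟩ := Nat.exists_prime_and_dvd hne
    haveI : Fact p.Prime := ⟨hp⟩
    obtain ⟨N, hN, hNc, k, hk⟩ := CfsgH1.hasNPC_iff.1 (hnpc p hp)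
    obtain ⟨P⟩ := (inferInstance : Nonempty (Sylow p G))
    have hcompl := CfsgH1.hasNPC_isComplement' hNc hk P
    have hmem : ⁅x, y⁆ ∈ N := by
      rw [← QuotientGroup.eq_one_iff]
      have hq : ∀ a b : G ⧸ N, a * b = b * a := by
        have hsurj := CfsgH1.quotient_surjective_of_sup N (H := (P : Subgroup G)) hcompl.sup_eq_top
        intro a b
        obtain ⟨u, rfl⟩ := hsurj a
        obtain ⟨v, rfl⟩ := hsurj b
        rw [← map_mul, ← map_mul]
        congr 1
        exact Subtype.ext (hS p hp P u u.2 v v.2)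
      have e1 : ((⁅x, y⁆ : G) : G ⧸ N) = ⁅(x : G ⧸ N), (y : G ⧸ N)⁆ := map_commutatorElement (QuotientGroup.mk' N) x y
      rw [e1, commutatorElement_eq_one_iff_mul_comm]
      exact hq _ _
    exact hNc (hpd.trans (Subgroup.orderOf_dvd_natCard N hmem))
  exact ⟨⟨fun x y => commutatorElement_eq_one_iff_mul_comm.1 (hcomm x y)⟩⟩

end Cfsg.Agent.S0578
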