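import Cfsg.Statements.S0582
import Cfsg.Agent.H1.SSolv3
import Cfsg.Agent.H1.CoprimeSylow

set_option autoImplicit false
open Pointwise
open Cfsg

namespace Cfsg.Agent.S0582

open scoped commutatorElement Pointwise

theorem main (n : ℕ) : ∀ {G : Type*} [Group G] [Finite G] (H K : Subgroup G) (_ : Cfsg.IsSupersolvable H) (_ : Cfsg.IsSupersolvable K) 
    (_ : Nat.card H = Nat.card K) (_ : (Nat.card H).Coprime H.index) (_ : Nat.card H = n), ∃ x : G, MulAut.conj x • H = K := by
  induction n using Nat.strong_induction_on with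
  | _ n IH =>
  intro G _ _ H K hH hK hcard hHall hn
  by_cases hH1 : Nat.card H = 1
  · have h1 : H = ⊥ := Subgroup.card_eq_one.1 hH1
    have h2 : K = ⊥ := Subgroup.card_eq_one.1 (hcard ▸ hH1)
    refine ⟨1, ?_⟩
    rw [h1, h2]; exact CfsgH1.conj_smul_of_mem (one_mem _)
  haveI : Nontrivial H := by
    rw [Subgroup.nontrivial_iff_ne_bot]
    rintro rfl
    exact hH1 Subgroup.card_bot
  obtain ⟨p, hp, hpd, hmax⟩ := CfsgH1.exists_max_prime (G := H)
  haveI : Fact p.Prime := ⟨hp⟩
  have hKindex : K.index = H.index := by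
    have e1 := Subgroup.card_mul_index H
    have e2 := Subgroup.card_mul_index K
    rw [← hcard] at e2
    exact Nat.eq_of_mul_eq_mul_left Nat.card_pos (e2.trans e1.symm)
  -- Sylow p-subgroups
  have hsyl : ∀ L : Subgroup G, Nat.card L = Nat.card H → L.index = H.index → Cfsg.IsSupersolvable L → 
      ∃ P : Subgroup G, CfsgH1.IsSylowOf p P L ∧ CfsgH1.IsSylowOf p P ⊤ ∧ L ≤ Subgroup.normalizer (P : Set G) := by
    intro L hLc hLi hLs
    obtain ⟨P⟩ := (inferInstance : Nonempty (Sylow p L))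
    have hPn := CfsgH2.IsSupersolvable.sylow_normal _ L rfl hLs (by rw [hLc]; exact hmax) P
    have hP : CfsgH1.IsSylowOf p ((P : Subgroup L).map L.subtype) L := ⟨P, rfl⟩
    refine ⟨(P : Subgroup L).map L.subtype, hP, ?_, ?_⟩
    · obtain ⟨h1, h2, h3⟩ := CfsgH1.isSylowOf_iff.1 hP
      rw [CfsgH1.isSylowOf_iff]
      refine ⟨le_top, h2, ?_⟩
      rw [Subgroup.relIndex_top_right, ← Subgroup.relIndex_mul_index h1]
      intro h4
      rcases hp.dvd_mul.1 h4 with h5 | h5
      · exact h3 h5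
      · rw [hLi] at h5
        exact hp.one_lt.ne' (Nat.eq_one_of_dvd_coprimes hHall hpd h5)
    · apply CfsgH1.le_normalizer_of_normal_subgroupOf (Subgroup.map_subtype_le _)
      rw [Subgroup.subgroupOf, Subgroup.comap_map_eq_self_of_injective L.subtype_injective]
      exact hPn
  obtain ⟨P, hPH, hPt, hPN⟩ := hsyl H rfl rfl hH
  obtain ⟨R, hRK, hRt, hRN⟩ := hsyl K hcard.symm hKindex hK
  obtain ⟨x, -, hx⟩ := CfsgH1.isSylowOf_conj_trans hRt hPt
  -- replace K by conj x K
  suffices hgoal : ∃ y : G, MulAut.conj y • H = MulAut.conj x • K by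
    obtain ⟨y, hy⟩ := hgoal
    refine ⟨x⁻¹ * y, ?_⟩
    rw [map_mul, mul_smul, hy, ← mul_smul, ← map_mul, inv_mul_cancel, map_one, one_smul]
  set K' : Subgroup G := MulAut.conj x • K with hK'
  have hK's : Cfsg.IsSupersolvable K' := CfsgH1.supersolvable_congr (Subgroup.equivSMul (MulAut.conj x) K) hK
  have hK'c : Nat.card K' = Nat.card H := by rw [hK', CfsgH1.card_conj_smul, hcard]
  have hPK' : P ≤ K' := by
    rw [← hx]; exact CfsgH1.conj_smul_mono x (CfsgH1.isSylowOf_le hRK)
  have hK'N : K' ≤ Subgroup.normalizer (P : Set G) := by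
    rw [CfsgH1.le_normalizer_iff_conj]
    intro a ha b hb
    rw [← hx, CfsgH1.mem_conj_smul] at hb ⊢
    rw [hK', CfsgH1.mem_conj_smul] at ha
    have := (CfsgH1.le_normalizer_iff_conj.1 hRN) _ ha _ hb
    have e : x⁻¹ * a * x * (x⁻¹ * b * x) * (x⁻¹ * a * x)⁻¹ = x⁻¹ * (a * b * a⁻¹) * x := by group
    rwa [e] at this
  -- pass to N/P
  set N := Subgroup.normalizer (P : Set G) with hN
  have hPne : P ≠ ⊥ := by
    rintro rfl
    have h1 := (CfsgH1.isSylowOf_iff.1 hPH).2.2
    rw [Subgroup.relIndex_bot_left] at h1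
    exact h1 hpd
  have hPle : P ≤ N := Subgroup.le_normalizer
  haveI hPn : (P.subgroupOf N).Normal := CfsgH1.normal_subgroupOf_of_le_normalizer le_rfl
  let π := QuotientGroup.mk' (P.subgroupOf N)
  have hker : ∀ L : Subgroup G, P ≤ L → (P.subgroupOf N) ≤ L.subgroupOf N := fun L hL => Subgroup.comap_mono hL
  have hcard2 : ∀ L : Subgroup G, P ≤ L → L ≤ N → Nat.card ((L.subgroupOf N).map π) * Nat.card P = Nat.card L := by
    intro L hL hLN
    have h1 := CfsgH1.card_map_mul_card_ker_of_le π (L.subgroupOf N) (by rw [QuotientGroup.ker_mk']; exact hker L hL)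
    rw [QuotientGroup.ker_mk'] at h1
    rw [← Nat.card_congr (Subgroup.subgroupOfEquivOfLe hLN).toEquiv, ← h1, Nat.card_congr (Subgroup.subgroupOfEquivOfLe hPle).toEquiv]
  have hPcard : 1 < Nat.card P := by rw [Subgroup.one_lt_card_iff_ne_bot]; exact hPne
  have hPleH : P ≤ H := CfsgH1.isSylowOf_le hPH
  have hc1 := hcard2 H hPleH hPN
  have hc2 := hcard2 K' hPK' hK'N
  have hss : ∀ L : Subgroup G, L ≤ N → Cfsg.IsSupersolvable L → Cfsg.IsSupersolvable ((L.subgroupOf N).map π) := by
    intro L hLN hL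
    have h1 : Cfsg.IsSupersolvable (L.subgroupOf N) := CfsgH1.supersolvable_congr (Subgroup.subgroupOfEquivOfLe hLN).symm hL
    exact CfsgH2.IsSupersolvable.map (π.subgroupMap _) (π.subgroupMap_surjective _) h1
  obtain ⟨y', hy'⟩ := IH (Nat.card ((H.subgroupOf N).map π)) (by
      have h1 : 0 < Nat.card ((H.subgroupOf N).map π) := Nat.card_pos
      rw [← hn, ← hc1]; nlinarith) ((H.subgroupOf N).map π) ((K'.subgroupOf N).map π) (hss H hPN hH) (hss K' hK'N hK's) 
      (by
        rw [hK'c, ← hc1] at hc2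
        exact (Nat.eq_of_mul_eq_mul_right Nat.card_pos hc2).symm) (by
        have h1 : Nat.card ((H.subgroupOf N).map π) ∣ Nat.card H := ⟨_, hc1.symm⟩
        have h2 : ((H.subgroupOf N).map π).index ∣ H.index := by
          rw [Subgroup.index_map, QuotientGroup.ker_mk', sup_eq_left.2 (hker H hPleH), MonoidHom.range_eq_top.2 (QuotientGroup.mk'_surjective _),
            Subgroup.index_top, mul_one]
          exact Subgroup.relIndex_dvd_index_of_le hPN
        exact Nat.Coprime.coprime_dvd_left h1 (Nat.Coprime.coprime_dvd_right h2 hHall)) rfl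
  obtain ⟨y, rfl⟩ := QuotientGroup.mk'_surjective _ y'
  refine ⟨(y : G), ?_⟩
  apply Subgroup.eq_of_le_of_card_ge
  · intro z hz
    rw [CfsgH1.mem_conj_smul] at hz
    have hzN : z ∈ N := by
      have h1 : (y : G)⁻¹ * z * y ∈ N := hPN hz
      have h2 := N.mul_mem (N.mul_mem y.2 h1) (N.inv_mem y.2)
      have e : (y : G) * ((y : G)⁻¹ * z * y) * (y : G)⁻¹ = z := by group
      rwa [e] at h2
    have h3 : π ⟨z, hzN⟩ ∈ MulAut.conj (π y) • (H.subgroupOf N).map π := by
      rw [CfsgH1.mem_conj_smul]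
      refine ⟨y⁻¹ * ⟨z, hzN⟩ * y, hz, ?_⟩
      rw [map_mul, map_mul, map_inv]
    rw [hy'] at h3
    obtain ⟨w, hw, hwe⟩ := h3
    have h4 : w⁻¹ * ⟨z, hzN⟩ ∈ P.subgroupOf N := QuotientGroup.eq.1 hwe
    have h5 : (w : G)⁻¹ * z ∈ K' := hPK' h4
    have h6 := K'.mul_mem (show (w : G) ∈ K' from hw) h5
    rwa [mul_inv_cancel_left] at h6
  · rw [hK'c, CfsgH1.card_conj_smul]

/-- Let H and K be supersolvable subgroups of a finite group G of the same order, that order being coprime to their index. Then H and K are conjugate in G. -/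
theorem result {G : Type*} [Group G] [Finite G] (H K : Subgroup G) (hH : Cfsg.IsSupersolvable H) (hK : Cfsg.IsSupersolvable K) (hcard : Nat.card H = Nat.card K) (hHall : (Nat.card H).Coprime H.index) : ∃ x : G, MulAut.conj x • H = K := by

  exact main _ H K hH hK hcard hHall rfl

end Cfsg.Agent.S0582
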