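import Cfsg.Statements.S0583
import Cfsg.Agent.H1.CopExtra
import Cfsg.Agent.H1.PGrp2
import Cfsg.Agent.H2.Fitting

set_option autoImplicit false
open Cfsg

namespace Cfsg.Agent.S0583

open scoped commutatorElement Pointwise

/-- In a finite group the Fitting subgroup is contained in the centralizer of each minimal normal subgroup. -/
theorem result {G : Type*} [Group G] [Finite G] (M : Subgroup G) [M.Normal] (hM : M ≠ ⊥) (hmin : ∀ K : Subgroup G, K.Normal → K ≤ M → K = ⊥ ∨ K = M) : Cfsg.fittingSubgroup G ≤ Subgroup.centralizer (M : Set G) := by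
  have hF : Group.IsNilpotent (Cfsg.fittingSubgroup G) := CfsgH2.isNilpotent_fittingSubgroup
  have hFn : (Cfsg.fittingSubgroup G).Normal := inferInstance
  by_cases hMF : M ≤ Cfsg.fittingSubgroup G
  · have h1 := CfsgH1.inf_centralizer_ne_bot_of_nilpotent hF hMF (CfsgH1.le_normalizer_of_normal _ M) hM
    have hn : (M ⊓ Subgroup.centralizer (Cfsg.fittingSubgroup G : Set G)).Normal := inferInstance
    have h2 := (hmin _ hn inf_le_left).resolve_left h1
    have h3 : M ≤ Subgroup.centralizer (Cfsg.fittingSubgroup G : Set G) := by rw [← h2]; exact inf_le_right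
    exact Subgroup.le_centralizer_iff.1 h3
  · have hn : (M ⊓ Cfsg.fittingSubgroup G).Normal := inferInstance
    have h2 : M ⊓ Cfsg.fittingSubgroup G = ⊥ := by
      rcases hmin _ hn inf_le_left with h | h
      · exact h
      · exact absurd (inf_eq_left.1 h) hMF
    have h3 : ⁅Cfsg.fittingSubgroup G, M⁆ = ⊥ := by
      rw [eq_bot_iff, ← h2]
      exact le_inf (Subgroup.commutator_le_right _ _) (Subgroup.commutator_le_left _ _)
    exact CfsgH1.le_centralizer_iff_commutator.2 h3

end Cfsg.Agent.S0583
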