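import Cfsg.Statements.S0584
import Cfsg.Agent.H1.CopExtra

set_option autoImplicit false
open Cfsg

namespace Cfsg.Agent.S0584

open scoped commutatorElement Pointwise

/-- Let B ≤ A be normal subgroups of a finite group G with B contained in the Frattini subgroup of G. If A modulo B is nilpotent then A is nilpotent. -/
theorem result {G : Type*} [Group G] [Finite G] (A B : Subgroup G) [A.Normal] [B.Normal] (hBA : B ≤ A) (hB : B ≤ frattini G) (h : Group.IsNilpotent (↥A ⧸ B.subgroupOf A)) : Group.IsNilpotent A := by
  apply CfsgH1.isNilpotent_of_map_quotient hB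
  let f : (↥A ⧸ B.subgroupOf A) →* A.map (QuotientGroup.mk' B) := 
    QuotientGroup.lift (B.subgroupOf A) ((QuotientGroup.mk' B).subgroupMap A) (by
      intro x hx
      apply Subtype.ext
      exact (QuotientGroup.eq_one_iff (x : G)).2 hx)
  have hf : Function.Surjective f := by
    intro y
    obtain ⟨x, hx⟩ := (QuotientGroup.mk' B).subgroupMap_surjective A y
    exact ⟨(x : ↥A ⧸ B.subgroupOf A), hx⟩
  exact Group.nilpotent_of_surjective f hf

end Cfsg.Agent.S0584
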