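import Cfsg.Statements.S0586
import Cfsg.Agent.H1.Frat2

set_option autoImplicit false
open Cfsg

namespace Cfsg.Agent.S0586

open scoped commutatorElement Pointwise

/-- If the Frattini subgroup of a finite group G is trivial, then the Fitting subgroup of G equals the join of all abelian minimal normal subgroups of G. -/
theorem result {G : Type*} [Group G] [Finite G] (hΦ : frattini G = ⊥) : Cfsg.fittingSubgroup G = sSup {N : Subgroup G | N.Normal ∧ N ≠ ⊥ ∧ IsMulCommutative N ∧ ∀ K : Subgroup G, K.Normal → K ≤ N → K = ⊥ ∨ K = N} := by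
  exact CfsgH1.fitting_eq_sSup_of_frattini hΦ

end Cfsg.Agent.S0586
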