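import Cfsg.Statements.S0588
import Cfsg.Agent.H1.Syl

set_option autoImplicit false
open Cfsg

namespace Cfsg.Agent.S0588

open scoped commutatorElement Pointwise

/-- If a subgroup H of a finite group G contains the centralizer of every non-identity element of H, then the order of H is coprime to its index. -/
theorem result {G : Type*} [Group G] [Finite G] (H : Subgroup G) (h : ∀ x ∈ H, x ≠ 1 → Subgroup.centralizer ({x} : Set G) ≤ H) : (Nat.card H).Coprime H.index := by
  rw [Nat.coprime_iff_gcd_eq_one]
  by_contra hne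
  obtain ⟨p, hp, hpd⟩ := Nat.exists_prime_and_dvd hne
  have hpH : p ∣ Nat.card H := hpd.trans (Nat.gcd_dvd_left _ _)
  have hpi : p ∣ H.index := hpd.trans (Nat.gcd_dvd_right _ _)
  haveI : Fact p.Prime := ⟨hp⟩
  obtain ⟨x, hx⟩ := exists_prime_orderOf_dvd_card' (G := H) p hpH
  have hxo : orderOf (x : G) = p := by rw [Subgroup.orderOf_coe]; exact hx
  have hx1 : (x : G) ≠ 1 := by
    intro e; rw [e, orderOf_one] at hxo; exact hp.one_lt.ne hxo
  have hxp : IsPGroup p (Subgroup.zpowers (x : G)) := by
    apply IsPGroup.of_card (n := 1)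
    rw [Nat.card_zpowers, hxo, pow_one]
  obtain ⟨S, hS⟩ := hxp.exists_le_sylow
  have hSn : Nontrivial (S : Subgroup G) := by
    rw [Subgroup.nontrivial_iff_ne_bot]
    intro e
    apply hx1
    have := hS (Subgroup.mem_zpowers (x : G))
    change (x : G) ∈ (S : Subgroup G) at this
    rwa [e, Subgroup.mem_bot] at this
  haveI := S.2.center_nontrivial
  obtain ⟨z, hz⟩ := exists_ne (1 : Subgroup.center (S : Subgroup G))
  have hz1 : ((z : (S : Subgroup G)) : G) ≠ 1 := fun e => hz (Subtype.ext (Subtype.ext e))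
  have hzc : ∀ s ∈ (S : Subgroup G), s * ((z : (S : Subgroup G)) : G) = ((z : (S : Subgroup G)) : G) * s := by
    intro s hs
    exact congrArg Subtype.val (Subgroup.mem_center_iff.1 z.2 ⟨s, hs⟩)
  have hzH : ((z : (S : Subgroup G)) : G) ∈ H := by
    apply h x x.2 hx1
    rw [Subgroup.mem_centralizer_iff]
    intro y hy
    rw [Set.mem_singleton_iff] at hy
    subst hy
    exact hzc _ (hS (Subgroup.mem_zpowers _))
  have hSH : (S : Subgroup G) ≤ H := by
    intro s hs
    apply h _ hzH hz1
    rw [Subgroup.mem_centralizer_iff]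
    intro y hy
    rw [Set.mem_singleton_iff] at hy
    subst hy
    exact (hzc s hs).symm
  have h1 : H.index ∣ (S : Subgroup G).index := Subgroup.index_dvd_of_le hSH
  exact S.not_dvd_index (hpi.trans h1)

end Cfsg.Agent.S0588
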