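import Cfsg.Statements.S0589
import Cfsg.Agent.H1.FrobConj

set_option autoImplicit false
open Pointwise
open Cfsg

namespace Cfsg.Agent.S0589

open scoped commutatorElement Pointwise

/-- Let H be a Frobenius complement in a finite group G and L a subgroup of G whose order divides the order of H. Then L is contained in some conjugate of H. -/
theorem result {G : Type*} [Group G] [Finite G] (H : Subgroup G) (hH : Cfsg.IsFrobeniusComplement H) (L : Subgroup G) (hL : Nat.card L ∣ Nat.card H) : ∃ x : G, L ≤ MulAut.conj x • H := by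
  by_cases hb : L = ⊥
  · exact ⟨1, by rw [hb]; exact bot_le⟩
  obtain ⟨g, hg⟩ := CfsgH1.le_conj_of_forall_conjEl hH.2.2 hb (fun x hx hx1 => 
    CfsgH1.conjEl_of_orderOf hH.2.2 hx1 ((by
      rw [← Subgroup.orderOf_mk x hx]; exact orderOf_dvd_natCard _ : orderOf x ∣ Nat.card L).trans hL))
  refine ⟨g, ?_⟩
  intro x hx
  rw [CfsgH1.mem_conj_smul]
  exact hg x hx

end Cfsg.Agent.S0589
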