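import Cfsg.Statements.S0594
import Cfsg.Agent.H1.SL2Sec2
import Cfsg.Agent.H1.Quad

set_option autoImplicit false
open Cfsg

namespace Cfsg.Agent.S0594

open scoped commutatorElement Pointwise

/-- For odd p, two quadratic generators of a faithful group that is not a p-group, one of which acts nontrivially on a normal subgroup of order prime to p, force p = 3 and a section isomorphic to SL(2,3). -/
theorem result {G : Type*} [Group G] [Finite G] {p : ℕ} [Fact p.Prime] (hp : p ≠ 2) (V H : Subgroup G) (hV : Cfsg.IsElementaryAbelian p V) (hHV : H ≤ Subgroup.normalizer (V : Set G)) (hf : H ⊓ Subgroup.centralizer (V : Set G) = ⊥) (a b : G) (hab : H = Subgroup.closure {a, b}) (ha : ⁅⁅V, Subgroup.zpowers a⁆, Subgroup.zpowers a⁆ = ⊥) (hb : ⁅⁅V, Subgroup.zpowers b⁆, Subgroup.zpowers b⁆ = ⊥) (hnp : ¬ IsPGroup p H) (Q : Subgroup G) (hQH : Q ≤ H) (hQn : H ≤ Subgroup.normalizer (Q : Set G)) (hQ : (Nat.card Q).Coprime p) (hQa : ⁅Q, Subgroup.zpowers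 a⁆ ≠ ⊥) : p = 3 ∧ ∃ (K L : Subgroup G) (hL : (L.subgroupOf K).Normal), K ≤ H ∧ Nonempty ((K ⧸ L.subgroupOf K) ≃* Matrix.SpecialLinearGroup (Fin 2) (ZMod 3)) := by
  have haH : a ∈ H := by rw [hab]; exact Subgroup.subset_closure (by simp)
  have haV : Subgroup.zpowers a ≤ Subgroup.normalizer (V : Set G) := by
    rw [Subgroup.zpowers_le]; exact hHV haH
  have hap : a ^ p = 1 := by
    have h1 := CfsgH1.quad_pow hV haV ha (Subgroup.mem_zpowers a)
    have h2 : a ^ p ∈ H ⊓ Subgroup.centralizer (V : Set G) := ⟨H.pow_mem haH p, h1⟩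
    rwa [hf, Subgroup.mem_bot] at h2
  have hapg : IsPGroup p (Subgroup.zpowers a) := by
    rintro ⟨v, k, rfl⟩
    refine ⟨1, Subtype.ext ?_⟩
    change (a ^ k) ^ (p ^ 1) = 1
    rw [pow_one, ← zpow_natCast, ← zpow_mul, mul_comm, zpow_mul, zpow_natCast, hap, one_zpow]
  set H₀ := Q ⊔ Subgroup.zpowers a with hH₀
  have hzH : Subgroup.zpowers a ≤ H := by rw [Subgroup.zpowers_le]; exact haH
  have hH₀H : H₀ ≤ H := sup_le hQH hzH
  have haH₀ : a ∈ H₀ := Subgroup.mem_sup_right (Subgroup.mem_zpowers a)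
  have hQn₀ : H₀ ≤ Subgroup.normalizer (Q : Set G) := hH₀H.trans hQn
  haveI hQno : (Q.subgroupOf H₀).Normal := CfsgH1.normal_subgroupOf_of_le_normalizer hQn₀
  have hQcard : Nat.card (Q.subgroupOf H₀) = Nat.card Q := Nat.card_congr (Subgroup.subgroupOfEquivOfLe le_sup_left).toEquiv
  have hs : Cfsg.IsPSolvable p H₀ := by
    apply CfsgH1.isPSolvable_of_quotient (Q.subgroupOf H₀)
    · right; rw [hQcard]; exact hQ
    · apply CfsgH1.isPSolvable_of_isSolvable _ _ rfl
      have hsurj : Function.Surjective ((QuotientGroup.mk' (Q.subgroupOf H₀)).comp (Subgroup.inclusion (le_sup_right : Subgroup.zpowers a ≤ H₀))) := by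
        intro x
        obtain ⟨⟨y, hy⟩, rfl⟩ := QuotientGroup.mk'_surjective _ x
        obtain ⟨u, hu, v, hv, huv⟩ := (CfsgH1.mem_sup_of_le_normalizer' (hzH.trans hQn)).1 hy
        refine ⟨⟨v, hv⟩, ?_⟩
        change (QuotientGroup.mk _ : H₀ ⧸ Q.subgroupOf H₀) = QuotientGroup.mk _
        rw [QuotientGroup.eq]
        change v⁻¹ * y ∈ Q
        rw [← huv]
        have h5 := CfsgH1.le_normalizer_iff_conj.1 (hzH.trans hQn) v⁻¹ (inv_mem hv) u hu
        rwa [inv_inv, mul_assoc] at h5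
      haveI : Group.IsSolvable (Subgroup.zpowers a) := CfsgH1.isSolvable_of_isPGroup hapg
      exact Group.isSolvable_of_surjective hsurj
  have hna : a ∉ (Cfsg.pCore p H₀).map H₀.subtype := by
    intro hmem
    apply hQa
    have hle : Subgroup.zpowers a ≤ (Cfsg.pCore p H₀).map H₀.subtype := by rw [Subgroup.zpowers_le]; exact hmem
    have h1 : ⁅Q.subgroupOf H₀, Cfsg.pCore p H₀⁆ = ⊥ := by
      rw [eq_bot_iff]
      refine (Subgroup.commutator_le_inf _ _).trans ?_
      apply le_of_eq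
      apply CfsgH1.inf_eq_bot_of_coprime
      obtain ⟨k, hk⟩ := IsPGroup.iff_card.1 (CfsgH2.isPGroup_pCore (G := H₀) p)
      rw [hQcard, hk]
      exact Nat.Coprime.pow_right _ hQ
    have h2 : ⁅Q, Subgroup.zpowers a⁆ ≤ (⁅Q.subgroupOf H₀, Cfsg.pCore p H₀⁆).map H₀.subtype := by
      rw [Subgroup.map_commutator, Subgroup.map_subgroupOf_eq_of_le le_sup_left]
      exact Subgroup.commutator_mono (le_refl _) hle
    rw [h1, Subgroup.map_bot] at h2
    exact le_bot_iff.1 h2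
  have hf₀ : H₀ ⊓ Subgroup.centralizer (V : Set G) = ⊥ := by
    rw [eq_bot_iff, ← hf]; exact inf_le_inf_right _ hH₀H
  obtain ⟨K, hKH, f, hfs⟩ := CfsgH1.quad_sl2 hp hV (hH₀H.trans hHV) hf₀ haH₀ ha hna
  obtain ⟨h3, K', L', hL', hK', hne⟩ := CfsgH1.three_of_psolvable hp hs hKH f hfs
  exact ⟨h3, K', L', hL', hK'.trans hH₀H, hne⟩

end Cfsg.Agent.S0594
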