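import Cfsg.Statements.S0597
import Cfsg.Agent.H1.Quad
import Cfsg.Agent.H1.Ito

set_option autoImplicit false
open Cfsg

namespace Cfsg.Agent.S0597

open scoped commutatorElement Pointwise

/-- If two subnormal subgroups of a faithful group on an elementary abelian p-group satisfy [V, E₁, E₂] = 1, then their commutator lies in the largest normal p-subgroup. -/
theorem result {G : Type*} [Group G] [Finite G] {p : ℕ} [Fact p.Prime] (V H : Subgroup G) (hV : Cfsg.IsElementaryAbelian p V) (hHV : H ≤ Subgroup.normalizer (V : Set G)) (hf : H ⊓ Subgroup.centralizer (V : Set G) = ⊥) (E₁ E₂ : Subgroup G) (h₁ : E₁ ≤ H) (h₂ : E₂ ≤ H) (hs₁ : (E₁.subgroupOf H).IsSubnormal) (hs₂ : (E₂.subgroupOf H).IsSubnormal) (hc : ⁅⁅V, E₁⁆, E₂⁆ = ⊥) : ⁅E₁, E₂⁆ ≤ (Cfsg.pCore p H).map H.subtype := by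
  have h1V := h₁.trans hHV
  have h2V := h₂.trans hHV
  have hst := CfsgH1.stab_commutator (CfsgH1.elemAb_comm hV) h1V h2V hc
  have hWV : ⁅V, E₁⁆ ≤ V := by rw [← Subgroup.le_normalizer_iff_commutator_le_left]; exact h1V
  have hXH : ⁅E₁, E₂⁆ ≤ H := by
    rw [Subgroup.commutator_le]
    intro a ha b hb
    exact H.mul_mem (H.mul_mem (H.mul_mem (h₁ ha) (h₂ hb)) (H.inv_mem (h₁ ha))) (H.inv_mem (h₂ hb))
  have hXp : IsPGroup p (⁅E₁, E₂⁆ : Subgroup G) := by
    apply CfsgH1.isPGroup_of_forall_pow_eq_one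
    intro x hx
    have h3 := CfsgH1.stab_pow hWV hV.2 (hst hx)
    have h4 : x ^ p ∈ H ⊓ Subgroup.centralizer (V : Set G) := ⟨H.pow_mem (hXH hx) p, h3⟩
    rwa [hf, Subgroup.mem_bot] at h4
  have hsub : (⁅E₁, E₂⁆.subgroupOf H).IsSubnormal := by
    have h5 := CfsgH1.isSubnormal_sup hs₁ hs₂
    refine Subgroup.IsSubnormal.step _ (E₁.subgroupOf H ⊔ E₂.subgroupOf H) ?_ h5 ?_
    · rw [← Subgroup.subgroupOf_sup h₁ h₂]
      intro x hx
      have hx' : (x : G) ∈ ⁅E₁, E₂⁆ := hx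
      have h6 : ⁅E₁, E₂⁆ ≤ E₁ ⊔ E₂ := by
        rw [Subgroup.commutator_le]
        intro a ha b hb
        exact mul_mem (mul_mem (mul_mem (Subgroup.mem_sup_left ha) (Subgroup.mem_sup_right hb)) (inv_mem (Subgroup.mem_sup_left ha))) (inv_mem (Subgroup.mem_sup_right hb))
      exact h6 hx'
    · apply CfsgH1.normal_subgroupOf_of_le_normalizer
      rw [← Subgroup.subgroupOf_sup h₁ h₂]
      have h7 : E₁ ⊔ E₂ ≤ Subgroup.normalizer ((⁅E₁, E₂⁆ : Subgroup G) : Set G) := 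
        sup_le (CfsgH1.le_normalizer_commutator_left _ _) (CfsgH1.le_normalizer_commutator_right _ _)
      exact CfsgH1.le_normalizer_subgroupOf h7
  have h8 := CfsgH2.IsSubnormal.le_pCore hsub hXp.comap_subtype
  intro x hx
  exact ⟨⟨x, hXH hx⟩, h8 hx, rfl⟩

end Cfsg.Agent.S0597
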