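import Cfsg.Statements.S0601
import Cfsg.Agent.H1.Thomp2

set_option autoImplicit false
open Cfsg

namespace Cfsg.Agent.S0601

open scoped commutatorElement Pointwise

/-- When O_p(G) contains its centralizer, the normal closure of Ω₁(Z(S)) is elementary abelian and G has no nontrivial normal p-subgroup modulo its centralizer. -/
theorem result {G : Type*} [Group G] [Finite G] {p : ℕ} [Fact p.Prime] (hc : Subgroup.centralizer (Cfsg.pCore p G : Set G) ≤ Cfsg.pCore p G) : (⨆ S : Sylow p G, Cfsg.omegaOne p (((S : Subgroup G)) ⊓ Subgroup.centralizer ((S : Subgroup G) : Set G))).Normal ∧ Cfsg.IsElementaryAbelian p (⨆ S : Sylow p G, Cfsg.omegaOne p (((S : Subgroup G)) ⊓ Subgroup.centralizer ((S : Subgroup G) : Set G))) ∧ ∀ D : Subgroup G, D.Normal → Subgroup.centralizer ((⨆ S : Sylow p G, Cfsg.omegaOne p (((S : Subgroup G)) ⊓ Subgroup.centralizer ((S : Subgroup G) : Set G)) : Subgroup G) : Set G) ≤ D → (∃ k : ℕ, (Subgroup.centralizer ((⨆ S : Sylow p G, Cfsg.omegaOne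 p (((S : Subgroup G)) ⊓ Subgroup.centralizer ((S : Subgroup G) : Set G)) : Subgroup G) : Set G)).relIndex D = p ^ k) → D = Subgroup.centralizer ((⨆ S : Sylow p G, Cfsg.omegaOne p (((S : Subgroup G)) ⊓ Subgroup.centralizer ((S : Subgroup G) : Set G)) : Subgroup G) : Set G) := by
  haveI hn := CfsgH1.VV_normal (G := G) p
  refine ⟨hn, CfsgH1.VV_elemAb hc, ?_⟩
  intro D hD hCD hk
  obtain ⟨k, hk⟩ := hk
  haveI := hD
  refine le_antisymm (CfsgH1.core_cent (V := CfsgH1.VV p G) (CfsgH1.VV_gen p) hCD ?_) hCD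
  intro a ha
  refine ⟨k, ?_⟩
  rw [← hk]
  haveI : (Subgroup.centralizer ((CfsgH1.VV p G) : Set G)).Normal := inferInstance
  exact Subgroup.pow_relIndex_mem (Subgroup.centralizer ((CfsgH1.VV p G) : Set G)) ha

end Cfsg.Agent.S0601
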