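import Cfsg.Statements.S0602
import Cfsg.Agent.H1.Thomp3

set_option autoImplicit false
open Cfsg

namespace Cfsg.Agent.S0602

open scoped commutatorElement Pointwise

/-- The Thompson subgroup is characteristic, and nontrivial as soon as p divides the group order. -/
theorem result {G : Type*} [Group G] [Finite G] {p : ℕ} [Fact p.Prime] : (Cfsg.thompsonSubgroup p G).Characteristic ∧ (p ∣ Nat.card G → Cfsg.thompsonSubgroup p G ≠ ⊥) := by
  constructor
  · rw [CfsgH3.thompsonSubgroup_eq_JJ]
    rw [Subgroup.characteristic_iff_map_eq]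
    intro φ
    have := CfsgH3.JJ_map (e := p) φ.toMonoidHom (⊤ : Subgroup G) (MulEquiv.injective φ).injOn
    rw [← this, Subgroup.map_top_of_surjective _ (MulEquiv.surjective φ)]
  · intro hp hbot
    rw [CfsgH3.thompsonSubgroup_eq_JJ] at hbot
    obtain ⟨x, hx⟩ := exists_prime_orderOf_dvd_card' p hp
    obtain ⟨A, hA⟩ := CfsgH3.exists_maxGood (e := p) (⊤ : Subgroup G)
    have h1 : A = ⊥ := by rw [eq_bot_iff, ← hbot]; exact hA.le_JJ
    have h2 : CfsgH3.Good p (Subgroup.zpowers x) := by
      constructor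
      · rintro _ ⟨i, rfl⟩ _ ⟨j, rfl⟩
        exact ((Commute.refl x).zpow_zpow i j).eq
      · rintro _ ⟨i, rfl⟩
        change (x ^ i) ^ p = 1
        rw [← zpow_natCast, ← zpow_mul, mul_comm, zpow_mul, zpow_natCast, ← hx, pow_orderOf_eq_one, one_zpow]
    have h3 := hA.2.2 _ le_top h2
    rw [h1, Nat.card_zpowers, hx, Subgroup.card_bot] at h3
    have := (Fact.out : p.Prime).two_le
    omega

end Cfsg.Agent.S0602
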