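import Cfsg.Statements.S0604
import Cfsg.Agent.H1.Thomp3

set_option autoImplicit false
open Cfsg

namespace Cfsg.Agent.S0604

open scoped commutatorElement Pointwise

/-- The Thompson subgroup of G is the join of the Thompson subgroups of its Sylow p-subgroups. -/
theorem result {G : Type*} [Group G] [Finite G] {p : ℕ} [Fact p.Prime] : Cfsg.thompsonSubgroup p G = ⨆ S : Sylow p G, Cfsg.thompsonSubgroupOf p (S : Subgroup G) := by
  rw [CfsgH3.thompsonSubgroup_eq_JJ]
  simp only [CfsgH3.thompsonSubgroupOf_eq]
  exact CfsgH1.JJ_eq_iSup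

end Cfsg.Agent.S0604
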