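import Cfsg.Statements.S0605
import Cfsg.Agent.H1.Thomp3

set_option autoImplicit false
open Cfsg

namespace Cfsg.Agent.S0605

open scoped commutatorElement Pointwise

/-- Elements of order p in the centralizer of the Thompson subgroup belong to the Thompson subgroup (so to its centre). -/
theorem result {G : Type*} [Group G] [Finite G] {p : ℕ} [Fact p.Prime] (x : G) (hx : x ∈ Subgroup.centralizer (Cfsg.thompsonSubgroup p G : Set G)) (ho : orderOf x = p) : x ∈ Cfsg.thompsonSubgroup p G := by
  rw [CfsgH3.thompsonSubgroup_eq_JJ] at hx ⊢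
  obtain ⟨A, hA⟩ := CfsgH3.exists_maxGood (e := p) (⊤ : Subgroup G)
  have h2 : CfsgH3.Good p (Subgroup.zpowers x) := by
    constructor
    · rintro _ ⟨i, rfl⟩ _ ⟨j, rfl⟩
      exact ((Commute.refl x).zpow_zpow i j).eq
    · rintro _ ⟨i, rfl⟩
      change (x ^ i) ^ p = 1
      rw [← zpow_natCast, ← zpow_mul, mul_comm, zpow_mul, zpow_natCast, ← ho, pow_orderOf_eq_one, one_zpow]
  apply hA.le_JJ
  apply CfsgH1.le_of_maxGood hA le_top h2
  · rintro a ha _ ⟨i, rfl⟩
    have h3 : a * x = x * a := Subgroup.mem_centralizer_iff.1 hx a (hA.le_JJ ha)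
    exact ((show Commute a x from h3).zpow_right i).eq
  · exact Subgroup.mem_zpowers x

end Cfsg.Agent.S0605
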