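import Cfsg.Statements.S0609
import Cfsg.Agent.H1.Thomp3
import Cfsg.Agent.H2.PLayer

set_option autoImplicit false
open Cfsg

namespace Cfsg.Agent.S0609

open scoped commutatorElement Pointwise

open Subgroup CfsgH3 CfsgH1 in
theorem aux {G : Type*} [Group G] [Finite G] {p : ℕ} [hp : Fact p.Prime] (S : Sylow p G) (N : Subgroup G) [N.Normal] (hN : (Nat.card N).Coprime p) : 
    centralizer ((OZ p ((S : Subgroup G).map (QuotientGroup.mk' N)) : Subgroup (G ⧸ N)) : Set (G ⧸ N)) = (centralizer (OZ p (S : Subgroup G) : Set G)).map (QuotientGroup.mk' N) ∧ 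
    normalizer ((JJ p ((S : Subgroup G).map (QuotientGroup.mk' N)) : Subgroup (G ⧸ N)) : Set (G ⧸ N)) = (normalizer (JJ p (S : Subgroup G) : Set G)).map (QuotientGroup.mk' N) := by
  have hinj : Set.InjOn (QuotientGroup.mk' N) ((S : Subgroup G) : Set G) := by
    intro x hx y hy hxy
    have h1 : x⁻¹ * y ∈ N := QuotientGroup.eq.1 hxy
    have h2 : x⁻¹ * y ∈ (S : Subgroup G) := mul_mem (inv_mem hx) hy
    obtain ⟨k, hk⟩ := S.isPGroup' ⟨x⁻¹ * y, h2⟩
    have h3 : orderOf (x⁻¹ * y) ∣ p ^ k := orderOf_dvd_of_pow_eq_one (congrArg Subtype.val hk)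
    have h4 : orderOf (x⁻¹ * y) ∣ Nat.card N := by
      have := orderOf_dvd_natCard (⟨x⁻¹ * y, h1⟩ : N)
      rwa [Subgroup.orderOf_mk] at this
    have h5 : x⁻¹ * y = 1 := orderOf_eq_one_iff.1 (Nat.eq_one_of_dvd_coprimes (Nat.Coprime.pow_right k hN) h4 h3)
    exact inv_mul_eq_one.1 h5
  have hker : (Nat.card (QuotientGroup.mk' N).ker).Coprime p := by rw [QuotientGroup.ker_mk']; exact hN
  constructor
  · rw [OZ_map p _ _ hinj]
    exact centralizer_map_coprime (QuotientGroup.mk'_surjective N) hker (S.isPGroup'.to_le (OZ_le p _))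
  · rw [JJ_map _ _ hinj]
    exact CfsgH7.normalizer_map_coprime (QuotientGroup.mk'_surjective N) hker (S.isPGroup'.to_le (JJ_le _))

/-- Thompson factorizability passes to and from the quotient by the largest normal subgroup of order prime to p. -/
theorem result {G : Type*} [Group G] [Finite G] {p : ℕ} [Fact p.Prime] : Cfsg.IsThompsonFactorizable p G ↔ Cfsg.IsThompsonFactorizable p (G ⧸ Cfsg.pPrimeCore p G) := by

  haveI : (Cfsg.pPrimeCore p G).Normal := inferInstance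
  have hcop : (Nat.card (Cfsg.pPrimeCore p G)).Coprime p := CfsgH2.coprime_card_pPrimeCore p
  rw [CfsgH1.thomp_fact_iff, CfsgH1.thomp_fact_iff]
  set N := Cfsg.pPrimeCore p G with hN
  have hker : (QuotientGroup.mk' N).ker = N := QuotientGroup.ker_mk' N
  constructor
  · intro h T g
    obtain ⟨S, hS⟩ : ∃ S : Sylow p G, (S : Subgroup G).map (QuotientGroup.mk' N) = T := by
      obtain ⟨S⟩ : Nonempty (Sylow p G) := inferInstance
      let T' := S.mapSurjective (QuotientGroup.mk'_surjective N)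
      obtain ⟨t, ht⟩ := MulAction.exists_smul_eq (G ⧸ N) T' T
      obtain ⟨t, rfl⟩ := QuotientGroup.mk'_surjective N t
      refine ⟨t • S, ?_⟩
      rw [← ht]
      ext y
      constructor
      · rintro ⟨_, ⟨x, hx, rfl⟩, rfl⟩
        exact ⟨QuotientGroup.mk' N x, ⟨x, hx, rfl⟩, by simp⟩
      · rintro ⟨_, ⟨x, hx, rfl⟩, rfl⟩
        exact ⟨t * x * t⁻¹, ⟨x, hx, rfl⟩, by simp⟩
    obtain ⟨h1, h2⟩ := aux S N hcop
    rw [← hS, h1, h2]
    obtain ⟨g, rfl⟩ := QuotientGroup.mk'_surjective N g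
    obtain ⟨x, hx, c, hc, n, hn, rfl⟩ := h S g
    refine ⟨1, one_mem _, _, ⟨c, hc, rfl⟩, _, ⟨n, hn, rfl⟩, ?_⟩
    have : QuotientGroup.mk' N x = 1 := (QuotientGroup.eq_one_iff x).2 hx
    rw [map_mul, map_mul, this]
  · intro h S g
    have hS : ∃ T : Sylow p (G ⧸ N), (T : Subgroup (G ⧸ N)) = (S : Subgroup G).map (QuotientGroup.mk' N) := 
      ⟨S.mapSurjective (QuotientGroup.mk'_surjective N), rfl⟩
    obtain ⟨T, hT⟩ := hS
    obtain ⟨x, hx, c, hc, n, hn, hg⟩ := h T (QuotientGroup.mk' N g)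
    obtain ⟨h1, h2⟩ := aux S N hcop
    rw [hT, h1] at hc
    rw [hT, h2] at hn
    obtain ⟨c, hc, rfl⟩ := hc
    obtain ⟨n, hn, rfl⟩ := hn
    have hx1 : x = 1 := by
      have := CfsgH2.pPrimeCore_quotient_pPrimeCore (G := G) p
      rw [this] at hx
      exact hx
    rw [hx1, one_mul, ← map_mul] at hg
    have h3 : g * (c * n)⁻¹ ∈ N := by
      rw [← QuotientGroup.eq_one_iff]
      change QuotientGroup.mk' N (g * (c * n)⁻¹) = 1
      rw [map_mul, map_inv, hg, mul_inv_cancel]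
    exact ⟨_, h3, c, hc, n, hn, by group⟩

end Cfsg.Agent.S0609
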