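import Cfsg.Statements.S0614
import Cfsg.Agent.H1.FF5

set_option autoImplicit false
open Cfsg

namespace Cfsg.Agent.S0614

open scoped commutatorElement Pointwise

theorem small (p r : ℕ) (hr : r.Prime) (h : p ^ 2 ≡ 1 [MOD r]) : (p = 2 → r = 3) ∧ (p = 3 → r = 2) := by
  constructor
  · rintro rfl
    have h1 : r ∣ 3 := (Nat.modEq_iff_dvd' (by norm_num)).1 h.symm
    exact (Nat.prime_dvd_prime_iff_eq hr Nat.prime_three).1 h1
  · rintro rfl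
    have h1 : r ∣ 8 := (Nat.modEq_iff_dvd' (by norm_num)).1 h.symm
    have h2 : r ∣ 2 ^ 3 := h1
    exact (Nat.prime_dvd_prime_iff_eq hr Nat.prime_two).1 (hr.dvd_of_dvd_pow h2)

/-- The commutator of the p'-core with a minimal nontrivially-acting best offender is a 3-group (when p = 2) or a non-abelian 2-group (when p = 3). -/
theorem result {G : Type*} [Group G] [Finite G] {p : ℕ} [Fact p.Prime] (V H : Subgroup G) (hV : Cfsg.IsElementaryAbelian p V) (hHV : H ≤ Subgroup.normalizer (V : Set G)) (hf : H ⊓ Subgroup.centralizer (V : Set G) = ⊥) (hS1 : Subgroup.centralizer (Cfsg.pPrimeCore p ↥H : Set ↥H) ≤ Cfsg.pPrimeCore p ↥H) (hS3 : H = ⨆ A : {A : Subgroup G // A ≤ H ∧ Cfsg.IsBestOffenderOn p V A}, (A : Subgroup G)) (hH1 : H ≠ ⊥) (A : Subgroup G) (hAH : A ≤ H) (hA : Cfsg.IsBestOffenderOn p V A) (hAV : ⁅V, A⁆ ≠ ⊥) (hmin : ∀ B : Subgroup G, B ≤ A → Cfsg.IsBestOffenderOn p V B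 → ⁅V, B⁆ ≠ ⊥ → B = A) : (p = 2 ∧ IsPGroup 3 ↥(⁅((Cfsg.pPrimeCore p ↥H).map H.subtype), A⁆)) ∨ (p = 3 ∧ IsPGroup 2 ↥(⁅((Cfsg.pPrimeCore p ↥H).map H.subtype), A⁆) ∧ ¬ IsMulCommutative ↥(⁅((Cfsg.pPrimeCore p ↥H).map H.subtype), A⁆)) := by

  have h : CfsgH1.FFS p V H := ⟨hV, hHV, hf, hS1⟩
  have hm : CfsgH1.IsMinOff p V A := ⟨hA, hAV, hmin⟩
  obtain ⟨x, hx, hxA⟩ := h.exists_x hAH hm
  rcases h.prime_23 hAH hm hx hxA with h2 | h3
  · left
    haveI : Fact (Nat.Prime 3) := ⟨Nat.prime_three⟩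
    exact ⟨h2, h.commutator_pgroup hAH hm (fun r hr hrp => (small p r hr hrp).1 h2)⟩
  · right
    haveI : Fact (Nat.Prime 2) := ⟨Nat.prime_two⟩
    exact ⟨h3, h.commutator_pgroup hAH hm (fun r hr hrp => (small p r hr hrp).2 h3), h.commutator_nonab h3 hAH hm⟩

end Cfsg.Agent.S0614
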