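import Cfsg.Statements.S0617
import Cfsg.Agent.H1.FF8

set_option autoImplicit false
open Cfsg

namespace Cfsg.Agent.S0617

open scoped commutatorElement Pointwise

/-- Structure Theorem for failure of factorization: a faithful group generated by best offenders, with self-centralizing p'-core, is a direct product of copies of SL(2, p) (p = 2 or 3), each acting on its own plane in V, which is the direct product of these planes and C_V(H). -/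
theorem result {G : Type*} [Group G] [Finite G] {p : ℕ} [Fact p.Prime] (V H : Subgroup G) (hV : Cfsg.IsElementaryAbelian p V) (hHV : H ≤ Subgroup.normalizer (V : Set G)) (hf : H ⊓ Subgroup.centralizer (V : Set G) = ⊥) (hS1 : Subgroup.centralizer (Cfsg.pPrimeCore p ↥H : Set ↥H) ≤ Cfsg.pPrimeCore p ↥H) (hS3 : H = ⨆ A : {A : Subgroup G // A ≤ H ∧ Cfsg.IsBestOffenderOn p V A}, (A : Subgroup G)) (hH1 : H ≠ ⊥) : (p = 2 ∨ p = 3) ∧ (∀ E : {E : Subgroup G // ∃ A : Subgroup G, A ≤ H ∧ Cfsg.IsBestOffenderOn p V A ∧ ⁅V, A⁆ ≠ ⊥ ∧ (∀ B : Subgroup G, B ≤ A → Cfsg.IsBestOffenderOn p V B → ⁅V, B⁆ ≠ ⊥ → B = A) ∧ E = ⁅((Cfsg.pPrimeCore p ↥H).map H.subtype), A⁆ ⊔ A}, H ≤ Subgroup.normalizer ((E : Subgroup G) : Set G) ∧ Nonempty (↥(E : Subgroup G) ≃* Matrix.SpecialLinearGroup (Fin 2) (ZMod p)) ∧ Nat.card ↥(⁅V, (E : Subgroup G)⁆) = p ^ 2) ∧ iSupIndep (fun E : {E : Subgroup G //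 ∃ A : Subgroup G, A ≤ H ∧ Cfsg.IsBestOffenderOn p V A ∧ ⁅V, A⁆ ≠ ⊥ ∧ (∀ B : Subgroup G, B ≤ A → Cfsg.IsBestOffenderOn p V B → ⁅V, B⁆ ≠ ⊥ → B = A) ∧ E = ⁅((Cfsg.pPrimeCore p ↥H).map H.subtype), A⁆ ⊔ A} => (E : Subgroup G)) ∧ (⨆ E : {E : Subgroup G // ∃ A : Subgroup G, A ≤ H ∧ Cfsg.IsBestOffenderOn p V A ∧ ⁅V, A⁆ ≠ ⊥ ∧ (∀ B : Subgroup G, B ≤ A → Cfsg.IsBestOffenderOn p V B → ⁅V, B⁆ ≠ ⊥ → B = A) ∧ E = ⁅((Cfsg.pPrimeCore p ↥H).map H.subtype), A⁆ ⊔ A}, (E : Subgroup G)) = H ∧ iSupIndep (fun o : Option {E : Subgroup G // ∃ A : Subgroup G, A ≤ H ∧ Cfsg.IsBestOffenderOn p V A ∧ ⁅V, A⁆ ≠ ⊥ ∧ (∀ B : Subgroup G, B ≤ A → Cfsg.IsBestOffenderOn p V B → ⁅V, B⁆ ≠ ⊥ → B = A) ∧ E = ⁅((Cfsg.pPrimeCore p ↥H).map H.subtype), A⁆ ⊔ A} => o.elim (V ⊓ Subgroup.centralizer (H : Set G)) (fun E => ⁅V, (E : Subgroup G)⁆)) ∧ (V ⊓ Subgroup.centralizer (H : Set G)) ⊔ (⨆ E : {E : Subgroup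 G // ∃ A : Subgroup G, A ≤ H ∧ Cfsg.IsBestOffenderOn p V A ∧ ⁅V, A⁆ ≠ ⊥ ∧ (∀ B : Subgroup G, B ≤ A → Cfsg.IsBestOffenderOn p V B → ⁅V, B⁆ ≠ ⊥ → B = A) ∧ E = ⁅((Cfsg.pPrimeCore p ↥H).map H.subtype), A⁆ ⊔ A}, ⁅V, (E : Subgroup G)⁆) = V := by
  have h : CfsgH1.FFS p V H := ⟨hV, hHV, hf, hS1⟩
  obtain ⟨A₀, hA₀H, hA₀⟩ := h.exists_min hS3 hH1
  obtain ⟨x₀, hx₀, hx₀A⟩ := h.exists_x hA₀H hA₀
  have hcentW : ∀ (A B : Subgroup G), A ≤ H → CfsgH1.IsMinOff p V A → B ≤ H → CfsgH1.IsMinOff p V B → CfsgH1.EE p H A ≠ CfsgH1.EE p H B → 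
      CfsgH1.EE p H A ≤ Subgroup.centralizer ((⁅V, CfsgH1.EE p H B⁆ : Subgroup G) : Set G) := by
    intro A B hAH hA hBH hB hne
    exact h.cent_W hAH hA hBH hB (fun hW => hne (h.EE_eq_of_W hAH hA hBH hB hW))
  have hgenH : H ≤ ⨆ E : {E : Subgroup G // ∃ A : Subgroup G, A ≤ H ∧ Cfsg.IsBestOffenderOn p V A ∧ ⁅V, A⁆ ≠ ⊥ ∧ (∀ B : Subgroup G, B ≤ A → Cfsg.IsBestOffenderOn p V B → ⁅V, B⁆ ≠ ⊥ → B = A) ∧ E = ⁅((Cfsg.pPrimeCore p ↥H).map H.subtype), A⁆ ⊔ A}, (E : Subgroup G) := by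
    apply h.gen_min hS3
    intro A hAH hA
    refine le_trans (le_sup_right : A ≤ ⁅CfsgH1.KH p H, A⁆ ⊔ A) ?_
    exact le_iSup (fun E : {E : Subgroup G // ∃ A : Subgroup G, A ≤ H ∧ Cfsg.IsBestOffenderOn p V A ∧ ⁅V, A⁆ ≠ ⊥ ∧ (∀ B : Subgroup G, B ≤ A → Cfsg.IsBestOffenderOn p V B → ⁅V, B⁆ ≠ ⊥ → B = A) ∧ E = ⁅((Cfsg.pPrimeCore p ↥H).map H.subtype), A⁆ ⊔ A} => (E : Subgroup G)) 
      ⟨_, A, hAH, hA.1, hA.2.1, hA.2.2, rfl⟩
  have hcop : (Nat.card (CfsgH1.KH p H)).Coprime (Nat.card V) := by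
    obtain ⟨n, hn⟩ := (CfsgH1.isPGroup_of_elemAb hV).exists_card_eq
    rw [hn]; exact Nat.Coprime.pow_right n (CfsgH1.KH_cop p H)
  have hVc := CfsgH1.comm_of_elemAb hV
  refine ⟨h.prime_23 hA₀H hA₀ hx₀ hx₀A, ?_, ?_, ?_, ?_, ?_⟩
  · rintro ⟨E, A, hAH, hA1, hA2, hA3, rfl⟩
    have hA : CfsgH1.IsMinOff p V A := ⟨hA1, hA2, hA3⟩
    obtain ⟨-, a1, -, -, -, a5, -⟩ := h.EE_main hAH hA
    exact ⟨(h.H_norm hS3 hAH hA).2, a5, a1⟩
  · rintro ⟨E, A, hAH, hA1, hA2, hA3, rfl⟩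
    have hA : CfsgH1.IsMinOff p V A := ⟨hA1, hA2, hA3⟩
    obtain ⟨s1, s2, s3, s4⟩ := h.structureH hS3 hAH hA
    rw [disjoint_iff, eq_bot_iff]
    refine le_trans ?_ s2.le
    refine inf_le_inf_left _ (iSup₂_le ?_)
    rintro ⟨F, B, hBH, hB1, hB2, hB3, rfl⟩ hne
    have hB : CfsgH1.IsMinOff p V B := ⟨hB1, hB2, hB3⟩
    exact le_inf (h.EE_le hBH) (hcentW B A hBH hB hAH hA (fun he => hne (Subtype.ext he)))
  · apply le_antisymm _ hgenH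
    apply iSup_le
    rintro ⟨E, A, hAH, hA1, hA2, hA3, rfl⟩
    exact h.EE_le hAH
  · rintro (_ | ⟨E, A, hAH, hA1, hA2, hA3, rfl⟩)
    · rw [disjoint_iff, eq_bot_iff]
      have h1 := CfsgH1.coprime_abelian_inf hVc h.KV hcop
      refine le_trans ?_ h1.le
      apply inf_le_inf
      · exact inf_le_inf_left _ (Subgroup.centralizer_le (CfsgH1.KH_le p H))
      · apply iSup₂_le
        rintro (_ | ⟨F, B, hBH, hB1, hB2, hB3, rfl⟩) hne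
        · exact absurd rfl hne
        · have hB : CfsgH1.IsMinOff p V B := ⟨hB1, hB2, hB3⟩
          obtain ⟨-, b1, b2, -, -, -, -⟩ := h.EE_main hBH hB
          change ⁅V, ⁅CfsgH1.KH p H, B⁆ ⊔ B⁆ ≤ _
          rw [← b2]
          exact Subgroup.commutator_mono le_rfl (h.Q_le hBH)
    · have hA : CfsgH1.IsMinOff p V A := ⟨hA1, hA2, hA3⟩
      obtain ⟨-, d2, d3⟩ := h.decompV hAH hA
      rw [disjoint_iff, eq_bot_iff]
      refine le_trans ?_ d2.le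
      refine inf_le_inf_left _ (iSup₂_le ?_)
      rintro (_ | ⟨F, B, hBH, hB1, hB2, hB3, rfl⟩) hne
      · exact inf_le_inf_left _ (Subgroup.centralizer_le (h.EE_le hAH))
      · have hB : CfsgH1.IsMinOff p V B := ⟨hB1, hB2, hB3⟩
        refine le_inf (CfsgH1.commutator_le_self_of_norm ((h.EE_le hBH).trans hHV)) ?_
        rw [Subgroup.le_centralizer_iff]
        exact hcentW A B hAH hA hBH hB (fun he => hne (congrArg some (Subtype.ext he.symm)))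
  · apply le_antisymm
    · apply sup_le inf_le_left
      apply iSup_le
      rintro ⟨E, A, hAH, hA1, hA2, hA3, rfl⟩
      exact CfsgH1.commutator_le_self_of_norm ((h.EE_le hAH).trans hHV)
    · have h1 := CfsgH1.coprime_commutator_sup h.KV hcop (Or.inr (CfsgH1.isSolvable_of_abelian hVc))
      conv_lhs => rw [← h1]
      apply sup_le
      · refine le_trans ?_ le_sup_right
        refine le_trans (Subgroup.commutator_mono le_rfl (CfsgH1.KH_le p H)) ?_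
        refine CfsgH1.commutator_le_iSup _ ?_ hgenH
        rintro ⟨E, A, hAH, hA1, hA2, hA3, rfl⟩
        exact (h.EE_le hAH).trans hHV
      · refine le_trans (le_inf inf_le_left ?_) le_sup_left
        rw [Subgroup.le_centralizer_iff]
        apply h.gen_min hS3
        intro A hAH hA
        rw [Subgroup.le_centralizer_iff]
        obtain ⟨d1, -, -⟩ := h.decompV hAH hA
        have h2 : V ⊓ Subgroup.centralizer (CfsgH1.KH p H : Set G) ≤ V ⊓ Subgroup.centralizer (CfsgH1.EE p H A : Set G) := by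
          rw [← d1]
          exact inf_le_inf_left _ (Subgroup.centralizer_le (h.Q_le hAH))
        exact h2.trans (inf_le_right.trans (Subgroup.centralizer_le (show (A : Set G) ⊆ (CfsgH1.EE p H A : Set G) from (le_sup_right : A ≤ ⁅CfsgH1.KH p H, A⁆ ⊔ A))))

end Cfsg.Agent.S0617
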