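import Cfsg.Statements.S0618
import Cfsg.Agent.H1.FF9

set_option autoImplicit false
open Cfsg

namespace Cfsg.Agent.S0618

open scoped commutatorElement Pointwise

open CfsgH1 CfsgH3 in
theorem aux {G : Type*} [Group G] [Finite G] {p : ℕ} [Fact p.Prime] (hsep : Cfsg.IsPSolvable p G) (hO : Cfsg.pPrimeCore p G = ⊥) (hnf : ¬ Cfsg.IsThompsonFactorizable p G) : (p = 2 ∨ p = 3) ∧ ∃ E : Subgroup G, Subgroup.centralizer (VV p G : Set G) ≤ E ∧ E ≤ JJ p (⊤ : Subgroup G) ⊔ Subgroup.centralizer (VV p G : Set G) ∧ JJ p (⊤ : Subgroup G) ⊔ Subgroup.centralizer (VV p G : Set G) ≤ Subgroup.normalizer (E : Set G) ∧ ∃ hn : ((Subgroup.centralizer (VV p G : Set G)).subgroupOf E).Normal, Nonempty ((↥E ⧸ (Subgroup.centralizer (VV p G : Set G)).subgroupOf E) ≃* Matrix.SpecialLinearGroup (Fin 2) (ZMod p)) := by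
  obtain ⟨hn, hVg, h, hne⟩ := psolv_ff hsep hO hnf
  have hS3 := hS3_hol (p := p) hVg
  obtain ⟨A, hAH, hA⟩ := h.exists_min hS3 hne
  obtain ⟨x, hx, hxA⟩ := h.exists_x hAH hA
  refine ⟨h.prime_23 hAH hA hx hxA, ?_⟩
  obtain ⟨-, -, -, -, -, ⟨φ⟩, -⟩ := h.EE_main hAH hA
  have hEH := h.EE_le hAH
  have hker : (iot (VV p G)).ker = Subgroup.centralizer (VV p G : Set G) := iot_ker (VV p G)
  refine ⟨(EE p ((JJ p (⊤ : Subgroup G)).map (iot (VV p G))) A).comap (iot (VV p G)), ?_, ?_, ?_, ?_⟩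
  · rw [← hker]; exact Subgroup.ker_le_comap _ _
  · have h1 := Subgroup.comap_mono (f := iot (VV p G)) hEH
    rw [Subgroup.comap_map_eq, hker] at h1
    exact h1
  · have h1 := (h.H_norm hS3 hAH hA).2
    have h2 : ((JJ p (⊤ : Subgroup G)).map (iot (VV p G))).comap (iot (VV p G)) = JJ p (⊤ : Subgroup G) ⊔ Subgroup.centralizer (VV p G : Set G) := by
      rw [Subgroup.comap_map_eq, hker]
    rw [← h2]
    exact (Subgroup.comap_mono h1).trans (Subgroup.le_normalizer_comap _)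
  · obtain ⟨hn', ⟨ψ⟩⟩ := quot_iso (iot (VV p G)) hker (EE p ((JJ p (⊤ : Subgroup G)).map (iot (VV p G))) A) (hEH.trans (Subgroup.map_le_range _ _))
    exact ⟨hn', ⟨ψ.trans φ⟩⟩

/-- A p-separable group with trivial p'-core in which the Thompson factorization fails has p = 2 or 3, and J(G) induces on the normal closure of Ω₁(Z(S)) a group containing a normal SL(2, p). -/
theorem result {G : Type*} [Group G] [Finite G] {p : ℕ} [Fact p.Prime] (hsep : Cfsg.IsPSolvable p G) (hO : Cfsg.pPrimeCore p G = ⊥) (hnf : ¬ Cfsg.IsThompsonFactorizable p G) : (p = 2 ∨ p = 3) ∧ ∃ E : Subgroup G, Subgroup.centralizer ((⨆ S : Sylow p G, Cfsg.omegaOne p ((S : Subgroup G) ⊓ Subgroup.centralizer ((S : Subgroup G) : Set G))) : Set G) ≤ E ∧ E ≤ Cfsg.thompsonSubgroup p G ⊔ Subgroup.centralizer ((⨆ S : Sylow p G, Cfsg.omegaOne p ((S : Subgroup G) ⊓ Subgroup.centralizer ((S : Subgroup G) : Set G))) : Set G) ∧ Cfsg.thompsonSubgroup p G ⊔ Subgroup.centralizer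 ((⨆ S : Sylow p G, Cfsg.omegaOne p ((S : Subgroup G) ⊓ Subgroup.centralizer ((S : Subgroup G) : Set G))) : Set G) ≤ Subgroup.normalizer (E : Set G) ∧ ∃ hn : ((Subgroup.centralizer ((⨆ S : Sylow p G, Cfsg.omegaOne p ((S : Subgroup G) ⊓ Subgroup.centralizer ((S : Subgroup G) : Set G))) : Set G)).subgroupOf E).Normal, Nonempty ((↥E ⧸ (Subgroup.centralizer ((⨆ S : Sylow p G, Cfsg.omegaOne p ((S : Subgroup G) ⊓ Subgroup.centralizer ((S : Subgroup G) : Set G))) : Set G)).subgroupOf E) ≃* Matrix.SpecialLinearGroup (Fin 2) (ZMod p)) := by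

  have h1 : Subgroup.centralizer ((⨆ S : Sylow p G, Cfsg.omegaOne p ((S : Subgroup G) ⊓ Subgroup.centralizer ((S : Subgroup G) : Set G))) : Set G) = 
      Subgroup.centralizer (CfsgH1.VV p G : Set G) := by
    apply le_antisymm
    · rw [Subgroup.le_centralizer_iff]
      apply iSup_le
      intro S
      rw [Subgroup.le_centralizer_iff]
      apply Subgroup.centralizer_le
      intro x hx
      rw [Set.iSup_eq_iUnion, Set.mem_iUnion]
      exact ⟨S, hx⟩
    · apply Subgroup.centralizer_le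
      intro x hx
      rw [Set.iSup_eq_iUnion, Set.mem_iUnion] at hx
      obtain ⟨S, hS⟩ := hx
      exact CfsgH1.OZ_le_VV S hS
  rw [CfsgH3.thompsonSubgroup_eq_JJ]
  rw [h1]
  exact aux hsep hO hnf

end Cfsg.Agent.S0618
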