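import Cfsg.Statements.S0619
import Cfsg.Agent.H1.FF9

set_option autoImplicit false
open Cfsg

namespace Cfsg.Agent.S0619

open scoped commutatorElement Pointwise

/-- For a p-separable group and a normal elementary abelian p-subgroup V with no nontrivial normal p-subgroup modulo its centralizer C, the Thompson subgroup J(G) moves Ω₁(Z(J(C))) only inside V. -/
theorem result {G : Type*} [Group G] [Finite G] {p : ℕ} [Fact p.Prime] (hsep : Cfsg.IsPSolvable p G) (V : Subgroup G) [V.Normal] (hV : Cfsg.IsElementaryAbelian p V) (hO : Cfsg.pCore p (G ⧸ Subgroup.centralizer (V : Set G)) = ⊥) : ⁅Cfsg.omegaOne p (Cfsg.centerThompsonOf p (Subgroup.centralizer (V : Set G))), Cfsg.thompsonSubgroup p G⁆ ≤ V := by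
  have h1 : Cfsg.omegaOne p (Cfsg.centerThompsonOf p (Subgroup.centralizer (V : Set G))) = CfsgH1.OZ p (CfsgH3.JJ p (Subgroup.centralizer (V : Set G))) := by
    unfold Cfsg.centerThompsonOf CfsgH1.OZ
    rw [CfsgH3.thompsonSubgroupOf_eq]
  rw [h1, CfsgH3.thompsonSubgroup_eq_JJ]
  haveI : (CfsgH3.JJ p (Subgroup.centralizer (V : Set G))).Normal := CfsgH1.JJ_normal
  haveI : (CfsgH1.OZ p (CfsgH3.JJ p (Subgroup.centralizer (V : Set G)))).Normal := by
    rw [← Subgroup.normalizer_eq_top_iff, eq_top_iff]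
    intro g _
    rw [← CfsgH1.conj_smul_eq_iff, ← CfsgH1.OZ_smul]
    have h2 : MulAut.conj g • CfsgH3.JJ p (Subgroup.centralizer (V : Set G)) = CfsgH3.JJ p (Subgroup.centralizer (V : Set G)) := 
      CfsgH1.map_conj_eq_of_norm' (by rw [Subgroup.normalizer_eq_top]; exact Subgroup.mem_top g)
    rw [h2]
  exact CfsgH1.JJ_comm_le hsep V (CfsgH3.isElementaryAbelian_iff_good.1 hV) hO (CfsgH3.isElementaryAbelian_iff_good.1 (CfsgH1.OZ_elemAb p _)) (CfsgH1.OZ_le p _) (CfsgH1.OZ_le_cent p _)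

end Cfsg.Agent.S0619
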