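import Cfsg.Statements.S0622
import Cfsg.Agent.H1.WS

set_option autoImplicit false
universe u
open Cfsg

namespace Cfsg.Agent.S0622

open scoped commutatorElement Pointwise

/-- Basic properties of the stable normal closure W(S) of Ω₁(Z(S)) in a finite p-group: characteristic, squeezed between Ω₁(Z(S)) and Ω₁(Z(J(S))), nontrivial for S ≠ 1, and transported by group isomorphisms. -/
theorem result {S : Type u} [Group S] [Finite S] {p : ℕ} [Fact p.Prime] (hS : IsPGroup p S) : (Cfsg.stableNormalClosure p S).Characteristic ∧ Cfsg.omegaOne p (Subgroup.center S) ≤ Cfsg.stableNormalClosure p S ∧ Cfsg.stableNormalClosure p S ≤ Cfsg.omegaCenterThompson p S ∧ (Nontrivial S → Cfsg.stableNormalClosure p S ≠ ⊥) ∧ ∀ (S' : Type u) [Group S'] (η : S ≃* S'), (Cfsg.stableNormalClosure p S).map η.toMonoidHom = Cfsg.stableNormalClosure p S' := by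
  haveI : Finite S := inferInstance
  refine ⟨CfsgH1.snc_char, CfsgH1.le_snc, CfsgH1.snc_le, ?_, fun S' _ η => CfsgH1.snc_map η⟩
  intro hne hbot
  have h1 := (CfsgH1.le_snc (S := S) (p := p))
  rw [hbot, le_bot_iff] at h1
  haveI : Nontrivial (Subgroup.center S) := hS.center_nontrivial
  have hcard : p ∣ Nat.card (Subgroup.center S) := by
    have h2 : IsPGroup p (Subgroup.center S) := hS.to_subgroup _
    obtain ⟨n, hn⟩ := IsPGroup.iff_card.1 h2
    have h3 : 1 < Nat.card (Subgroup.center S) := Finite.one_lt_card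
    rw [hn] at h3 ⊢
    rcases Nat.eq_zero_or_pos n with h | h
    · rw [h, pow_zero] at h3; omega
    · exact dvd_pow_self p (by omega)
  obtain ⟨x, hx⟩ := exists_prime_orderOf_dvd_card' p hcard
  have h4 : (x : S) ∈ Cfsg.omegaOne p (Subgroup.center S) := by
    rw [CfsgH1.omega_center_eq]
    refine CfsgH1.mem_OZ.2 ⟨⟨Subgroup.mem_top _, ?_⟩, ?_⟩
    · change (x : S) ∈ Subgroup.centralizer _
      rw [Subgroup.mem_centralizer_iff]
      intro y _
      exact (Subgroup.mem_center_iff.1 x.2 y)
    · have := pow_orderOf_eq_one x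
      rw [hx] at this
      have h5 := congrArg Subtype.val this
      simpa using h5
  rw [h1, Subgroup.mem_bot] at h4
  have h5 : x = 1 := Subtype.ext h4
  rw [h5, orderOf_one] at hx
  exact (Fact.out : p.Prime).one_lt.ne hx

end Cfsg.Agent.S0622
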