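import Cfsg.Statements.S0636
import Cfsg.Agent.H1.Meta

set_option autoImplicit false
open Cfsg

namespace Cfsg.Agent.S0636

open scoped commutatorElement Pointwise

/-- For odd p, every non-cyclic normal subgroup of a p-group contains a normal elementary abelian subgroup of the whole group of order p². -/
theorem result {R : Type*} [Group R] [Finite R] {p : ℕ} [Fact p.Prime] (hp : p ≠ 2) (hR : IsPGroup p R) (S : Subgroup R) [S.Normal] (hS : ¬ IsCyclic S) : ∃ A : Subgroup R, A ≤ S ∧ A.Normal ∧ Cfsg.IsElementaryAbelian p A ∧ Nat.card A = p ^ 2 := by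
  exact CfsgH1.noncyclic_normal hp hR _ S inferInstance rfl hS

end Cfsg.Agent.S0636
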