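import Cfsg.Statements.S0642
import Cfsg.Agent.H1.Regular

set_option autoImplicit false
open Cfsg

namespace Cfsg.Agent.S0642

open scoped commutatorElement Pointwise

/-- Among finite 2-groups the regular ones are exactly the abelian ones. -/
theorem result {G : Type*} [Group G] [Finite G] (hG : IsPGroup 2 G) : Cfsg.IsRegularPGroup 2 G ↔ ∀ a b : G, a * b = b * a := by
  exact CfsgH1.two_regular_iff hG

end Cfsg.Agent.S0642
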