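import Cfsg.Statements.S0661
import Cfsg.Agent.H1.PCon

set_option autoImplicit false
open Cfsg

namespace Cfsg.Agent.S0661

open scoped commutatorElement Pointwise

/-- If, modulo the largest normal subgroup of order prime to p, the largest normal p-subgroup contains its centralizer, then for every p-subgroup P the p'-core of N_G(P) is just O_p'(G) ∩ N_G(P). -/
theorem result {G : Type*} [Group G] [Finite G] {p : ℕ} [Fact p.Prime] (hc : Subgroup.centralizer (Cfsg.pCore p (G ⧸ Cfsg.pPrimeCore p G) : Set (G ⧸ Cfsg.pPrimeCore p G)) ≤ Cfsg.pCore p (G ⧸ Cfsg.pPrimeCore p G)) (P : Subgroup G) (hP : IsPGroup p P) : (Cfsg.pPrimeCore p ↥(Subgroup.normalizer (P : Set G))).map (Subgroup.normalizer (P : Set G)).subtype = Cfsg.pPrimeCore p G ⊓ Subgroup.normalizer (P : Set G) := by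
  have hO := CfsgH2.coprime_card_pPrimeCore (G := G) p
  have hfs : Function.Surjective (QuotientGroup.mk' (Cfsg.pPrimeCore p G)) := QuotientGroup.mk'_surjective _
  have hfk : (Nat.card (QuotientGroup.mk' (Cfsg.pPrimeCore p G)).ker).Coprime p := by rw [QuotientGroup.ker_mk']; exact hO
  set N := Subgroup.normalizer (P : Set G) with hN
  apply le_antisymm
  · refine le_inf ?_ (Subgroup.map_subtype_le _)
    have h1 : CfsgH1.CharP p ↥(N.map (QuotientGroup.mk' (Cfsg.pPrimeCore p G))) := by
      rw [hN, ← CfsgH7.normalizer_map_coprime hfs hfk hP]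
      exact CfsgH1.CharP.normalizer hc (hP.map _)
    have h2 := h1.pPrimeCore_eq_bot
    have h3 : (Cfsg.pPrimeCore p N).map ((QuotientGroup.mk' (Cfsg.pPrimeCore p G)).subgroupMap N) ≤ Cfsg.pPrimeCore p ↥(N.map (QuotientGroup.mk' (Cfsg.pPrimeCore p G))) := by
      apply CfsgH2.le_pPrimeCore
      · exact Subgroup.Normal.map inferInstance _ (MonoidHom.subgroupMap_surjective _ _)
      · exact Nat.Coprime.coprime_dvd_left (Subgroup.card_map_dvd _ _) (CfsgH2.coprime_card_pPrimeCore p)
    rw [h2, le_bot_iff, Subgroup.map_eq_bot_iff] at h3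
    rintro _ ⟨x, hx, rfl⟩
    rw [← QuotientGroup.eq_one_iff]
    exact congrArg Subtype.val (h3 hx)
  · intro x hx
    have h1 : (Cfsg.pPrimeCore p G).subgroupOf N ≤ Cfsg.pPrimeCore p N := by
      apply CfsgH2.le_pPrimeCore inferInstance
      have h2 : Nat.card ((Cfsg.pPrimeCore p G).subgroupOf N) ∣ Nat.card (Cfsg.pPrimeCore p G) := by
        rw [← Subgroup.card_map_of_injective (Subgroup.subtype_injective N), Subgroup.subgroupOf_map_subtype]
        exact Subgroup.card_dvd_of_le inf_le_left
      exact Nat.Coprime.coprime_dvd_left h2 hO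
    exact ⟨⟨x, hx.2⟩, h1 (Subgroup.mem_subgroupOf.2 hx.1), rfl⟩

end Cfsg.Agent.S0661
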