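import Cfsg.Statements.S0672
import Cfsg.Agent.H2.PrimeDeg3

set_option autoImplicit false
open Cfsg
open scoped commutatorElement

namespace Cfsg.Agent.S0672

/-- Let a finite group act faithfully and doubly transitively with point stabilisers of even order, and let `K` have characteristic `p` dividing the degree. If the heart of the permutation module admits no non-zero equivariant map to the permutation module on unordered pairs (phrased: every intertwining map from the sum-zero functions vanishing on the constants is zero), the action is triply transitive. -/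
theorem result {G : Type*} [Group G] [Finite G] {K : Type*} [Field K] {p : ℕ} [Fact p.Prime] [CharP K p] {Ω : Type*} [Fintype Ω] [DecidableEq Ω] [MulAction G Ω] [FaithfulSMul G Ω] (h2 : MulAction.IsMultiplyPretransitive G Ω 2) (hp : p ∣ Fintype.card Ω) (heven : ∀ a : Ω, Even (Nat.card (MulAction.stabilizer G a))) (h : ∀ f : Representation.IntertwiningMap (Cfsg.permSumZero K G Ω).toRepresentation (Cfsg.permRep K G (Set.powersetCard Ω 2)), (∀ v : (Cfsg.permSumZero K G Ω).toSubmodule, (v : Ω → K) ∈ (Cfsg.permConstants K G Ω).toSubmodule → f v = 0) → f = 0) : MulAction.IsMultiplyPretransitive G Ω 3 := by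
  rcases isEmpty_or_nonempty Ω with he | ⟨⟨x⟩⟩
  · refine ⟨fun u => ?_⟩
    exact (he.false (u 0)).elim
  · haveI : Fact (Nat.Prime 2) := ⟨Nat.prime_two⟩
    obtain ⟨t, ht⟩ := exists_prime_orderOf_dvd_card' (G := MulAction.stabilizer G x) 2 (even_iff_two_dvd.1 (heven x))
    have ht2 : orderOf (t : G) = 2 := by rw [Subgroup.orderOf_coe]; exact ht
    have htt : (t : G) * t = 1 := by rw [← pow_two, ← ht2]; exact pow_orderOf_eq_one _
    have ht1 : (t : G) ≠ 1 := by intro h; rw [h, orderOf_one] at ht2; omega
    have htx : (t : G) • x = x := t.2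
    obtain ⟨y, hy⟩ : ∃ y : Ω, (t : G) • y ≠ y := by
      by_contra hcon; push Not at hcon
      exact ht1 (eq_of_smul_eq_smul (α := Ω) (fun y => by rw [hcon y, one_smul]))
    have hxy : x ≠ y := by rintro rfl; exact hy htx
    have htz : (t : G) • ((t : G) • y) = y := by rw [← mul_smul, htt, one_smul]
    have hxz : x ≠ (t : G) • y := by
      intro h
      apply hxy
      rw [← htz, ← h, htx]
    exact CfsgH2.heart_three_trans (K := K) h2 (t : G) hxy hxz (Ne.symm hy) htx rfl htz h

end Cfsg.Agent.S0672
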