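import Cfsg.Statements.S0681
import Cfsg.Agent.H2.PermD

set_option autoImplicit false
open Cfsg
open scoped commutatorElement

namespace Cfsg.Agent.S0681

/-- The affine maps `x ↦ x * a + b`, `a ≠ 0`, of a near-field form a sharply doubly transitive permutation group. -/
theorem result {F : Type*} [Cfsg.NearField F] : ∃ H : Subgroup (Equiv.Perm F), (∀ σ : Equiv.Perm F, σ ∈ H ↔ ∃ a b : F, a ≠ 0 ∧ ∀ x : F, σ x = x * a + b) ∧ MulAction.IsMultiplyPretransitive H F 2 ∧ ∀ x : Fin 2 ↪ F, MulAction.stabilizer H x = ⊥ := by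
  obtain ⟨H, h1, h2, h3⟩ := CfsgH2.nf_affine (F := F)
  exact ⟨H, h1, CfsgH2.two_trans_iff.2 h2, CfsgH2.sharp_two_iff.2 h3⟩

end Cfsg.Agent.S0681
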