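import Cfsg.Statements.S0684
import Cfsg.Agent.H2.RegLin

set_option autoImplicit false
open Cfsg
open scoped commutatorElement

namespace Cfsg.Agent.S0684

/-- Point stabiliser of a sharply doubly transitive group not of semilinear type: a maximal normal abelian subgroup `A` of a linear group `H` that is regular on non-zero vectors and has no irreducible cyclic normal subgroup is cyclic and reducible, and the order of `A` divides `p ^ k - 1` for `k` the dimension of a minimal `A`-invariant subspace. -/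
theorem result {p : ℕ} [Fact p.Prime] {V : Type*} [AddCommGroup V] [Module (ZMod p) V] [Finite V] (H : Subgroup (V ≃ₗ[ZMod p] V)) (hreg : ∀ v w : V, v ≠ 0 → w ≠ 0 → ∃! h : H, (h : V ≃ₗ[ZMod p] V) v = w) (hI : ∀ A : Subgroup H, A.Normal → IsCyclic A → ∃ W : Submodule (ZMod p) V, W ≠ ⊥ ∧ W ≠ ⊤ ∧ ∀ a ∈ A, ∀ v ∈ W, ((a : H) : V ≃ₗ[ZMod p] V) v ∈ W) (A : Subgroup H) (hAn : A.Normal) (hAc : IsMulCommutative A) (hAmax : ∀ B : Subgroup H, B.Normal → IsMulCommutative B → A ≤ B → B = A) : IsCyclic A ∧ ∃ W : Submodule (ZMod p) V, W ≠ ⊥ ∧ W ≠ ⊤ ∧ (∀ a ∈ A, ∀ v ∈ W, ((a : H) : V ≃ₗ[ZMod p] V) v ∈ W) ∧ (∀ W' : Submodule (ZMod p) V, W' ≤ W → (∀ a ∈ A, ∀ v ∈ W', ((a : H) : V ≃ₗ[ZMod p] V) v ∈ W') → W' = ⊥ ∨ W' = W) ∧ Nat.card A ∣ p ^ Module.finrank (ZMod p) W - 1 := by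
  haveI : Finite (V ≃ₗ[ZMod p] V) := Finite.of_injective (fun f => (f : V → V)) DFunLike.coe_injective
  haveI hVn : Nontrivial V := by
    obtain ⟨W, hW, -⟩ := hI ⊥ inferInstance inferInstance
    by_contra h
    rw [not_nontrivial_iff_subsingleton] at h
    exact hW (Subsingleton.elim _ _)
  have hcyc : IsCyclic A := CfsgH2.reg_abelian_cyclic hreg A (fun a b => hAc.is_comm.comm a b)
  obtain ⟨W0, hW0, hW0t, hW0i⟩ := hI A hAn hcyc
  obtain ⟨W, hWW0, hWb, hWi, hWmin⟩ := CfsgH2.exists_minimal_inv {f : V ≃ₗ[ZMod p] V | ∃ a ∈ A, ((a : H) : V ≃ₗ[ZMod p] V) = f} W0 hW0 (by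
    rintro _ ⟨a, ha, rfl⟩ v hv
    exact hW0i a ha v hv)
  have hWi' : ∀ a ∈ A, ∀ v ∈ W, ((a : H) : V ≃ₗ[ZMod p] V) v ∈ W := fun a ha v hv => hWi _ ⟨a, ha, rfl⟩ v hv
  refine ⟨hcyc, W, hWb, ?_, hWi', ?_, ?_⟩
  · intro h
    rw [h] at hWW0
    exact hW0t (top_le_iff.1 hWW0)
  · intro W' hle hinv
    apply hWmin W' hle
    rintro _ ⟨a, ha, rfl⟩ v hv
    exact hinv a ha v hv
  · have h1 := CfsgH2.card_dvd_sub hreg A W hWi'
    have h2 : Nat.card W = p ^ Module.finrank (ZMod p) W := by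
      rw [Module.natCard_eq_pow_finrank (K := ZMod p), Nat.card_zmod]
    rwa [h2] at h1

end Cfsg.Agent.S0684
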