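import Cfsg.Statements.S0691
import Cfsg.Agent.H2.LinGen

set_option autoImplicit false
open Cfsg
open scoped commutatorElement

namespace Cfsg.Agent.S0691

/-- An exceptional sharply doubly transitive group of degree 5^2: the listed matrices generate a subgroup of GL(2,5) of order 24 acting regularly on the non-zero vectors. -/
theorem result (A : Matrix.GeneralLinearGroup (Fin 2) (ZMod 5)) (B : Matrix.GeneralLinearGroup (Fin 2) (ZMod 5)) (C : Matrix.GeneralLinearGroup (Fin 2) (ZMod 5)) (hA : (A : Matrix (Fin 2) (Fin 2) (ZMod 5)) = !![2, 0; 0, -2]) (hB : (B : Matrix (Fin 2) (Fin 2) (ZMod 5)) = !![0, -1; 1, 0]) (hC : (C : Matrix (Fin 2) (Fin 2) (ZMod 5)) = !![1, 2; 1, -2]) : Nat.card (Subgroup.closure ({A, B, C} : Set (Matrix.GeneralLinearGroup (Fin 2) (ZMod 5)))) = 24 ∧ ∀ v w : Fin 2 → ZMod 5, v ≠ 0 → w ≠ 0 → ∃! h : Subgroup.closure ({A, B, C} : Set (Matrix.GeneralLinearGroup (Fin 2) (ZMod 5))), Matrix.mulVec ((h : Matrix.GeneralLinearGroup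 (Fin 2) (ZMod 5)) : Matrix (Fin 2) (Fin 2) (ZMod 5)) v = w := by
  haveI : Fact (Nat.Prime 5) := ⟨by norm_num⟩
  have cA : CfsgH2.codeG A = (2, 0, 0, 3) := by
    unfold CfsgH2.codeG CfsgH2.codeM; rw [hA]; rfl
  have cB : CfsgH2.codeG B = (0, 4, 1, 0) := by
    unfold CfsgH2.codeG CfsgH2.codeM; rw [hB]; rfl
  have cC : CfsgH2.codeG C = (1, 2, 1, 3) := by
    unfold CfsgH2.codeG CfsgH2.codeM; rw [hC]; rfl
  have hmain := CfsgH2.closure_main (p := 5) ({A, B, C} : Set (CfsgH2.GL2 5)) [(2, 0, 0, 3), (0, 4, 1, 0), (1, 2, 1, 3)] CfsgH2.par5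
    (by
      intro x hx
      simp only [List.mem_cons, List.not_mem_nil, or_false] at hx
      rcases hx with rfl | rfl | rfl
      · exact ⟨A, by simp, cA⟩
      · exact ⟨B, by simp, cB⟩
      · exact ⟨C, by simp, cC⟩)
    (by
      intro g hg
      simp only [Set.mem_insert_iff, Set.mem_singleton_iff] at hg
      rcases hg with rfl | rfl | rfl
      · rw [cA]; simp
      · rw [cB]; simp
      · rw [cC]; simp) CfsgH2.cl5 (by decide +kernel) CfsgH2.nd5 CfsgH2.fp5
  rw [CfsgH2.card5] at hmain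
  exact ⟨hmain.1, CfsgH2.regular_of_card _ (by rw [hmain.1]; norm_num) hmain.2⟩

end Cfsg.Agent.S0691
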