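import Cfsg.Statements.S0692
import Cfsg.Agent.H2.LinGen

set_option autoImplicit false
open Cfsg
open scoped commutatorElement

namespace Cfsg.Agent.S0692

/-- An exceptional sharply doubly transitive group of degree 11^2: the listed matrices generate a subgroup of GL(2,11) of order 120 acting regularly on the non-zero vectors. -/
theorem result (A : Matrix.GeneralLinearGroup (Fin 2) (ZMod 11)) (B : Matrix.GeneralLinearGroup (Fin 2) (ZMod 11)) (hA : (A : Matrix (Fin 2) (Fin 2) (ZMod 11)) = !![0, -1; 1, 0]) (hB : (B : Matrix (Fin 2) (Fin 2) (ZMod 11)) = !![2, 4; 1, -3]) : Nat.card (Subgroup.closure ({A, B} : Set (Matrix.GeneralLinearGroup (Fin 2) (ZMod 11)))) = 120 ∧ ∀ v w : Fin 2 → ZMod 11, v ≠ 0 → w ≠ 0 → ∃! h : Subgroup.closure ({A, B} : Set (Matrix.GeneralLinearGroup (Fin 2) (ZMod 11))), Matrix.mulVec ((h : Matrix.GeneralLinearGroup (Fin 2) (ZMod 11)) : Matrix (Fin 2) (Fin 2) (ZMod 11)) v = w := by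
  haveI : Fact (Nat.Prime 11) := ⟨by norm_num⟩
  have cA : CfsgH2.codeG A = (0, 10, 1, 0) := by
    unfold CfsgH2.codeG CfsgH2.codeM; rw [hA]; rfl
  have cB : CfsgH2.codeG B = (2, 4, 1, 8) := by
    unfold CfsgH2.codeG CfsgH2.codeM; rw [hB]; rfl
  have hmain := CfsgH2.closure_main (p := 11) ({A, B} : Set (CfsgH2.GL2 11)) [(0, 10, 1, 0), (2, 4, 1, 8)] CfsgH2.par120
    (by
      intro x hx
      simp only [List.mem_cons, List.not_mem_nil, or_false] at hx
      rcases hx with rfl | rfl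
      · exact ⟨A, by simp, cA⟩
      · exact ⟨B, by simp, cB⟩)
    (by
      intro g hg
      simp only [Set.mem_insert_iff, Set.mem_singleton_iff] at hg
      rcases hg with rfl | rfl
      · rw [cA]; simp
      · rw [cB]; simp) CfsgH2.cl11 (by decide +kernel) CfsgH2.nd11 CfsgH2.fp11
  rw [CfsgH2.card11] at hmain
  exact ⟨hmain.1, CfsgH2.regular_of_card _ (by rw [hmain.1]; norm_num) hmain.2⟩

end Cfsg.Agent.S0692
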