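import Cfsg.Statements.S0693
import Cfsg.Agent.H2.LinGen
import Cfsg.Agent.H1.Hall

set_option autoImplicit false
open Cfsg
open scoped commutatorElement

namespace Cfsg.Agent.S0693

/-- An exceptional sharply doubly transitive group of degree 59^2: the listed matrices generate a subgroup of GL(2,59) of order 3480 acting regularly on the non-zero vectors. -/
theorem result (A : Matrix.GeneralLinearGroup (Fin 2) (ZMod 59)) (B : Matrix.GeneralLinearGroup (Fin 2) (ZMod 59)) (C : Matrix.GeneralLinearGroup (Fin 2) (ZMod 59)) (hA : (A : Matrix (Fin 2) (Fin 2) (ZMod 59)) = !![0, -1; 1, 0]) (hB : (B : Matrix (Fin 2) (Fin 2) (ZMod 59)) = !![9, 15; -10, -10]) (hC : (C : Matrix (Fin 2) (Fin 2) (ZMod 59)) = !![4, 0; 0, 4]) : Nat.card (Subgroup.closure ({A, B, C} : Set (Matrix.GeneralLinearGroup (Fin 2) (ZMod 59)))) = 3480 ∧ ∀ v w : Fin 2 → ZMod 59, v ≠ 0 → w ≠ 0 → ∃! h : Subgroup.closure ({A, B, C} : Set (Matrix.GeneralLinearGroup (Fin 2) (ZMod 59))), Matrix.mulVec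 ((h : Matrix.GeneralLinearGroup (Fin 2) (ZMod 59)) : Matrix (Fin 2) (Fin 2) (ZMod 59)) v = w := by
  have h429 : (4 : ZMod 59) ^ 29 = 1 := by decide +kernel
  have h41 : (4 : ZMod 59) ≠ 1 := by decide +kernel
  haveI : Fact (Nat.Prime 59) := ⟨by norm_num⟩
  have cA : CfsgH2.codeG A = (0, 58, 1, 0) := by
    unfold CfsgH2.codeG CfsgH2.codeM; rw [hA]; rfl
  have cB : CfsgH2.codeG B = (9, 15, 49, 49) := by
    unfold CfsgH2.codeG CfsgH2.codeM; rw [hB]; rfl
  have hmain := CfsgH2.closure_main (p := 59) ({A, B} : Set (CfsgH2.GL2 59)) [(0, 58, 1, 0), (9, 15, 49, 49)] CfsgH2.par120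
    (by
      intro x hx
      simp only [List.mem_cons, List.not_mem_nil, or_false] at hx
      rcases hx with rfl | rfl
      · exact ⟨A, by simp, cA⟩
      · exact ⟨B, by simp, cB⟩)
    (by
      intro g hg
      simp only [Set.mem_insert_iff, Set.mem_singleton_iff] at hg
      rcases hg with rfl | rfl
      · rw [cA]; simp
      · rw [cB]; simp) CfsgH2.cl59 (by decide +kernel) CfsgH2.nd59 CfsgH2.fp59
  rw [CfsgH2.card59] at hmain
  obtain ⟨hK0, hfp⟩ := hmain
  set K0 := Subgroup.closure ({A, B} : Set (Matrix.GeneralLinearGroup (Fin 2) (ZMod 59))) with hK0d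
  have hCs : (C : Matrix (Fin 2) (Fin 2) (ZMod 59)) = (4 : ZMod 59) • (1 : Matrix (Fin 2) (Fin 2) (ZMod 59)) := by
    rw [hC]
    ext i j
    fin_cases i <;> fin_cases j <;> simp
  have hCpow : ∀ n : ℕ, ((C ^ n : Matrix.GeneralLinearGroup (Fin 2) (ZMod 59)) : Matrix (Fin 2) (Fin 2) (ZMod 59)) = ((4 : ZMod 59) ^ n) • (1 : Matrix (Fin 2) (Fin 2) (ZMod 59)) := by
    intro n
    rw [Units.val_pow_eq_pow_val, hCs, smul_pow, one_pow]
  have hC29 : C ^ 29 = 1 := by
    apply Units.ext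
    rw [hCpow, h429, one_smul, Units.val_one]
  have hC1 : C ≠ 1 := by
    intro h
    have h1 : (C : Matrix (Fin 2) (Fin 2) (ZMod 59)) 0 0 = 1 := by rw [h]; rfl
    rw [hC] at h1
    exact h41 h1
  have hCo : orderOf C = 29 := by
    haveI : Fact (Nat.Prime 29) := ⟨by norm_num⟩
    exact orderOf_eq_prime hC29 hC1
  have hCcomm : ∀ x : Matrix.GeneralLinearGroup (Fin 2) (ZMod 59), Commute C x := by
    intro x
    apply Units.ext
    rw [Units.val_mul, Units.val_mul, hCs, smul_mul_assoc, mul_smul_comm, one_mul, mul_one]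
  have hK : Subgroup.closure ({A, B, C} : Set (Matrix.GeneralLinearGroup (Fin 2) (ZMod 59))) = K0 ⊔ Subgroup.zpowers C := by
    have h1 : ({A, B, C} : Set (Matrix.GeneralLinearGroup (Fin 2) (ZMod 59))) = {A, B} ∪ {C} := by
      ext x
      simp only [Set.mem_insert_iff, Set.mem_singleton_iff, Set.mem_union]
      tauto
    rw [h1, Subgroup.closure_union, Subgroup.zpowers_eq_closure]
  have hnorm : (Subgroup.zpowers C).Normal := by
    constructor
    rintro _ ⟨i, rfl⟩ g
    have h1 : g * C ^ i * g⁻¹ = C ^ i := by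
      have h2 : Commute (C ^ i) g := (hCcomm g).zpow_left i
      rw [← h2.eq, mul_inv_cancel_right]
    show g * C ^ i * g⁻¹ ∈ _
    rw [h1]
    exact zpow_mem (Subgroup.mem_zpowers C) i
  have hcardZ : Nat.card (Subgroup.zpowers C) = 29 := by rw [Nat.card_zpowers, hCo]
  have hcard : Nat.card ↥(K0 ⊔ Subgroup.zpowers C) = 3480 := by
    have hcop : Nat.Coprime (Nat.card K0) (Nat.card (Subgroup.zpowers C)) := by rw [hK0, hcardZ]; norm_num
    have h1 := CfsgH1.card_sup_of_disjoint (H := K0) (K := Subgroup.zpowers C) (CfsgH1.le_normalizer_of_normal _ _) (CfsgH1.inf_eq_bot_of_coprime hcop)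
    rw [h1, hK0, hcardZ]
  have hfix : ∀ x ∈ K0 ⊔ Subgroup.zpowers C, ∀ v : Fin 2 → ZMod 59, v ≠ 0 →
      Matrix.mulVec (x : Matrix (Fin 2) (Fin 2) (ZMod 59)) v = v → x = 1 := by
    intro x hx v hv hxv
    rw [Subgroup.mem_sup_of_normal_right] at hx
    obtain ⟨k, hk, c, ⟨i, hi⟩, rfl⟩ := hx
    have hi' : C ^ i = c := hi
    have hkc : Commute k c := by rw [← hi']; exact ((hCcomm k).zpow_left i).symm
    have hc29 : c ^ 29 = 1 := by rw [← hi', ← zpow_natCast, zpow_comm, zpow_natCast, hC29, one_zpow]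
    have hpow : ∀ n : ℕ, Matrix.mulVec (((k * c) ^ n : Matrix.GeneralLinearGroup (Fin 2) (ZMod 59)) : Matrix (Fin 2) (Fin 2) (ZMod 59)) v = v := by
      intro n
      induction n with
      | zero => rw [pow_zero, Units.val_one, Matrix.one_mulVec]
      | succ n ih => rw [pow_succ, Units.val_mul, ← Matrix.mulVec_mulVec, hxv, ih]
    have h1 := hpow 29
    rw [hkc.mul_pow, hc29, mul_one] at h1
    have h2 := hfp (k ^ 29) (pow_mem hk 29) v hv h1
    have h3 : k = 1 := by
      have h4 : orderOf k ∣ 29 := orderOf_dvd_of_pow_eq_one h2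
      have h5 : orderOf k ∣ 120 := by
        rw [← hK0]
        have := orderOf_dvd_natCard (⟨k, hk⟩ : K0)
        rwa [Subgroup.orderOf_mk] at this
      have h6 := Nat.dvd_gcd h4 h5
      exact orderOf_eq_one_iff.1 (Nat.dvd_one.1 h6)
    rw [h3, one_mul] at hxv ⊢
    obtain ⟨n, hn⟩ : ∃ n : ℕ, C ^ n = c := by
      have h4 : c ∈ Subgroup.zpowers C := ⟨i, hi⟩
      rw [← mem_powers_iff_mem_zpowers] at h4
      exact h4
    rw [← hn, hCpow, Matrix.smul_mulVec, Matrix.one_mulVec] at hxv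
    obtain ⟨j, hj⟩ : ∃ j, v j ≠ 0 := by
      by_contra hcon
      push Not at hcon
      exact hv (funext hcon)
    have h5 := congrFun hxv j
    rw [Pi.smul_apply, smul_eq_mul] at h5
    have h6 : (4 : ZMod 59) ^ n = 1 := mul_right_cancel₀ hj (by rw [h5, one_mul])
    rw [← hn]
    apply Units.ext
    rw [hCpow, h6, one_smul, Units.val_one]
  rw [hK]
  exact ⟨hcard, CfsgH2.regular_of_card (p := 59) _ (by rw [hcard]; norm_num) hfix⟩

end Cfsg.Agent.S0693
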