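import Cfsg.Statements.S0695
import Cfsg.Agent.H2.PermE

set_option autoImplicit false
open Cfsg
open scoped commutatorElement

namespace Cfsg.Agent.S0695

/-- A regular normal subgroup of a doubly primitive group of finite degree at least 2 is an elementary abelian 2-group (and the degree is a power of 2), unless the degree is 3. -/
theorem result {G : Type*} [Group G] {X : Type*} [Fintype X] [MulAction G X] (hX : 2 ≤ Fintype.card X) (h2 : MulAction.IsMultiplyPreprimitive G X 2) (N : Subgroup G) [N.Normal] (htrans : MulAction.IsPretransitive N X) (hreg : ∀ x : X, MulAction.stabilizer N x = ⊥) : Fintype.card X = 3 ∨ (IsMulCommutative N ∧ (∀ n ∈ N, n ^ 2 = 1) ∧ ∃ m : ℕ, Fintype.card X = 2 ^ m) := by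
  have hr : ∀ n ∈ N, ∀ x : X, n • x = x → n = 1 := by
    intro n hn x hx
    have h1 := (Subgroup.eq_bot_iff_forall _).1 (hreg x) ⟨n, hn⟩ hx
    exact congrArg Subtype.val h1
  rcases CfsgH2.reg_double_prim (by rw [Nat.card_eq_fintype_card]; exact hX) h2 N (fun a b => by
    obtain ⟨m, hm⟩ := htrans.exists_smul_eq a b
    exact ⟨m, m.2, hm⟩) hr with h | ⟨h1, h2, -, m, hm⟩
  · left; rw [← Nat.card_eq_fintype_card]; exact h
  · right
    exact ⟨⟨⟨fun x y => Subtype.ext (h1 x x.2 y y.2)⟩⟩, h2, m, by rw [← Nat.card_eq_fintype_card]; exact hm⟩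

end Cfsg.Agent.S0695
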