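import Cfsg.Statements.S0700
import Cfsg.Agent.H2.BurnDT

set_option autoImplicit false
open Cfsg
open scoped commutatorElement

namespace Cfsg.Agent.S0700

open scoped Pointwise in
/-- Burnside's Theorem on doubly transitive groups: a minimal normal subgroup of a finite doubly transitive permutation group is elementary abelian and regular, or simple and primitive. -/
theorem result {α : Type*} [Fintype α] [DecidableEq α] (G : Subgroup (Equiv.Perm α)) (hG : MulAction.IsMultiplyPretransitive G α 2) (N : Subgroup G) [N.Normal] (hN : N ≠ ⊥) (hmin : ∀ M : Subgroup G, M.Normal → M ≤ N → M = ⊥ ∨ M = N) : (IsMulCommutative N ∧ (∃ p : ℕ, p.Prime ∧ ∀ n ∈ N, n ^ p = 1) ∧ ∀ a : α, MulAction.stabilizer N a = ⊥) ∨ (IsSimpleGroup N ∧ MulAction.IsPreprimitive N α) := by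
  classical
  have hfaith := CfsgH2.faithful_perm G
  haveI hGp : MulAction.IsPreprimitive G α := MulAction.isPreprimitive_of_is_two_pretransitive hG
  have h2 : ∀ a b c d : α, a ≠ b → c ≠ d → ∃ g : G, g • a = c ∧ g • b = d := by
    intro a b c d hab hcd
    rw [MulAction.is_two_pretransitive_iff] at hG
    exact hG hab hcd
  obtain ⟨n0, hn0⟩ := Subgroup.ne_bot_iff_exists_ne_one.1 hN
  obtain ⟨a0, ha0⟩ : ∃ a : α, (n0 : G) • a ≠ a := by
    by_contra hcon
    push Not at hcon
    exact hn0 (Subtype.ext (hfaith _ hcon))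
  haveI hNt : MulAction.IsPretransitive N α := by
    apply MulAction.IsQuasiPreprimitive.isPretransitive_of_normal (G := G)
    intro hfix
    have h3 : a0 ∈ MulAction.fixedPoints N α := by rw [hfix]; trivial
    exact ha0 (h3 n0)
  have ht : ∀ a b : α, ∃ n ∈ N, n • a = b := by
    intro a b
    obtain ⟨n, hn⟩ := hNt.exists_smul_eq a b
    exact ⟨n, n.2, hn⟩
  by_cases hr : ∀ n ∈ N, ∀ a : α, n • a = a → n = 1
  · left
    obtain ⟨hc, p, hp, hexp⟩ := CfsgH2.burn_reg h2 N hN hmin hr a0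
    refine ⟨⟨⟨fun x y => Subtype.ext (hc x x.2 y y.2)⟩⟩, ⟨p, hp, hexp⟩, ?_⟩
    intro a
    rw [Subgroup.eq_bot_iff_forall]
    intro n hn
    exact Subtype.ext (hr n n.2 a hn)
  · right
    push Not at hr
    obtain ⟨n, hn, a, hna, hn1⟩ := hr
    have hX : ∃ b : α, b ≠ a := by
      by_cases h : a0 = a
      · exact ⟨(n0 : G) • a0, by rw [h] at ha0 ⊢; exact ha0⟩
      · exact ⟨a0, h⟩
    have hprim := CfsgH2.burn_prim hfaith h2 N hmin ht a ⟨n, hn, hn1, hna⟩ hX
    refine ⟨CfsgH2.burn_simple hfaith h2 N hN hmin ht a hprim, ?_⟩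
    refine { isTrivialBlock_of_isBlock := ?_ }
    intro B hB
    apply hprim
    intro m hm x hx hmx y hy
    have h3 : (⟨m, hm⟩ : N) • B = B := hB.smul_eq_of_nonempty ⟨m • x, ⟨x, hx, rfl⟩, hmx⟩
    rw [← h3]
    exact ⟨y, hy, rfl⟩

end Cfsg.Agent.S0700
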