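import Cfsg.Statements.S0708
import Cfsg.Agent.H1.Basic

set_option autoImplicit false
open Cfsg
open scoped commutatorElement

namespace Cfsg.Agent.S0708

/-- Tits' argument: a sharply 4-transitive group (no finiteness assumed) has finite degree at most 11, and at most 6 when the degree is even. -/
theorem result {G : Type*} [Group G] {Ω : Type*} [MulAction G Ω] (h4 : MulAction.IsMultiplyPretransitive G Ω 4) (hsharp : ∀ x : Fin 4 ↪ Ω, MulAction.stabilizer G x = ⊥) (hne : Nonempty (Fin 4 ↪ Ω)) : Finite Ω ∧ Nat.card Ω ≤ 11 ∧ (Even (Nat.card Ω) → Nat.card Ω ≤ 6) := by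
  classical
  -- API
  let D : Ω → Ω → Ω → Ω → Prop := fun a b c d => a ≠ b ∧ a ≠ c ∧ a ≠ d ∧ b ≠ c ∧ b ≠ d ∧ c ≠ d
  have emb : ∀ a b c d : Ω, D a b c d → ∃ f : Fin 4 ↪ Ω, f 0 = a ∧ f 1 = b ∧ f 2 = c ∧ f 3 = d := by
    rintro a b c d ⟨h1, h2, h3, h5, h6, h7⟩
    refine ⟨⟨![a, b, c, d], ?_⟩, rfl, rfl, rfl, rfl⟩
    intro i j hij
    fin_cases i <;> fin_cases j <;> simp_all [eq_comm]
  have ex : ∀ a b c d a' b' c' d' : Ω, D a b c d → D a' b' c' d' → ∃ g : G, g • a = a' ∧ g • b = b' ∧ g • c = c' ∧ g • d = d' := by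
    intro a b c d a' b' c' d' h h'
    obtain ⟨f, f0, f1, f2, f3⟩ := emb a b c d h
    obtain ⟨f', f0', f1', f2', f3'⟩ := emb a' b' c' d' h'
    obtain ⟨g, hg⟩ := h4.exists_smul_eq f f'
    refine ⟨g, ?_, ?_, ?_, ?_⟩
    · rw [← f0, ← f0', ← hg]; rfl
    · rw [← f1, ← f1', ← hg]; rfl
    · rw [← f2, ← f2', ← hg]; rfl
    · rw [← f3, ← f3', ← hg]; rfl
  have un : ∀ (g : G) (a b c d : Ω), D a b c d → g • a = a → g • b = b → g • c = c → g • d = d → g = 1 := by
    intro g a b c d h ha hb hc hd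
    obtain ⟨f, f0, f1, f2, f3⟩ := emb a b c d h
    have h1 : g ∈ MulAction.stabilizer G f := by
      rw [MulAction.mem_stabilizer_iff]
      ext i
      show g • f i = f i
      fin_cases i
      · show g • f 0 = f 0; rw [f0, ha]
      · show g • f 1 = f 1; rw [f1, hb]
      · show g • f 2 = f 2; rw [f2, hc]
      · show g • f 3 = f 3; rw [f3, hd]
    rw [hsharp f, Subgroup.mem_bot] at h1
    exact h1
  have un2 : ∀ (g h : G) (a b c d : Ω), D a b c d → g • a = h • a → g • b = h • b → g • c = h • c → g • d = h • d → g = h := by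
    intro g h a b c d hD ha hb hc hd
    have h1 := un (h⁻¹ * g) a b c d hD (by rw [mul_smul, ha, inv_smul_smul]) (by rw [mul_smul, hb, inv_smul_smul])
      (by rw [mul_smul, hc, inv_smul_smul]) (by rw [mul_smul, hd, inv_smul_smul])
    exact (inv_mul_eq_one.1 h1).symm
  by_cases hsmall : Finite Ω ∧ Nat.card Ω ≤ 6
  · exact ⟨hsmall.1, by omega, fun _ => hsmall.2⟩
  have hout : ∀ S : Finset Ω, S.card ≤ 6 → ∃ p, p ∉ S := by
    intro S hS
    by_contra hcon
    push Not at hcon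
    apply hsmall
    have hfin : Finite Ω := Finite.of_finite_univ (by
      apply Set.Finite.subset S.finite_toSet
      intro p _; exact hcon p)
    refine ⟨hfin, ?_⟩
    haveI := Fintype.ofFinite Ω
    rw [Nat.card_eq_fintype_card, ← Finset.card_univ]
    have : (Finset.univ : Finset Ω) = S := by
      ext p; simp [hcon p]
    rw [this]; exact hS
  obtain ⟨f0⟩ := hne
  obtain ⟨a, b, c, d, hD⟩ : ∃ a b c d : Ω, D a b c d := by
    refine ⟨f0 0, f0 1, f0 2, f0 3, ?_, ?_, ?_, ?_, ?_, ?_⟩ <;>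
      · intro h; have := f0.injective h; revert this; decide
  have hDab : D b a c d := ⟨hD.1.symm, hD.2.2.2.1, hD.2.2.2.2.1, hD.2.1, hD.2.2.1, hD.2.2.2.2.2⟩
  have hDab2 : D b a d c := ⟨hD.1.symm, hD.2.2.2.2.1, hD.2.2.2.1, hD.2.2.1, hD.2.1, hD.2.2.2.2.2.symm⟩
  obtain ⟨x, xa, xb, xc, xd⟩ := ex a b c d b a c d hD hDab
  obtain ⟨z, za, zb, zc, zd⟩ := ex a b c d b a d c hD hDab2
  have zz : ∀ q : Ω, z • z • q = q := by
    have : z * z = 1 := by
      apply un (z * z) a b c d hD <;> rw [mul_smul]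
      · rw [za, zb]
      · rw [zb, za]
      · rw [zc, zd]
      · rw [zd, zc]
    intro q; rw [← mul_smul, this, one_smul]
  have xx : ∀ q : Ω, x • x • q = q := by
    have : x * x = 1 := by
      apply un (x * x) a b c d hD <;> rw [mul_smul]
      · rw [xa, xb]
      · rw [xb, xa]
      · rw [xc, xc]
      · rw [xd, xd]
    intro q; rw [← mul_smul, this, one_smul]
  have hab := hD.1
  -- conjugating `x` to `z`
  obtain ⟨g, ga, gb, hgx⟩ : ∃ g : G, g • a = a ∧ g • b = b ∧ ∀ q : Ω, x • q = q → z • g • q = g • q := by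
    obtain ⟨p1, hp1⟩ := hout {a, b, c, d} (Finset.card_le_four.trans (by norm_num))
    obtain ⟨p2, hp2⟩ := hout {a, b, c, d, p1} (Finset.card_le_five.trans (by norm_num))
    simp only [Finset.mem_insert, Finset.mem_singleton, not_or] at hp1 hp2
    obtain ⟨p, hp, hxp⟩ : ∃ p : Ω, (p ≠ a ∧ p ≠ b ∧ p ≠ c ∧ p ≠ d) ∧ x • p ≠ p := by
      by_contra hcon
      push Not at hcon
      have h1 := hcon p1 hp1
      have h2 := hcon p2 ⟨hp2.1, hp2.2.1, hp2.2.2.1, hp2.2.2.2.1⟩
      have h3 := un x c d p1 p2 ⟨hD.2.2.2.2.2, Ne.symm hp1.2.2.1, Ne.symm hp2.2.2.1, Ne.symm hp1.2.2.2, Ne.symm hp2.2.2.2.1, Ne.symm hp2.2.2.2.2⟩ xc xd h1 h2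
      rw [h3, one_smul] at xa
      exact hab xa
    have hq1 : x • p ≠ a := by
      intro h; apply hp.2.1; rw [← xx p, h, xa]
    have hq2 : x • p ≠ b := by
      intro h; apply hp.1; rw [← xx p, h, xb]
    obtain ⟨g, ga, gb, gp, gxp⟩ := ex a b p (x • p) a b c d ⟨hab, hp.1.symm, hq1.symm, hp.2.1.symm, hq2.symm, hxp.symm⟩ hD
    refine ⟨g, ga, gb, ?_⟩
    have ga' : g⁻¹ • a = a := by rw [inv_smul_eq_iff, ga]
    have gb' : g⁻¹ • b = b := by rw [inv_smul_eq_iff, gb]
    have gc' : g⁻¹ • c = p := by rw [inv_smul_eq_iff, gp]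
    have gd' : g⁻¹ • d = x • p := by rw [inv_smul_eq_iff, gxp]
    have h1 : g * x * g⁻¹ = z := by
      apply un2 _ _ a b c d hD
      · rw [mul_smul, mul_smul, ga', xa, gb, za]
      · rw [mul_smul, mul_smul, gb', xb, ga, zb]
      · rw [mul_smul, mul_smul, gc', gxp, zc]
      · rw [mul_smul, mul_smul, gd', xx, gp, zd]
    intro q hq
    rw [← h1, mul_smul, mul_smul, inv_smul_smul, hq]
  -- fixed points of `z`
  obtain ⟨e1, e2, he12, ze1, ze2⟩ : ∃ e1 e2 : Ω, e1 ≠ e2 ∧ z • e1 = e1 ∧ z • e2 = e2 :=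
    ⟨g • c, g • d, fun h => hD.2.2.2.2.2 (smul_left_cancel _ h), hgx c xc, hgx d xd⟩
  have hza : ∀ e : Ω, z • e = e → e ≠ a ∧ e ≠ b := by
    intro e he
    constructor
    · rintro rfl; rw [za] at he; exact hab he.symm
    · rintro rfl; rw [zb] at he; exact hab he
  have z1 : z ≠ 1 := by rintro h; rw [h, one_smul] at za; exact hab za
  -- the involutions `s`
  have L1 : ∀ (s : G) (p : Ω), s • a = b → s • b = a → s • p = p → s • z • p = z • p → p ≠ a → p ≠ b → z • p ≠ p →
      (∀ q : Ω, s • s • q = q) ∧ (∀ q : Ω, s • z • q = z • s • q) ∧ D a b p (z • p) := by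
    intro s p sa sb sp szp hpa hpb hzp
    have hq1 : z • p ≠ a := by
      intro h; apply hpb; rw [← zz p, h, za]
    have hq2 : z • p ≠ b := by
      intro h; apply hpa; rw [← zz p, h, zb]
    have hD2 : D a b p (z • p) := ⟨hab, hpa.symm, hq1.symm, hpb.symm, hq2.symm, hzp.symm⟩
    refine ⟨?_, ?_, hD2⟩
    · have : s * s = 1 := by
        apply un (s * s) a b p (z • p) hD2 <;> rw [mul_smul]
        · rw [sa, sb]
        · rw [sb, sa]
        · rw [sp, sp]
        · rw [szp, szp]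
      intro q; rw [← mul_smul, this, one_smul]
    · have : s * z = z * s := by
        apply un2 _ _ a b p (z • p) hD2 <;> rw [mul_smul, mul_smul]
        · rw [za, sb, sa, zb]
        · rw [zb, sa, sb, za]
        · rw [szp, sp]
        · rw [zz, sp, szp, zz]
      intro q; rw [← mul_smul, this, mul_smul]
  have L2 : ∀ p : Ω, p ≠ a → p ≠ b → z • p ≠ p → ∃ s : G, s • a = b ∧ s • b = a ∧ s • p = p ∧ s • z • p = z • p := by
    intro p hpa hpb hzp
    have hq1 : z • p ≠ a := by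
      intro h; apply hpb; rw [← zz p, h, za]
    have hq2 : z • p ≠ b := by
      intro h; apply hpa; rw [← zz p, h, zb]
    exact ex a b p (z • p) b a p (z • p) ⟨hab, hpa.symm, hq1.symm, hpb.symm, hq2.symm, hzp.symm⟩
      ⟨hab.symm, hpb.symm, hq2.symm, hpa.symm, hq1.symm, hzp.symm⟩
  -- `s` fixes at most one fixed point of `z`
  have L3 : ∀ (s : G) (p e e' : Ω), s • a = b → s • p = p → s • z • p = z • p → z • p ≠ p → z • e = e → z • e' = e' →
      e ≠ e' → s • e = e → s • e' = e' → False := by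
    intro s p e e' sa sp szp hzp he he' hee hse hse'
    have h1 : p ≠ e := by rintro rfl; exact hzp he
    have h2 : p ≠ e' := by rintro rfl; exact hzp he'
    have h3 : z • p ≠ e := by
      intro h; apply h1; rw [← zz p, h, he]
    have h5 : z • p ≠ e' := by
      intro h; apply h2; rw [← zz p, h, he']
    have h6 := un s p (z • p) e e' ⟨hzp.symm, h1, h2, h3, h5, hee⟩ sp szp hse hse'
    rw [h6, one_smul] at sa
    exact hab sa
  by_cases hthird : ∃ e3 : Ω, z • e3 = e3 ∧ e3 ≠ e1 ∧ e3 ≠ e2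
  swap
  · -- exactly two fixed points
    exfalso
    push Not at hthird
    have hfix : ∀ e : Ω, z • e = e → e = e1 ∨ e = e2 := by
      intro e he
      by_cases h : e = e1
      · exact Or.inl h
      · exact Or.inr (hthird e he h)
    have key : ∀ (s : G) (p : Ω), s • a = b → s • b = a → s • p = p → s • z • p = z • p → p ≠ a → p ≠ b → z • p ≠ p →
        s • e1 = e2 ∧ s • e2 = e1 := by
      intro s p sa sb sp szp hpa hpb hzp
      obtain ⟨ss, sz, -⟩ := L1 s p sa sb sp szp hpa hpb hzp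
      have h1 : s • e1 = e1 ∨ s • e1 = e2 := hfix _ (by rw [← sz, ze1])
      have h2 : s • e2 = e1 ∨ s • e2 = e2 := hfix _ (by rw [← sz, ze2])
      rcases h1 with h1 | h1
      · exfalso
        rcases h2 with h2 | h2
        · exact he12 (smul_left_cancel s (h1.trans h2.symm))
        · exact L3 s p e1 e2 sa sp szp hzp ze1 ze2 he12 h1 h2
      · exact ⟨h1, by rw [← h1, ss]⟩
    have hxk := key x c xa xb xc (by rw [zc, xd]) hD.2.1.symm hD.2.2.2.1.symm (by rw [zc]; exact hD.2.2.2.2.2.symm)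
    obtain ⟨p, hp⟩ := hout {a, b, c, d, e1, e2} (Finset.card_le_six.trans (by norm_num))
    simp only [Finset.mem_insert, Finset.mem_singleton, not_or] at hp
    have hzp : z • p ≠ p := by
      intro h
      rcases hfix p h with h1 | h1
      · exact hp.2.2.2.2.1 h1
      · exact hp.2.2.2.2.2 h1
    obtain ⟨s, sa, sb, sp, szp⟩ := L2 p hp.1 hp.2.1 hzp
    have hsk := key s p sa sb sp szp hp.1 hp.2.1 hzp
    have hsx : s = x := by
      apply un2 s x a b e1 e2 ⟨hab, (hza e1 ze1).1.symm, (hza e2 ze2).1.symm, (hza e1 ze1).2.symm, (hza e2 ze2).2.symm, he12⟩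
      · rw [sa, xa]
      · rw [sb, xb]
      · rw [hsk.1, hxk.1]
      · rw [hsk.2, hxk.2]
    rw [hsx] at sp
    -- three fixed points of `z`
    have h1 := hfix _ (hgx c xc)
    have h2 := hfix _ (hgx d xd)
    have h3 := hfix _ (hgx p sp)
    have n1 : g • c ≠ g • d := fun h => hD.2.2.2.2.2 (smul_left_cancel _ h)
    have n2 : g • c ≠ g • p := fun h => hp.2.2.1 (smul_left_cancel _ h).symm
    have n3 : g • d ≠ g • p := fun h => hp.2.2.2.1 (smul_left_cancel _ h).symm
    rcases h1 with h1 | h1 <;> rcases h2 with h2 | h2 <;> rcases h3 with h3 | h3 <;>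
      first
      | exact n1 (h1.trans h2.symm)
      | exact n2 (h1.trans h3.symm)
      | exact n3 (h2.trans h3.symm)
  -- three fixed points
  obtain ⟨e3, ze3, he31, he32⟩ := hthird
  have hfix : ∀ e : Ω, z • e = e → e = e1 ∨ e = e2 ∨ e = e3 := by
    intro e he
    by_contra hcon
    push Not at hcon
    exact z1 (un z e1 e2 e3 e ⟨he12, he31.symm, hcon.1.symm, he32.symm, hcon.2.1.symm, hcon.2.2.symm⟩ ze1 ze2 ze3 he)
  have hA1 := hza e1 ze1
  have hA2 := hza e2 ze2
  have hA3 := hza e3 ze3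
  let T : Ω → Ω → Ω → Ω → Prop := fun u1 u2 u3 p => ∃ s : G, s • a = b ∧ s • b = a ∧ s • p = p ∧ s • z • p = z • p ∧ s • e1 = u1 ∧ s • e2 = u2 ∧ s • e3 = u3
  have hT : ∀ p : Ω, p ≠ a → p ≠ b → z • p ≠ p → T e1 e3 e2 p ∨ T e3 e2 e1 p ∨ T e2 e1 e3 p := by
    intro p hpa hpb hzp
    obtain ⟨s, sa, sb, sp, szp⟩ := L2 p hpa hpb hzp
    obtain ⟨ss, sz, -⟩ := L1 s p sa sb sp szp hpa hpb hzp
    have h1 : s • e1 = e1 ∨ s • e1 = e2 ∨ s • e1 = e3 := hfix _ (by rw [← sz, ze1])
    have h2 : s • e2 = e1 ∨ s • e2 = e2 ∨ s • e2 = e3 := hfix _ (by rw [← sz, ze2])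
    have h3 : s • e3 = e1 ∨ s • e3 = e2 ∨ s • e3 = e3 := hfix _ (by rw [← sz, ze3])
    rcases h1 with h1 | h1 | h1
    · left
      have h5 : s • e2 = e3 := by
        rcases h2 with h2 | h2 | h2
        · exact absurd (smul_left_cancel s (h1.trans h2.symm)) he12
        · exact (L3 s p e1 e2 sa sp szp hzp ze1 ze2 he12 h1 h2).elim
        · exact h2
      exact ⟨s, sa, sb, sp, szp, h1, h5, by rw [← h5, ss]⟩
    · right; right
      have h5 : s • e2 = e1 := by rw [← h1, ss]
      have h6 : s • e3 = e3 := by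
        rcases h3 with h3 | h3 | h3
        · exact absurd (smul_left_cancel s (h3.trans h5.symm)) he32
        · exact absurd (smul_left_cancel s (h3.trans h1.symm)) he31
        · exact h3
      exact ⟨s, sa, sb, sp, szp, h1, h5, h6⟩
    · right; left
      have h5 : s • e3 = e1 := by rw [← h1, ss]
      have h6 : s • e2 = e2 := by
        rcases h2 with h2 | h2 | h2
        · exact absurd (smul_left_cancel s (h2.trans h5.symm)) he32.symm
        · exact h2
        · exact absurd (smul_left_cancel s (h2.trans h1.symm)) he12.symm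
      exact ⟨s, sa, sb, sp, szp, h1, h6, h5⟩
  have hTu : ∀ u1 u2 u3 p p' : Ω, p ≠ a → p ≠ b → z • p ≠ p → z • p' ≠ p' → T u1 u2 u3 p → T u1 u2 u3 p' → p' = p ∨ p' = z • p := by
    rintro u1 u2 u3 p p' hpa hpb hzp hzp' ⟨s, sa, sb, sp, szp, s1, s2, s3⟩ ⟨s', sa', sb', sp', szp', s1', s2', s3'⟩
    by_contra hcon
    push Not at hcon
    have hss : s = s' := by
      apply un2 s s' a b e1 e2 ⟨hab, hA1.1.symm, hA2.1.symm, hA1.2.symm, hA2.2.symm, he12⟩
      · rw [sa, sa']
      · rw [sb, sb']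
      · rw [s1, s1']
      · rw [s2, s2']
    rw [← hss] at sp' szp'
    have h1 : z • p' ≠ p := by
      intro h; apply hcon.2; rw [← h, zz]
    have h2 : z • p' ≠ z • p := fun h => hcon.1 (smul_left_cancel _ h)
    have h3 := un s p (z • p) p' (z • p') ⟨hzp.symm, hcon.1.symm, h1.symm, hcon.2.symm, h2.symm, hzp'.symm⟩ sp szp sp' szp'
    rw [h3, one_smul] at sa
    exact hab sa
  have hrep : ∀ u1 u2 u3 : Ω, ∃ p : Ω, ∀ p' : Ω, p' ≠ a → p' ≠ b → z • p' ≠ p' → T u1 u2 u3 p' → p' = p ∨ p' = z • p := by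
    intro u1 u2 u3
    by_cases h : ∃ p : Ω, p ≠ a ∧ p ≠ b ∧ z • p ≠ p ∧ T u1 u2 u3 p
    · obtain ⟨p, hpa, hpb, hzp, hp⟩ := h
      exact ⟨p, fun p' _ _ hzp' hp' => hTu u1 u2 u3 p p' hpa hpb hzp hzp' hp hp'⟩
    · exact ⟨a, fun p' hpa hpb hzp hp' => absurd ⟨p', hpa, hpb, hzp, hp'⟩ h⟩
  obtain ⟨r1, hr1⟩ := hrep e1 e3 e2
  obtain ⟨r2, hr2⟩ := hrep e3 e2 e1
  obtain ⟨r3, hr3⟩ := hrep e2 e1 e3
  let F : Fin 11 → Ω := ![a, b, e1, e2, e3, r1, z • r1, r2, z • r2, r3, z • r3]
  have hF : Function.Surjective F := by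
    intro p
    by_cases hpa : p = a
    · exact ⟨0, hpa.symm⟩
    by_cases hpb : p = b
    · exact ⟨1, hpb.symm⟩
    by_cases hzp : z • p = p
    · rcases hfix p hzp with h | h | h
      · exact ⟨2, h.symm⟩
      · exact ⟨3, h.symm⟩
      · exact ⟨4, h.symm⟩
    rcases hT p hpa hpb hzp with h | h | h
    · rcases hr1 p hpa hpb hzp h with h1 | h1
      · exact ⟨5, h1.symm⟩
      · exact ⟨6, h1.symm⟩
    · rcases hr2 p hpa hpb hzp h with h1 | h1
      · exact ⟨7, h1.symm⟩
      · exact ⟨8, h1.symm⟩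
    · rcases hr3 p hpa hpb hzp h with h1 | h1
      · exact ⟨9, h1.symm⟩
      · exact ⟨10, h1.symm⟩
  have hfin : Finite Ω := Finite.of_surjective F hF
  refine ⟨hfin, ?_, ?_⟩
  · have := Nat.card_le_card_of_surjective F hF
    rwa [Nat.card_eq_fintype_card (α := Fin 11), Fintype.card_fin] at this
  · intro heven
    exfalso
    haveI : Fact (Nat.Prime 2) := ⟨Nat.prime_two⟩
    haveI := Fintype.ofFinite Ω
    let fz : Function.End Ω := fun q => z • q
    have hpow : fz ^ 2 ^ 1 = 1 := by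
      rw [pow_one, pow_two]
      funext q
      show z • z • q = q
      exact zz q
    have h1 := Equiv.Perm.card_fixedPoints_modEq hpow
    have h2 : Fintype.card (Function.fixedPoints (fun q : Ω => z • q)) = 3 := by
      rw [← Nat.card_eq_fintype_card, Nat.card_coe_set_eq]
      have h3 : Function.fixedPoints (fun q : Ω => z • q) = {e1, e2, e3} := by
        ext q
        simp only [Set.mem_insert_iff, Set.mem_singleton_iff]
        constructor
        · intro h; exact hfix q h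
        · rintro (h | h | h)
          · rw [h]; exact ze1
          · rw [h]; exact ze2
          · rw [h]; exact ze3
      rw [h3, Set.ncard_eq_three]
      exact ⟨e1, e2, e3, he12, he31.symm, he32.symm, rfl⟩
    rw [h2, ← Nat.card_eq_fintype_card] at h1
    rw [Nat.even_iff] at heven
    unfold Nat.ModEq at h1
    omega

end Cfsg.Agent.S0708
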