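import Cfsg.Statements.S0738
import Cfsg.Agent.H2.Zass

set_option autoImplicit false
open Cfsg
open scoped commutatorElement

namespace Cfsg.Agent.S0738

/-- Let a finite Zassenhaus group of degree `n + 1` have two-point stabilisers of order `d` with `2d ≥ n - 1`. Then a normal subgroup of a point stabiliser acting regularly on the remaining points is elementary abelian, and the degree is a prime power plus one. -/
theorem result {G Ω : Type*} [Group G] [Finite G] [MulAction G Ω] [Fintype Ω] (hZ : Cfsg.IsZassenhausGroup G Ω) {a b : Ω} (hab : a ≠ b) (hd : Fintype.card Ω - 2 ≤ 2 * Nat.card ↥(MulAction.stabilizer G a ⊓ MulAction.stabilizer G b)) (F : Subgroup G) (hFle : F ≤ MulAction.stabilizer G a) (hFn : (F.subgroupOf (MulAction.stabilizer G a)).Normal) (hreg : ∀ y z : Ω, y ≠ a → z ≠ a → ∃! u : F, (u : G) • y = z) : IsMulCommutative F ∧ ∃ p f : ℕ, p.Prime ∧ (∀ u ∈ F, u ^ p = 1) ∧ Fintype.card Ω = p ^ f + 1 := by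
  classical
  obtain ⟨hfaith, h2, h3, ⟨g0, hg0, a0, b0, hab0, hga0, hgb0⟩, -⟩ := hZ
  haveI := hfaith
  -- at least three points
  have hN : 3 ≤ Fintype.card Ω := by
    obtain ⟨c, hc⟩ : ∃ c : Ω, g0 • c ≠ c := by
      by_contra hcon; push Not at hcon
      exact hg0 (hfaith.eq_of_smul_eq_smul (fun x => by rw [hcon x, one_smul]))
    have h4 : ({a0, b0, c} : Finset Ω).card = 3 := by
      rw [Finset.card_eq_three]
      refine ⟨a0, b0, c, hab0, ?_, ?_, rfl⟩
      · rintro rfl; exact hc hga0
      · rintro rfl; exact hc hgb0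
    rw [← h4]
    exact Finset.card_le_univ _
  set H : Subgroup G := MulAction.stabilizer G a ⊓ MulAction.stabilizer G b with hH
  -- order of `F`
  have hFc : Nat.card F + 1 = Fintype.card Ω := by
    have h4 : Nat.card F = Nat.card {y : Ω // y ≠ a} := by
      refine Nat.card_eq_of_bijective (fun u => ⟨(u : G) • b, ?_⟩) ⟨?_, ?_⟩
      · intro hc
        have h5 : (u : G) • a = a := hFle u.2
        apply hab
        rw [← h5] at hc
        exact (smul_left_cancel _ hc).symm
      · intro u v huv
        have h5 : (u : G) • b = (v : G) • b := congrArg Subtype.val huv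
        have h6 : (v : G) • b ≠ a := by
          intro hc
          have h7 : (v : G) • a = a := hFle v.2
          apply hab
          rw [← h7] at hc
          exact (smul_left_cancel _ hc).symm
        exact (hreg b ((v : G) • b) hab.symm h6).unique h5 rfl
      · rintro ⟨y, hy⟩
        obtain ⟨u, hu, -⟩ := hreg b y hab.symm hy
        exact ⟨u, Subtype.ext hu⟩
    rw [h4, Nat.card_eq_fintype_card, Fintype.card_subtype_compl, Fintype.card_subtype_eq]
    omega
  have hmain := CfsgH2.elementary_of_two_orbits F H (by
      intro h hh x hx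
      have h4 := hFn.conj_mem ⟨x, hFle hx⟩ hx ⟨h, hh.1⟩
      exact h4) (by
      intro h hh x hx hx1 hc
      have h4 : x • b ≠ b := by
        intro h5
        have h6 := (hreg b b hab.symm hab.symm).unique (y₁ := ⟨x, hx⟩) (y₂ := 1) h5 (one_smul _ _)
        exact hx1 (congrArg Subtype.val h6)
      have h5 : x • b ≠ a := by
        intro hc
        have h7 : x • a = a := hFle hx
        apply hab
        rw [← h7] at hc
        exact (smul_left_cancel _ hc).symm
      have h6 : h • b = b := hh.2
      apply h3 h a b (x • b) hab h4.symm h5.symm hh.1 h6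
      rw [mul_inv_eq_iff_eq_mul] at hc
      rw [← mul_smul, hc, mul_smul, h6]) (by omega) (by omega)
  obtain ⟨hcomm, p, f, hp, hexp, hf⟩ := hmain
  exact ⟨hcomm, p, f, hp, hexp, by rw [← hFc, hf]⟩

end Cfsg.Agent.S0738
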