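import Cfsg.Statements.S0740


set_option autoImplicit false
open Cfsg
open scoped commutatorElement

namespace Cfsg.Agent.S0740

/-- In a finite Zassenhaus group any two points `a ≠ b` are swapped by an involution; every such involution has exactly one fixed point when the degree is odd and 0 or 2 fixed points when the degree is even; and if the two-point stabiliser has even order, some such involution has exactly 2 fixed points. -/
theorem result {G Ω : Type*} [Group G] [Finite G] [MulAction G Ω] [Fintype Ω] (hZ : Cfsg.IsZassenhausGroup G Ω) {a b : Ω} (hab : a ≠ b) : (∃ s : G, orderOf s = 2 ∧ s • a = b ∧ s • b = a) ∧ (∀ s : G, orderOf s = 2 → s • a = b → s • b = a → (Odd (Fintype.card Ω) → Nat.card (MulAction.fixedBy Ω s) = 1) ∧ (Even (Fintype.card Ω) → Nat.card (MulAction.fixedBy Ω s) = 0 ∨ Nat.card (MulAction.fixedBy Ω s) = 2)) ∧ (Even (Fintype.card Ω) → Even (Nat.card ↥(MulAction.stabilizer G a ⊓ MulAction.stabilizer G b)) → ∃ s : G, orderOf s = 2 ∧ s • a = b ∧ s • b = a ∧ Nat.card (MulAction.fixedBy Ω s)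 = 2) := by
  classical
  obtain ⟨hfaith, h2, h3, ⟨g0, hg0, -⟩, -⟩ := hZ
  haveI := hfaith
  have h2' := h2
  rw [MulAction.is_two_pretransitive_iff] at h2'
  -- involutions have at most two fixed points, with parity
  have hfix : ∀ s : G, orderOf s = 2 → Nat.card (MulAction.fixedBy Ω s) ≤ 2 ∧
      Nat.card (MulAction.fixedBy Ω s) % 2 = Fintype.card Ω % 2 := by
    intro s hs
    have hs1 : s ≠ 1 := by rintro rfl; rw [orderOf_one] at hs; omega
    constructor
    · by_contra hc
      push Not at hc
      rw [Nat.card_coe_set_eq] at hc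
      obtain ⟨x, y, z, hx, hy, hz, hxy, hxz, hyz⟩ := (Set.two_lt_ncard_iff (Set.toFinite _)).1 hc
      exact hs1 (h3 s x y z hxy hyz hxz hx hy hz)
    · have h4 : IsPGroup 2 (Subgroup.zpowers s) := IsPGroup.of_card (n := 1) (by rw [Nat.card_zpowers, hs, pow_one])
      haveI : Fact (Nat.Prime 2) := ⟨Nat.prime_two⟩
      have h5 := h4.card_modEq_card_fixedPoints Ω
      have h6 : MulAction.fixedPoints (Subgroup.zpowers s) Ω = MulAction.fixedBy Ω s := by
        ext x
        constructor
        · intro h; exact h ⟨s, Subgroup.mem_zpowers s⟩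
        · rintro h ⟨_, n, rfl⟩
          exact MulAction.mem_fixedBy_zpow h n
      rw [h6] at h5
      rw [Nat.card_eq_fintype_card (α := Ω)] at h5
      exact h5.symm
  -- moving an involution
  have hmove : ∀ t : G, orderOf t = 2 → ∃ s : G, orderOf s = 2 ∧ s • a = b ∧ s • b = a ∧
      Nat.card (MulAction.fixedBy Ω s) = Nat.card (MulAction.fixedBy Ω t) := by
    intro t ht
    have ht1 : t ≠ 1 := by rintro rfl; rw [orderOf_one] at ht; omega
    obtain ⟨c, hc⟩ : ∃ c : Ω, t • c ≠ c := by
      by_contra hcon; push Not at hcon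
      exact ht1 (hfaith.eq_of_smul_eq_smul (fun x => by rw [hcon x, one_smul]))
    obtain ⟨g, hg1, hg2⟩ := h2' (Ne.symm hc) hab
    have htt : t * t = 1 := by rw [← pow_two, ← ht]; exact pow_orderOf_eq_one t
    have hca : g⁻¹ • a = c := by rw [← hg1, inv_smul_smul]
    have hcb : g⁻¹ • b = t • c := by rw [← hg2, inv_smul_smul]
    refine ⟨g * t * g⁻¹, ?_, ?_, ?_, ?_⟩
    · rw [← ht]
      exact (MulAut.conj g).orderOf_eq t
    · rw [mul_smul, mul_smul, hca, hg2]
    · rw [mul_smul, mul_smul, hcb, ← mul_smul t t, htt, one_smul, hg1]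
    · symm
      apply Nat.card_congr
      exact
        { toFun := fun x => ⟨g • (x : Ω), by
            rw [MulAction.mem_fixedBy, mul_smul, mul_smul, inv_smul_smul]; congr 1; exact x.2⟩
          invFun := fun x => ⟨g⁻¹ • (x : Ω), by
            have h4 := x.2
            rw [MulAction.mem_fixedBy, mul_smul, mul_smul, smul_eq_iff_eq_inv_smul] at h4
            exact h4⟩
          left_inv := fun x => by apply Subtype.ext; exact inv_smul_smul g (x : Ω)
          right_inv := fun x => by apply Subtype.ext; exact smul_inv_smul g (x : Ω) }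
  haveI : Fact (Nat.Prime 2) := ⟨Nat.prime_two⟩
  refine ⟨?_, ?_, ?_⟩
  · -- an involution exists
    obtain ⟨g, hg1, hg2⟩ := h2' hab hab.symm
    have h4 : 2 ∣ orderOf g := by
      by_contra hodd
      have h5 : Odd (orderOf g) := Nat.odd_iff.2 (by omega)
      obtain ⟨m, hm⟩ := h5
      have h6 : (g * g) • a = a := by rw [mul_smul, hg1, hg2]
      have h7 : ((g * g) ^ m) • a = a := by
        clear hm
        induction m with
        | zero => simp
        | succ m ih => rw [pow_succ, mul_smul, h6, ih]
      have h8 : g ^ (2 * m + 1) = 1 := by rw [← hm]; exact pow_orderOf_eq_one g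
      have h9 : g • a = a := by
        have h10 : (g ^ (2 * m + 1)) • a = g • a := by
          rw [pow_succ', pow_mul, mul_smul, pow_two, h7]
        rw [← h10, h8, one_smul]
      rw [hg1] at h9; exact hab h9.symm
    obtain ⟨t, ht⟩ : ∃ t : G, orderOf t = 2 := by
      refine ⟨g ^ (orderOf g / 2), ?_⟩
      rw [orderOf_pow_of_dvd]
      · exact Nat.div_div_self h4 (orderOf_pos g).ne'
      · exact (Nat.div_pos (Nat.le_of_dvd (orderOf_pos g) h4) (by norm_num)).ne'
      · exact Nat.div_dvd_of_dvd h4
    obtain ⟨s, hs1, hs2, hs3, -⟩ := hmove t ht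
    exact ⟨s, hs1, hs2, hs3⟩
  · intro s hs _ _
    obtain ⟨h4, h5⟩ := hfix s hs
    constructor
    · intro hodd
      rw [Nat.odd_iff] at hodd; omega
    · intro heven
      rw [Nat.even_iff] at heven; omega
  · intro heven heven2
    obtain ⟨z, hz⟩ := exists_prime_orderOf_dvd_card' (G := ↥(MulAction.stabilizer G a ⊓ MulAction.stabilizer G b)) 2
      (even_iff_two_dvd.1 heven2)
    have hz2 : orderOf (z : G) = 2 := by rw [Subgroup.orderOf_coe]; exact hz
    obtain ⟨s, hs1, hs2, hs3, hs4⟩ := hmove z hz2
    refine ⟨s, hs1, hs2, hs3, ?_⟩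
    rw [hs4]
    obtain ⟨h4, h5⟩ := hfix z hz2
    rw [Nat.even_iff] at heven
    have h6 : 0 < Nat.card (MulAction.fixedBy Ω (z : G)) := by
      haveI : Nonempty (MulAction.fixedBy Ω (z : G)) := ⟨⟨a, z.2.1⟩⟩
      exact Nat.card_pos
    omega

end Cfsg.Agent.S0740
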