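import Cfsg.Statements.S0741
import Cfsg.Agent.H1.Basic

set_option autoImplicit false
open Cfsg
open scoped commutatorElement

namespace Cfsg.Agent.S0741

/-- If the two-point stabilisers of a finite Zassenhaus group of degree `n + 1` have even order `d`, then `2d ≥ n - 1`. -/
theorem result {G Ω : Type*} [Group G] [Finite G] [MulAction G Ω] [Fintype Ω] (hZ : Cfsg.IsZassenhausGroup G Ω) {a b : Ω} (hab : a ≠ b) (heven : Even (Nat.card ↥(MulAction.stabilizer G a ⊓ MulAction.stabilizer G b))) : Fintype.card Ω - 2 ≤ 2 * Nat.card ↥(MulAction.stabilizer G a ⊓ MulAction.stabilizer G b) := by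
  classical
  obtain ⟨hfaith, h2, h3, -, -⟩ := hZ
  haveI := hfaith
  rw [MulAction.is_two_pretransitive_iff] at h2
  haveI : Fintype G := Fintype.ofFinite G
  haveI : Fact (Nat.Prime 2) := ⟨Nat.prime_two⟩
  set d := Nat.card ↥(MulAction.stabilizer G a ⊓ MulAction.stabilizer G b) with hd
  -- fixed points of a nontrivial element
  have hfix : ∀ t : G, t ≠ 1 → (Finset.univ.filter (fun x : Ω => t • x = x)).card ≤ 2 := by
    intro t ht
    by_contra hc
    push Not at hc
    obtain ⟨x, y, z, hx, hy, hz, hxy, hxz, hyz⟩ := Finset.two_lt_card_iff.1 hc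
    simp only [Finset.mem_filter, Finset.mem_univ, true_and] at hx hy hz
    exact ht (h3 t x y z hxy hyz hxz hx hy hz)
  let I : Finset G := Finset.univ.filter (fun t => orderOf t = 2 ∧ ∃ x y : Ω, x ≠ y ∧ t • x = x ∧ t • y = y)
  let P : Finset (Ω × Ω) := Finset.univ.filter (fun p => p.1 ≠ p.2)
  have hI : ∀ t ∈ I, t ≠ 1 ∧ ∀ x : Ω, t • t • x = x := by
    intro t ht
    simp only [I, Finset.mem_filter, Finset.mem_univ, true_and] at ht
    have h4 : t * t = 1 := by rw [← pow_two, ← ht.1]; exact pow_orderOf_eq_one t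
    refine ⟨?_, fun x => by rw [← mul_smul, h4, one_smul]⟩
    rintro rfl
    rw [orderOf_one] at ht
    omega
  let r : Ω × Ω → G → Prop := fun p t => t • p.1 = p.2 ∧ t • p.2 = p.1
  let r' : Ω × Ω → G → Prop := fun p t => t • p.1 = p.1 ∧ t • p.2 = p.2
  have hPc : P.card + Fintype.card Ω = Fintype.card Ω * Fintype.card Ω := by
    have h4 : P = (Finset.univ : Finset Ω).offDiag := by
      ext p
      simp [P, Finset.mem_offDiag]
    rw [h4, Finset.offDiag_card, Finset.card_univ]
    exact Nat.sub_add_cancel (Nat.le_mul_self _)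
  -- swapping elements
  have hS : ∀ p ∈ P, (I.bipartiteAbove r p).card ≤ d := by
    intro p hp
    simp only [P, Finset.mem_filter, Finset.mem_univ, true_and] at hp
    rcases (I.bipartiteAbove r p).eq_empty_or_nonempty with he | ⟨t0, ht0⟩
    · rw [he, Finset.card_empty]; exact Nat.zero_le _
    rw [Finset.mem_bipartiteAbove] at ht0
    obtain ⟨g, hg1, hg2⟩ := h2 hp hab
    have hg1' : g⁻¹ • a = p.1 := by rw [← hg1, inv_smul_smul]
    have hg2' : g⁻¹ • b = p.2 := by rw [← hg2, inv_smul_smul]
    have ht1' : t0⁻¹ • p.1 = p.2 := by rw [inv_smul_eq_iff]; exact ht0.2.2.symm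
    have ht2' : t0⁻¹ • p.2 = p.1 := by rw [inv_smul_eq_iff]; exact ht0.2.1.symm
    rw [hd, ← Nat.card_eq_finsetCard]
    refine Nat.card_le_card_of_injective (fun t => ⟨g * t * t0⁻¹ * g⁻¹, ?_, ?_⟩) ?_
    · have h4 := ((Finset.mem_bipartiteAbove r).1 t.2).2
      show (g * (t : G) * t0⁻¹ * g⁻¹) • a = a
      rw [mul_smul, mul_smul, mul_smul, hg1', ht1', h4.2, hg1]
    · have h4 := ((Finset.mem_bipartiteAbove r).1 t.2).2
      show (g * (t : G) * t0⁻¹ * g⁻¹) • b = b
      rw [mul_smul, mul_smul, mul_smul, hg2', ht2', h4.1, hg2]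
    · intro t t' htt
      have h4 := congrArg Subtype.val htt
      simp only [mul_left_inj, mul_right_inj] at h4
      exact Subtype.ext h4
  have hS2 : ∀ t ∈ I, Fintype.card Ω - 2 ≤ (P.bipartiteBelow r t).card := by
    intro t ht
    obtain ⟨ht1, ht2⟩ := hI t ht
    have h4 := Finset.card_filter_add_card_filter_not (s := (Finset.univ : Finset Ω)) (fun x : Ω => t • x = x)
    have h5 := hfix t ht1
    rw [Finset.card_univ] at h4
    have h6 : (Finset.univ.filter (fun x : Ω => ¬ t • x = x)).card ≤ (P.bipartiteBelow r t).card := by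
      apply Finset.card_le_card_of_injOn (fun x => (x, t • x))
      · intro x hx
        simp only [Finset.coe_filter, Finset.mem_univ, true_and, Set.mem_setOf_eq] at hx
        rw [Finset.mem_coe, Finset.mem_bipartiteBelow]
        exact ⟨by simp only [P, Finset.mem_filter, Finset.mem_univ, true_and]; exact fun h => hx h.symm, rfl, ht2 x⟩
      · intro x _ y _ hxy
        exact (Prod.ext_iff.1 hxy).1
    omega
  have hF2 : ∀ t ∈ I, (P.bipartiteBelow r' t).card ≤ 2 := by
    intro t ht
    obtain ⟨ht1, ht2⟩ := hI t ht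
    have h5 := hfix t ht1
    have h6 : P.bipartiteBelow r' t ⊆ (Finset.univ.filter (fun x : Ω => t • x = x)).offDiag := by
      intro p hp
      rw [Finset.mem_bipartiteBelow] at hp
      rw [Finset.mem_offDiag]
      simp only [Finset.mem_filter, Finset.mem_univ, true_and]
      simp only [P, Finset.mem_filter, Finset.mem_univ, true_and] at hp
      exact ⟨hp.2.1, hp.2.2, hp.1⟩
    have h7 := Finset.card_le_card h6
    rw [Finset.offDiag_card] at h7
    interval_cases h8 : (Finset.univ.filter (fun x : Ω => t • x = x)).card <;> omega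
  have hF : ∀ p ∈ P, 1 ≤ (I.bipartiteAbove r' p).card := by
    intro p hp
    simp only [P, Finset.mem_filter, Finset.mem_univ, true_and] at hp
    obtain ⟨z, hz⟩ := exists_prime_orderOf_dvd_card' (G := ↥(MulAction.stabilizer G a ⊓ MulAction.stabilizer G b)) 2
      (even_iff_two_dvd.1 heven)
    have hz2 : orderOf (z : G) = 2 := by rw [Subgroup.orderOf_coe]; exact hz
    obtain ⟨g, hg1, hg2⟩ := h2 hab hp
    have hg1' : g⁻¹ • p.1 = a := by rw [← hg1, inv_smul_smul]
    have hg2' : g⁻¹ • p.2 = b := by rw [← hg2, inv_smul_smul]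
    have hza : (z : G) • a = a := z.2.1
    have hzb : (z : G) • b = b := z.2.2
    have h4 : (g * z * g⁻¹) • p.1 = p.1 := by rw [mul_smul, mul_smul, hg1', hza, hg1]
    have h5 : (g * z * g⁻¹) • p.2 = p.2 := by rw [mul_smul, mul_smul, hg2', hzb, hg2]
    apply Finset.card_pos.2
    refine ⟨g * z * g⁻¹, ?_⟩
    rw [Finset.mem_bipartiteAbove]
    refine ⟨?_, h4, h5⟩
    simp only [I, Finset.mem_filter, Finset.mem_univ, true_and]
    refine ⟨?_, p.1, p.2, hp, h4, h5⟩
    rw [← hz2]
    exact (MulAut.conj g).orderOf_eq (z : G)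
  have e1 := Finset.sum_card_bipartiteAbove_eq_sum_card_bipartiteBelow (s := P) (t := I) r
  have e2 := Finset.sum_card_bipartiteAbove_eq_sum_card_bipartiteBelow (s := P) (t := I) r'
  have i1 := Finset.sum_le_card_nsmul P _ _ hS
  have i2 := Finset.card_nsmul_le_sum I _ _ hS2
  have i3 := Finset.sum_le_card_nsmul I _ _ hF2
  have i4 := Finset.card_nsmul_le_sum P _ _ hF
  rw [e1] at i1
  rw [e2] at i4
  rw [smul_eq_mul] at i1 i2 i3 i4
  have hPpos : 0 < P.card := Finset.card_pos.2 ⟨(a, b), by simp only [P, Finset.mem_filter, Finset.mem_univ, true_and]; exact hab⟩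
  have i5 : I.card * (Fintype.card Ω - 2) ≤ P.card * d := i2.trans i1
  have i6 : P.card ≤ I.card * 2 := by
    have := i4.trans i3
    rwa [mul_one] at this
  have i7 : P.card * (Fintype.card Ω - 2) ≤ P.card * (2 * d) := by
    calc P.card * (Fintype.card Ω - 2) ≤ (I.card * 2) * (Fintype.card Ω - 2) := Nat.mul_le_mul_right _ i6
      _ = 2 * (I.card * (Fintype.card Ω - 2)) := by ring
      _ ≤ 2 * (P.card * d) := Nat.mul_le_mul_left _ i5
      _ = P.card * (2 * d) := by ring
  exact Nat.le_of_mul_le_mul_left i7 hPpos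

end Cfsg.Agent.S0741
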