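import Cfsg.Statements.S0752
import Cfsg.Agent.H9.Alt

set_option autoImplicit false
open Cfsg

namespace Cfsg.Agent.S0752

/-- Classification of alternating forms: for an alternating bilinear form B on a finite-dimensional space over any field there is a basis indexed by (Fin m ⊕ Fin m) ⊕ Fin k such that B (e_i, f_j) = δ_ij, the e's are pairwise orthogonal, the f's are pairwise orthogonal, and the last k basis vectors are orthogonal to everything (they span the radical). -/
theorem result {F V : Type*} [Field F] [AddCommGroup V] [Module F V] [FiniteDimensional F V] (B : LinearMap.BilinForm F V) (hA : B.IsAlt) : ∃ (m k : ℕ) (b : Module.Basis ((Fin m ⊕ Fin m) ⊕ Fin k) F V), (∀ i j : Fin m, B (b (Sum.inl (Sum.inl i))) (b (Sum.inl (Sum.inr j))) = if i = j then 1 else 0) ∧ (∀ i j : Fin m, B (b (Sum.inl (Sum.inl i))) (b (Sum.inl (Sum.inl j))) = 0) ∧ (∀ i j : Fin m, B (b (Sum.inl (Sum.inr i))) (b (Sum.inl (Sum.inr j))) = 0) ∧ (∀ (j : Fin k) (v : V), B (b (Sum.inr j)) v = 0) := by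
  obtain ⟨W, hW⟩ := Submodule.exists_isCompl (LinearMap.ker B)
  have hdec : ∀ v : V, ∃ r ∈ LinearMap.ker B, ∃ w ∈ W, v = r + w := by
    intro v
    have hv : v ∈ LinearMap.ker B ⊔ W := by rw [hW.sup_eq_top]; trivial
    obtain ⟨r, hr, w, hw, rfl⟩ := Submodule.mem_sup.1 hv
    exact ⟨r, hr, w, hw, rfl⟩
  have hr0 : ∀ r ∈ LinearMap.ker B, ∀ v, B r v = 0 := by
    intro r hr v
    rw [LinearMap.mem_ker] at hr
    rw [hr]; rfl
  have hr0' : ∀ r ∈ LinearMap.ker B, ∀ v, B v r = 0 := by
    intro r hr v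
    rw [CfsgH9.Alt.skew hA, hr0 r hr, neg_zero]
  obtain ⟨m, e, f, h, hm⟩ := CfsgH9.Alt.exists_hyp (B := B.restrict W) (by
    intro x hx
    by_contra hcon
    push Not at hcon
    apply hx
    have h1 : (x : V) ∈ LinearMap.ker B := by
      rw [LinearMap.mem_ker]
      ext v
      obtain ⟨r, hr, w, hw, rfl⟩ := hdec v
      rw [map_add, hr0' r hr, zero_add]
      exact hcon ⟨w, hw⟩
    have h2 := Submodule.disjoint_def.1 hW.disjoint _ h1 x.2
    exact Subtype.ext h2) (fun x => hA _)
  let bW := h.basis (fun x => hA _) hm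
  let bR := Module.finBasis F (LinearMap.ker B)
  let b := ((bW.prod bR).map (Submodule.prodEquivOfIsCompl W (LinearMap.ker B) hW.symm))
  have hbl : ∀ i, b (Sum.inl i) = (Sum.elim e f i : W) := by
    intro i
    show (Submodule.prodEquivOfIsCompl W (LinearMap.ker B) hW.symm) ((bW.prod bR) (Sum.inl i)) = _
    rw [Submodule.coe_prodEquivOfIsCompl', Module.Basis.prod_apply_inl_fst, Module.Basis.prod_apply_inl_snd]
    simp only [Submodule.coe_zero, add_zero]
    rw [show bW i = _ from h.basis_apply _ hm i]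
  have hbr : ∀ j, b (Sum.inr j) = (bR j : V) := by
    intro i
    show (Submodule.prodEquivOfIsCompl W (LinearMap.ker B) hW.symm) ((bW.prod bR) (Sum.inr i)) = _
    rw [Submodule.coe_prodEquivOfIsCompl', Module.Basis.prod_apply_inr_fst, Module.Basis.prod_apply_inr_snd]
    simp only [Submodule.coe_zero, zero_add]
  refine ⟨m, _, b, ?_, ?_, ?_, ?_⟩
  · intro i j
    rw [hbl, hbl]
    exact h.ef i j
  · intro i j
    rw [hbl, hbl]
    exact h.ee i j
  · intro i j
    rw [hbl, hbl]
    exact h.ff i j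
  · intro j v
    rw [hbr]
    exact hr0 _ (bR j).2 v

end Cfsg.Agent.S0752
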