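import Cfsg.Statements.S0756
import Cfsg.Agent.H9.Ort

set_option autoImplicit false
open Cfsg

namespace Cfsg.Agent.S0756

/-- Classification of symmetric bilinear forms over finite fields of odd characteristic: if B is non-degenerate symmetric on V of dimension n + 1 and α is a fixed non-square of F, there is an orthogonal basis b_0, ..., b_n with B(b_i, b_i) = 1 for i < n and B(b_n, b_n) ∈ {1, α}. -/
theorem result {F V : Type*} [Field F] [Finite F] [AddCommGroup V] [Module F V] [FiniteDimensional F V] (h2 : (2 : F) ≠ 0) (B : LinearMap.BilinForm F V) (hS : B.IsSymm) (hB : B.Nondegenerate) {n : ℕ} (hn : Module.finrank F V = n + 1) (α : F) (hα : ¬ IsSquare α) : ∃ b : Module.Basis (Fin (n + 1)) F V, (∀ i j, i ≠ j → B (b i) (b j) = 0) ∧ (∀ i, i ≠ Fin.last n → B (b i) (b i) = 1) ∧ (B (b (Fin.last n)) (b (Fin.last n)) = 1 ∨ B (b (Fin.last n)) (b (Fin.last n)) = α) := by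
  have hS' : ∀ x y, (RingHom.id F) (B x y) = B y x := fun x y => hS.eq x y
  obtain ⟨e, he, he1⟩ := CfsgH9.Ort.exists_on_symm (β := B) h2 rfl hS' hB.1 n (by omega)
  obtain ⟨w, hw, hww⟩ := he.exists_next hS' hB.1 (CfsgH9.Ort.na_of_two hS' rfl h2) (by omega)
  obtain ⟨c, hc⟩ : ∃ c : F, B (c • w) (c • w) = 1 ∨ B (c • w) (c • w) = α := by
    by_cases hsq : IsSquare (B w w)
    · obtain ⟨a, ha⟩ := hsq
      have ha0 : a ≠ 0 := by rintro rfl; exact hww (by rw [ha, mul_zero])
      refine ⟨a⁻¹, Or.inl ?_⟩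
      simp only [map_smul, LinearMap.smul_apply, smul_eq_mul]
      rw [ha]
      field_simp
    · obtain ⟨a, -, ha⟩ := CfsgH9.Ort.nonsq_mul h2 hsq hα
      refine ⟨a, Or.inr ?_⟩
      simp only [map_smul, LinearMap.smul_apply, smul_eq_mul]
      rw [ha]; ring
  have hcw0 : B (c • w) (c • w) ≠ 0 := by
    rcases hc with hc | hc
    · rw [hc]; exact one_ne_zero
    · rw [hc]
      rintro rfl
      exact hα ⟨0, by ring⟩
  have hO := he.snoc hS' (w := c • w) (fun i => by rw [map_smul, hw, smul_zero]) hcw0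
  refine ⟨basisOfLinearIndependentOfCardEqFinrank' _ hO.linearIndependent (by rw [Fintype.card_fin, hn]), ?_, ?_, ?_⟩
  · intro i j hij
    simp only [coe_basisOfLinearIndependentOfCardEqFinrank']
    exact hO.orth i j hij
  · intro i hi
    simp only [coe_basisOfLinearIndependentOfCardEqFinrank']
    obtain ⟨j, rfl⟩ := Fin.exists_castSucc_eq.2 hi
    rw [Fin.snoc_castSucc]
    exact he1 j
  · simp only [coe_basisOfLinearIndependentOfCardEqFinrank']
    rw [Fin.snoc_last]
    exact hc

end Cfsg.Agent.S0756
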