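import Cfsg.Statements.S0758
import Cfsg.Agent.H9.Ort

set_option autoImplicit false
open Cfsg

namespace Cfsg.Agent.S0758

/-- For a finite field F of odd order q and a non-square α: the form x² + y² is isotropic iff q ≡ 1 mod 4, and the form x² + α y² is isotropic iff q ≡ 3 mod 4. -/
theorem result {F : Type*} [Field F] [Fintype F] (h2 : (2 : F) ≠ 0) (α : F) (hα : ¬ IsSquare α) : ((∃ x y : F, (x ≠ 0 ∨ y ≠ 0) ∧ x ^ 2 + y ^ 2 = 0) ↔ Fintype.card F % 4 = 1) ∧ ((∃ x y : F, (x ≠ 0 ∨ y ≠ 0) ∧ x ^ 2 + α * y ^ 2 = 0) ↔ Fintype.card F % 4 = 3) := by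
  have hodd := CfsgH9.Ort.card_odd h2
  have hm1 := FiniteField.isSquare_neg_one_iff (F := F)
  have hα0 : α ≠ 0 := by rintro rfl; exact hα ⟨0, by ring⟩
  constructor
  · have h1 : (∃ x y : F, (x ≠ 0 ∨ y ≠ 0) ∧ x ^ 2 + y ^ 2 = 0) ↔ IsSquare (-1 : F) := by
      constructor
      · rintro ⟨x, y, hxy, h⟩
        have hy : y ≠ 0 := by
          rintro rfl
          rcases hxy with hx | hy
          · apply hx
            have h3 : x ^ 2 = 0 := by linear_combination h
            exact pow_eq_zero_iff (two_ne_zero) |>.1 h3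
          · exact hy rfl
        exact ⟨x / y, by field_simp; linear_combination -h⟩
      · rintro ⟨i, hi⟩
        exact ⟨i, 1, Or.inr one_ne_zero, by linear_combination -hi⟩
    rw [h1, hm1]
    omega
  · have h1 : (∃ x y : F, (x ≠ 0 ∨ y ≠ 0) ∧ x ^ 2 + α * y ^ 2 = 0) ↔ IsSquare (-α : F) := by
      constructor
      · rintro ⟨x, y, hxy, h⟩
        have hy : y ≠ 0 := by
          rintro rfl
          rcases hxy with hx | hy
          · apply hx
            have h3 : x ^ 2 = 0 := by linear_combination h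
            exact pow_eq_zero_iff (two_ne_zero) |>.1 h3
          · exact hy rfl
        exact ⟨x / y, by field_simp; linear_combination -h⟩
      · rintro ⟨i, hi⟩
        exact ⟨i, 1, Or.inr one_ne_zero, by linear_combination -hi⟩
    rw [h1]
    have h3 : IsSquare (-α : F) ↔ ¬ IsSquare (-1 : F) := by
      constructor
      · rintro ⟨a, ha⟩ ⟨b, hb⟩
        have hb0 : b ≠ 0 := by rintro rfl; simp at hb
        exact hα ⟨a / b, by field_simp; linear_combination ha - α * hb⟩
      · intro h
        obtain ⟨c, hc, h4⟩ := CfsgH9.Ort.nonsq_mul h2 hα h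
        exact ⟨c⁻¹, by field_simp; linear_combination h4⟩
    rw [h3, hm1]
    omega

end Cfsg.Agent.S0758
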