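import Cfsg.Statements.S0759
import Cfsg.Agent.H9.Ort

set_option autoImplicit false
open Cfsg

namespace Cfsg.Agent.S0759

open Matrix in
lemma aux_det {F : Type*} [Field F] {m : ℕ} (A C : Matrix (Fin m) (Fin m) F) :
    (Matrix.fromBlocks 0 A Aᵀ C).det = (-1) ^ m * A.det ^ 2 := by
  have h1 : (Matrix.fromBlocks (0 : Matrix (Fin m) (Fin m) F) (1 : Matrix (Fin m) (Fin m) F)
      (-1 : Matrix (Fin m) (Fin m) F) (0 : Matrix (Fin m) (Fin m) F)).det = 1 := by
    have h2 : Matrix.fromBlocks (0 : Matrix (Fin m) (Fin m) F) (1 : Matrix (Fin m) (Fin m) F)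
        (-1 : Matrix (Fin m) (Fin m) F) (0 : Matrix (Fin m) (Fin m) F) =
        Matrix.fromBlocks 1 1 0 1 * Matrix.fromBlocks 1 0 (-1) 1 * Matrix.fromBlocks 1 1 0 1 := by
      rw [Matrix.fromBlocks_multiply, Matrix.fromBlocks_multiply]
      simp
    rw [h2, Matrix.det_mul, Matrix.det_mul, Matrix.det_fromBlocks_zero₂₁, Matrix.det_fromBlocks_zero₁₂]
    simp
  have h2 : (Matrix.fromBlocks 0 A Aᵀ C) * (Matrix.fromBlocks (0 : Matrix (Fin m) (Fin m) F) (1 : Matrix (Fin m) (Fin m) F)
        (-1 : Matrix (Fin m) (Fin m) F) (0 : Matrix (Fin m) (Fin m) F)) =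
      Matrix.fromBlocks (-A) 0 (-C) Aᵀ := by
    rw [Matrix.fromBlocks_multiply]
    simp
  have h3 := congrArg Matrix.det h2
  rw [Matrix.det_mul, h1, mul_one, Matrix.det_fromBlocks_zero₁₂, Matrix.det_transpose, Matrix.det_neg, Fintype.card_fin] at h3
  rw [h3]; ring

open Matrix in
lemma aux_sq {F : Type*} [Field F] {m : ℕ} (h2 : (2 : F) ≠ 0) (W : Submodule F (Fin (2 * m) → F))
    (hW : Module.finrank F W = m) (h : ∀ w ∈ W, ∑ i, w i ^ 2 = 0) : ∃ d a : F, d ≠ 0 ∧ d ^ 2 = (-1) ^ m * a ^ 2 := by
  have hdot : ∀ u ∈ W, ∀ v ∈ W, u ⬝ᵥ v = 0 := by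
    intro u hu v hv
    have h3 := h u hu
    have h4 := h v hv
    have h5 := h (u + v) (W.add_mem hu hv)
    have h6 : ∑ i, (u + v) i ^ 2 = ∑ i, u i ^ 2 + ∑ i, v i ^ 2 + 2 * (u ⬝ᵥ v) := by
      rw [dotProduct, Finset.mul_sum, ← Finset.sum_add_distrib, ← Finset.sum_add_distrib]
      exact Finset.sum_congr rfl fun i _ => by rw [Pi.add_apply]; ring
    rw [h5, h3, h4] at h6
    have h7 : 2 * (u ⬝ᵥ v) = 0 := by linear_combination -h6
    exact (mul_eq_zero.1 h7).resolve_left h2
  obtain ⟨U, hU⟩ := Submodule.exists_isCompl W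
  have hUr : Module.finrank F U = m := by
    have := Submodule.finrank_add_eq_of_isCompl hU
    rw [Module.finrank_fintype_fun_eq_card, Fintype.card_fin] at this
    omega
  let bW := Module.finBasisOfFinrankEq F W hW
  let bU := Module.finBasisOfFinrankEq F U hUr
  let b : Module.Basis (Fin m ⊕ Fin m) F (Fin (2 * m) → F) := (bW.prod bU).map (Submodule.prodEquivOfIsCompl W U hU)
  have hbl : ∀ i, b (Sum.inl i) ∈ W := by
    intro i
    show (Submodule.prodEquivOfIsCompl W U hU) ((bW.prod bU) (Sum.inl i)) ∈ W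
    rw [Submodule.coe_prodEquivOfIsCompl', Module.Basis.prod_apply_inl_fst, Module.Basis.prod_apply_inl_snd]
    simp only [Submodule.coe_zero, add_zero]
    exact (bW i).2
  -- the matrix with rows b
  let e : Fin (2 * m) ≃ Fin m ⊕ Fin m := Fintype.equivOfCardEq (by rw [Fintype.card_sum, Fintype.card_fin, Fintype.card_fin]; omega)
  let P : Matrix (Fin m ⊕ Fin m) (Fin m ⊕ Fin m) F := Matrix.of fun i j => b i (e.symm j)
  have hPP : ∀ i j, (P * Pᵀ) i j = b i ⬝ᵥ b j := by
    intro i j
    rw [Matrix.mul_apply, dotProduct, ← e.symm.sum_comp]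
    rfl
  have hG : P * Pᵀ = Matrix.fromBlocks 0 (Matrix.of fun i j => b (Sum.inl i) ⬝ᵥ b (Sum.inr j))
      (Matrix.of fun i j => b (Sum.inl i) ⬝ᵥ b (Sum.inr j))ᵀ (Matrix.of fun i j => b (Sum.inr i) ⬝ᵥ b (Sum.inr j)) := by
    ext i j
    rw [hPP]
    rcases i with i | i <;> rcases j with j | j
    · rw [Matrix.fromBlocks_apply₁₁, hdot _ (hbl i) _ (hbl j)]; rfl
    · rfl
    · rw [Matrix.fromBlocks_apply₂₁, dotProduct_comm]; rfl
    · rfl
  have hdet := congrArg Matrix.det hG
  rw [Matrix.det_mul, Matrix.det_transpose, aux_det] at hdet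
  refine ⟨P.det, _, ?_, by rw [← hdet]; ring⟩
  -- P is invertible
  intro h0
  obtain ⟨v, hv, hv0⟩ := Matrix.exists_vecMul_eq_zero_iff.2 h0
  apply hv
  have h3 : ∑ i, v i • b i = 0 := by
    ext k
    have h4 := congrFun hv0 (e k)
    rw [Matrix.vecMul, dotProduct] at h4
    rw [Finset.sum_apply]
    simp only [Pi.smul_apply, smul_eq_mul, Pi.zero_apply] at h4 ⊢
    rw [← h4]
    refine Finset.sum_congr rfl fun i _ => ?_
    show _ = v i * b i (e.symm (e k))
    rw [Equiv.symm_apply_apply]
  have h5 := b.linearIndependent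
  rw [Fintype.linearIndependent_iff] at h5
  ext i
  exact h5 v h3 i

lemma aux_build {F : Type*} [Field F] {m : ℕ} {ι : Type} [Fintype ι] (L : (ι → F) →ₗ[F] (Fin (2 * m) → F))
    (hι : Fintype.card ι = m) (hL : Function.Injective L) (h : ∀ u, ∑ i, L u i ^ 2 = 0) :
    ∃ W : Submodule F (Fin (2 * m) → F), Module.finrank F W = m ∧ ∀ w ∈ W, ∑ i, w i ^ 2 = 0 := by
  refine ⟨LinearMap.range L, ?_, ?_⟩
  · rw [LinearMap.finrank_range_of_inj hL, Module.finrank_fintype_fun_eq_card, hι]
  · rintro _ ⟨u, rfl⟩
    exact h u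

/-- Type of the orthonormal form: over a finite field of odd order q and for m ≥ 1, the quadratic form Σ_(i<2m) x_i² on F^(2m) admits an m-dimensional subspace on which it vanishes identically if and only if it is not the case that q ≡ 3 (mod 4) and m is odd. -/
theorem result {F : Type*} [Field F] [Fintype F] (h2 : (2 : F) ≠ 0) (m : ℕ) (hm : 1 ≤ m) : (∃ W : Submodule F (Fin (2 * m) → F), Module.finrank F W = m ∧ ∀ w ∈ W, ∑ i, w i ^ 2 = 0) ↔ ¬ (Fintype.card F % 4 = 3 ∧ Odd m) := by
  have hodd := CfsgH9.Ort.card_odd h2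
  have hm1 := FiniteField.isSquare_neg_one_iff (F := F)
  constructor
  · rintro ⟨W, hW, hW0⟩ ⟨h3, k, hk⟩
    obtain ⟨d, a, hd, hda⟩ := aux_sq h2 W hW hW0
    have h4 : (-1 : F) ^ m = -1 := by rw [hk, pow_succ, pow_mul]; simp
    rw [h4] at hda
    have ha : a ≠ 0 := by
      rintro rfl
      apply hd
      have : d ^ 2 = 0 := by rw [hda]; ring
      exact pow_eq_zero_iff two_ne_zero |>.1 this
    have h5 : IsSquare (-1 : F) := ⟨d / a, by field_simp; linear_combination -hda⟩
    exact (hm1.1 h5) h3
  · intro hcond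
    by_cases h3 : Fintype.card F % 4 = 3
    · -- m even
      have hme : Even m := by
        rw [← Nat.not_odd_iff_even]
        exact fun h => hcond ⟨h3, h⟩
      obtain ⟨k, hk⟩ := hme
      obtain ⟨a, b, hab⟩ := CfsgH9.Ort.binary_repr h2 (a := (1 : F)) (b := 1) one_ne_zero one_ne_zero (-1)
      let e : Fin (2 * m) ≃ (Fin k ⊕ Fin k) ⊕ (Fin k ⊕ Fin k) := Fintype.equivOfCardEq (by
        simp only [Fintype.card_sum, Fintype.card_fin]; omega)
      let L : ((Fin k ⊕ Fin k) → F) →ₗ[F] (Fin (2 * m) → F) :=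
        { toFun := fun u i => Sum.elim u (Sum.elim (fun j => a * u (Sum.inl j) - b * u (Sum.inr j))
            (fun j => b * u (Sum.inl j) + a * u (Sum.inr j))) (e i)
          map_add' := by
            intro u v
            ext i
            simp only [Pi.add_apply]
            rcases e i with j | (j | j)
            · rfl
            · simp only [Sum.elim_inr, Sum.elim_inl]; ring
            · simp only [Sum.elim_inr]; ring
          map_smul' := by
            intro c u
            ext i
            simp only [Pi.smul_apply, smul_eq_mul, RingHom.id_apply]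
            rcases e i with j | (j | j)
            · rfl
            · simp only [Sum.elim_inr, Sum.elim_inl]; ring
            · simp only [Sum.elim_inr]; ring }
      have hLapp : ∀ u i, L u i = Sum.elim u (Sum.elim (fun j => a * u (Sum.inl j) - b * u (Sum.inr j))
            (fun j => b * u (Sum.inl j) + a * u (Sum.inr j))) (e i) := fun u i => rfl
      refine aux_build L (by rw [Fintype.card_sum, Fintype.card_fin]; omega) ?_ ?_
      · intro u v huv
        ext j
        have h4 := congrFun huv (e.symm (Sum.inl j))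
        rw [hLapp, hLapp, Equiv.apply_symm_apply] at h4
        exact h4
      · intro u
        simp only [hLapp]
        rw [← e.symm.sum_comp]
        simp only [Equiv.apply_symm_apply, Fintype.sum_sum_type, Sum.elim_inl, Sum.elim_inr]
        rw [← Finset.sum_add_distrib, ← Finset.sum_add_distrib, ← Finset.sum_add_distrib]
        apply Finset.sum_eq_zero
        intro j _
        linear_combination (u (Sum.inl j) ^ 2 + u (Sum.inr j) ^ 2) * hab
    · obtain ⟨i0, hi0⟩ := hm1.2 h3
      let e : Fin (2 * m) ≃ Fin m ⊕ Fin m := Fintype.equivOfCardEq (by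
        simp only [Fintype.card_sum, Fintype.card_fin]; omega)
      let L : (Fin m → F) →ₗ[F] (Fin (2 * m) → F) :=
        { toFun := fun u i => Sum.elim u (fun j => i0 * u j) (e i)
          map_add' := by
            intro u v
            ext i
            simp only [Pi.add_apply]
            rcases e i with j | j
            · rfl
            · simp only [Sum.elim_inr]; ring
          map_smul' := by
            intro c u
            ext i
            simp only [Pi.smul_apply, smul_eq_mul, RingHom.id_apply]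
            rcases e i with j | j
            · rfl
            · simp only [Sum.elim_inr]; ring }
      have hLapp : ∀ u i, L u i = Sum.elim u (fun j => i0 * u j) (e i) := fun u i => rfl
      refine aux_build L (by rw [Fintype.card_fin]) ?_ ?_
      · intro u v huv
        ext j
        have h4 := congrFun huv (e.symm (Sum.inl j))
        rw [hLapp, hLapp, Equiv.apply_symm_apply] at h4
        exact h4
      · intro u
        simp only [hLapp]
        rw [← e.symm.sum_comp]
        simp only [Equiv.apply_symm_apply, Fintype.sum_sum_type, Sum.elim_inl, Sum.elim_inr]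
        rw [← Finset.sum_add_distrib]
        apply Finset.sum_eq_zero
        intro j _
        linear_combination (-u j ^ 2) * hi0

end Cfsg.Agent.S0759
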