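import Cfsg.Statements.S0760
import Cfsg.Agent.H9.WittInst

set_option autoImplicit false
open Cfsg

namespace Cfsg.Agent.S0760

lemma aux {F V : Type*} [Field F] [AddCommGroup V] [Module F V] [FiniteDimensional F V] (Q : QuadraticForm F V)
    (hQ : (QuadraticMap.polarBilin Q).Nondegenerate) (W₁ W₂ : Submodule F V) (h₁ : ∀ w ∈ W₁, Q w = 0)
    (h₂ : ∀ w ∈ W₂, Q w = 0) (hmax₁ : ∀ W : Submodule F V, W₁ ≤ W → (∀ w ∈ W, Q w = 0) → W = W₁)
    (hle : Module.finrank F W₁ ≤ Module.finrank F W₂) : Module.finrank F W₁ = Module.finrank F W₂ := by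
  obtain ⟨v, hv⟩ := exists_linearIndependent_of_le_finrank (R := F) (M := W₂) hle
  let b := Module.finBasis F W₁
  let j : W₁ →ₗ[F] W₂ := b.constr F v
  have hj : Function.Injective j := by
    rw [injective_iff_map_eq_zero]
    intro x hx
    have h1 : j x = ∑ i, b.equivFun x i • v i := Module.Basis.constr_apply_fintype (R := F) (S := F) b v x
    rw [h1] at hx
    have h3 := Fintype.linearIndependent_iff.1 hv _ hx
    have h4 : b.equivFun x = 0 := funext h3
    exact (LinearEquiv.map_eq_zero_iff b.equivFun).1 h4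
  obtain ⟨f, hf⟩ := LinearMap.exists_extend (W₂.subtype.comp j)
  have hf' : ∀ x : W₁, f (x : V) = (j x : V) := fun x => LinearMap.congr_fun hf x
  have hpol : ∀ W : Submodule F V, (∀ w ∈ W, Q w = 0) → ∀ u ∈ W, ∀ v ∈ W, QuadraticMap.polarBilin Q u v = 0 := by
    intro W hW u hu v hv
    rw [QuadraticMap.polarBilin_apply_apply, QuadraticMap.polar, hW _ (W.add_mem hu hv), hW u hu, hW v hv]
    ring
  obtain ⟨g, hg, hgf⟩ := (CfsgH9.Witt.fm_quad Q hQ).extend (Module.finrank F W₁) W₁ f le_rfl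
    ⟨fun u hu u' hu' => by
      rw [hf' ⟨u, hu⟩, hf' ⟨u', hu'⟩, hpol W₁ h₁ u hu u' hu', hpol W₂ h₂ _ (SetLike.coe_mem _) _ (SetLike.coe_mem _)],
      fun u hu => by rw [hf' ⟨u, hu⟩, h₂ _ (SetLike.coe_mem _), h₁ u hu],
      fun u hu hu0 => by
        rw [hf' ⟨u, hu⟩] at hu0
        have h3 : j ⟨u, hu⟩ = 0 := Subtype.ext hu0
        have h4 := (injective_iff_map_eq_zero j).1 hj _ h3
        exact congrArg Subtype.val h4⟩
  have h3 := hmax₁ (W₂.map (g.symm : V →ₗ[F] V)) (by
    intro x hx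
    refine ⟨g x, ?_, g.symm_apply_apply x⟩
    rw [hgf x hx, hf' ⟨x, hx⟩]
    exact SetLike.coe_mem _) (by
    rintro _ ⟨w, hw, rfl⟩
    have h4 := hg.2 (g.symm w)
    rw [LinearEquiv.apply_symm_apply] at h4
    exact (h4.symm.trans (h₂ w hw)))
  rw [← h3]
  exact (LinearEquiv.finrank_eq (g.symm.submoduleMap W₂)).symm

/-- Witt index is well defined: if Q is a quadratic form on a finite-dimensional space V over a finite field with non-degenerate polar form, and W₁, W₂ are subspaces on which Q vanishes that are maximal with this property, then W₁ and W₂ have the same dimension, and twice this dimension is at most dim V. -/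
theorem result {F V : Type*} [Field F] [Finite F] [AddCommGroup V] [Module F V] [FiniteDimensional F V] (Q : QuadraticForm F V) (hQ : (QuadraticMap.polarBilin Q).Nondegenerate) (W₁ W₂ : Submodule F V) (h₁ : ∀ w ∈ W₁, Q w = 0) (h₂ : ∀ w ∈ W₂, Q w = 0) (hmax₁ : ∀ W : Submodule F V, W₁ ≤ W → (∀ w ∈ W, Q w = 0) → W = W₁) (hmax₂ : ∀ W : Submodule F V, W₂ ≤ W → (∀ w ∈ W, Q w = 0) → W = W₂) : Module.finrank F W₁ = Module.finrank F W₂ ∧ 2 * Module.finrank F W₁ ≤ Module.finrank F V := by
  have heq : Module.finrank F W₁ = Module.finrank F W₂ := by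
    rcases le_total (Module.finrank F W₁) (Module.finrank F W₂) with h | h
    · exact aux Q hQ W₁ W₂ h₁ h₂ hmax₁ h
    · exact (aux Q hQ W₂ W₁ h₂ h₁ hmax₂ h).symm
  refine ⟨heq, ?_⟩
  have h3 : W₁ ≤ LinearMap.BilinForm.orthogonal (QuadraticMap.polarBilin Q) W₁ := by
    intro x hx y hy
    show QuadraticMap.polarBilin Q y x = 0
    rw [QuadraticMap.polarBilin_apply_apply, QuadraticMap.polar, h₁ _ (W₁.add_mem hy hx), h₁ x hx, h₁ y hy]
    ring
  have h4 := Submodule.finrank_mono h3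
  rw [LinearMap.BilinForm.finrank_orthogonal hQ] at h4
  have := Submodule.finrank_le W₁
  omega

end Cfsg.Agent.S0760
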