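import Cfsg.Statements.S0761
import Mathlib

set_option autoImplicit false
open Cfsg

namespace Cfsg.Agent.S0761

/-- Hyperbolic partners: let B be a non-degenerate bilinear form on a finite-dimensional space, either alternating, or symmetric with 2 ≠ 0. If Z is a subspace on which B vanishes, x ∉ Z is isotropic and orthogonal to Z, then there is an isotropic y with B x y = 1 which is orthogonal to Z. -/
theorem result {F V : Type*} [Field F] [AddCommGroup V] [Module F V] [FiniteDimensional F V] (B : LinearMap.BilinForm F V) (hB : B.Nondegenerate) (hform : B.IsAlt ∨ (B.IsSymm ∧ (2 : F) ≠ 0)) (x : V) (Z : Submodule F V) (hxZ : x ∉ Z) (hx : B x x = 0) (hxz : ∀ z ∈ Z, B x z = 0) (hZ : ∀ z ∈ Z, ∀ z' ∈ Z, B z z' = 0) : ∃ y : V, B y y = 0 ∧ B x y = 1 ∧ ∀ z ∈ Z, B z y = 0 := by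
  obtain ⟨φ, hφ, hφZ⟩ := Submodule.exists_dual_map_eq_bot_of_notMem hxZ inferInstance
  obtain ⟨y₀, hy₀⟩ : ∃ y, ∀ v, B y v = φ v :=
    ⟨(LinearMap.BilinForm.toDual B hB).symm φ, fun v => LinearMap.BilinForm.apply_toDual_symm_apply φ v⟩
  have hZ0 : ∀ z ∈ Z, φ z = 0 := by
    intro z hz
    have : φ z ∈ Z.map φ := ⟨z, hz, rfl⟩
    rw [hφZ] at this
    exact (Submodule.mem_bot F).1 this
  rcases hform with hA | ⟨hS, h2⟩
  · have hsk : ∀ u v, B u v = - B v u := fun u v => (hA.neg_eq v u).symm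
    refine ⟨(-(φ x)⁻¹) • y₀, hA _, ?_, ?_⟩
    · rw [map_smul, hsk x y₀, hy₀, smul_eq_mul]
      field_simp
    · intro z hz
      rw [map_smul, hsk z y₀, hy₀, hZ0 z hz, neg_zero, smul_zero]
  · have hsy : ∀ u v, B u v = B v u := fun u v => hS.eq u v
    obtain ⟨y₁, hy₁⟩ : ∃ y₁, y₁ = (φ x)⁻¹ • y₀ := ⟨_, rfl⟩
    have h1 : B x y₁ = 1 := by
      rw [hy₁, map_smul, hsy x y₀, hy₀, smul_eq_mul, inv_mul_cancel₀ hφ]
    have h3 : ∀ z ∈ Z, B z y₁ = 0 := by
      intro z hz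
      rw [hy₁, map_smul, hsy z y₀, hy₀, hZ0 z hz, smul_zero]
    refine ⟨y₁ - (B y₁ y₁ / 2) • x, ?_, ?_, ?_⟩
    · simp only [map_sub, LinearMap.sub_apply, map_smul, LinearMap.smul_apply, smul_eq_mul]
      rw [hsy y₁ x, h1, hx]
      field_simp
      ring
    · rw [map_sub, h1, map_smul, hx, smul_zero, sub_zero]
    · intro z hz
      rw [map_sub, h3 z hz, map_smul, hsy z x, hxz z hz, smul_zero, sub_zero]

end Cfsg.Agent.S0761
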