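import Cfsg.Statements.S0762
import Mathlib

set_option autoImplicit false
open Cfsg

namespace Cfsg.Agent.S0762

/-- In characteristic two over a finite field, a quadratic form on a space of dimension at least 3 vanishes on some non-zero vector. -/
theorem result {F V : Type*} [Field F] [Finite F] [CharP F 2] [AddCommGroup V] [Module F V] [FiniteDimensional F V] (Q : QuadraticForm F V) (h3 : 3 ≤ Module.finrank F V) : ∃ v : V, v ≠ 0 ∧ Q v = 0 := by
  haveI := Fintype.ofFinite F
  have hsq : ∀ a : F, ∃ b, b ^ 2 = a := by
    intro a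
    have h := FiniteField.isSquare_of_char_two (F := F) (ringChar.eq F 2) a
    obtain ⟨b, hb⟩ := h
    exact ⟨b, by rw [hb]; ring⟩
  by_contra hcon
  push Not at hcon
  have hfin : 0 < Module.finrank F V := by omega
  haveI : Nontrivial V := Module.nontrivial_of_finrank_pos hfin
  obtain ⟨x, hx⟩ := exists_ne (0 : V)
  let K := LinearMap.ker (QuadraticMap.polarBilin Q x)
  have hK : ¬ K ≤ Submodule.span F {x} := by
    intro hle
    have h1 := Submodule.finrank_mono hle
    have h2 := LinearMap.finrank_range_add_finrank_ker (QuadraticMap.polarBilin Q x)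
    have h4 : Module.finrank F (LinearMap.range (QuadraticMap.polarBilin Q x)) ≤ 1 := by
      have := Submodule.finrank_le (LinearMap.range (QuadraticMap.polarBilin Q x))
      rwa [Module.finrank_self] at this
    rw [finrank_span_singleton hx] at h1
    have h5 : Module.finrank F K = Module.finrank F (LinearMap.ker (QuadraticMap.polarBilin Q x)) := rfl
    omega
  obtain ⟨y, hy, hyx⟩ := SetLike.not_le_iff_exists.1 hK
  have hpol : QuadraticMap.polar Q x y = 0 := hy
  obtain ⟨a, ha⟩ := hsq (Q y / Q x)
  have hQx := hcon x hx
  have hne : a • x + y ≠ 0 := by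
    intro h
    apply hyx
    rw [Submodule.mem_span_singleton]
    exact ⟨-a, by rw [neg_smul]; exact (eq_neg_of_add_eq_zero_right h).symm⟩
  apply hcon _ hne
  have h1 : Q (a • x + y) = Q (a • x) + Q y + QuadraticMap.polar Q (a • x) y := by
    rw [QuadraticMap.polar]; ring
  rw [h1, QuadraticMap.polar_smul_left, hpol, smul_zero, add_zero, QuadraticMap.map_smul, smul_eq_mul, ← pow_two, ha,
    div_mul_cancel₀ _ hQx]
  exact CharTwo.add_self_eq_zero _

end Cfsg.Agent.S0762
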