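import Cfsg.Statements.S0763
import Mathlib

set_option autoImplicit false
open Cfsg

namespace Cfsg.Agent.S0763

/-- Binary quadratic forms in characteristic two over a finite field: if Q is a quadratic form on a 2-dimensional space whose polar form is non-degenerate, then either there are vectors v, w with Q v = Q w = 0 and polar value 1 (Q is xy in these coordinates), or there are v, w and μ with Q v = 1, Q w = μ, polar value 1 and x² + x + μ without roots in F (Q is x² + xy + μy²). -/
theorem result {F V : Type*} [Field F] [Finite F] [CharP F 2] [AddCommGroup V] [Module F V] (Q : QuadraticForm F V) (h2 : Module.finrank F V = 2) (hQ : (QuadraticMap.polarBilin Q).Nondegenerate) : (∃ v w : V, LinearIndependent F ![v, w] ∧ Q v = 0 ∧ Q w = 0 ∧ QuadraticMap.polar Q v w = 1) ∨ (∃ (v w : V) (μ : F), LinearIndependent F ![v, w] ∧ (∀ x : F, x ^ 2 + x + μ ≠ 0) ∧ Q v = 1 ∧ Q w = μ ∧ QuadraticMap.polar Q v w = 1) := by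
  haveI := Fintype.ofFinite F
  have hfd : FiniteDimensional F V := Module.finite_of_finrank_pos (by omega)
  have hsq : ∀ a : F, ∃ b, b ^ 2 = a := by
    intro a
    have h := FiniteField.isSquare_of_char_two (F := F) (ringChar.eq F 2) a
    obtain ⟨b, hb⟩ := h
    exact ⟨b, by rw [hb]; ring⟩
  have hpart : ∀ v : V, v ≠ 0 → ∃ w, QuadraticMap.polar Q v w = 1 := by
    intro v hv
    have h1 : ∃ w, QuadraticMap.polarBilin Q v w ≠ 0 := by
      by_contra hcon
      push Not at hcon
      exact hv (hQ.1 v hcon)
    obtain ⟨w, hw⟩ := h1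
    rw [QuadraticMap.polarBilin_apply_apply] at hw
    exact ⟨(QuadraticMap.polar Q v w)⁻¹ • w, by rw [QuadraticMap.polar_smul_right, smul_eq_mul, inv_mul_cancel₀ hw]⟩
  have hli : ∀ v w : V, QuadraticMap.polar Q v w = 1 → LinearIndependent F ![v, w] := by
    intro v w h
    rw [LinearIndependent.pair_iff]
    intro s t hst
    have hself : ∀ u, QuadraticMap.polar Q u u = 0 := by
      intro u
      rw [QuadraticMap.polar_self, two_smul]
      exact CharTwo.add_self_eq_zero _
    have h3 : QuadraticMap.polar Q (s • v + t • w) w = 0 := by rw [hst, QuadraticMap.polar_zero_left]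
    have h4 : QuadraticMap.polar Q v (s • v + t • w) = 0 := by rw [hst, QuadraticMap.polar_zero_right]
    rw [QuadraticMap.polar_add_left, QuadraticMap.polar_smul_left, QuadraticMap.polar_smul_left, h, hself, smul_zero,
      add_zero, smul_eq_mul, mul_one] at h3
    rw [QuadraticMap.polar_add_right, QuadraticMap.polar_smul_right, QuadraticMap.polar_smul_right, h, hself, smul_zero,
      zero_add, smul_eq_mul, mul_one] at h4
    exact ⟨h3, h4⟩
  have hadd : ∀ u v, Q (u + v) = Q u + Q v + QuadraticMap.polar Q u v := by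
    intro u v; rw [QuadraticMap.polar]; ring
  by_cases hs : ∃ v : V, v ≠ 0 ∧ Q v = 0
  · left
    obtain ⟨v, hv, hQv⟩ := hs
    obtain ⟨w, hw⟩ := hpart v hv
    have h1 : QuadraticMap.polar Q v (w + Q w • v) = 1 := by
      rw [QuadraticMap.polar_add_right, hw, QuadraticMap.polar_smul_right, QuadraticMap.polar_self, hQv, smul_zero,
        smul_zero, add_zero]
    refine ⟨v, w + Q w • v, hli _ _ h1, hQv, ?_, h1⟩
    rw [hadd, QuadraticMap.map_smul, hQv, smul_zero, add_zero, QuadraticMap.polar_smul_right, QuadraticMap.polar_comm, hw,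
      smul_eq_mul, mul_one]
    exact CharTwo.add_self_eq_zero _
  · right
    push Not at hs
    haveI : Nontrivial V := Module.nontrivial_of_finrank_pos (R := F) (by omega)
    obtain ⟨v0, hv0⟩ := exists_ne (0 : V)
    obtain ⟨c, hc⟩ := hsq (Q v0)⁻¹
    have hQ0 := hs v0 hv0
    have hc0 : c ≠ 0 := by
      rintro rfl
      rw [zero_pow two_ne_zero] at hc
      exact inv_ne_zero hQ0 hc.symm
    have hQv : Q (c • v0) = 1 := by
      rw [QuadraticMap.map_smul, smul_eq_mul, ← pow_two, hc, inv_mul_cancel₀ hQ0]
    obtain ⟨w, hw⟩ := hpart (c • v0) (smul_ne_zero hc0 hv0)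
    refine ⟨c • v0, w, Q w, hli _ _ hw, ?_, hQv, rfl, hw⟩
    intro x
    have h3 := hs (x • (c • v0) + w) (by
      intro h
      have h4 := (LinearIndependent.pair_iff.1 (hli _ _ hw)) x 1 (by rw [one_smul]; exact h)
      exact one_ne_zero h4.2)
    rw [hadd, QuadraticMap.map_smul, hQv, QuadraticMap.polar_smul_left, hw, smul_eq_mul, smul_eq_mul] at h3
    intro h5
    apply h3
    linear_combination h5

end Cfsg.Agent.S0763
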