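import Cfsg.Statements.S0767
import Cfsg.Agent.H9.SpBridge

set_option autoImplicit false
open Cfsg

namespace Cfsg.Agent.S0767

/-- The root group of a point: T_v(c) T_v(d) = T_v(c + d), and for A in the symplectic group with A v = a v, the conjugate A T_v(c) A⁻¹ is again some T_v(d). -/
theorem result {F : Type*} [Field F] (m : ℕ) (v : Fin m ⊕ Fin m → F) : (∀ c d : F, Cfsg.sympTransvection m v c * Cfsg.sympTransvection m v d = Cfsg.sympTransvection m v (c + d)) ∧ ∀ (A : Matrix (Fin m ⊕ Fin m) (Fin m ⊕ Fin m) F) (a : F), A ∈ Matrix.symplecticGroup (Fin m) F → A.mulVec v = a • v → ∀ c : F, ∃ d : F, A * Cfsg.sympTransvection m v c * A⁻¹ = Cfsg.sympTransvection m v d := by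
  have hf := CfsgH9.SpGen.sympForm_isSymplectic (F := F) m
  have hb := hf.bilinear
  have hext : ∀ A B : Matrix (Fin m ⊕ Fin m) (Fin m ⊕ Fin m) F, (∀ x, A.mulVec x = B.mulVec x) → A = B := by
    intro A B h
    exact Matrix.toLin'.injective (LinearMap.ext fun x => h x)
  constructor
  · intro c d
    apply hext
    intro x
    rw [← Matrix.mulVec_mulVec, CfsgH9.SpBridge.transv_mulVec, CfsgH9.SpBridge.transv_mulVec,
      CfsgH9.SpBridge.transv_mulVec, hb.add_left, hb.smul_left, hf.alternating]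
    module
  · intro A a hA hAv c
    refine ⟨a ^ 2 * c, ?_⟩
    have hA' := (CfsgH9.SpBridge.mem_iff A).1 hA
    have hAA : A * A⁻¹ = 1 := by
      apply Matrix.mul_nonsing_inv
      exact SymplecticGroup.symplectic_det hA
    apply hext
    intro x
    have h1 : A.mulVec (A⁻¹.mulVec x) = x := by
      rw [Matrix.mulVec_mulVec, hAA, Matrix.one_mulVec]
    rw [← Matrix.mulVec_mulVec, ← Matrix.mulVec_mulVec, CfsgH9.SpBridge.transv_mulVec, CfsgH9.SpBridge.transv_mulVec,
      Matrix.mulVec_add, Matrix.mulVec_smul, h1, hAv, ← hA', h1, hAv, hb.smul_right, smul_smul]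
    congr 2
    ring

end Cfsg.Agent.S0767
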