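import Cfsg.Statements.S0769
import Mathlib

set_option autoImplicit false
open Cfsg

namespace Cfsg.Agent.S0769

/-- Order of the Borel subgroup of GL_n(q): the invertible lower-triangular n × n matrices over a field with q elements number q^(n(n-1)/2) (q-1)^n (unitriangular part times the diagonal torus). -/
theorem result {F : Type*} [Field F] [Fintype F] {q : ℕ} (hF : Fintype.card F = q) (n : ℕ) : Nat.card {g : Matrix.GeneralLinearGroup (Fin n) F // ∀ i j : Fin n, i < j → (g : Matrix (Fin n) (Fin n) F) i j = 0} = q ^ (n * (n - 1) / 2) * (q - 1) ^ n := by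
  classical
  have hdet : ∀ A : Matrix (Fin n) (Fin n) F, (∀ i j : Fin n, i < j → A i j = 0) → A.det = ∏ i, A i i := by
    intro A hA
    exact Matrix.det_of_lowerTriangular A (fun i j hij => hA i j (OrderDual.toDual_lt_toDual.mp hij))
  let mk : (Fin n → Fˣ) → ((i : Fin n) → Fin (i : ℕ) → F) → Matrix (Fin n) (Fin n) F := fun d l i j =>
    if h : (j : ℕ) < (i : ℕ) then l i ⟨j, h⟩ else if i = j then (d i : F) else 0
  have hmk0 : ∀ d l (i j : Fin n), i < j → mk d l i j = 0 := by
    intro d l i j hij
    have h1 : ¬ (j : ℕ) < (i : ℕ) := by have : (i : ℕ) < (j : ℕ) := hij; omega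
    have h2 : i ≠ j := hij.ne
    simp only [mk, dif_neg h1, if_neg h2]
  have hmkd : ∀ d l (i : Fin n), mk d l i i = d i := by
    intro d l i
    have h1 : ¬ (i : ℕ) < (i : ℕ) := lt_irrefl _
    simp only [mk, dif_neg h1, if_true]
  have hdiag : ∀ g : {g : Matrix.GeneralLinearGroup (Fin n) F // ∀ i j : Fin n, i < j → (g : Matrix (Fin n) (Fin n) F) i j = 0}, ∀ i, g.1.1 i i ≠ 0 := by
    intro g i
    have h2 : g.1.1.det ≠ 0 := ((Matrix.isUnit_iff_isUnit_det _).mp g.1.isUnit).ne_zero
    rw [hdet _ g.2, Finset.prod_ne_zero_iff] at h2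
    exact h2 i (Finset.mem_univ i)
  let E : {g : Matrix.GeneralLinearGroup (Fin n) F // ∀ i j : Fin n, i < j → (g : Matrix (Fin n) (Fin n) F) i j = 0} ≃
      (Fin n → Fˣ) × ((i : Fin n) → Fin (i : ℕ) → F) :=
    { toFun := fun g => (fun i => Units.mk0 (g.1.1 i i) (hdiag g i), fun i j => g.1.1 i ⟨j, j.2.trans i.2⟩)
      invFun := fun r => ⟨Matrix.GeneralLinearGroup.mkOfDetNeZero (mk r.1 r.2) (by
        rw [hdet _ (hmk0 r.1 r.2), Finset.prod_ne_zero_iff]
        intro i _
        rw [hmkd]; exact (r.1 i).ne_zero), hmk0 r.1 r.2⟩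
      left_inv := fun g => by
        apply Subtype.ext
        apply Units.ext
        ext i j
        change mk _ _ i j = g.1.1 i j
        by_cases h1 : (j : ℕ) < (i : ℕ)
        · simp only [mk, dif_pos h1]
        · by_cases h2 : i = j
          · subst h2
            rw [hmkd]; rfl
          · simp only [mk, dif_neg h1, if_neg h2]
            refine (g.2 i j ?_).symm
            rcases lt_trichotomy i j with h | h | h
            · exact h
            · exact absurd h h2
            · exact absurd h h1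
      right_inv := fun r => by
        refine Prod.ext ?_ ?_
        · funext i
          apply Units.ext
          exact hmkd _ _ i
        · funext i j
          change mk r.1 r.2 i ⟨j, _⟩ = r.2 i j
          have h1 : (((⟨j, j.2.trans i.2⟩ : Fin n) : ℕ)) < (i : ℕ) := j.2
          simp only [mk, dif_pos h1] }
  rw [Nat.card_congr E, Nat.card_prod, Nat.card_pi, Nat.card_pi]
  have h1 : ∏ i : Fin n, Nat.card Fˣ = (q - 1) ^ n := by
    rw [Finset.prod_const, Finset.card_univ, Fintype.card_fin, Nat.card_units, Nat.card_eq_fintype_card, hF]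
  have h2 : ∏ i : Fin n, Nat.card (Fin (i : ℕ) → F) = q ^ (n * (n - 1) / 2) := by
    have : ∀ i : Fin n, Nat.card (Fin (i : ℕ) → F) = q ^ (i : ℕ) := by
      intro i
      rw [Nat.card_fun, Nat.card_eq_fintype_card, Nat.card_eq_fintype_card, Fintype.card_fin, hF]
    rw [Finset.prod_congr rfl fun i _ => this i, Finset.prod_pow_eq_pow_sum, Fin.sum_univ_eq_sum_range (fun i => i), Finset.sum_range_id]
  rw [h1, h2, mul_comm]

end Cfsg.Agent.S0769
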