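import Cfsg.Statements.S0770

set_option autoImplicit false
open Cfsg

namespace Cfsg.Agent.S0770

open Matrix in
theorem mem_T {F : Type*} [Field F] {n : ℕ} {h : Matrix.GeneralLinearGroup (Fin n) F} :
    h ∈ ((Units.map (Matrix.diagonalRingHom (Fin n) F).toMonoidHom).range : Subgroup (Matrix.GeneralLinearGroup (Fin n) F)) ↔
      ∃ d : Fin n → F, (h : Matrix (Fin n) (Fin n) F) = diagonal d := by
  constructor
  · rintro ⟨d, rfl⟩
    exact ⟨(d : Fin n → F), rfl⟩
  · rintro ⟨d, hd⟩
    have h1 : IsUnit (diagonal d) := by rw [← hd]; exact h.isUnit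
    rw [Matrix.isUnit_diagonal] at h1
    obtain ⟨u, hu⟩ := h1
    refine ⟨u, ?_⟩
    apply Units.ext
    rw [hd, ← hu]; rfl

/-- For a field with at least 3 elements, an invertible matrix normalises the subgroup of invertible diagonal matrices of GL_n if and only if it is monomial (exactly one non-zero entry in each row). -/
theorem result {F : Type*} [Field F] (hF : ∃ a : F, a ≠ 0 ∧ a ≠ 1) (n : ℕ) (g : Matrix.GeneralLinearGroup (Fin n) F) : g ∈ Subgroup.normalizer ((Units.map (Matrix.diagonalRingHom (Fin n) F).toMonoidHom).range : Subgroup (Matrix.GeneralLinearGroup (Fin n) F)) ↔ ∀ i : Fin n, ∃! j : Fin n, (g : Matrix (Fin n) (Fin n) F) i j ≠ 0 := by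
  classical
  open Matrix in
  constructor
  · intro hg i
    rw [Subgroup.mem_normalizer_iff] at hg
    have hex : ∃ j, (g : Matrix (Fin n) (Fin n) F) i j ≠ 0 := by
      by_contra h
      push Not at h
      have h1 : ((g : Matrix (Fin n) (Fin n) F) * ((g⁻¹ : GL (Fin n) F) : Matrix (Fin n) (Fin n) F)) i i = 0 := by
        rw [Matrix.mul_apply]
        exact Finset.sum_eq_zero (fun j _ => by rw [h j, zero_mul])
      rw [← Units.val_mul, mul_inv_cancel, Units.val_one, Matrix.one_apply_eq] at h1
      exact one_ne_zero h1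
    obtain ⟨j, hj⟩ := hex
    refine ⟨j, hj, fun j' hj' => ?_⟩
    by_contra hne
    obtain ⟨a, ha0, ha1⟩ := hF
    let d : Fin n → F := fun l => if l = j then a else 1
    have hdu : IsUnit (diagonal d) := by
      rw [Matrix.isUnit_diagonal]
      rw [Pi.isUnit_iff]
      intro l
      by_cases hl : l = j
      · simp only [d, hl, if_true]; exact isUnit_iff_ne_zero.2 ha0
      · simp only [d, hl, if_false]; exact isUnit_one
    obtain ⟨D, hD⟩ := hdu
    obtain ⟨d', hd'⟩ := mem_T.1 ((hg D).1 (mem_T.2 ⟨d, hD⟩))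
    have h2 : (g : Matrix (Fin n) (Fin n) F) * diagonal d = diagonal d' * (g : Matrix (Fin n) (Fin n) F) := by
      rw [← hD, ← hd', ← Units.val_mul, ← Units.val_mul]
      congr 1
      group
    have h3 : ∀ l, (g : Matrix (Fin n) (Fin n) F) i l * d l = d' i * (g : Matrix (Fin n) (Fin n) F) i l := by
      intro l
      have := congrFun (congrFun h2 i) l
      rwa [Matrix.mul_diagonal, Matrix.diagonal_mul] at this
    have h4 := h3 j
    have h5 := h3 j'
    simp only [d, if_true] at h4
    simp only [d, hne, if_false] at h5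
    have h6 : d' i = a := by
      apply mul_right_cancel₀ hj
      rw [← h4, mul_comm]
    have h7 : d' i = 1 := by
      apply mul_right_cancel₀ hj'
      rw [← h5, mul_comm]
    exact ha1 (h6.symm.trans h7)
  · intro hg
    choose σ hσ hσu using hg
    have hcol : ∀ j, ∃ i, (g : Matrix (Fin n) (Fin n) F) i j ≠ 0 := by
      intro j
      by_contra h
      push Not at h
      have h1 : (((g⁻¹ : GL (Fin n) F) : Matrix (Fin n) (Fin n) F) * (g : Matrix (Fin n) (Fin n) F)) j j = 0 := by
        rw [Matrix.mul_apply]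
        exact Finset.sum_eq_zero (fun i _ => by rw [h i, mul_zero])
      rw [← Units.val_mul, inv_mul_cancel, Units.val_one, Matrix.one_apply_eq] at h1
      exact one_ne_zero h1
    have hsurj : Function.Surjective σ := by
      intro j
      obtain ⟨i, hi⟩ := hcol j
      exact ⟨i, (hσu i j hi).symm⟩
    have hbij : Function.Bijective σ := hsurj.bijective_of_finite
    let τ := Equiv.ofBijective σ hbij
    rw [Subgroup.mem_normalizer_iff]
    have key : ∀ d : Fin n → F, (g : Matrix (Fin n) (Fin n) F) * diagonal d = diagonal (d ∘ σ) * (g : Matrix (Fin n) (Fin n) F) := by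
      intro d
      ext i j
      rw [Matrix.mul_diagonal, Matrix.diagonal_mul]
      by_cases hij : (g : Matrix (Fin n) (Fin n) F) i j = 0
      · rw [hij, zero_mul, mul_zero]
      · rw [hσu i j hij, mul_comm]; rfl
    intro h
    rw [mem_T, mem_T]
    constructor
    · rintro ⟨d, hd⟩
      refine ⟨d ∘ σ, ?_⟩
      rw [Units.val_mul, Units.val_mul, hd, key, mul_assoc, ← Units.val_mul, mul_inv_cancel, Units.val_one, mul_one]
    · rintro ⟨d', hd'⟩
      refine ⟨d' ∘ τ.symm, ?_⟩
      have h1 : (d' ∘ τ.symm) ∘ σ = d' := by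
        ext i
        change d' (τ.symm (τ i)) = d' i
        rw [Equiv.symm_apply_apply]
      have h2 := key (d' ∘ τ.symm)
      rw [h1, ← hd'] at h2
      have h3 : ((g * h * g⁻¹ : GL (Fin n) F) : Matrix (Fin n) (Fin n) F) * (g : Matrix (Fin n) (Fin n) F) = ((g * h : GL (Fin n) F) : Matrix (Fin n) (Fin n) F) := by
        rw [← Units.val_mul]; congr 1; group
      rw [h3, Units.val_mul] at h2
      have h4 := congrArg (fun X => ((g⁻¹ : GL (Fin n) F) : Matrix (Fin n) (Fin n) F) * X) h2
      simp only [← mul_assoc, ← Units.val_mul, inv_mul_cancel, Units.val_one, one_mul] at h4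
      exact h4.symm

end Cfsg.Agent.S0770
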