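import Cfsg.Statements.S0771
import Cfsg.Agent.H9.ParGL

set_option autoImplicit false
open Cfsg

namespace Cfsg.Agent.S0771

/-- Maximal parabolic of GL_n(q): the stabiliser of the coordinate subspace spanned by the first k basis vectors has order q^(k(n-k)) · |GL_k(q)| · |GL_(n-k)(q)| (unipotent radical of order q^(k(n-k)) and Levi complement GL_k × GL_(n-k)). -/
theorem result {F : Type*} [Field F] [Fintype F] {q : ℕ} (hF : Fintype.card F = q) (n k : ℕ) (hk : k ≤ n) : Nat.card ↥(Cfsg.stabilizing (Cfsg.glToMat (Fin n) F) {v : Fin n → F | ∀ i : Fin n, k ≤ (i : ℕ) → v i = 0}) = q ^ (k * (n - k)) * (∏ i : Fin k, (q ^ k - q ^ (i : ℕ))) * ∏ i : Fin (n - k), (q ^ (n - k) - q ^ (i : ℕ)) := by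
  classical
  let e : Fin k ⊕ Fin (n - k) ≃ Fin n := finSumFinEquiv.trans (finCongr (by omega))
  have el : ∀ i : Fin k, ((e (Sum.inl i) : Fin n) : ℕ) = i := fun i => by simp [e]
  have er : ∀ i : Fin (n - k), ((e (Sum.inr i) : Fin n) : ℕ) = k + i := fun i => by simp [e]
  have hC : ∀ g : ↥(Cfsg.stabilizing (Cfsg.glToMat (Fin n) F) {v : Fin n → F | ∀ i : Fin n, k ≤ (i : ℕ) → v i = 0}),
      (g.1.1.submatrix e e).toBlocks₂₁ = 0 := by
    intro g
    ext i j
    exact (CfsgH9.ParGL.mem_par g.1).1 g.2 _ _ (by rw [er]; omega) (by rw [el]; exact j.2)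
  have hdet : ∀ g : ↥(Cfsg.stabilizing (Cfsg.glToMat (Fin n) F) {v : Fin n → F | ∀ i : Fin n, k ≤ (i : ℕ) → v i = 0}),
      (g.1.1.submatrix e e).toBlocks₁₁.det * (g.1.1.submatrix e e).toBlocks₂₂.det ≠ 0 := by
    intro g
    have h1 : (g.1.1.submatrix e e).det = g.1.1.det := Matrix.det_submatrix_equiv_self e g.1.1
    have h2 : g.1.1.det ≠ 0 := ((Matrix.isUnit_iff_isUnit_det _).mp g.1.isUnit).ne_zero
    rw [← h1, ← Matrix.fromBlocks_toBlocks (g.1.1.submatrix e e), hC g, Matrix.det_fromBlocks_zero₂₁] at h2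
    exact h2
  let E : ↥(Cfsg.stabilizing (Cfsg.glToMat (Fin n) F) {v : Fin n → F | ∀ i : Fin n, k ≤ (i : ℕ) → v i = 0}) ≃
      (Matrix.GeneralLinearGroup (Fin k) F × Matrix.GeneralLinearGroup (Fin (n - k)) F) × Matrix (Fin k) (Fin (n - k)) F :=
    { toFun := fun g => ((Matrix.GeneralLinearGroup.mkOfDetNeZero _ (left_ne_zero_of_mul (hdet g)),
        Matrix.GeneralLinearGroup.mkOfDetNeZero _ (right_ne_zero_of_mul (hdet g))), (g.1.1.submatrix e e).toBlocks₁₂)
      invFun := fun r => ⟨Matrix.GeneralLinearGroup.mkOfDetNeZero ((Matrix.fromBlocks r.1.1.1 r.2 0 r.1.2.1).submatrix e.symm e.symm) (by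
          rw [Matrix.det_submatrix_equiv_self, Matrix.det_fromBlocks_zero₂₁]
          exact mul_ne_zero ((Matrix.isUnit_iff_isUnit_det _).mp r.1.1.isUnit).ne_zero ((Matrix.isUnit_iff_isUnit_det _).mp r.1.2.isUnit).ne_zero), by
          rw [CfsgH9.ParGL.mem_par]
          intro i j hi hj
          obtain ⟨i', rfl⟩ := e.surjective i
          obtain ⟨j', rfl⟩ := e.surjective j
          rcases i' with i' | i' <;> rcases j' with j' | j'
          · rw [el] at hi; omega
          · rw [el] at hi; omega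
          · change (Matrix.fromBlocks r.1.1.1 r.2 0 r.1.2.1) (e.symm (e (Sum.inr i'))) (e.symm (e (Sum.inl j'))) = 0
            rw [e.symm_apply_apply, e.symm_apply_apply]; rfl
          · rw [er] at hj; omega⟩
      left_inv := fun g => by
        apply Subtype.ext
        apply Units.ext
        change (Matrix.fromBlocks (g.1.1.submatrix e e).toBlocks₁₁ (g.1.1.submatrix e e).toBlocks₁₂ 0 (g.1.1.submatrix e e).toBlocks₂₂).submatrix e.symm e.symm = g.1.1
        rw [← hC g, Matrix.fromBlocks_toBlocks, Matrix.submatrix_submatrix]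
        ext i j
        simp
      right_inv := fun r => by
        have h1 : ((Matrix.fromBlocks r.1.1.1 r.2 0 r.1.2.1).submatrix e.symm e.symm).submatrix e e = Matrix.fromBlocks r.1.1.1 r.2 0 r.1.2.1 := by
          rw [Matrix.submatrix_submatrix]
          ext i j
          simp
        refine Prod.ext (Prod.ext (Units.ext ?_) (Units.ext ?_)) ?_
        · change (((Matrix.fromBlocks r.1.1.1 r.2 0 r.1.2.1).submatrix e.symm e.symm).submatrix e e).toBlocks₁₁ = _
          rw [h1, Matrix.toBlocks_fromBlocks₁₁]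
        · change (((Matrix.fromBlocks r.1.1.1 r.2 0 r.1.2.1).submatrix e.symm e.symm).submatrix e e).toBlocks₂₂ = _
          rw [h1, Matrix.toBlocks_fromBlocks₂₂]
        · change (((Matrix.fromBlocks r.1.1.1 r.2 0 r.1.2.1).submatrix e.symm e.symm).submatrix e e).toBlocks₁₂ = _
          rw [h1, Matrix.toBlocks_fromBlocks₁₂] }
  rw [Nat.card_congr E, Nat.card_prod, Nat.card_prod, Matrix.card_GL_field, Matrix.card_GL_field, hF]
  have h3 : Nat.card (Matrix (Fin k) (Fin (n - k)) F) = q ^ (k * (n - k)) := by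
    rw [Matrix, Nat.card_fun, Nat.card_fun, Nat.card_eq_fintype_card (α := F), hF]
    simp [← pow_mul, mul_comm]
  rw [h3]; ring

end Cfsg.Agent.S0771
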