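import Cfsg.Statements.S0772
import Cfsg.Agent.H9.ParGL

set_option autoImplicit false
open Cfsg

namespace Cfsg.Agent.S0772

/-- Maximal parabolics are maximal: over a finite field, for 0 < k < n the stabiliser in GL_n of the span of the first k coordinate vectors is a maximal proper subgroup. -/
theorem result {F : Type*} [Field F] [Finite F] (n k : ℕ) (hk0 : 0 < k) (hkn : k < n) : IsCoatom (Cfsg.stabilizing (Cfsg.glToMat (Fin n) F) {v : Fin n → F | ∀ i : Fin n, k ≤ (i : ℕ) → v i = 0}) := by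
  obtain ⟨⟨hlt1, hlt2⟩, hmax⟩ := CfsgH9.MaxRedSL.isMaximalIn (CfsgH9.ParGL.Wk F n k) (CfsgH9.ParGL.Wk_ne_bot hk0 hkn) (CfsgH9.ParGL.Wk_ne_top hkn)
  constructor
  · intro h
    apply hlt2
    intro x hx
    refine ⟨?_, hx⟩
    change x ∈ Cfsg.stabilizing (Cfsg.glToMat (Fin n) F) {v : Fin n → F | ∀ i : Fin n, k ≤ (i : ℕ) → v i = 0}
    rw [h]; trivial
  · intro M hM
    obtain ⟨hM1, hM2⟩ := (lt_iff_le_not_ge).1 hM
    obtain ⟨g, hg, hgS⟩ := Set.not_subset.1 hM2
    obtain ⟨s, hs, hsd⟩ := CfsgH9.ParGL.exists_det (k := k) (by omega : 0 < n) (Matrix.GeneralLinearGroup.det g)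
    have hsg : s⁻¹ * g ∈ M ⊓ Cfsg.Geo.specialLinear (Fin n) F := by
      refine ⟨M.mul_mem (M.inv_mem (hM1 hs)) hg, ?_⟩
      change Matrix.GeneralLinearGroup.det (s⁻¹ * g) = 1
      rw [map_mul, map_inv, hsd, inv_mul_cancel]
    have hall : M ⊓ Cfsg.Geo.specialLinear (Fin n) F = Cfsg.Geo.specialLinear (Fin n) F := by
      rcases hmax (M ⊓ Cfsg.Geo.specialLinear (Fin n) F) (fun x hx => ⟨hM1 hx.1, hx.2⟩) inf_le_right with h | h
      · exfalso
        apply hgS
        rw [h] at hsg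
        have h1 := hsg.1
        have h2 : g = s * (s⁻¹ * g) := by group
        rw [h2]
        exact (Cfsg.stabilizing (Cfsg.glToMat (Fin n) F) {v : Fin n → F | ∀ i : Fin n, k ≤ (i : ℕ) → v i = 0}).mul_mem hs h1
      · exact h
    rw [eq_top_iff]
    intro x _
    obtain ⟨t, ht, htd⟩ := CfsgH9.ParGL.exists_det (k := k) (by omega : 0 < n) (Matrix.GeneralLinearGroup.det x)
    have h1 : t⁻¹ * x ∈ Cfsg.Geo.specialLinear (Fin n) F := by
      change Matrix.GeneralLinearGroup.det (t⁻¹ * x) = 1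
      rw [map_mul, map_inv, htd, inv_mul_cancel]
    rw [← hall] at h1
    have h2 : x = t * (t⁻¹ * x) := by group
    rw [h2]
    exact M.mul_mem (hM1 ht) h1.1

end Cfsg.Agent.S0772
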