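import Cfsg.Statements.S0773
import Cfsg.Agent.H9.ParGL

set_option autoImplicit false
open Cfsg

namespace Cfsg.Agent.S0773

open CfsgH9.ParGL in
/-- inverse transpose composed with the reversal of the coordinates -/
noncomputable def it {F : Type*} [Field F] (n : ℕ) : Matrix.GeneralLinearGroup (Fin n) F ≃* Matrix.GeneralLinearGroup (Fin n) F where
  toFun g := ⟨(g⁻¹).1.transpose.submatrix Fin.rev Fin.rev, g.1.transpose.submatrix Fin.rev Fin.rev, by
      have h := Matrix.submatrix_mul_equiv (g⁻¹).1.transpose g.1.transpose Fin.rev (Fin.revPerm) Fin.rev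
      change (g⁻¹).1.transpose.submatrix Fin.rev Fin.rev * g.1.transpose.submatrix Fin.rev Fin.rev = _ at h
      rw [h, ← Matrix.transpose_mul, ← Units.val_mul, mul_inv_cancel]
      ext i j; simp [Matrix.one_apply, Fin.rev_inj, eq_comm], by
      have h := Matrix.submatrix_mul_equiv g.1.transpose (g⁻¹).1.transpose Fin.rev (Fin.revPerm) Fin.rev
      change g.1.transpose.submatrix Fin.rev Fin.rev * (g⁻¹).1.transpose.submatrix Fin.rev Fin.rev = _ at h
      rw [h, ← Matrix.transpose_mul, ← Units.val_mul, inv_mul_cancel]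
      ext i j; simp [Matrix.one_apply, Fin.rev_inj, eq_comm]⟩
  invFun g := ⟨(g⁻¹).1.transpose.submatrix Fin.rev Fin.rev, g.1.transpose.submatrix Fin.rev Fin.rev, by
      have h := Matrix.submatrix_mul_equiv (g⁻¹).1.transpose g.1.transpose Fin.rev (Fin.revPerm) Fin.rev
      change (g⁻¹).1.transpose.submatrix Fin.rev Fin.rev * g.1.transpose.submatrix Fin.rev Fin.rev = _ at h
      rw [h, ← Matrix.transpose_mul, ← Units.val_mul, mul_inv_cancel]
      ext i j; simp [Matrix.one_apply, Fin.rev_inj, eq_comm], by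
      have h := Matrix.submatrix_mul_equiv g.1.transpose (g⁻¹).1.transpose Fin.rev (Fin.revPerm) Fin.rev
      change g.1.transpose.submatrix Fin.rev Fin.rev * (g⁻¹).1.transpose.submatrix Fin.rev Fin.rev = _ at h
      rw [h, ← Matrix.transpose_mul, ← Units.val_mul, inv_mul_cancel]
      ext i j; simp [Matrix.one_apply, Fin.rev_inj, eq_comm]⟩
  left_inv g := by
    apply Units.ext
    change (g.1.transpose.submatrix Fin.rev Fin.rev).transpose.submatrix Fin.rev Fin.rev = g.1
    ext i j; simp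
  right_inv g := by
    apply Units.ext
    change (g.1.transpose.submatrix Fin.rev Fin.rev).transpose.submatrix Fin.rev Fin.rev = g.1
    ext i j; simp
  map_mul' g h := by
    apply Units.ext
    have h1 := Matrix.submatrix_mul_equiv (g⁻¹).1.transpose (h⁻¹).1.transpose Fin.rev (Fin.revPerm) Fin.rev
    change (g⁻¹).1.transpose.submatrix Fin.rev Fin.rev * (h⁻¹).1.transpose.submatrix Fin.rev Fin.rev = _ at h1
    change ((g * h)⁻¹).1.transpose.submatrix Fin.rev Fin.rev = (g⁻¹).1.transpose.submatrix Fin.rev Fin.rev * (h⁻¹).1.transpose.submatrix Fin.rev Fin.rev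
    rw [h1, _root_.mul_inv_rev, Units.val_mul, Matrix.transpose_mul]

open CfsgH9.ParGL in
theorem it_mem {F : Type*} [Field F] {n k : ℕ} (hk : k ≤ n) (g : Matrix.GeneralLinearGroup (Fin n) F)
    (hg : g ∈ Cfsg.stabilizing (Cfsg.glToMat (Fin n) F) {v : Fin n → F | ∀ i : Fin n, k ≤ (i : ℕ) → v i = 0}) :
    it n g ∈ Cfsg.stabilizing (Cfsg.glToMat (Fin n) F) {v : Fin n → F | ∀ i : Fin n, n - k ≤ (i : ℕ) → v i = 0} := by
  rw [mem_par]
  intro i j hi hj
  have h1 := (mem_par (g⁻¹)).1 ((Cfsg.stabilizing (Cfsg.glToMat (Fin n) F) {v : Fin n → F | ∀ i : Fin n, k ≤ (i : ℕ) → v i = 0}).inv_mem hg)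
  change (g⁻¹).1 (Fin.rev j) (Fin.rev i) = 0
  apply h1
  · rw [Fin.val_rev]; omega
  · rw [Fin.val_rev]; have := i.2; omega

open CfsgH9.ParGL in
theorem finrank_Wk {F : Type*} [Field F] {n k : ℕ} (hk : k ≤ n) : Module.finrank F (Wk F n k) = k := by
  let e : (Fin k → F) ≃ₗ[F] Wk F n k :=
    { toFun := fun v => ⟨fun i => if h : (i : ℕ) < k then v ⟨i, h⟩ else 0, fun i hi => by
        have : ¬ (i : ℕ) < k := by omega
        simp [this]⟩
      invFun := fun w i => w.1 ⟨i, lt_of_lt_of_le i.2 hk⟩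
      left_inv := fun v => by
        funext i
        simp
      right_inv := fun w => by
        apply Subtype.ext
        funext i
        by_cases h : (i : ℕ) < k
        · simp [h]
        · simp only [h, dite_false]
          exact (w.2 i (by omega)).symm
      map_add' := fun v w => by
        apply Subtype.ext
        funext i
        by_cases h : (i : ℕ) < k <;> simp [h]
      map_smul' := fun c v => by
        apply Subtype.ext
        funext i
        by_cases h : (i : ℕ) < k <;> simp [h] }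
  rw [← LinearEquiv.finrank_eq e, Module.finrank_fintype_fun_eq_card, Fintype.card_fin]

/-- The stabilisers in GL_n(F), F finite, of the coordinate subspaces of dimensions k and n − k are isomorphic groups, but when 2k ≠ n (and 0 < k < n) no element of GL_n conjugates one onto the other. -/
theorem result {F : Type*} [Field F] [Finite F] (n k : ℕ) (hk0 : 0 < k) (hkn : k < n) (h2 : 2 * k ≠ n) : Nonempty (↥(Cfsg.stabilizing (Cfsg.glToMat (Fin n) F) {v : Fin n → F | ∀ i : Fin n, k ≤ (i : ℕ) → v i = 0}) ≃* ↥(Cfsg.stabilizing (Cfsg.glToMat (Fin n) F) {v : Fin n → F | ∀ i : Fin n, n - k ≤ (i : ℕ) → v i = 0})) ∧ ∀ g : Matrix.GeneralLinearGroup (Fin n) F, (Cfsg.stabilizing (Cfsg.glToMat (Fin n) F) {v : Fin n → F | ∀ i : Fin n, k ≤ (i : ℕ) → v i = 0}).map (MulAut.conj g).toMonoidHom ≠ Cfsg.stabilizing (Cfsg.glToMat (Fin n) F) {v : Fin n → F | ∀ i : Fin n, n - k ≤ (i : ℕ) → v i = 0} := by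
  constructor
  · have hk : k ≤ n := hkn.le
    let f : ↥(Cfsg.stabilizing (Cfsg.glToMat (Fin n) F) {v : Fin n → F | ∀ i : Fin n, k ≤ (i : ℕ) → v i = 0}) ≃*
        ↥(Cfsg.stabilizing (Cfsg.glToMat (Fin n) F) {v : Fin n → F | ∀ i : Fin n, n - k ≤ (i : ℕ) → v i = 0}) :=
      { toFun := fun g => ⟨it n g.1, it_mem hk g.1 g.2⟩
        invFun := fun g => ⟨(it n).symm g.1, by
          have h1 := it_mem (k := n - k) (by omega) g.1 g.2
          have h2 : n - (n - k) = k := by omega
          rw [h2] at h1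
          exact h1⟩
        left_inv := fun g => Subtype.ext ((it n).symm_apply_apply g.1)
        right_inv := fun g => Subtype.ext ((it n).apply_symm_apply g.1)
        map_mul' := fun g h => Subtype.ext (map_mul (it n) g.1 h.1) }
    exact ⟨f⟩
  · intro g h
    -- the subspace `g W_k` is invariant under the second stabiliser
    let L : (Fin n → F) ≃ₗ[F] (Fin n → F) := LinearEquiv.ofLinear (Matrix.mulVecLin g.1) (Matrix.mulVecLin (g⁻¹).1)
      (by rw [← Matrix.mulVecLin_mul, ← Units.val_mul, mul_inv_cancel, Units.val_one, Matrix.mulVecLin_one])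
      (by rw [← Matrix.mulVecLin_mul, ← Units.val_mul, inv_mul_cancel, Units.val_one, Matrix.mulVecLin_one])
    let U := (CfsgH9.ParGL.Wk F n k).map L.toLinearMap
    have hU : ∀ x : Matrix.GeneralLinearGroup (Fin n) F, x ∈ Cfsg.Geo.subspaceStabilizer (CfsgH9.ParGL.Wk F n (n - k)) → ∀ u ∈ U, Matrix.mulVec x.1 u ∈ U := by
      intro x hx u hu
      have hx' : x ∈ Cfsg.stabilizing (Cfsg.glToMat (Fin n) F) {v : Fin n → F | ∀ i : Fin n, n - k ≤ (i : ℕ) → v i = 0} := hx
      rw [← h] at hx'
      obtain ⟨y, hy, rfl⟩ := hx'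
      obtain ⟨w, hw, rfl⟩ := hu
      refine ⟨Matrix.mulVec y.1 w, (hy w).1 hw, ?_⟩
      change Matrix.mulVec g.1 (Matrix.mulVec y.1 w) = Matrix.mulVec (g * y * g⁻¹).1 (Matrix.mulVec g.1 w)
      rw [Matrix.mulVec_mulVec, Matrix.mulVec_mulVec, ← Units.val_mul, ← Units.val_mul, inv_mul_cancel_right]
    have hfr : Module.finrank F U = k := by
      rw [LinearEquiv.finrank_map_eq L, finrank_Wk hkn.le]
    rcases CfsgH9.ParGL.inv_cases (CfsgH9.ParGL.Wk F n (n - k)) U (CfsgH9.ParGL.Wk_ne_top (by omega)) hU with h1 | h1 | h1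
    · rw [h1, finrank_bot] at hfr; omega
    · rw [h1, finrank_Wk (by omega)] at hfr; omega
    · rw [h1, finrank_top, Module.finrank_fintype_fun_eq_card, Fintype.card_fin] at hfr; omega

end Cfsg.Agent.S0773
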