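import Cfsg.Statements.S0775
import Cfsg.Agent.H9.Frames2
import Cfsg.Agent.H9.ClForms
import Cfsg.Agent.H9.Orders

set_option autoImplicit false
open Cfsg

namespace Cfsg.Agent.S0775

open CfsgH9.CountHyp CfsgH9.Witt CfsgH9.Frames in
theorem arith (q : ℕ) (k : ℕ) : ∀ m, k ≤ m → q ^ (m ^ 2) * ∏ i ∈ Finset.range m, (q ^ (2 * (i + 1)) - 1) =
    (q ^ (k * (k + 1) / 2 + 2 * k * (m - k)) * (q ^ ((m - k) ^ 2) * ∏ i ∈ Finset.range (m - k), (q ^ (2 * (i + 1)) - 1))) * cfS q m k := by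
  induction k with
  | zero => intro m _; simp [cfS]
  | succ k ih =>
    intro m hm
    obtain ⟨m, rfl⟩ : ∃ j, m = j + 1 := ⟨m - 1, by omega⟩
    obtain ⟨d, rfl⟩ : ∃ d, m = k + d := ⟨m - k, by omega⟩
    have h1 := ih (k + d) (by omega)
    have e1 : k + d + 1 - (k + 1) = d := by omega
    have e2 : k + d - k = d := by omega
    rw [e2] at h1
    rw [e1, Finset.prod_range_succ]
    show q ^ ((k + d + 1) ^ 2) * ((∏ i ∈ Finset.range (k + d), (q ^ (2 * (i + 1)) - 1)) * (q ^ (2 * (k + d + 1)) - 1)) =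
      q ^ ((k + 1) * (k + 1 + 1) / 2 + 2 * (k + 1) * d) * (q ^ d ^ 2 * ∏ i ∈ Finset.range d, (q ^ (2 * (i + 1)) - 1)) *
        ((q ^ (2 * (k + d + 1)) - 1) * (q ^ k * cfS q (k + d) k))
    have e3 : (k + 1) * (k + 1 + 1) / 2 = k * (k + 1) / 2 + (k + 1) := by
      have : (k + 1) * (k + 1 + 1) = k * (k + 1) + 2 * (k + 1) := by ring
      rw [this, Nat.add_mul_div_left _ _ (by norm_num)]
    have e4 : (k + d + 1) ^ 2 = (k + d) ^ 2 + (2 * (k + d) + 1) := by ring
    rw [e3, e4, pow_add q ((k + d) ^ 2)]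
    calc q ^ (k + d) ^ 2 * q ^ (2 * (k + d) + 1) * ((∏ i ∈ Finset.range (k + d), (q ^ (2 * (i + 1)) - 1)) * (q ^ (2 * (k + d + 1)) - 1))
        = (q ^ (k + d) ^ 2 * ∏ i ∈ Finset.range (k + d), (q ^ (2 * (i + 1)) - 1)) * (q ^ (2 * (k + d) + 1) * (q ^ (2 * (k + d + 1)) - 1)) := by ring
      _ = _ := by
        rw [h1, pow_add q (k * (k + 1) / 2) (2 * k * d), pow_add q (k * (k + 1) / 2 + (k + 1)), pow_add q (k * (k + 1) / 2) (k + 1)]
        ring

/-- Maximal parabolics of the symplectic group: if W is a k-dimensional subspace of F^(2m) on which the symplectic form vanishes identically, its stabiliser in Sp_2m(q) has order q^(k(k+1)/2 + 2k(m−k)) · |Sp_(2m−2k)(q)| · |GL_k(q)|. -/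
theorem result {F : Type*} [Field F] [Fintype F] {q : ℕ} (hF : Fintype.card F = q) (m k : ℕ) (hk : k ≤ m) (W : Submodule F (Fin m ⊕ Fin m → F)) (hWk : Module.finrank F W = k) (hW : ∀ u ∈ W, ∀ v ∈ W, Cfsg.sympForm m F u v = 0) : Nat.card ↥(Cfsg.stabilizing (Cfsg.spToMat m F) (W : Set (Fin m ⊕ Fin m → F))) = q ^ (k * (k + 1) / 2 + 2 * k * (m - k)) * (q ^ ((m - k) ^ 2) * ∏ i ∈ Finset.range (m - k), (q ^ (2 * (i + 1)) - 1)) * ∏ i : Fin k, (q ^ k - q ^ (i : ℕ)) := by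
  subst hF
  have h := CfsgH9.SpBridge.fm m F
  have hq : 1 < Fintype.card F := Fintype.one_lt_card
  have h1 := CfsgH9.Frames.card_stab h W hWk (fun _ _ => rfl) hW
  rw [CfsgH9.Frames.card_Fr_alt k m h (by rw [Module.finrank_fintype_fun_eq_card, Fintype.card_sum, Fintype.card_fin]; omega),
    CfsgH9.CountHyp.card_G_alt m h (by rw [Module.finrank_fintype_fun_eq_card, Fintype.card_sum, Fintype.card_fin]; omega),
    Nat.card_eq_fintype_card (α := F), arith _ k m hk] at h1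
  have hpos : 0 < CfsgH9.Frames.cfS (Fintype.card F) m k := by
    rw [← Nat.card_eq_fintype_card, ← CfsgH9.Frames.card_Fr_alt k m h (by rw [Module.finrank_fintype_fun_eq_card, Fintype.card_sum, Fintype.card_fin]; omega)]
    let b := Module.finBasisOfFinrankEq F W hWk
    haveI : Nonempty (CfsgH9.Frames.Fr (CfsgH9.SpBridge.form m F) (fun _ => (0 : F)) k) :=
      ⟨⟨fun i => (b i : Fin m ⊕ Fin m → F), b.linearIndependent.map' W.subtype (Submodule.ker_subtype W),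
        fun i => rfl, fun i j => hW _ (b i).2 _ (b j).2⟩⟩
    exact Nat.card_pos
  have h2 : Nat.card ↥(Cfsg.stabilizing (Cfsg.spToMat m F) (W : Set (Fin m ⊕ Fin m → F))) =
      Nat.card {g : CfsgH9.CountHyp.G (CfsgH9.SpBridge.form m F) (fun _ => (0 : F)) // ∀ x ∈ W, g.1 x ∈ W} := by
    refine Nat.card_congr (Equiv.subtypeEquiv (CfsgH9.ClForms.spEquiv m) fun A => ?_)
    constructor
    · intro hA x hx
      exact (hA x).1 hx
    · intro hA v
      exact CfsgH9.Frames.mem_iff_of_stab hA v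
  rw [h2]
  refine Nat.eq_of_mul_eq_mul_right hpos (h1.trans ?_)
  ring

end Cfsg.Agent.S0775
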