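import Cfsg.Statements.S0774
import Cfsg.Agent.S0775
import Cfsg.Agent.S0769

set_option autoImplicit false
open Cfsg

namespace Cfsg.Agent.S0774

open CfsgH9.Frames CfsgH9.Witt CfsgH9.CountHyp CfsgH9.SpBridge

section

variable {F : Type*} [Field F] {m : ℕ}

/-- the coordinate subspaces -/
def Wb (F : Type*) [Field F] (m k : ℕ) : Submodule F (Fin m ⊕ Fin m → F) where
  carrier := {v | (∀ i : Fin m, k < (i : ℕ) → v (Sum.inl i) = 0) ∧ ∀ i : Fin m, v (Sum.inr i) = 0}
  zero_mem' := ⟨fun _ _ => rfl, fun _ => rfl⟩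
  add_mem' := fun {a b} ha hb => ⟨fun i hi => by
    change a _ + b _ = 0
    rw [ha.1 i hi, hb.1 i hi, add_zero], fun i => by
    change a _ + b _ = 0
    rw [ha.2 i, hb.2 i, add_zero]⟩
  smul_mem' := fun c a ha => ⟨fun i hi => by
    change c * a _ = 0
    rw [ha.1 i hi, mul_zero], fun i => by
    change c * a _ = 0
    rw [ha.2 i, mul_zero]⟩

theorem ex_mem (k : Fin m) : (Pi.single (Sum.inl k) 1 : Fin m ⊕ Fin m → F) ∈ Wb F m k := by
  refine ⟨fun i hi => ?_, fun i => ?_⟩
  · have : (Sum.inl i : Fin m ⊕ Fin m) ≠ Sum.inl k := by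
      intro h; rw [Sum.inl.inj h] at hi; exact lt_irrefl _ hi
    exact Pi.single_eq_of_ne this _
  · exact Pi.single_eq_of_ne (by simp) _

theorem Wb_expand {k : ℕ} {v : Fin m ⊕ Fin m → F} (hv : v ∈ Wb F m k) :
    v = ∑ i : Fin m, v (Sum.inl i) • (Pi.single (Sum.inl i) 1 : Fin m ⊕ Fin m → F) := by
  funext j
  rw [Finset.sum_apply]
  rcases j with j | j
  · rw [Finset.sum_eq_single j]
    · simp
    · intro b _ hb
      have : (Sum.inl j : Fin m ⊕ Fin m) ≠ Sum.inl b := fun h => hb (Sum.inl.inj h).symm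
      rw [Pi.smul_apply, Pi.single_eq_of_ne this, smul_zero]
    · simp
  · rw [hv.2 j, Finset.sum_eq_zero]
    intro b _
    rw [Pi.smul_apply, Pi.single_eq_of_ne (by simp), smul_zero]

theorem Wb_iso {k : ℕ} (u : Fin m ⊕ Fin m → F) (hu : u ∈ Wb F m k) (v : Fin m ⊕ Fin m → F) (hv : v ∈ Wb F m k) :
    form m F u v = 0 := by
  rw [form_apply, Cfsg.sympForm, dotProduct, Fintype.sum_sum_type]
  have h1 : ∀ i : Fin m, (Matrix.mulVec (Matrix.J (Fin m) F) v) (Sum.inl i) = 0 := by
    intro i
    rw [Matrix.mulVec, dotProduct, Fintype.sum_sum_type, Finset.sum_eq_zero, Finset.sum_eq_zero, add_zero]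
    · intro j _; rw [hv.2 j, mul_zero]
    · intro j _
      have : Matrix.J (Fin m) F (Sum.inl i) (Sum.inl j) = 0 := rfl
      rw [this, zero_mul]
  rw [Finset.sum_eq_zero, Finset.sum_eq_zero, add_zero]
  · intro j _; rw [hu.2 j, zero_mul]
  · intro j _; rw [h1 j, mul_zero]

theorem Wb_mono {k l : ℕ} (h : k ≤ l) : Wb F m k ≤ Wb F m l := fun _ hv => ⟨fun i hi => hv.1 i (by omega), hv.2⟩

theorem Wb_finrank : Module.finrank F (Wb F m m) = m := by
  let e : (Fin m → F) ≃ₗ[F] Wb F m m :=
    { toFun := fun v => ⟨Sum.elim v (fun _ => 0), fun i hi => by have := i.2; omega, fun i => rfl⟩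
      invFun := fun w i => w.1 (Sum.inl i)
      left_inv := fun v => rfl
      right_inv := fun w => by
        apply Subtype.ext
        funext i
        rcases i with i | i
        · rfl
        · exact (w.2.2 i).symm
      map_add' := fun v w => by
        apply Subtype.ext
        funext i
        rcases i with i | i
        · rfl
        · exact (add_zero _).symm
      map_smul' := fun c v => by
        apply Subtype.ext
        funext i
        rcases i with i | i
        · rfl
        · exact (mul_zero _).symm }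
  rw [← LinearEquiv.finrank_eq e, Module.finrank_fintype_fun_eq_card, Fintype.card_fin]

/-- the standard frame -/
def x0 : Fr (form m F) (fun _ => (0 : F)) m := ⟨fun i => Pi.single (Sum.inl i) 1, by
  have h := (Pi.basisFun F (Fin m ⊕ Fin m)).linearIndependent
  have h2 := h.comp (Sum.inl : Fin m → Fin m ⊕ Fin m) Sum.inl_injective
  simpa only [Function.comp_def, Pi.basisFun_apply] using h2, fun _ => rfl, fun i j => Wb_iso _ (Wb_mono (k := i) (l := m) (by have := i.2; omega) (ex_mem i)) _
    (Wb_mono (k := j) (l := m) (by have := j.2; omega) (ex_mem j))⟩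

/-- adapted frames and lower triangular matrices -/
noncomputable def adaptEquiv : {x : Fr (form m F) (fun _ => (0 : F)) m | ∀ i : Fin m, x.1 i ∈ Wb F m i} ≃
    {g : Matrix.GeneralLinearGroup (Fin m) F // ∀ i j : Fin m, i < j → (g : Matrix (Fin m) (Fin m) F) i j = 0} where
  toFun x := ⟨((Matrix.linearIndependent_rows_iff_isUnit (A := Matrix.of fun i j => x.1.1 i (Sum.inl j))).mp (by
      -- the rows are the images under the projection, injective on `Wb m`
      have hli := x.1.2.li
      rw [Fintype.linearIndependent_iff] at hli ⊢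
      intro g hg
      apply hli g
      funext j
      rcases j with j | j
      · have := congrFun hg j
        rw [Finset.sum_apply] at this ⊢
        exact this
      · rw [Finset.sum_apply]
        apply Finset.sum_eq_zero
        intro i _
        rw [Pi.smul_apply, (x.2 i).2 j, smul_zero])).unit, fun i j hij => (x.2 i).1 j hij⟩
  invFun g := ⟨⟨fun i => Sum.elim (fun j => g.1.1 i j) (fun _ => 0), by
      have hli := (Matrix.linearIndependent_rows_iff_isUnit (A := g.1.1)).mpr g.1.isUnit
      rw [Fintype.linearIndependent_iff] at hli ⊢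
      intro c hc
      apply hli c
      funext j
      have := congrFun hc (Sum.inl j)
      rw [Finset.sum_apply] at this ⊢
      exact this, fun _ => rfl, fun i j => Wb_iso (k := m) _ ⟨fun l hl => by have := l.2; omega, fun _ => rfl⟩ _
        ⟨fun l hl => by have := l.2; omega, fun _ => rfl⟩⟩, fun i => ⟨fun j hj => g.2 i j hj, fun _ => rfl⟩⟩
  left_inv x := by
    apply Subtype.ext
    apply Subtype.ext
    funext i j
    rcases j with j | j
    · rfl
    · exact ((x.2 i).2 j).symm
  right_inv g := by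
    apply Subtype.ext
    apply Units.ext
    rfl

end

/-- Borel subgroup of the symplectic group: the elements of Sp_2m(q) stabilising each of the totally isotropic coordinate subspaces ⟨e_0, ..., e_k⟩ (k < m) form a subgroup of order q^(m²) (q − 1)^m. -/
theorem result {F : Type*} [Field F] [Fintype F] {q : ℕ} (hF : Fintype.card F = q) (m : ℕ) : Nat.card ↥(⨅ k : Fin m, Cfsg.stabilizing (Cfsg.spToMat m F) {v : Fin m ⊕ Fin m → F | (∀ i : Fin m, (k : ℕ) < (i : ℕ) → v (Sum.inl i) = 0) ∧ ∀ i : Fin m, v (Sum.inr i) = 0}) = q ^ (m ^ 2) * (q - 1) ^ m := by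
  subst hF
  have h := CfsgH9.SpBridge.fm m F
  have h0 := card_image_mem h (x0 (F := F) (m := m)) {x | ∀ i : Fin m, x.1 i ∈ Wb F m i}
  have h1 := card_stab h (Wb F m m) Wb_finrank (fun _ _ => rfl) (fun x hx y hy => Wb_iso x hx y hy)
  have h2 := Cfsg.Agent.S0775.result (F := F) rfl m m le_rfl (Wb F m m) Wb_finrank (fun x hx y hy => Wb_iso x hx y hy)
  have h3 : Nat.card ↥(Cfsg.stabilizing (Cfsg.spToMat m F) (Wb F m m : Set (Fin m ⊕ Fin m → F))) =
      Nat.card {g : CfsgH9.CountHyp.G (CfsgH9.SpBridge.form m F) (fun _ => (0 : F)) // ∀ x ∈ Wb F m m, g.1 x ∈ Wb F m m} := by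
    refine Nat.card_congr (Equiv.subtypeEquiv (CfsgH9.ClForms.spEquiv m) fun A => ?_)
    constructor
    · intro hA x hx
      exact (hA x).1 hx
    · intro hA v
      exact CfsgH9.Frames.mem_iff_of_stab hA v
  have h4 : Nat.card {x : Fr (form m F) (fun _ => (0 : F)) m | ∀ i : Fin m, x.1 i ∈ Wb F m i} = Fintype.card F ^ (m * (m - 1) / 2) * (Fintype.card F - 1) ^ m := by
    rw [Nat.card_congr adaptEquiv, Cfsg.Agent.S0769.result rfl]
  have h5 : Nat.card ↥(⨅ k : Fin m, Cfsg.stabilizing (Cfsg.spToMat m F) {v : Fin m ⊕ Fin m → F | (∀ i : Fin m, (k : ℕ) < (i : ℕ) → v (Sum.inl i) = 0) ∧ ∀ i : Fin m, v (Sum.inr i) = 0}) =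
      Nat.card {g : CfsgH9.CountHyp.G (form m F) (fun _ => (0 : F)) // ∃ x ∈ {x : Fr (form m F) (fun _ => (0 : F)) m | ∀ i : Fin m, x.1 i ∈ Wb F m i}, ∀ i, g.1 ((x0 (F := F) (m := m)).1 i) = x.1 i} := by
    refine Nat.card_congr (Equiv.subtypeEquiv (CfsgH9.ClForms.spEquiv m) fun A => ?_)
    rw [Subgroup.mem_iInf]
    constructor
    · intro hA
      refine ⟨⟨fun i => (CfsgH9.ClForms.spEquiv m A).1 ((x0 (F := F) (m := m)).1 i), ?_, fun _ => rfl, ?_⟩, ?_, fun i => rfl⟩
      · exact x0.2.li.map' ((CfsgH9.ClForms.spEquiv m A).1 : (Fin m ⊕ Fin m → F) →ₗ[F] (Fin m ⊕ Fin m → F)) (LinearEquiv.ker _)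
      · intro i j; rw [(CfsgH9.ClForms.spEquiv m A).2.1]; exact x0.2.orth i j
      · intro i
        exact (hA i _).1 (ex_mem i)
    · rintro ⟨x, hx, hgx⟩ k
      have hst : ∀ v ∈ Wb F m k, (CfsgH9.ClForms.spEquiv m A).1 v ∈ Wb F m k := by
        intro v hv
        rw [Wb_expand hv, map_sum]
        apply Submodule.sum_mem
        intro i _
        rw [map_smul]
        by_cases hik : (i : ℕ) ≤ k
        · apply Submodule.smul_mem
          have := hgx i
          change (CfsgH9.ClForms.spEquiv m A).1 (Pi.single (Sum.inl i) 1) = x.1 i at this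
          rw [this]
          exact Wb_mono hik (hx i)
        · rw [hv.1 i (by omega), zero_smul]
          exact Submodule.zero_mem _
      exact fun v => CfsgH9.Frames.mem_iff_of_stab (W := Wb F m k) hst v
  rw [h5]
  rw [h3] at h2
  rw [h2] at h1
  rw [Nat.card_eq_fintype_card (α := F)] at h1
  have hpos : 0 < ∏ i : Fin m, (Fintype.card F ^ m - Fintype.card F ^ (i : ℕ)) := by
    apply Finset.prod_pos
    intro i _
    have hq : 1 < Fintype.card F := Fintype.one_lt_card
    have : Fintype.card F ^ (i : ℕ) < Fintype.card F ^ m := Nat.pow_lt_pow_right hq i.2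
    omega
  have hposF : 0 < Nat.card (Fr (form m F) (fun _ => (0 : F)) m) := by
    haveI : Nonempty (Fr (form m F) (fun _ => (0 : F)) m) := ⟨x0⟩
    exact Nat.card_pos
  rw [h4] at h0
  have h6 : Nat.card (CfsgH9.CountHyp.G (form m F) (fun _ => (0 : F))) = Fintype.card F ^ (m * (m + 1) / 2) * Nat.card (Fr (form m F) (fun _ => (0 : F)) m) := by
    apply Nat.eq_of_mul_eq_mul_right hpos
    rw [← h1]
    simp only [Nat.sub_self, mul_zero, add_zero, Finset.range_zero, Finset.prod_empty, mul_one]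
    simp
    ring
  rw [h6] at h0
  apply Nat.eq_of_mul_eq_mul_right hposF
  rw [h0]
  have h7 : m ^ 2 = m * (m + 1) / 2 + m * (m - 1) / 2 := by
    rcases Nat.eq_zero_or_pos m with rfl | hm
    · rfl
    · obtain ⟨r, rfl⟩ : ∃ r, m = r + 1 := ⟨m - 1, by omega⟩
      have e1 : (r + 1) * (r + 1 - 1) = r * (r + 1) := by rw [Nat.add_sub_cancel]; ring
      rw [e1]
      obtain ⟨s, hs⟩ : ∃ s, r * (r + 1) = 2 * s := by
        obtain ⟨s, hs⟩ := (Nat.even_mul_succ_self r)
        exact ⟨s, by rw [hs]; ring⟩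
      have e2 : (r + 1) * (r + 1 + 1) = 2 * (s + (r + 1)) := by
        calc (r + 1) * (r + 1 + 1) = r * (r + 1) + 2 * (r + 1) := by ring
          _ = _ := by rw [hs]; ring
      have e3 : (r + 1) ^ 2 = r * (r + 1) + (r + 1) := by ring
      rw [e2, hs, Nat.mul_div_cancel_left _ (by norm_num), Nat.mul_div_cancel_left _ (by norm_num), e3, hs]
      ring
  rw [h7, pow_add]
  ring

end Cfsg.Agent.S0774
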