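import Cfsg.Statements.S0776
import Cfsg.Agent.H9.Split2
import Cfsg.Agent.H9.Alt
import Cfsg.Agent.H9.SpBridge

set_option autoImplicit false
open Cfsg

namespace Cfsg.Agent.S0776

open Matrix Cfsg Cfsg.Geo CfsgH9.Split CfsgH9.SpBridge CfsgH9.Tv CfsgH9.MaxSymp CfsgH9.SpGen CfsgH9.MaxRedSp CfsgH9.MaxImpSp

section
variable {F : Type*} [Field F]

theorem sf_expand (m : ℕ) (u v : Fin m ⊕ Fin m → F) : sympForm m F u v = ∑ i, (u (Sum.inr i) * v (Sum.inl i) - u (Sum.inl i) * v (Sum.inr i)) := by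
  rw [sympForm, Matrix.J, dotProduct, Fintype.sum_sum_type]
  have h1 : ∀ i : Fin m, ((fromBlocks (0 : Matrix (Fin m) (Fin m) F) (-1 : Matrix (Fin m) (Fin m) F) (1 : Matrix (Fin m) (Fin m) F) (0 : Matrix (Fin m) (Fin m) F)) *ᵥ v) (Sum.inl i) = - v (Sum.inr i) := by
    intro i
    simp [mulVec, dotProduct, Matrix.one_apply]
  have h2 : ∀ i : Fin m, ((fromBlocks (0 : Matrix (Fin m) (Fin m) F) (-1 : Matrix (Fin m) (Fin m) F) (1 : Matrix (Fin m) (Fin m) F) (0 : Matrix (Fin m) (Fin m) F)) *ᵥ v) (Sum.inr i) = v (Sum.inl i) := by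
    intro i
    simp [mulVec, dotProduct, Matrix.one_apply]
  simp only [h1, h2]
  rw [Finset.sum_sub_distrib, add_comm]
  simp only [mul_neg, Finset.sum_neg_distrib]
  rw [sub_eq_add_neg]

theorem sf_sq (m : ℕ) : Sq (V := Fin m ⊕ Fin m → F) (fun a => a) (fun a => a) (sympForm m F) := by
  have hb := (sympForm_isSymplectic (F := F) m).bilinear
  exact ⟨hb.add_left, hb.add_right, hb.smul_left, hb.smul_right⟩

theorem sf_nondeg {m : ℕ} {u : Fin m ⊕ Fin m → F} (h : ∀ v, sympForm m F u v = 0) : u = 0 := by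
  classical
  ext i
  rcases i with i | i
  · have := h (Pi.single (Sum.inr i) 1)
    rw [sf_expand, Finset.sum_eq_single i] at this
    · simpa using this
    · intro j _ hj
      simp [Pi.single_apply, hj]
    · simp
  · have := h (Pi.single (Sum.inl i) 1)
    rw [sf_expand, Finset.sum_eq_single i] at this
    · simpa using this
    · intro j _ hj
      simp [Pi.single_apply, hj]
    · simp

theorem sf_gram (k : ℕ) (i j : Fin k ⊕ Fin k) : sympForm k F (Pi.single i 1) (Pi.single j 1) = - CfsgH9.Alt.gram F k i j := by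
  classical
  rw [sf_expand]
  rcases i with i | i <;> rcases j with j | j
  · simp [CfsgH9.Alt.gram]
  · rw [Finset.sum_eq_single i]
    · simp [CfsgH9.Alt.gram, Pi.single_apply]
    · intro l _ hl; simp [Pi.single_apply, hl]
    · simp
  · rw [Finset.sum_eq_single i]
    · simp only [CfsgH9.Alt.gram, Pi.single_apply]
      by_cases hij : i = j <;> simp [hij]
    · intro l _ hl; simp [Pi.single_apply, hl]
    · simp
  · simp [CfsgH9.Alt.gram]

/-- symplectic bases of a subspace -/
theorem exists_sb (m : ℕ) (W : Submodule F (Fin m ⊕ Fin m → F)) (k : ℕ) (hk : Module.finrank F W = 2 * k)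
    (hW : ∀ u ∈ W, (∀ v ∈ W, sympForm m F u v = 0) → u = 0) :
    ∃ b : Module.Basis (Fin k ⊕ Fin k) F W, ∀ i j, sympForm m F (b i) (b j) = sympForm k F (Pi.single i 1) (Pi.single j 1) := by
  set B : LinearMap.BilinForm F W := -((form m F).restrict W) with hB
  have hBa : ∀ x y : W, B x y = - sympForm m F x y := fun x y => rfl
  have h1 : ∀ x, x ≠ 0 → ∃ y, B x y ≠ 0 := by
    intro x hx
    by_contra hcon
    push Not at hcon
    apply hx
    apply Subtype.ext
    apply hW _ x.2
    intro v hv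
    have := hcon ⟨v, hv⟩
    rw [hBa, neg_eq_zero] at this
    exact this
  have h2 : B.IsAlt := by
    intro x
    rw [hBa, (sympForm_isSymplectic (F := F) m).alternating, neg_zero]
  obtain ⟨k', b, hb, hk'⟩ := CfsgH9.Alt.exists_basis h1 h2
  obtain rfl : k' = k := by omega
  refine ⟨b, fun i j => ?_⟩
  rw [sf_gram, ← hb, hBa, neg_neg]

/-- the symplectic group as an isometry group -/
noncomputable def E (m : ℕ) (F : Type*) [Field F] : Matrix.symplecticGroup (Fin m) F ≃* ↥(Pr (sympForm m F)) :=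
  MulEquiv.ofBijective
    ({ toFun := fun A => ⟨toGL m F A, fun u v => (mem_iff A.1).1 A.2 u v⟩
       map_one' := Subtype.ext (map_one _)
       map_mul' := fun A B => Subtype.ext (map_mul _ _ _) } : Matrix.symplecticGroup (Fin m) F →* ↥(Pr (sympForm m F))) (by
    constructor
    · intro A B h
      exact toGL_inj (congrArg Subtype.val h)
    · intro g
      refine ⟨⟨g.1.1, (mem_iff g.1.1).2 (fun u v => g.2 u v)⟩, ?_⟩
      apply Subtype.ext
      apply Units.ext
      rfl)

end

/-- If W ≤ F^(2m) is a 2k-dimensional subspace on which the symplectic form is non-degenerate, then the stabiliser of W in Sp_2m(F) is isomorphic to Sp_2k(F) × Sp_(2m−2k)(F). -/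
theorem result {F : Type*} [Field F] (m k : ℕ) (hk : k ≤ m) (W : Submodule F (Fin m ⊕ Fin m → F)) (hWk : Module.finrank F W = 2 * k) (hW : ∀ u ∈ W, (∀ v ∈ W, Cfsg.sympForm m F u v = 0) → u = 0) : Nonempty (↥(Cfsg.stabilizing (Cfsg.spToMat m F) (W : Set (Fin m ⊕ Fin m → F))) ≃* Matrix.symplecticGroup (Fin k) F × Matrix.symplecticGroup (Fin (m - k)) F) := by
  classical
  set f := Cfsg.sympForm m F with hf
  have hsq := sf_sq (F := F) m
  have hrefl : ∀ x y, f x y = 0 → f y x = 0 := by
    intro x y h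
    rw [hf, (sympForm_isSymplectic (F := F) m).skew, ← hf, h, neg_zero]
  have hc := isCompl_perp hsq hrefl hW
  have hp := perp_nondeg hsq hrefl hW (fun u h => sf_nondeg h)
  have hdim : Module.finrank F (perp hsq W) = 2 * (m - k) := by
    have h1 := Submodule.finrank_add_eq_of_isCompl hc
    rw [hWk, Module.finrank_fintype_fun_eq_card, Fintype.card_sum, Fintype.card_fin] at h1
    omega
  obtain ⟨b, hb⟩ := exists_sb m W k hWk hW
  obtain ⟨c, hcc⟩ := exists_sb m (perp hsq W) (m - k) hdim hp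
  obtain ⟨e⟩ := split_main hsq (sf_sq (F := F) k) (sf_sq (F := F) (m - k)) hc b c (fun w hw v hv => hv w hw)
    (fun w hw v hv => hrefl _ _ (hv w hw)) hb hcc (fun u h => sf_nondeg h)
  have e1 : ↥(Cfsg.stabilizing (Cfsg.spToMat m F) (W : Set (Fin m ⊕ Fin m → F))) ≃*
      ↥((stabilizing (Units.coeHom (Matrix (Fin m ⊕ Fin m) (Fin m ⊕ Fin m) F)) (W : Set _)).subgroupOf (Pr f)) := by
    refine ((E m F).subgroupMap _).trans (MulEquiv.subgroupCongr ?_)
    ext g
    rw [Subgroup.mem_map]
    constructor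
    · rintro ⟨A, hA, rfl⟩
      exact hA
    · intro hg
      refine ⟨(E m F).symm g, ?_, (E m F).apply_symm_apply g⟩
      have h1 : ∀ A : Matrix.symplecticGroup (Fin m) F, (∀ v, v ∈ (W : Set (Fin m ⊕ Fin m → F)) ↔ ((E m F A).1 : GL (Fin m ⊕ Fin m) F).1 *ᵥ v ∈ (W : Set (Fin m ⊕ Fin m → F))) →
          A ∈ stabilizing (spToMat m F) (W : Set (Fin m ⊕ Fin m → F)) := fun A h => h
      apply h1
      rw [MulEquiv.apply_symm_apply]
      exact hg
  exact ⟨e1.trans (e.trans ((E k F).symm.prodCongr (E (m - k) F).symm))⟩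

end Cfsg.Agent.S0776
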