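import Cfsg.Statements.S0777
import Cfsg.Agent.H9.SpBridge
import Cfsg.Agent.H9.Split2

set_option autoImplicit false
open Cfsg

namespace Cfsg.Agent.S0777

open Matrix Cfsg CfsgH9.SpBridge

section
variable {F : Type*} [Field F] {m : ℕ}

def sg (F : Type*) [Field F] {m : ℕ} (a : Fin m ⊕ Fin m) : F := Sum.elim (fun _ => -1) (fun _ => 1) a

theorem sg_sq (a : Fin m ⊕ Fin m) : sg F a * sg F a = 1 := by
  rcases a with a | a <;> simp [sg]

theorem sg_swap (a : Fin m ⊕ Fin m) : sg F a.swap = - sg F a := by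
  rcases a with a | a <;> simp [sg]

theorem sf_single (u : Fin m ⊕ Fin m → F) (b : Fin m ⊕ Fin m) : sympForm m F u (Pi.single b 1) = sg F b.swap * u b.swap := by
  classical
  rw [sympForm, Matrix.mulVec_single_one, dotProduct, Fintype.sum_sum_type]
  rcases b with b | b
  · simp [Matrix.J, Matrix.one_apply, sg, Matrix.col_apply]
  · simp [Matrix.J, Matrix.one_apply, sg, Matrix.col_apply]

theorem hSq (m : ℕ) : CfsgH9.Split.Sq (V := Fin m ⊕ Fin m → F) (fun a => a) (fun a => a) (sympForm m F) := by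
  have hb := (CfsgH9.SpGen.sympForm_isSymplectic (F := F) m).bilinear
  exact ⟨hb.add_left, hb.add_right, hb.smul_left, hb.smul_right⟩

theorem mv_expand (A : Matrix (Fin m ⊕ Fin m) (Fin m ⊕ Fin m) F) (u : Fin m ⊕ Fin m → F) :
    A *ᵥ u = ∑ a, u a • (A *ᵥ (Pi.single a 1)) := by
  conv_lhs => rw [CfsgH9.Split.single_sum u, Matrix.mulVec_sum]
  exact Finset.sum_congr rfl (fun a _ => mulVec_smul _ _ _)

theorem mem_of_basis (A : Matrix (Fin m ⊕ Fin m) (Fin m ⊕ Fin m) F)
    (h : ∀ a b, sympForm m F (A *ᵥ (Pi.single a 1)) (A *ᵥ (Pi.single b 1)) = sympForm m F (Pi.single a 1) (Pi.single b 1)) :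
    A ∈ Matrix.symplecticGroup (Fin m) F := by
  rw [mem_iff]
  intro u v
  rw [mv_expand A u, mv_expand A v, (hSq m).expand]
  conv_rhs => rw [CfsgH9.Split.single_sum u, CfsgH9.Split.single_sum v, (hSq m).expand]
  exact Finset.sum_congr rfl (fun a _ => Finset.sum_congr rfl (fun b _ => by rw [h]))

/-- monomial matrices -/
def Mo (π : Equiv.Perm (Fin m ⊕ Fin m)) (c : Fin m ⊕ Fin m → F) : Matrix (Fin m ⊕ Fin m) (Fin m ⊕ Fin m) F :=
  Matrix.of fun a b => if a = π b then c b else 0

theorem Mo_single (π : Equiv.Perm (Fin m ⊕ Fin m)) (c : Fin m ⊕ Fin m → F) (b : Fin m ⊕ Fin m) :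
    Mo π c *ᵥ (Pi.single b 1) = c b • (Pi.single (π b) 1 : Fin m ⊕ Fin m → F) := by
  ext a
  rw [Matrix.mulVec_single_one, Matrix.col_apply, Mo, Matrix.of_apply, Pi.smul_apply, Pi.single_apply, smul_eq_mul, mul_ite, mul_one, mul_zero]

/-- the matrices commuting with the swap -/
def C (m : ℕ) : Subgroup (Equiv.Perm (Fin m ⊕ Fin m)) := Subgroup.centralizer {(Equiv.sumComm (Fin m) (Fin m) : Equiv.Perm (Fin m ⊕ Fin m))}

theorem mem_C {π : Equiv.Perm (Fin m ⊕ Fin m)} : π ∈ C m ↔ ∀ a, π a.swap = (π a).swap := by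
  rw [C, Subgroup.mem_centralizer_singleton_iff]
  constructor
  · intro h a
    exact congrArg (fun s : Equiv.Perm (Fin m ⊕ Fin m) => s a) h
  · intro h
    ext1 a
    exact h a

theorem card_C (m : ℕ) : Nat.card (C m) = 2 ^ m * Nat.factorial m := by
  classical
  rcases Nat.eq_zero_or_pos m with rfl | hm
  · have : Subsingleton (C 0) := ⟨fun a b => Subtype.ext (Equiv.ext (fun x => by rcases x with x | x <;> exact x.elim0))⟩
    rw [Nat.card_unique]; rfl
  · set s : Equiv.Perm (Fin m ⊕ Fin m) := Equiv.sumComm (Fin m) (Fin m) with hs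
    have hs1 : s ≠ 1 := by
      intro h
      have := congrArg (fun t : Equiv.Perm (Fin m ⊕ Fin m) => t (Sum.inl ⟨0, hm⟩)) h
      simp [hs] at this
    have hs2 : s ^ 2 = 1 := by
      ext1 a
      rw [pow_two, Equiv.Perm.mul_apply, hs]
      simp
    have ho : orderOf s = 2 := orderOf_eq_prime hs2 hs1
    obtain ⟨n, hn⟩ := Equiv.Perm.cycleType_prime_order (σ := s) (by rw [ho]; exact Nat.prime_two)
    have hsup : s.support = Finset.univ := by
      ext a
      rw [Equiv.Perm.mem_support]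
      simp only [Finset.mem_univ, iff_true]
      rcases a with a | a <;> simp [hs]
    have hsum := Equiv.Perm.sum_cycleType s
    rw [hsup, Finset.card_univ, Fintype.card_sum, Fintype.card_fin, hn, ho, Multiset.sum_replicate, smul_eq_mul] at hsum
    have hnm : n + 1 = m := by omega
    rw [ho, hnm] at hn
    have h1 := Equiv.Perm.nat_card_centralizer s
    rw [hn] at h1
    rw [C, h1, Multiset.sum_replicate, Multiset.prod_replicate, Fintype.card_sum, Fintype.card_fin, Multiset.toFinset_replicate, if_neg (by omega),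
      Finset.prod_singleton, Multiset.count_replicate_self, smul_eq_mul, show m + m - m * 2 = 0 by omega, Nat.factorial_zero, one_mul]

def cf (π : Equiv.Perm (Fin m ⊕ Fin m)) (t : Fin m → Fˣ) : Fin m ⊕ Fin m → F :=
  Sum.elim (fun i => (t i : F)) (fun i => - sg F (π (Sum.inl i)) * ((t i)⁻¹ : Fˣ))

theorem cf_rel {π : Equiv.Perm (Fin m ⊕ Fin m)} (hπ : π ∈ C m) (t : Fin m → Fˣ) (a : Fin m ⊕ Fin m) :
    cf π t a * cf π t a.swap * sg F (π a) = sg F a := by
  rw [mem_C] at hπ
  rcases a with i | i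
  · have h1 := sg_sq (F := F) (π (Sum.inl i))
    have h2 : (t i : F) * ((t i)⁻¹ : Fˣ) = 1 := by rw [← Units.val_mul, mul_inv_cancel, Units.val_one]
    change (t i : F) * (- sg F (π (Sum.inl i)) * ((t i)⁻¹ : Fˣ)) * sg F (π (Sum.inl i)) = -1
    linear_combination (-((t i : F) * ((t i)⁻¹ : Fˣ))) * h1 - h2
  · have h1 := sg_sq (F := F) (π (Sum.inl i))
    have h2 : (t i : F) * ((t i)⁻¹ : Fˣ) = 1 := by rw [← Units.val_mul, mul_inv_cancel, Units.val_one]
    have h3 : sg F (π (Sum.inr i)) = - sg F (π (Sum.inl i)) := by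
      have := hπ (Sum.inl i)
      rw [Sum.swap_inl] at this
      rw [this, sg_swap]
    change (- sg F (π (Sum.inl i)) * ((t i)⁻¹ : Fˣ)) * (t i : F) * sg F (π (Sum.inr i)) = 1
    rw [h3]
    linear_combination ((t i : F) * ((t i)⁻¹ : Fˣ)) * h1 + h2

theorem cf_ne {π : Equiv.Perm (Fin m ⊕ Fin m)} (t : Fin m → Fˣ) (a : Fin m ⊕ Fin m) : cf π t a ≠ 0 := by
  rcases a with i | i
  · exact (t i).ne_zero
  · refine mul_ne_zero (neg_ne_zero.2 ?_) (Units.ne_zero _)
    intro h
    have := sg_sq (F := F) (π (Sum.inl i))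
    rw [h, mul_zero] at this
    exact zero_ne_one this

theorem sf_ss (a b : Fin m ⊕ Fin m) : sympForm m F (Pi.single a 1) (Pi.single b 1) = if a = b.swap then sg F a else 0 := by
  rw [sf_single, Pi.single_apply]
  by_cases h : a = b.swap
  · rw [if_pos h, if_pos h.symm, mul_one, h]
  · rw [if_neg h, if_neg (Ne.symm h), mul_zero]

theorem Mo_mem {π : Equiv.Perm (Fin m ⊕ Fin m)} (hπ : π ∈ C m) (t : Fin m → Fˣ) : Mo π (cf π t) ∈ Matrix.symplecticGroup (Fin m) F := by
  apply mem_of_basis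
  intro a b
  rw [Mo_single, Mo_single, (hSq m).sl, (hSq m).sr, sf_ss, sf_ss]
  have h1 : π a = (π b).swap ↔ a = b.swap := by
    rw [← mem_C.1 hπ b]
    exact π.injective.eq_iff
  by_cases h : a = b.swap
  · rw [if_pos h, if_pos (h1.2 h)]
    have h2 := cf_rel (F := F) hπ t a
    have h3 : a.swap = b := by rw [h, Sum.swap_swap]
    rw [h3] at h2
    rw [← h2]; ring
  · rw [if_neg h, if_neg (fun h2 => h (h1.1 h2))]; ring

/-- the torus -/
abbrev T (m : ℕ) (F : Type*) [Field F] : Subgroup (Matrix.symplecticGroup (Fin m) F) :=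
  ⨅ i : Fin m ⊕ Fin m, Cfsg.stabilizing (Cfsg.spToMat m F) ((Submodule.span F {(Pi.single i (1 : F) : Fin m ⊕ Fin m → F)} : Submodule F (Fin m ⊕ Fin m → F)) : Set (Fin m ⊕ Fin m → F))

theorem sp_inj (A : Matrix.symplecticGroup (Fin m) F) {u v : Fin m ⊕ Fin m → F} (h : A.1 *ᵥ u = A.1 *ᵥ v) : u = v := by
  have h1 : (A⁻¹ : Matrix.symplecticGroup (Fin m) F).1 * A.1 = 1 := congrArg Subtype.val (inv_mul_cancel A)
  rw [← one_mulVec u, ← h1, ← mulVec_mulVec, h, mulVec_mulVec, h1, one_mulVec]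

theorem mem_T {A : Matrix.symplecticGroup (Fin m) F} : A ∈ T m F ↔ ∀ a, ∃ d : F, A.1 *ᵥ (Pi.single a 1) = d • Pi.single a 1 := by
  rw [T, Subgroup.mem_iInf]
  constructor
  · intro h a
    have h1 := (h a (Pi.single a 1)).1 (Submodule.mem_span_singleton_self _)
    obtain ⟨d, hd⟩ := Submodule.mem_span_singleton.1 h1
    exact ⟨d, hd.symm⟩
  · intro h a v
    obtain ⟨d, hd⟩ := h a
    have hd0 : d ≠ 0 := by
      rintro rfl
      rw [zero_smul, ← mulVec_zero A.1] at hd
      have := congrFun (sp_inj A hd) a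
      simp at this
    change v ∈ Submodule.span F _ ↔ A.1 *ᵥ v ∈ Submodule.span F _
    rw [Submodule.mem_span_singleton, Submodule.mem_span_singleton]
    constructor
    · rintro ⟨k, rfl⟩
      exact ⟨k * d, by rw [mulVec_smul, hd, smul_smul]⟩
    · rintro ⟨k, hk⟩
      refine ⟨k / d, ?_⟩
      apply sp_inj A
      rw [mulVec_smul, hd, smul_smul, div_mul_cancel₀ _ hd0, hk]

/-- the normaliser consists of monomial matrices -/
theorem mem_N (h4 : ∃ t : F, t ≠ 0 ∧ t ^ 2 ≠ 1) {A : Matrix.symplecticGroup (Fin m) F} :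
    A ∈ Subgroup.normalizer (T m F : Set (Matrix.symplecticGroup (Fin m) F)) ↔ ∃ (π : Equiv.Perm (Fin m ⊕ Fin m)) (t : Fin m → Fˣ), π ∈ C m ∧ A.1 = Mo π (cf π t) := by
  classical
  constructor
  · intro hA
    have hA' : ∀ B : Matrix.symplecticGroup (Fin m) F, B ∈ T m F → A⁻¹ * B * A ∈ T m F := by
      intro B hB
      have h1 := (Subgroup.mem_normalizer_iff.1 hA (A⁻¹ * B * A)).2
      apply h1
      have : A * (A⁻¹ * B * A) * A⁻¹ = B := by group
      rw [this]; exact hB
    have hAi : A.1 * (A⁻¹ : Matrix.symplecticGroup (Fin m) F).1 = 1 := congrArg Subtype.val (mul_inv_cancel A)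
    -- distinct characters
    obtain ⟨t, ht0, ht1⟩ := h4
    have hchar : ∀ x y : Fin m ⊕ Fin m, x ≠ y → ∃ B ∈ T m F, ∃ χ : Fin m ⊕ Fin m → F, (∀ a, B.1 *ᵥ (Pi.single a 1) = χ a • Pi.single a 1) ∧ χ x ≠ χ y := by
      have hone : (1 : Equiv.Perm (Fin m ⊕ Fin m)) ∈ C m := Subgroup.one_mem _
      have hB : ∀ s : Fin m → Fˣ, ∃ B ∈ T m F, ∀ a, B.1 *ᵥ (Pi.single a 1) = (Sum.elim (fun i => (s i : F)) (fun i => ((s i)⁻¹ : Fˣ)) a : F) • (Pi.single a 1 : Fin m ⊕ Fin m → F) := by
        intro s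
        have hB : ∀ a, (Mo (1 : Equiv.Perm (Fin m ⊕ Fin m)) (cf (F := F) 1 s)) *ᵥ (Pi.single a 1) = (Sum.elim (fun i => (s i : F)) (fun i => ((s i)⁻¹ : Fˣ)) a : F) • (Pi.single a 1 : Fin m ⊕ Fin m → F) := by
          intro a
          rw [Mo_single]
          congr 1
          rcases a with a | a
          · rfl
          · change - sg F (Sum.inl a) * _ = _
            simp [sg]
        exact ⟨⟨_, Mo_mem hone s⟩, mem_T.2 (fun a => ⟨_, hB a⟩), hB⟩
      have ht2 : t ≠ 1 := by rintro rfl; exact ht1 (one_pow 2)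
      have ht3 : t ≠ t⁻¹ := by
        intro h
        apply ht1
        rw [pow_two]; nth_rewrite 2 [h]; exact mul_inv_cancel₀ ht0
      have ht4 : t⁻¹ ≠ 1 := by
        intro h; exact ht2 (inv_eq_one.1 h)
      intro x y hxy
      have hi : ∀ i : Fin m, ∃ B ∈ T m F, ∀ a, B.1 *ᵥ (Pi.single a 1) = (Sum.elim (fun j => if j = i then t else 1) (fun j => if j = i then t⁻¹ else 1) a : F) • (Pi.single a 1 : Fin m ⊕ Fin m → F) := by
        intro i
        obtain ⟨B, hB1, hB2⟩ := hB (fun j => if j = i then Units.mk0 t ht0 else 1)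
        refine ⟨B, hB1, fun a => ?_⟩
        rw [hB2]
        congr 1
        rcases a with a | a
        · simp only [Sum.elim_inl]; split_ifs <;> simp
        · simp only [Sum.elim_inr]; split_ifs <;> simp
      rcases x with i | i
      · obtain ⟨B, hB1, hB2⟩ := hi i
        refine ⟨B, hB1, _, hB2, ?_⟩
        rcases y with j | j
        · have hji : j ≠ i := fun h => hxy (by rw [h])
          simp [hji, ht2]
        · simp only [Sum.elim_inl, Sum.elim_inr]
          split_ifs <;> assumption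
      · obtain ⟨B, hB1, hB2⟩ := hi i
        refine ⟨B, hB1, _, hB2, ?_⟩
        rcases y with j | j
        · simp only [Sum.elim_inl, Sum.elim_inr, if_true]
          split_ifs
          · exact Ne.symm ht3
          · exact ht4
        · have hji : j ≠ i := fun h => hxy (by rw [h])
          simp [hji, ht4]
    have hcol : ∀ a, ∃ x, ∃ d : F, d ≠ 0 ∧ A.1 *ᵥ (Pi.single a 1) = d • Pi.single x 1 := by
      intro a
      set w := A.1 *ᵥ (Pi.single a (1 : F)) with hw
      have hw0 : w ≠ 0 := by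
        intro h0
        rw [hw, ← mulVec_zero A.1] at h0
        have := congrFun (sp_inj A h0) a
        simp at this
      obtain ⟨x, hx⟩ : ∃ x, w x ≠ 0 := by
        by_contra hcon
        push Not at hcon
        exact hw0 (funext hcon)
      refine ⟨x, w x, hx, ?_⟩
      ext y
      rw [Pi.smul_apply, Pi.single_apply, smul_eq_mul, mul_ite, mul_one, mul_zero]
      by_cases hyx : y = x
      · rw [if_pos hyx, hyx]
      · rw [if_neg hyx]
        by_contra hy
        obtain ⟨B, hBT, χ, hχ, hne⟩ := hchar x y (Ne.symm hyx)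
        obtain ⟨d, hd⟩ := mem_T.1 (hA' B hBT) a
        have h5 : B.1 *ᵥ w = d • w := by
          have h6 : A.1 *ᵥ ((A⁻¹ * B * A : Matrix.symplecticGroup (Fin m) F).1 *ᵥ (Pi.single a 1)) = d • w := by
            rw [hd, mulVec_smul]
          have h7 : (A⁻¹ * B * A : Matrix.symplecticGroup (Fin m) F).1 = (A⁻¹ : Matrix.symplecticGroup (Fin m) F).1 * B.1 * A.1 := rfl
          rw [h7, mulVec_mulVec, ← Matrix.mul_assoc, ← Matrix.mul_assoc, hAi, Matrix.one_mul, ← mulVec_mulVec] at h6
          exact h6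
        have h8 : ∀ z, χ z * w z = d * w z := by
          intro z
          have h9 := congrFun h5 z
          rw [mv_expand] at h9
          simp only [hχ, Finset.sum_apply, Pi.smul_apply, smul_eq_mul] at h9
          rw [Finset.sum_eq_single z] at h9
          · rw [Pi.single_eq_same, mul_one] at h9
            rw [← h9]; ring
          · intro b _ hb
            rw [Pi.single_eq_of_ne (Ne.symm hb)]; ring
          · intro h; exact absurd (Finset.mem_univ z) h
        apply hne
        rw [mul_right_cancel₀ hx (h8 x), mul_right_cancel₀ hy (h8 y)]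
    choose p c hc0 hp using hcol
    have hpi : Function.Injective p := by
      intro a b hab
      by_contra hne
      have h1 : A.1 *ᵥ ((c b) • Pi.single a 1) = A.1 *ᵥ ((c a) • Pi.single b 1) := by
        rw [mulVec_smul, mulVec_smul, hp, hp, hab, smul_smul, smul_smul, mul_comm]
      have h2 := congrFun (sp_inj A h1) a
      rw [Pi.smul_apply, Pi.smul_apply, Pi.single_eq_same, Pi.single_eq_of_ne hne] at h2
      simp at h2
      exact hc0 b h2
    let π : Equiv.Perm (Fin m ⊕ Fin m) := Equiv.ofBijective p (Finite.injective_iff_bijective.1 hpi)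
    have hπ : ∀ a, π a = p a := fun a => rfl
    have hform : ∀ a b, c a * (c b * (if p a = (p b).swap then sg F (p a) else 0)) = if a = b.swap then sg F a else 0 := by
      intro a b
      rw [← sf_ss, ← sf_ss, ← (mem_iff A.1).1 A.2 (Pi.single a 1), hp, hp, (hSq m).sl, (hSq m).sr]
    have hsg0 : ∀ a : Fin m ⊕ Fin m, sg F a ≠ 0 := by
      intro a h
      have := sg_sq (F := F) a
      rw [h, mul_zero] at this
      exact zero_ne_one this
    have hπC : π ∈ C m := by
      rw [mem_C]
      intro a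
      have h1 := hform a.swap a
      rw [if_pos rfl] at h1
      by_contra hne
      have hne' : ¬ (p a.swap = (p a).swap) := hne
      rw [if_neg hne', mul_zero, mul_zero] at h1
      exact hsg0 _ h1.symm
    have hrel : ∀ a, c a * c a.swap * sg F (p a) = sg F a := by
      intro a
      have h1 := hform a a.swap
      rw [Sum.swap_swap, if_pos rfl] at h1
      have h2 : p a = (p a.swap).swap := by
        have := mem_C.1 hπC a
        rw [hπ, hπ] at this
        rw [this, Sum.swap_swap]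
      rw [if_pos h2] at h1
      rw [← h1]; ring
    refine ⟨π, fun i => Units.mk0 (c (Sum.inl i)) (hc0 _), hπC, ?_⟩
    apply Matrix.ext_of_mulVec_single
    intro a
    rw [Mo_single, hp, hπ]
    congr 1
    rcases a with i | i
    · rfl
    · change c (Sum.inr i) = - sg F (p (Sum.inl i)) * ((Units.mk0 (c (Sum.inl i)) (hc0 _))⁻¹ : Fˣ)
      have h1 := hrel (Sum.inl i)
      rw [Sum.swap_inl] at h1
      have h2 := sg_sq (F := F) (p (Sum.inl i))
      have h3 : sg F (Sum.inl i : Fin m ⊕ Fin m) = -1 := rfl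
      rw [Units.val_inv_eq_inv_val, Units.val_mk0, eq_mul_inv_iff_mul_eq₀ (hc0 _)]
      rw [h3] at h1
      linear_combination (sg F (p (Sum.inl i))) * h1 - (c (Sum.inl i) * c (Sum.inr i)) * h2
  · rintro ⟨π, t, hπ, hA⟩
    have hAa : ∀ a, A.1 *ᵥ (Pi.single a 1) = cf π t a • Pi.single (π a) 1 := by
      intro a; rw [hA, Mo_single]
    have hAi : (A⁻¹ : Matrix.symplecticGroup (Fin m) F).1 * A.1 = 1 := congrArg Subtype.val (inv_mul_cancel A)
    have hAi' : ∀ a, (A⁻¹ : Matrix.symplecticGroup (Fin m) F).1 *ᵥ (Pi.single (π a) 1) = (cf π t a)⁻¹ • Pi.single a 1 := by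
      intro a
      have h1 : (A⁻¹ : Matrix.symplecticGroup (Fin m) F).1 *ᵥ (A.1 *ᵥ (Pi.single a 1)) = Pi.single a 1 := by
        rw [mulVec_mulVec, hAi, one_mulVec]
      rw [hAa, mulVec_smul] at h1
      rw [← h1, smul_smul, inv_mul_cancel₀ (cf_ne t a), one_smul]
    rw [Subgroup.mem_normalizer_iff]
    intro B
    constructor
    · intro hB
      change A * B * A⁻¹ ∈ T m F
      rw [mem_T]
      intro a
      obtain ⟨d, hd⟩ := mem_T.1 hB (π.symm a)
      refine ⟨d, ?_⟩
      have h7 : (A * B * A⁻¹ : Matrix.symplecticGroup (Fin m) F).1 = A.1 * B.1 * (A⁻¹ : Matrix.symplecticGroup (Fin m) F).1 := rfl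
      have h8 := hAi' (π.symm a)
      rw [Equiv.apply_symm_apply] at h8
      rw [h7, ← mulVec_mulVec, h8, mulVec_smul, ← mulVec_mulVec, hd, mulVec_smul, hAa, Equiv.apply_symm_apply, smul_smul, smul_smul]
      congr 1
      field_simp [cf_ne t (π.symm a)]
    · intro hB
      change B ∈ T m F
      rw [mem_T]
      intro a
      obtain ⟨d, hd⟩ := mem_T.1 (show A * B * A⁻¹ ∈ T m F from hB) (π a)
      refine ⟨d, ?_⟩
      have h7 : (A * B * A⁻¹ : Matrix.symplecticGroup (Fin m) F).1 = A.1 * B.1 * (A⁻¹ : Matrix.symplecticGroup (Fin m) F).1 := rfl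
      rw [h7, ← mulVec_mulVec, hAi', mulVec_smul, ← mulVec_mulVec] at hd
      apply sp_inj A
      rw [mulVec_smul, hAa]
      have h9 : cf π t a • ((cf π t a)⁻¹ • A.1 *ᵥ B.1 *ᵥ Pi.single a 1) = cf π t a • (d • Pi.single (π a) 1) := by rw [hd]
      rw [smul_smul, mul_inv_cancel₀ (cf_ne t a), one_smul] at h9
      rw [h9, smul_smul, smul_smul, mul_comm]

end

/-- Weyl group of type C_m: for q ≥ 4 the diagonal matrices of Sp_2m(q) form a torus T ≅ (C_(q−1))^m (the elements stabilising every coordinate axis), and the normaliser of T in Sp_2m(q) has order 2^m · m! · (q − 1)^m. -/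
theorem result {F : Type*} [Field F] [Fintype F] {q : ℕ} (hF : Fintype.card F = q) (hq : 4 ≤ q) (m : ℕ) : Nat.card ↥(Subgroup.normalizer (⨅ i : Fin m ⊕ Fin m, Cfsg.stabilizing (Cfsg.spToMat m F) ((Submodule.span F {(Pi.single i (1 : F) : Fin m ⊕ Fin m → F)} : Submodule F (Fin m ⊕ Fin m → F)) : Set (Fin m ⊕ Fin m → F)) : Set (Matrix.symplecticGroup (Fin m) F))) = 2 ^ m * Nat.factorial m * (q - 1) ^ m := by
  classical
  have h4 : ∃ t : F, t ≠ 0 ∧ t ^ 2 ≠ 1 := by
    by_contra hcon
    push Not at hcon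
    have h1 : (Finset.univ : Finset F) ⊆ {0, 1, -1} := by
      intro x _
      rw [Finset.mem_insert, Finset.mem_insert, Finset.mem_singleton]
      by_cases hx : x = 0
      · exact Or.inl hx
      · right
        have h2 : (x - 1) * (x + 1) = 0 := by linear_combination hcon x hx
        rcases mul_eq_zero.1 h2 with h1 | h1
        · left; exact sub_eq_zero.1 h1
        · right; exact eq_neg_of_add_eq_zero_left h1
    have h2 := Finset.card_le_card h1
    have h3 := Finset.card_le_three (a := (0 : F)) (b := 1) (c := -1)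
    rw [Finset.card_univ, hF] at h2
    omega
  let f : C m × (Fin m → Fˣ) → Matrix.symplecticGroup (Fin m) F := fun x => ⟨Mo x.1.1 (cf x.1.1 x.2), Mo_mem x.1.2 x.2⟩
  have hf : Function.Injective f := by
    rintro ⟨⟨π, hπ⟩, t⟩ ⟨⟨π', hπ'⟩, t'⟩ h
    have h1 : Mo π (cf (F := F) π t) = Mo π' (cf π' t') := congrArg Subtype.val h
    have h2 : ∀ a, cf (F := F) π t a • (Pi.single (π a) 1 : Fin m ⊕ Fin m → F) = cf π' t' a • Pi.single (π' a) 1 := by
      intro a
      rw [← Mo_single, ← Mo_single, h1]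
    have h3 : π = π' := by
      ext1 a
      by_contra hne
      have := congrFun (h2 a) (π a)
      rw [Pi.smul_apply, Pi.smul_apply, Pi.single_eq_same, Pi.single_eq_of_ne hne] at this
      simp at this
      exact cf_ne t a this
    subst h3
    have h4 : t = t' := by
      funext i
      apply Units.ext
      have := congrFun (h2 (Sum.inl i)) (π (Sum.inl i))
      rw [Pi.smul_apply, Pi.smul_apply, Pi.single_eq_same, smul_eq_mul, smul_eq_mul, mul_one, mul_one] at this
      exact this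
    rw [h4]
  have hr : Set.range f = (Subgroup.normalizer (T m F : Set (Matrix.symplecticGroup (Fin m) F)) : Set (Matrix.symplecticGroup (Fin m) F)) := by
    ext A
    rw [SetLike.mem_coe, mem_N h4]
    constructor
    · rintro ⟨⟨⟨π, hπ⟩, t⟩, rfl⟩
      exact ⟨π, t, hπ, rfl⟩
    · rintro ⟨π, t, hπ, hA⟩
      exact ⟨(⟨π, hπ⟩, t), Subtype.ext hA.symm⟩
  have h5 : Nat.card ↥(Subgroup.normalizer (T m F : Set (Matrix.symplecticGroup (Fin m) F))) = Nat.card (C m × (Fin m → Fˣ)) := by
    have h6 : Nat.card (Set.range f) = Nat.card (C m × (Fin m → Fˣ)) := Nat.card_range_of_injective hf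
    rw [hr] at h6
    exact h6
  have e : (⨅ i : Fin m ⊕ Fin m, ((Cfsg.stabilizing (Cfsg.spToMat m F) ((Submodule.span F {(Pi.single i (1 : F) : Fin m ⊕ Fin m → F)} : Submodule F (Fin m ⊕ Fin m → F)) : Set (Fin m ⊕ Fin m → F))) : Set (Matrix.symplecticGroup (Fin m) F))) =
      (T m F : Set (Matrix.symplecticGroup (Fin m) F)) := by
    rw [Subgroup.coe_iInf]; rfl
  rw [e]
  refine Eq.trans h5 ?_
  rw [Nat.card_prod, card_C, Nat.card_fun, Nat.card_eq_fintype_card (α := Fˣ), Nat.card_eq_fintype_card (α := Fin m), Fintype.card_units, Fintype.card_fin, hF]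

end Cfsg.Agent.S0777
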