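import Cfsg.Statements.S0778
import Mathlib

set_option autoImplicit false
open Cfsg

namespace Cfsg.Agent.S0778

section

variable {F : Type*} [Field F] {m : ℕ}

theorem mem_both (A : Matrix.symplecticGroup (Fin m) F) :
    A ∈ Cfsg.stabilizing (Cfsg.spToMat m F) {v : Fin m ⊕ Fin m → F | ∀ i : Fin m, v (Sum.inr i) = 0} ⊓ Cfsg.stabilizing (Cfsg.spToMat m F) {v : Fin m ⊕ Fin m → F | ∀ i : Fin m, v (Sum.inl i) = 0} ↔
      A.1.toBlocks₂₁ = 0 ∧ A.1.toBlocks₁₂ = 0 := by
  constructor
  · rintro ⟨h1, h2⟩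
    constructor
    · ext i j
      have h3 := (h1 (Pi.single (Sum.inl j) 1)).1 (fun i => Pi.single_eq_of_ne (by simp) _) i
      change (Matrix.mulVec A.1 (Pi.single (Sum.inl j) 1)) (Sum.inr i) = 0 at h3
      rw [Matrix.mulVec_single_one] at h3
      exact h3
    · ext i j
      have h3 := (h2 (Pi.single (Sum.inr j) 1)).1 (fun i => Pi.single_eq_of_ne (by simp) _) i
      change (Matrix.mulVec A.1 (Pi.single (Sum.inr j) 1)) (Sum.inl i) = 0 at h3
      rw [Matrix.mulVec_single_one] at h3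
      exact h3
  · rintro ⟨h1, h2⟩
    -- the inverse has the same shape
    have hA : A.1 = Matrix.fromBlocks A.1.toBlocks₁₁ 0 0 A.1.toBlocks₂₂ := by
      conv_lhs => rw [← Matrix.fromBlocks_toBlocks A.1, h1, h2]
    have hinv : Matrix.mulVec (A⁻¹).1 = fun v => Matrix.mulVec (A⁻¹).1 v := rfl
    have hmul : ∀ v, Matrix.mulVec (A⁻¹).1 (Matrix.mulVec A.1 v) = v := by
      intro v
      rw [Matrix.mulVec_mulVec]
      have : (A⁻¹).1 * A.1 = 1 := congrArg Subtype.val (inv_mul_cancel A)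
      rw [this, Matrix.one_mulVec]
    -- membership one way
    have k1 : ∀ v : Fin m ⊕ Fin m → F, (∀ i : Fin m, v (Sum.inr i) = 0) → ∀ i : Fin m, (Matrix.mulVec A.1 v) (Sum.inr i) = 0 := by
      intro v hv i
      rw [Matrix.mulVec, dotProduct, Fintype.sum_sum_type, Finset.sum_eq_zero, Finset.sum_eq_zero, add_zero]
      · intro j _; rw [hv j, mul_zero]
      · intro j _
        have : A.1 (Sum.inr i) (Sum.inl j) = 0 := congrFun (congrFun h1 i) j
        rw [this, zero_mul]
    have k2 : ∀ v : Fin m ⊕ Fin m → F, (∀ i : Fin m, v (Sum.inl i) = 0) → ∀ i : Fin m, (Matrix.mulVec A.1 v) (Sum.inl i) = 0 := by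
      intro v hv i
      rw [Matrix.mulVec, dotProduct, Fintype.sum_sum_type, Finset.sum_eq_zero, Finset.sum_eq_zero, add_zero]
      · intro j _
        have : A.1 (Sum.inl i) (Sum.inr j) = 0 := congrFun (congrFun h2 i) j
        rw [this, zero_mul]
      · intro j _; rw [hv j, mul_zero]
    -- decomposition of vectors
    have hdec : ∀ v : Fin m ⊕ Fin m → F, v = Sum.elim (fun i => v (Sum.inl i)) (fun _ => 0) + Sum.elim (fun _ => 0) (fun i => v (Sum.inr i)) := by
      intro v
      funext i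
      rcases i with i | i <;> simp
    constructor
    · intro v
      refine ⟨fun hv => k1 v hv, fun hv i => ?_⟩
      have hv' : ∀ i : Fin m, (Matrix.mulVec A.1 v) (Sum.inr i) = 0 := hv
      -- the `U`-component of `v` is mapped to zero
      have h3 : Matrix.mulVec A.1 (Sum.elim (fun _ => 0) (fun i => v (Sum.inr i))) = 0 := by
        funext j
        rcases j with j | j
        · exact k2 _ (fun _ => rfl) j
        · have h4 := hv' j
          rw [hdec v, Matrix.mulVec_add, Pi.add_apply, k1 _ (fun _ => rfl) j, zero_add] at h4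
          exact h4
      have h4 := hmul (Sum.elim (fun _ => 0) (fun i => v (Sum.inr i)))
      rw [h3, Matrix.mulVec_zero] at h4
      exact (congrFun h4 (Sum.inr i)).symm
    · intro v
      refine ⟨fun hv => k2 v hv, fun hv i => ?_⟩
      have hv' : ∀ i : Fin m, (Matrix.mulVec A.1 v) (Sum.inl i) = 0 := hv
      have h3 : Matrix.mulVec A.1 (Sum.elim (fun i => v (Sum.inl i)) (fun _ => 0)) = 0 := by
        funext j
        rcases j with j | j
        · have h4 := hv' j
          rw [hdec v, Matrix.mulVec_add, Pi.add_apply, k2 (Sum.elim (fun _ => 0) (fun i => v (Sum.inr i))) (fun _ => rfl) j, add_zero] at h4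
          exact h4
        · exact k1 _ (fun _ => rfl) j
      have h4 := hmul (Sum.elim (fun i => v (Sum.inl i)) (fun _ => 0))
      rw [h3, Matrix.mulVec_zero] at h4
      exact (congrFun h4 (Sum.inl i)).symm

theorem sp_blocks (a d : Matrix (Fin m) (Fin m) F) : Matrix.fromBlocks a 0 0 d ∈ Matrix.symplecticGroup (Fin m) F ↔ a * d.transpose = 1 ∧ d * a.transpose = 1 := by
  rw [SymplecticGroup.mem_iff, Matrix.J, Matrix.fromBlocks_transpose, Matrix.fromBlocks_multiply, Matrix.fromBlocks_multiply]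
  simp [Matrix.fromBlocks_inj]

theorem blk (A : Matrix.symplecticGroup (Fin m) F) (h : A.1.toBlocks₂₁ = 0 ∧ A.1.toBlocks₁₂ = 0) :
    A.1 = Matrix.fromBlocks A.1.toBlocks₁₁ 0 0 A.1.toBlocks₂₂ ∧ A.1.toBlocks₁₁ * A.1.toBlocks₂₂.transpose = 1 ∧ A.1.toBlocks₂₂ * A.1.toBlocks₁₁.transpose = 1 := by
  have hA : A.1 = Matrix.fromBlocks A.1.toBlocks₁₁ 0 0 A.1.toBlocks₂₂ := by
    conv_lhs => rw [← Matrix.fromBlocks_toBlocks A.1, h.1, h.2]
  have h2 := A.2
  rw [hA] at h2
  exact ⟨hA, (sp_blocks _ _).mp h2⟩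

end

/-- The elements of Sp_2m(F) stabilising both W = ⟨e_1..e_m⟩ and U = ⟨f_1..f_m⟩ form a subgroup isomorphic to GL_m(F) (block-diagonal matrices diag(X, X^(−ᵀ)) up to the sign convention of J), for m ≥ 1 or m = 0 alike. -/
theorem result {F : Type*} [Field F] (m : ℕ) : Nonempty (↥(Cfsg.stabilizing (Cfsg.spToMat m F) {v : Fin m ⊕ Fin m → F | ∀ i : Fin m, v (Sum.inr i) = 0} ⊓ Cfsg.stabilizing (Cfsg.spToMat m F) {v : Fin m ⊕ Fin m → F | ∀ i : Fin m, v (Sum.inl i) = 0}) ≃* Matrix.GeneralLinearGroup (Fin m) F) := by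
  classical
  let f : ↥(Cfsg.stabilizing (Cfsg.spToMat m F) {v : Fin m ⊕ Fin m → F | ∀ i : Fin m, v (Sum.inr i) = 0} ⊓ Cfsg.stabilizing (Cfsg.spToMat m F) {v : Fin m ⊕ Fin m → F | ∀ i : Fin m, v (Sum.inl i) = 0}) ≃* Matrix.GeneralLinearGroup (Fin m) F :=
    { toFun := fun A => ⟨A.1.1.toBlocks₁₁, A.1.1.toBlocks₂₂.transpose, (blk A.1 ((mem_both A.1).mp A.2)).2.1, by
        have h1 := (blk A.1 ((mem_both A.1).mp A.2)).2.1
        exact mul_eq_one_comm.mp h1⟩
      invFun := fun g => ⟨⟨Matrix.fromBlocks g.1 0 0 (g⁻¹).1.transpose, (sp_blocks _ _).mpr ⟨by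
          rw [Matrix.transpose_transpose, ← Units.val_mul, mul_inv_cancel, Units.val_one], by
          rw [← Matrix.transpose_mul, ← Units.val_mul, mul_inv_cancel, Units.val_one, Matrix.transpose_one]⟩⟩,
        (mem_both _).mpr ⟨Matrix.toBlocks_fromBlocks₂₁ _ _ _ _, Matrix.toBlocks_fromBlocks₁₂ _ _ _ _⟩⟩
      left_inv := fun A => by
        apply Subtype.ext
        apply Subtype.ext
        change Matrix.fromBlocks A.1.1.toBlocks₁₁ 0 0 (A.1.1.toBlocks₂₂.transpose).transpose = A.1.1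
        rw [Matrix.transpose_transpose]
        exact (blk A.1 ((mem_both A.1).mp A.2)).1.symm
      right_inv := fun g => by
        apply Units.ext
        exact Matrix.toBlocks_fromBlocks₁₁ _ _ _ _
      map_mul' := fun A B => by
        apply Units.ext
        change (A.1.1 * B.1.1).toBlocks₁₁ = A.1.1.toBlocks₁₁ * B.1.1.toBlocks₁₁
        have hA := (blk A.1 ((mem_both A.1).mp A.2)).1
        have hB := (blk B.1 ((mem_both B.1).mp B.2)).1
        conv_lhs => rw [hA, hB, Matrix.fromBlocks_multiply, Matrix.toBlocks_fromBlocks₁₁]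
        simp }
  exact ⟨f⟩

end Cfsg.Agent.S0778
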