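import Cfsg.Statements.S0779
import Cfsg.Agent.H9.UnStd

set_option autoImplicit false
open Cfsg

namespace Cfsg.Agent.S0779

/-- Unitary transvections: let |F| = q², h the standard Hermitian form Σ x_i y_i^q and v ≠ 0 with h(v, v) = 0. The linear map x ↦ x + c h(x, v) v is an isometry of h if and only if c = 0 or c^(q−1) = −1. -/
theorem result {F : Type*} [Field F] [Fintype F] {q : ℕ} (hF : Fintype.card F = q ^ 2) (n : ℕ) (v : Fin n → F) (hv : v ≠ 0) (hv0 : Cfsg.hermForm n F q v v = 0) (c : F) : (∀ x y : Fin n → F, Cfsg.hermForm n F q ((Cfsg.unitaryTransvection n q v c).mulVec x) ((Cfsg.unitaryTransvection n q v c).mulVec y) = Cfsg.hermForm n F q x y) ↔ (c = 0 ∨ c ^ (q - 1) = -1) := by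
  obtain ⟨σ, hσ, hσ1, hσ2⟩ := CfsgH9.HermF.exists_sigma hF
  have hf := CfsgH9.Un.hm_std (n := n) hF hσ hσ1 hσ2
  have hq := CfsgH9.HermF.one_lt_q hF
  have key : ∀ x y : Fin n → F, Cfsg.hermForm n F q ((Cfsg.unitaryTransvection n q v c).mulVec x) ((Cfsg.unitaryTransvection n q v c).mulVec y) =
      Cfsg.hermForm n F q x y + (c + σ c) * (Cfsg.hermForm n F q x v * Cfsg.hermForm n F q v y) := by
    intro x y
    rw [CfsgH9.Un.ut_mulVec, CfsgH9.Un.ut_mulVec]
    simp only [hf.add_left, hf.add_right, hf.smul_left, hf.smul_right, map_mul, hv0]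
    rw [hf.symm y v]
    ring
  have h1 : (∀ x y : Fin n → F, Cfsg.hermForm n F q ((Cfsg.unitaryTransvection n q v c).mulVec x) ((Cfsg.unitaryTransvection n q v c).mulVec y) =
      Cfsg.hermForm n F q x y) ↔ c + σ c = 0 := by
    constructor
    · intro h
      obtain ⟨w, hw⟩ := hf.nondeg v hv
      have h2 := h w w
      rw [key] at h2
      have h3 : (c + σ c) * (Cfsg.hermForm n F q w v * Cfsg.hermForm n F q v w) = 0 := by linear_combination h2
      rcases mul_eq_zero.1 h3 with h4 | h4
      · exact h4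
      · exfalso
        rcases mul_eq_zero.1 h4 with h5 | h5
        · exact hf.swap_ne hw h5
        · exact hw h5
    · intro h x y
      rw [key, h, zero_mul, add_zero]
  rw [h1, hσ]
  have h2 : c + c ^ q = c * (1 + c ^ (q - 1)) := by
    rw [mul_add, mul_one, ← pow_succ', Nat.sub_add_cancel (by omega)]
  rw [h2, mul_eq_zero]
  constructor
  · rintro (h | h)
    · exact Or.inl h
    · right; linear_combination h
  · rintro (h | h)
    · exact Or.inl h
    · right; rw [h]; ring

end Cfsg.Agent.S0779
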