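import Cfsg.Statements.S0780
import Cfsg.Agent.H9.UnStd

set_option autoImplicit false
open Cfsg

namespace Cfsg.Agent.S0780

/-- Generation of SU_n(q), n ≥ 3, (n, q) ≠ (3, 2), by unitary transvections: the subgroup generated by the elements whose matrix is x ↦ x + c h(x, v) v with v isotropic is all of SU_n(q). -/
theorem result {F : Type*} [Field F] [Fintype F] {q : ℕ} (hF : Fintype.card F = q ^ 2) (n : ℕ) (hn : 3 ≤ n) (h32 : ¬ (n = 3 ∧ q = 2)) : Subgroup.closure {A : ↥(Cfsg.SU n F q) | ∃ (v : Fin n → F) (c : F), Cfsg.hermForm n F q v v = 0 ∧ ((A : Matrix.SpecialLinearGroup (Fin n) F) : Matrix (Fin n) (Fin n) F) = Cfsg.unitaryTransvection n q v c} = ⊤ := by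
  obtain ⟨σ, hσ, hσ1, hσ2⟩ := CfsgH9.HermF.exists_sigma hF
  have hf := CfsgH9.Un.hm_std (n := n) hF hσ hσ1 hσ2
  rw [eq_top_iff]
  intro A _
  have h1 := CfsgH9.Un.su_le hF hn h32 hσ hσ1 hσ2 A
  have h2 : CfsgH9.Un.Tg σ (Cfsg.hermForm n F q) ≤ (Subgroup.closure {A : ↥(Cfsg.SU n F q) | ∃ (v : Fin n → F) (c : F), Cfsg.hermForm n F q v v = 0 ∧ ((A : Matrix.SpecialLinearGroup (Fin n) F) : Matrix (Fin n) (Fin n) F) = Cfsg.unitaryTransvection n q v c}).map (CfsgH9.Un.suGL n F q) := by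
    rw [CfsgH9.Un.Tg, Subgroup.closure_le]
    rintro g ⟨u, a, hu, ha, hg⟩
    obtain ⟨B, hB⟩ := CfsgH9.Un.exists_su (hg.iso hf (CfsgH9.Un.Cd_of hu ha)) (by rw [hg.det hf, hu, mul_zero, add_zero])
    refine ⟨B, Subgroup.subset_closure ⟨u, a, hu, ?_⟩, hB⟩
    apply Matrix.ext_of_mulVec_single
    intro i
    rw [CfsgH9.Un.ut_mulVec, ← hg, ← hB]
    rfl
  obtain ⟨B, hB, hBA⟩ := h2 h1
  rwa [← CfsgH9.Un.suGL_inj hBA]

end Cfsg.Agent.S0780
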