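import Cfsg.Statements.S0781
import Cfsg.Agent.H9.UnK
import Cfsg.Agent.H9.UnComm

set_option autoImplicit false
open Cfsg

namespace Cfsg.Agent.S0781

/-- In SU_n(q) with n ≥ 4, or n = 3 and q > 2, every element whose matrix is a unitary transvection x ↦ x + c h(x, v) v (v isotropic) is a commutator ⁅B, C⁆ of two elements of SU_n(q). -/
theorem result {F : Type*} [Field F] [Fintype F] {q : ℕ} (hF : Fintype.card F = q ^ 2) (n : ℕ) (hn : 4 ≤ n ∨ (n = 3 ∧ 3 ≤ q)) (A : ↥(Cfsg.SU n F q)) (v : Fin n → F) (c : F) (hv0 : Cfsg.hermForm n F q v v = 0) (hA : ((A : Matrix.SpecialLinearGroup (Fin n) F) : Matrix (Fin n) (Fin n) F) = Cfsg.unitaryTransvection n q v c) : A ∈ commutatorSet ↥(Cfsg.SU n F q) := by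
  obtain ⟨σ, hσ, hσ1, hσ2⟩ := CfsgH9.HermF.exists_sigma hF
  have hf := CfsgH9.Un.hm_std (n := n) hF hσ hσ1 hσ2
  have hAT : CfsgH9.Un.IsR (Cfsg.hermForm n F q) (CfsgH9.Un.suGL n F q A) v c := by
    intro x
    rw [CfsgH9.Un.suGL_val, hA, CfsgH9.Un.ut_mulVec]
  by_cases hv : v = 0
  · have h1 : A = 1 := by
      apply CfsgH9.Un.suGL_inj
      rw [map_one]
      apply CfsgH9.Tv.ext_mulVec
      intro x
      rw [hAT, hv, Units.val_one, Matrix.one_mulVec]; simp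
    rw [h1]
    exact ⟨1, 1, by simp⟩
  -- the trace condition
  have hc : c + σ c = 0 := by
    obtain ⟨w, hw⟩ := hf.nondeg v hv
    have h2 := CfsgH9.Un.suGL_iso A w w
    rw [hAT] at h2
    simp only [hf.add_left, hf.add_right, hf.smul_left, hf.smul_right, map_mul, hv0] at h2
    have h4 := hf.symm w v
    rw [← h4] at h2
    have h3 : (c + σ c) * (Cfsg.hermForm n F q w v * Cfsg.hermForm n F q v w) = 0 := by linear_combination h2
    rcases mul_eq_zero.1 h3 with h5 | h5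
    · exact h5
    · exfalso
      rcases mul_eq_zero.1 h5 with h6 | h6
      · exact hf.swap_ne hw h6
      · exact hw h6
  have key : ∃ g h : GL (Fin n) F, CfsgH9.Un.Iso (Cfsg.hermForm n F q) g ∧ CfsgH9.Un.Iso (Cfsg.hermForm n F q) h ∧
      (g : Matrix (Fin n) (Fin n) F).det = 1 ∧ (h : Matrix (Fin n) (Fin n) F).det = 1 ∧
      CfsgH9.Un.IsR (Cfsg.hermForm n F q) (g * h * g⁻¹ * h⁻¹) v c := by
    rcases hn with hn | ⟨hn, hq⟩
    · obtain ⟨g, h, hg, hh, hr⟩ := CfsgH9.Un.comm_two hf (by rw [Fintype.card_fin]; exact hn) hv hv0 hc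
      exact ⟨g, h, CfsgH9.Un.Tg_iso hf hg, CfsgH9.Un.Tg_iso hf hh, CfsgH9.Un.Tg_det hf hg, CfsgH9.Un.Tg_det hf hh, hr⟩
    · obtain ⟨b, hb0, hb⟩ := CfsgH9.Un.exists_norm hF hq hσ
      exact CfsgH9.Un.comm_one hf (by rw [Fintype.card_fin]; omega) hb0 hb hv hv0 hc
  obtain ⟨g, h, hg, hh, hgd, hhd, hr⟩ := key
  obtain ⟨g', rfl⟩ := CfsgH9.Un.exists_su hg hgd
  obtain ⟨h', rfl⟩ := CfsgH9.Un.exists_su hh hhd
  refine ⟨g', h', ?_⟩
  apply CfsgH9.Un.suGL_inj
  rw [commutatorElement_def, map_mul, map_mul, map_mul, map_inv, map_inv]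
  exact hr.unique hAT

end Cfsg.Agent.S0781
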