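import Cfsg.Statements.S0782
import Cfsg.Agent.H9.Frames2
import Cfsg.Agent.H9.UnOrd

set_option autoImplicit false
open Cfsg

namespace Cfsg.Agent.S0782

open CfsgH9.HermF CfsgH9.Frames in
theorem arith {q : ℕ} (k : ℕ) : ∀ n, 2 * k ≤ n → guOrd q n = q ^ (k * (2 * n - 3 * k)) * guOrd q (n - 2 * k) * cfU q k n := by
  induction k with
  | zero => intro n _; simp [cfU]
  | succ k ih =>
    intro n hn
    obtain ⟨n, rfl⟩ : ∃ m, n = m + 2 := ⟨n - 2, by omega⟩
    obtain ⟨d, rfl⟩ : ∃ d, n = 2 * k + d := ⟨n - 2 * k, by omega⟩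
    have h1 := ih (2 * k + d) (by omega)
    have e1 : 2 * k + d + 2 - 2 * (k + 1) = d := by omega
    have e2 : 2 * k + d - 2 * k = d := by omega
    have e3 : 2 * (2 * k + d) - 3 * k = k + 2 * d := by omega
    have e4 : 2 * (2 * k + d + 2) - 3 * (k + 1) = k + 2 * d + 1 := by omega
    rw [e2, e3] at h1
    rw [guOrd_succ_succ, e1, e4, h1]
    show q ^ (k * (k + 2 * d)) * guOrd q d * cfU q k (2 * k + d) * (q ^ (2 * (2 * k + d) + 1) * _) =
      q ^ ((k + 1) * (k + 2 * d + 1)) * guOrd q d * (zu q (2 * k + d + 2) * ((q ^ 2) ^ k * cfU q k (2 * k + d)))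
    have h2 : zu q (2 * k + d + 2) = ((if Even (2 * k + d) then q ^ (2 * k + d + 1) + 1 else q ^ (2 * k + d + 1) - 1) *
      (if Even (2 * k + d) then q ^ (2 * k + d + 2) - 1 else q ^ (2 * k + d + 2) + 1)) := by
      rw [zu]
      have h3 : 2 * k + d + 2 - 1 = 2 * k + d + 1 := by omega
      rw [h3]
      by_cases he : Even (2 * k + d)
      · have he' : Even (2 * k + d + 2) := by rw [Nat.even_add]; simp [he]
        rw [if_pos he, if_pos he, if_pos he', if_pos he', mul_comm]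
      · have he' : ¬ Even (2 * k + d + 2) := by rw [Nat.even_add]; simp [he]
        rw [if_neg he, if_neg he, if_neg he', if_neg he', mul_comm]
    rw [h2]
    have h4 : (k + 1) * (k + 2 * d + 1) + 2 * k = k * (k + 2 * d) + (2 * (2 * k + d) + 1) := by ring
    have h5 : q ^ (k * (k + 2 * d)) * q ^ (2 * (2 * k + d) + 1) = q ^ ((k + 1) * (k + 2 * d + 1)) * (q ^ 2) ^ k := by
      rw [← pow_mul, ← pow_add, ← pow_add, h4]
    generalize ((if Even (2 * k + d) then q ^ (2 * k + d + 1) + 1 else q ^ (2 * k + d + 1) - 1) *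
      (if Even (2 * k + d) then q ^ (2 * k + d + 2) - 1 else q ^ (2 * k + d + 2) + 1)) = Z
    calc q ^ (k * (k + 2 * d)) * guOrd q d * cfU q k (2 * k + d) * (q ^ (2 * (2 * k + d) + 1) * Z)
        = (q ^ (k * (k + 2 * d)) * q ^ (2 * (2 * k + d) + 1)) * (guOrd q d * cfU q k (2 * k + d) * Z) := by ring
      _ = _ := by rw [h5]; ring

open CfsgH9.Un CfsgH9.HermF Matrix Cfsg in
theorem det_surj {F : Type*} [Field F] [Fintype F] {q : ℕ} (hF : Fintype.card F = q ^ 2) (n : ℕ) (hn : 1 ≤ n)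
    (W : Submodule F (Fin n → F)) (hW : ∀ u ∈ W, ∀ v ∈ W, Cfsg.hermForm n F q u v = 0) (d : Fˣ) (hd : d ∈ mu F q) :
    ∃ g : Matrix.GeneralLinearGroup (Fin n) F, Iso (hermForm n F q) g ∧ (g : Matrix (Fin n) (Fin n) F).det = d ∧
      ∀ w ∈ W, (g : Matrix (Fin n) (Fin n) F) *ᵥ w ∈ W := by
  obtain ⟨σ, hσ, hσ1, hσ2⟩ := exists_sigma hF
  have hf := hm_std (n := n) hF hσ hσ1 hσ2
  have hx' : (d : F) * σ (d : F) = 1 := by
    rw [hσ, ← pow_succ', ← Units.val_pow_eq_pow_val, mem_mu.1 hd, Units.val_one]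
  by_cases hW0 : W = ⊥
  · subst hW0
    obtain ⟨r, hr, hrd, hrw⟩ := exists_refl hf (W := ⊥) (not_perp_le_bot hf hn) hx'
    exact ⟨r, hr, hrd, fun w hw => by rw [hrw w hw]; exact hw⟩
  · obtain ⟨w, hw, hw0⟩ := (Submodule.ne_bot_iff _).1 hW0
    obtain ⟨y, hy, hwy⟩ : ∃ y, hermForm n F q y y = 0 ∧ hermForm n F q w y ≠ 0 := by
      obtain ⟨z, hz⟩ := hf.nondeg w hw0
      have hww : hermForm n F q w w = 0 := hW w hw w hw
      obtain ⟨a, ha⟩ := exists_iso_add hf hww (hf.swap_ne hz)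
      refine ⟨_, ha, ?_⟩
      rw [hf.add_right, hf.smul_right, hww, mul_zero, add_zero]; exact hz
    obtain ⟨a, ha, hay⟩ : ∃ a ∈ W, hermForm n F q a y = 1 :=
      ⟨(hermForm n F q w y)⁻¹ • w, W.smul_mem _ hw, by rw [hf.smul_left, inv_mul_cancel₀ hwy]⟩
    obtain ⟨x, hx0, hx⟩ := hf.h90 hx'
    obtain ⟨g, hg, hgd, hgz⟩ := exists_D hf (hW a ha a ha) hy hay hx0
    have hσx : σ x ≠ 0 := by rw [Ne, map_eq_zero]; exact hx0
    refine ⟨g, hg, ?_, ?_⟩
    · rw [hgd, mul_inv_eq_iff_eq_mul₀ hσx]; exact hx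
    · intro v hv
      rw [hgz, hW _ hv a ha, mul_zero, zero_smul, add_zero]
      exact W.add_mem hv (W.smul_mem _ ha)

/-- Maximal parabolics of SU_n(q): if W is a k-dimensional subspace of F^n (n ≥ 1, |F| = q²) on which the Hermitian form vanishes, then (q + 1) times the order of its stabiliser in SU_n(q) equals q^(k(2n−3k)) · |GL_k(q²)| · |GU_(n−2k)(q)|, where |GU_m(q)| = q^(m(m−1)/2) Π_(i=1..m) (q^i − (−1)^i). -/
theorem result {F : Type*} [Field F] [Fintype F] {q : ℕ} (hF : Fintype.card F = q ^ 2) (n k : ℕ) (hn : 1 ≤ n) (hk : 2 * k ≤ n) (W : Submodule F (Fin n → F)) (hWk : Module.finrank F W = k) (hW : ∀ u ∈ W, ∀ v ∈ W, Cfsg.hermForm n F q u v = 0) : (q + 1) * Nat.card ↥((Cfsg.stabilizing (Cfsg.slToMat n F) (W : Set (Fin n → F))).subgroupOf (Cfsg.SU n F q)) = q ^ (k * (2 * n - 3 * k)) * (∏ i : Fin k, ((q ^ 2) ^ k - (q ^ 2) ^ (i : ℕ))) * (q ^ ((n - 2 * k) * ((n - 2 * k) - 1) / 2) * ∏ i ∈ Finset.range (n -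 2 * k), (if Even i then q ^ (i + 1) + 1 else q ^ (i + 1) - 1)) := by
  obtain ⟨σ, hσ, hσ1, hσ2⟩ := CfsgH9.HermF.exists_sigma hF
  have hq1 := CfsgH9.HermF.one_lt_q hF
  have hS := CfsgH9.HermF.hB_symm hσ n hσ2
  have hB := CfsgH9.HermF.hB_nondeg hσ n hσ2
  have h := CfsgH9.Witt.fm_herm σ hσ1 hσ2 (CfsgH9.HermF.hB hσ n) hS hB
  have hfin : Module.finrank F (Fin n → F) = n := by rw [Module.finrank_fintype_fun_eq_card, Fintype.card_fin]
  have h1 := CfsgH9.Frames.card_stab h W hWk (fun x hx => hW x hx x hx) (fun x hx y hy => hW y hy x hx)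
  have hz := CfsgH9.HermF.zrel_std hF hσ n
  rw [CfsgH9.Frames.card_Fr_herm hF hσ hσ1 hσ2 k n (CfsgH9.HermF.hB hσ n) hS hB hfin hz (by omega),
    CfsgH9.HermF.card_G_herm hF hσ hσ1 hσ2 n (CfsgH9.HermF.hB hσ n) hS hB hfin hz,
    Nat.card_eq_fintype_card (α := F), hF, arith k n hk] at h1
  have hpos : 0 < CfsgH9.Frames.cfU q k n := by
    rw [← CfsgH9.Frames.card_Fr_herm hF hσ hσ1 hσ2 k n (CfsgH9.HermF.hB hσ n) hS hB hfin hz (by omega)]
    let b := Module.finBasisOfFinrankEq F W hWk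
    haveI : Nonempty (CfsgH9.Frames.Fr (CfsgH9.HermF.hB hσ n) (fun x => CfsgH9.HermF.hB hσ n x x) k) :=
      ⟨⟨fun i => (b i : Fin n → F), b.linearIndependent.map' W.subtype (Submodule.ker_subtype W),
        fun i => hW _ (b i).2 _ (b i).2, fun i j => hW _ (b j).2 _ (b i).2⟩⟩
    exact Nat.card_pos
  have hfr : ∀ (g : Matrix.GeneralLinearGroup (Fin n) F), (∀ x ∈ W, (g : Matrix (Fin n) (Fin n) F).mulVec x ∈ W) →
      ∀ v, v ∈ (W : Set (Fin n → F)) ↔ (g : Matrix (Fin n) (Fin n) F).mulVec v ∈ (W : Set (Fin n → F)) := by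
    intro g hg v
    exact CfsgH9.Frames.mem_iff_of_stab (g := CfsgH9.ClForms.toEquiv g) hg v
  let P : Subgroup ↥(Cfsg.GU n F q) := (Cfsg.stabilizing (Units.coeHom (Matrix (Fin n) (Fin n) F)) (W : Set (Fin n → F))).subgroupOf (Cfsg.GU n F q)
  let δ : P →* Fˣ := (CfsgH9.Un.detU n F q).comp P.subtype
  have hrange : δ.range = CfsgH9.Un.mu F q := by
    apply le_antisymm
    · rintro _ ⟨g, rfl⟩
      rw [← CfsgH9.Un.range_detU hF hn]
      exact ⟨g.1, rfl⟩
    · intro d hd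
      obtain ⟨g, hg, hgd, hgW⟩ := det_surj hF n hn W hW d hd
      exact ⟨⟨⟨g, fun x y => hg x y⟩, fun v => hfr g hgW v⟩, Units.ext hgd⟩
  have hcP : (q + 1) * Nat.card δ.ker = Nat.card P := by
    rw [← CfsgH9.Un.card_mu hF, ← hrange, mul_comm]
    have h3 := Subgroup.card_mul_index δ.ker
    rw [Subgroup.index_ker] at h3
    exact h3
  have hker : Nat.card ↥((Cfsg.stabilizing (Cfsg.slToMat n F) (W : Set (Fin n → F))).subgroupOf (Cfsg.SU n F q)) = Nat.card δ.ker := by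
    symm
    refine Nat.card_congr
      { toFun := fun g => ⟨⟨⟨(((g : P) : Cfsg.GU n F q) : Matrix.GeneralLinearGroup (Fin n) F).1, ?_⟩, fun x y => (g : P).1.2 x y⟩, fun v => (g : P).2 v⟩
        invFun := fun A => ⟨⟨⟨CfsgH9.Un.suGL n F q A.1, fun x y => CfsgH9.Un.suGL_iso A.1 x y⟩, fun v => A.2 v⟩, ?_⟩
        left_inv := ?_
        right_inv := ?_ }
    · have := congrArg Units.val (MonoidHom.mem_ker.1 g.2)
      exact this
    · rw [MonoidHom.mem_ker]
      exact Units.ext (CfsgH9.Un.suGL_det A.1)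
    · intro g
      apply Subtype.ext
      apply Subtype.ext
      apply Subtype.ext
      exact Units.ext rfl
    · intro A
      apply Subtype.ext
      apply Subtype.ext
      apply Subtype.ext
      rfl
  have h2 : Nat.card P = Nat.card {g : CfsgH9.CountHyp.G (CfsgH9.HermF.hB hσ n) (fun x => CfsgH9.HermF.hB hσ n x x) // ∀ x ∈ W, g.1 x ∈ W} := by
    refine Nat.card_congr (Equiv.subtypeEquiv (CfsgH9.HermF.guEquiv hσ n) fun A => ?_)
    constructor
    · intro hA x hx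
      exact (hA x).1 hx
    · intro hA v
      exact hfr A.1 hA v
  rw [hker, hcP, h2]
  refine Nat.eq_of_mul_eq_mul_right hpos (h1.trans ?_)
  rw [CfsgH9.HermF.guOrd]
  ring

end Cfsg.Agent.S0782
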