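import Cfsg.Statements.S0783
import Cfsg.Agent.H9.UnOrd

set_option autoImplicit false
open Cfsg

namespace Cfsg.Agent.S0783

/-- PGU_n(q)/PSU_n(q) is cyclic of order (n, q+1): for n ≥ 2 and |F| = q² there is a surjective homomorphism from GU_n(q) onto the cyclic group of order gcd(n, q + 1) whose kernel is generated by the determinant-one elements together with the centre. -/
theorem result {F : Type*} [Field F] [Fintype F] {q : ℕ} (hF : Fintype.card F = q ^ 2) (n : ℕ) (hn : 2 ≤ n) : ∃ φ : ↥(Cfsg.GU n F q) →* Multiplicative (ZMod (Nat.gcd n (q + 1))), Function.Surjective φ ∧ φ.ker = (Matrix.GeneralLinearGroup.det : Matrix.GeneralLinearGroup (Fin n) F →* Fˣ).ker.subgroupOf (Cfsg.GU n F q) ⊔ Subgroup.center ↥(Cfsg.GU n F q) := by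
  have hq := CfsgH9.HermF.q_pos hF
  set d := Nat.gcd n (q + 1) with hd
  have hd0 : 0 < d := Nat.gcd_pos_of_pos_right _ (by omega)
  obtain ⟨m, hm⟩ : d ∣ q + 1 := Nat.gcd_dvd_right n (q + 1)
  obtain ⟨n', hn'⟩ : d ∣ n := Nat.gcd_dvd_left n (q + 1)
  -- the determinant into mu
  have hr := CfsgH9.Un.range_detU (n := n) hF (by omega)
  let δ : ↥(Cfsg.GU n F q) →* CfsgH9.Un.mu F q := (CfsgH9.Un.detU n F q).codRestrict _ (fun g => by rw [← hr]; exact ⟨g, rfl⟩)
  have hδ : Function.Surjective δ := by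
    rintro ⟨x, hx⟩
    rw [← hr] at hx
    obtain ⟨g, hg⟩ := hx
    exact ⟨g, Subtype.ext hg⟩
  have hδv : ∀ g, ((δ g : CfsgH9.Un.mu F q) : Fˣ) = CfsgH9.Un.detU n F q g := fun g => rfl
  have hcyc : IsCyclic (CfsgH9.Un.mu F q) := inferInstance
  have hcm := CfsgH9.Un.card_mu hF
  let ψ : CfsgH9.Un.mu F q →* CfsgH9.Un.mu F q := powMonoidHom m
  have hψ : Nat.card ψ.range = d := by
    show Nat.card (powMonoidHom m : CfsgH9.Un.mu F q →* CfsgH9.Un.mu F q).range = d
    rw [IsCyclic.card_powMonoidHom_range, hcm, hm]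
    have hm0 : 0 < m := by
      rcases Nat.eq_zero_or_pos m with h | h
      · rw [h, mul_zero] at hm; omega
      · exact h
    rw [Nat.gcd_eq_right (dvd_mul_left m d), Nat.mul_div_cancel _ hm0]
  have hcyc2 : IsCyclic ψ.range := inferInstance
  have e1 : Multiplicative (ZMod (Nat.card ψ.range)) ≃* ψ.range := zmodCyclicMulEquiv hcyc2
  rw [hψ] at e1
  refine ⟨e1.symm.toMonoidHom.comp (ψ.rangeRestrict.comp δ), ?_, ?_⟩
  · exact e1.symm.surjective.comp (ψ.rangeRestrict_surjective.comp hδ)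
  · -- the kernel
    have hker : ∀ g, g ∈ (e1.symm.toMonoidHom.comp (ψ.rangeRestrict.comp δ)).ker ↔ (CfsgH9.Un.detU n F q g) ^ m = 1 := by
      intro g
      rw [MonoidHom.mem_ker]
      show e1.symm (ψ.rangeRestrict (δ g)) = 1 ↔ _
      rw [MulEquiv.map_eq_one_iff]
      constructor
      · intro h
        have h2 := congrArg (fun x : ψ.range => ((x : CfsgH9.Un.mu F q) : Fˣ)) h
        exact h2
      · intro h
        apply Subtype.ext
        apply Subtype.ext
        exact h
    -- m-torsion = n-th powers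
    have hpow : ∀ x : CfsgH9.Un.mu F q, x ^ m = 1 → ∃ y : CfsgH9.Un.mu F q, y ^ n = x := by
      have hle : (powMonoidHom n : CfsgH9.Un.mu F q →* CfsgH9.Un.mu F q).range ≤
          (powMonoidHom m : CfsgH9.Un.mu F q →* CfsgH9.Un.mu F q).ker := by
        rintro _ ⟨y, rfl⟩
        rw [MonoidHom.mem_ker]
        show (y ^ n) ^ m = 1
        rw [← pow_mul, hn', mul_assoc, mul_comm n' m, ← mul_assoc, ← hm, pow_mul]
        have : y ^ (q + 1) = 1 := by rw [← hcm]; exact pow_card_eq_one'
        rw [this, one_pow]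
      have hcard : Nat.card (powMonoidHom m : CfsgH9.Un.mu F q →* CfsgH9.Un.mu F q).ker ≤
          Nat.card (powMonoidHom n : CfsgH9.Un.mu F q →* CfsgH9.Un.mu F q).range := by
        rw [IsCyclic.card_powMonoidHom_range, IsCyclic.card_powMonoidHom_ker, hcm]
        have h1 : (q + 1).gcd n = d := by rw [hd, Nat.gcd_comm]
        rw [h1, hm, Nat.gcd_eq_right (dvd_mul_left m d), Nat.mul_div_cancel_left _ hd0]
      have heq := Subgroup.eq_of_le_of_card_ge hle hcard
      intro x hx
      have h2 : x ∈ (powMonoidHom m : CfsgH9.Un.mu F q →* CfsgH9.Un.mu F q).ker := hx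
      rw [← heq] at h2
      exact h2
    -- scalars
    have hscal : ∀ y : CfsgH9.Un.mu F q, ∃ z : ↥(Cfsg.GU n F q), z ∈ Subgroup.center ↥(Cfsg.GU n F q) ∧
        CfsgH9.Un.detU n F q z = (y : Fˣ) ^ n := by
      intro y
      have hy : ((y : Fˣ) : F) ^ (q + 1) = 1 := by
        rw [← Units.val_pow_eq_pow_val]
        exact congrArg Units.val (CfsgH9.Un.mem_mu.1 y.2)
      have hdet : (((y : Fˣ) : F) • (1 : Matrix (Fin n) (Fin n) F)).det = ((y : Fˣ) : F) ^ n := by
        rw [Matrix.det_smul, Matrix.det_one, mul_one, Fintype.card_fin]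
      have hdet0 : (((y : Fˣ) : F) • (1 : Matrix (Fin n) (Fin n) F)).det ≠ 0 := by
        rw [hdet]; exact pow_ne_zero _ (Units.ne_zero _)
      refine ⟨⟨Matrix.GeneralLinearGroup.mkOfDetNeZero _ hdet0, fun u v => CfsgH9.Un.scalar_iso hy u v⟩, ?_, ?_⟩
      · rw [Subgroup.mem_center_iff]
        intro B
        apply Subtype.ext
        apply Units.ext
        show ((B : Matrix.GeneralLinearGroup (Fin n) F) : Matrix (Fin n) (Fin n) F) * (((y : Fˣ) : F) • 1) = (((y : Fˣ) : F) • 1) * ((B : Matrix.GeneralLinearGroup (Fin n) F) : Matrix (Fin n) (Fin n) F)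
        simp
      · apply Units.ext
        rw [CfsgH9.Un.detU_val, Units.val_pow_eq_pow_val]
        exact hdet
    apply le_antisymm
    · intro g hg
      rw [hker] at hg
      obtain ⟨y, hy⟩ := hpow (δ g) (Subtype.ext hg)
      obtain ⟨z, hz, hzd⟩ := hscal y
      have h1 : CfsgH9.Un.detU n F q z = CfsgH9.Un.detU n F q g := by
        rw [hzd, ← hδv, ← hy]; rfl
      have h2 : g = (g * z⁻¹) * z := by group
      rw [h2]
      refine Subgroup.mul_mem _ (Subgroup.mem_sup_left ?_) (Subgroup.mem_sup_right hz)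
      have h3 : CfsgH9.Un.detU n F q (g * z⁻¹) = 1 := by rw [map_mul, map_inv, h1, mul_inv_cancel]
      exact h3
    · rw [sup_le_iff]
      constructor
      · intro g hg
        rw [hker]
        have h3 : CfsgH9.Un.detU n F q g = 1 := hg
        rw [h3, one_pow]
      · intro g hg
        rw [hker]
        rw [Subgroup.mem_center_iff] at hg
        obtain ⟨c, hc⟩ := CfsgH9.Un.scalar_of_comm hF (by omega) ((g : Matrix.GeneralLinearGroup (Fin n) F) : Matrix (Fin n) (Fin n) F) (fun B => by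
          have := hg ⟨CfsgH9.Un.suGL n F q B, fun x y => CfsgH9.Un.suGL_iso B x y⟩
          have h2 := congrArg (fun A : ↥(Cfsg.GU n F q) => ((A : Matrix.GeneralLinearGroup (Fin n) F) : Matrix (Fin n) (Fin n) F)) this
          exact h2.symm)
        have hc1 : c ^ (q + 1) = 1 := CfsgH9.Un.norm_of_scalar (n := n) (show 1 ≤ n by omega) (fun x y => by rw [← hc]; exact g.2 x y) hq
        apply Units.ext
        rw [Units.val_pow_eq_pow_val, CfsgH9.Un.detU_val, hc, Matrix.det_smul, Matrix.det_one, mul_one, Fintype.card_fin,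
          Units.val_one, ← pow_mul, hn', mul_assoc, mul_comm n' m, ← mul_assoc, ← hm, pow_mul, hc1, one_pow]

end Cfsg.Agent.S0783
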