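import Cfsg.Statements.S0784
import Cfsg.Agent.H9.OgStd

set_option autoImplicit false
open Cfsg Matrix

namespace Cfsg.Agent.S0784

/-- Reflections: if Q(v) ≠ 0 then the matrix R = 1 − Q(v)⁻¹ · v f(v, ·)ᵀ preserves Q, maps v to −v, fixes each x with f(v, x) = 0, and has determinant −1 (in characteristic two, −1 = 1 and R is the orthogonal transvection of v). -/
theorem result {F : Type*} [Field F] {n : ℕ} (Q : QuadraticForm F (Fin n → F)) (v : Fin n → F) (hv : Q v ≠ 0) : (∀ x, Q ((Cfsg.reflectionMatrix ⇑Q v).mulVec x) = Q x) ∧ (Cfsg.reflectionMatrix ⇑Q v).mulVec v = -v ∧ (∀ x, QuadraticMap.polar ⇑Q v x = 0 → (Cfsg.reflectionMatrix ⇑Q v).mulVec x = x) ∧ (Cfsg.reflectionMatrix ⇑Q v).det = -1 := by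
  refine ⟨fun x => ?_, ?_, fun x hx => ?_, CfsgH9.Og.refl_det Q hv⟩
  · have h1 := QuadraticMap.polar_smul_right Q (-((Q v)⁻¹ * QuadraticMap.polar Q x v)) x v
    have h2 : Q (x + (-((Q v)⁻¹ * QuadraticMap.polar Q x v)) • v) = Q x + Q ((-((Q v)⁻¹ * QuadraticMap.polar Q x v)) • v) +
        QuadraticMap.polar Q x ((-((Q v)⁻¹ * QuadraticMap.polar Q x v)) • v) := by
      generalize (-((Q v)⁻¹ * QuadraticMap.polar Q x v)) • v = z
      rw [QuadraticMap.polar]; ring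
    show Q (_ *ᵥ x) = Q x
    rw [CfsgH9.Og.refl_mulVec, sub_eq_add_neg, ← neg_smul, h2, h1, QuadraticMap.map_smul, smul_eq_mul, smul_eq_mul]
    field_simp; ring
  · show _ *ᵥ v = -v
    rw [CfsgH9.Og.refl_mulVec, QuadraticMap.polar_self]
    have : (Q v)⁻¹ * (2 • Q v) = 2 := by rw [nsmul_eq_mul]; field_simp; norm_num
    rw [this]; module
  · show _ *ᵥ x = x
    rw [CfsgH9.Og.refl_mulVec, QuadraticMap.polar_comm, hx, mul_zero, zero_smul, sub_zero]

end Cfsg.Agent.S0784
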