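import Cfsg.Statements.S0787
import Cfsg.Agent.H9.Og5

set_option autoImplicit false
open Cfsg

namespace Cfsg.Agent.S0787

lemma main {ι : Type} [Fintype ι] [DecidableEq ι] {F : Type*} [Field F] {Q : (ι → F) → F} {f : (ι → F) → (ι → F) → F}
    (hf : CfsgH9.Og.Qf Q f) (h4 : (∃ c : F, c ≠ 0 ∧ c ≠ 1) ∨ Fintype.card ι ≠ 4)
    (hrel : (commutator (isometryGroup F Q)).relIndex (specialIsometryGroup F Q) = 2)
    (hle : commutator (isometryGroup F Q) ≤ specialIsometryGroup F Q)
    (hR : ∀ r ∈ CfsgH9.Og.Rs Q f, ∀ s ∈ CfsgH9.Og.Rs Q f, r * s ∈ specialIsometryGroup F Q) :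
    ∃! H : Subgroup ↥(specialIsometryGroup F Q), H.index = 2 := by
  refine ⟨(commutator (isometryGroup F Q)).subgroupOf (specialIsometryGroup F Q), hrel, ?_⟩
  intro H hH
  have hle2 : (commutator (isometryGroup F Q)).subgroupOf (specialIsometryGroup F Q) ≤ H := by
    have h1 : commutator (isometryGroup F Q) ≤ H.map (specialIsometryGroup F Q).subtype := by
      refine (CfsgH9.Og.comm_closure hf h4).trans ?_
      rw [Subgroup.closure_le]
      rintro _ ⟨r, hr, s, hs, rfl⟩
      have hr2 : r⁻¹ = r := by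
        obtain ⟨v, hv, hr⟩ := hr
        exact Subtype.ext (hr.inv_eq hf hv)
      have hs2 : s⁻¹ = s := by
        obtain ⟨v, hv, hs⟩ := hs
        exact Subtype.ext (hs.inv_eq hf hv)
      refine ⟨⟨r * s, hR r hr s hs⟩ ^ 2, Subgroup.sq_mem_of_index_two hH _, ?_⟩
      rw [hr2, hs2, map_pow, pow_two]
      show r * s * (r * s) = _
      rw [mul_assoc, mul_assoc]
      group
    intro x hx
    obtain ⟨y, hy, hyx⟩ := h1 (Subgroup.mem_subgroupOf.1 hx)
    have : y = x := Subtype.ext hyx
    rw [← this]; exact hy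
  have h2 := Subgroup.relIndex_mul_index hle2
  rw [hH] at h2
  have h3 : ((commutator (isometryGroup F Q)).subgroupOf (specialIsometryGroup F Q)).index = 2 := hrel
  rw [h3] at h2
  have h5 : ((commutator (isometryGroup F Q)).subgroupOf (specialIsometryGroup F Q)).relIndex H = 1 := by omega
  exact le_antisymm (Subgroup.relIndex_eq_one.1 h5) hle2

/-- Existence and uniqueness of Ω: if F is finite, n ≥ 2, Q is a quadratic form on F^n with non-degenerate polar form and (|F|, n) ≠ (2, 4), then the group of isometries of determinant one has a unique subgroup of index 2. -/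
theorem result {F : Type*} [Field F] [Fintype F] {n : ℕ} (hn : 2 ≤ n) (Q : QuadraticForm F (Fin n → F)) (hQ : (QuadraticMap.polarBilin Q).Nondegenerate) (h : Fintype.card F ≠ 2 ∨ n ≠ 4) : ∃! H : Subgroup ↥(Cfsg.specialIsometryGroup F ⇑Q), H.index = 2 := by
  have hf := CfsgH9.Og.qf_of_quad Q hQ
  have h4 : (∃ c : F, c ≠ 0 ∧ c ≠ 1) ∨ Fintype.card (Fin n) ≠ 4 := by
    rcases h with h | h
    · exact Or.inl (CfsgH9.Og.exists_c h)
    · right; rw [Fintype.card_fin]; exact h
  have hn' : 2 ≤ Fintype.card (Fin n) := by rw [Fintype.card_fin]; exact hn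
  by_cases h2 : (2 : F) = 0
  · have hso := CfsgH9.Og.so_even hf h2
    refine main hf h4 ?_ ?_ ?_
    · rw [hso, Subgroup.relIndex_top_right, CfsgH9.Og.index_even hf h2 h4 (by omega)]
    · rw [hso]; exact le_top
    · intro r _ s _; rw [hso]; trivial
  · have hso := CfsgH9.Og.so_odd hf h2 h4
    have hle : commutator (isometryGroup F ⇑Q) ≤ specialIsometryGroup F ⇑Q := by
      rw [hso]; exact CfsgH9.Og.comm_le_ker _
    refine main hf h4 ?_ hle ?_
    · have h3 := Subgroup.relIndex_mul_index hle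
      rw [CfsgH9.Og.index_odd hf h2 h4 hn'] at h3
      have h5 : (specialIsometryGroup F ⇑Q).index = 2 := by
        rw [hso, Subgroup.index_ker]
        obtain ⟨v, hv⟩ := CfsgH9.Og.exists_nonsing hf (by omega)
        obtain ⟨r, hr, -⟩ := CfsgH9.Og.exists_R_mem hf hv
        have h1 := CfsgH9.Og.dHom_R hf h4 hr
        have h3 : (CfsgH9.Og.dHom hf h4).range = ⊤ := by
          rw [eq_top_iff]
          intro x _
          rcases Int.units_eq_one_or x with rfl | rfl
          · exact Subgroup.one_mem _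
          · exact ⟨r, h1⟩
        rw [h3, Subgroup.card_top, Nat.card_eq_fintype_card]
        rfl
      rw [h5] at h3
      omega
    · intro r hr s hs
      rw [hso, MonoidHom.mem_ker, map_mul, CfsgH9.Og.dHom_R hf h4 hr, CfsgH9.Og.dHom_R hf h4 hs]
      decide

end Cfsg.Agent.S0787
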