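import Cfsg.Statements.S0792
import Cfsg.Agent.H9.Og5

set_option autoImplicit false
open Cfsg

namespace Cfsg.Agent.S0792

/-- For q odd and Q with non-degenerate polar form on F^n, the determinant-one isometries form the subgroup generated by all products r_u r_v of two reflections (Q(u), Q(v) ≠ 0). -/
theorem result {F : Type*} [Field F] [Fintype F] (h2 : (2 : F) ≠ 0) {n : ℕ} (Q : QuadraticForm F (Fin n → F)) (hQ : (QuadraticMap.polarBilin Q).Nondegenerate) : Cfsg.specialIsometryGroup F ⇑Q = Subgroup.closure {g : ↥(Cfsg.isometryGroup F ⇑Q) | ∃ u v : Fin n → F, Q u ≠ 0 ∧ Q v ≠ 0 ∧ ((g : Matrix.GeneralLinearGroup (Fin n) F) : Matrix (Fin n) (Fin n) F) = Cfsg.reflectionMatrix ⇑Q u * Cfsg.reflectionMatrix ⇑Q v} := by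
  have hf := CfsgH9.Og.qf_of_quad Q hQ
  have h4 : (∃ c : F, c ≠ 0 ∧ c ≠ 1) ∨ Fintype.card (Fin n) ≠ 4 := Or.inl (CfsgH9.Og.exists_c_of_two h2)
  rw [CfsgH9.Og.so_odd hf h2 h4, CfsgH9.Og.ker_d hf h4]
  congr 1
  ext g
  constructor
  · rintro ⟨r, ⟨u, hu, hr⟩, s, ⟨v, hv, hs⟩, rfl⟩
    refine ⟨u, v, hu, hv, ?_⟩
    rw [← (CfsgH9.Og.isR_iff Q).2 hr, ← (CfsgH9.Og.isR_iff Q).2 hs]
    rfl
  · rintro ⟨u, v, hu, hv, hg⟩
    obtain ⟨r, hr, hru⟩ := CfsgH9.Og.exists_R_mem hf hu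
    obtain ⟨s, hs, hsv⟩ := CfsgH9.Og.exists_R_mem hf hv
    refine ⟨r, hr, s, hs, ?_⟩
    apply Subtype.ext
    apply Units.ext
    rw [hg, ← (CfsgH9.Og.isR_iff Q).2 hru, ← (CfsgH9.Og.isR_iff Q).2 hsv]
    rfl

end Cfsg.Agent.S0792
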