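import Cfsg.Statements.S0793
import Cfsg.Agent.H9.OgStd

set_option autoImplicit false
open Cfsg Matrix

namespace Cfsg.Agent.S0793

/-- Root elements: if Q(u) = Q(v) = 0 and f(u, v) = 0 (f the polar form), then for every c the Siegel matrix T_(u,v)(c) preserves Q, fixes u and v, and T(c) T(d) = T(c + d). -/
theorem result {F : Type*} [Field F] {n : ℕ} (Q : QuadraticForm F (Fin n → F)) (u v : Fin n → F) (hu : Q u = 0) (hv : Q v = 0) (huv : QuadraticMap.polar ⇑Q u v = 0) : (∀ c x, Q ((Cfsg.siegelMatrix ⇑Q u v c).mulVec x) = Q x) ∧ (∀ c, (Cfsg.siegelMatrix ⇑Q u v c).mulVec u = u ∧ (Cfsg.siegelMatrix ⇑Q u v c).mulVec v = v) ∧ ∀ c d, Cfsg.siegelMatrix ⇑Q u v c * Cfsg.siegelMatrix ⇑Q u v d = Cfsg.siegelMatrix ⇑Q u v (c + d) := by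
  have huu : QuadraticMap.polar Q u u = 0 := by rw [QuadraticMap.polar_self, hu, smul_zero]
  have hvv : QuadraticMap.polar Q v v = 0 := by rw [QuadraticMap.polar_self, hv, smul_zero]
  have hvu : QuadraticMap.polar Q v u = 0 := by rw [QuadraticMap.polar_comm]; exact huv
  refine ⟨fun c x => ?_, fun c => ⟨?_, ?_⟩, fun c d => ?_⟩
  · show Q (_ *ᵥ x) = Q x
    rw [CfsgH9.Og.siegel_mulVec, sub_eq_add_neg, ← neg_smul]
    have h2 : ∀ a b : Fin n → F, Q (a + b) = Q a + Q b + QuadraticMap.polar Q a b := fun a b => by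
      rw [QuadraticMap.polar]; ring
    rw [h2, h2, QuadraticMap.map_smul, QuadraticMap.map_smul, QuadraticMap.polar_smul_right, QuadraticMap.polar_smul_right,
      QuadraticMap.polar_add_left, QuadraticMap.polar_smul_left, hu, hv, hvu]
    simp only [smul_eq_mul]
    ring
  · show _ *ᵥ u = u
    rw [CfsgH9.Og.siegel_mulVec, huu, huv]; simp
  · show _ *ᵥ v = v
    rw [CfsgH9.Og.siegel_mulVec, hvv, hvu]; simp
  · apply CfsgH9.Og.ext_of_mulVec
    intro x
    have e1 : ∀ w, QuadraticMap.polar Q (x + (d * QuadraticMap.polar Q x u) • v - (d * QuadraticMap.polar Q x v) • u) w =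
        QuadraticMap.polar Q x w + (d * QuadraticMap.polar Q x u) * QuadraticMap.polar Q v w -
          (d * QuadraticMap.polar Q x v) * QuadraticMap.polar Q u w := by
      intro w
      rw [sub_eq_add_neg, ← neg_smul, QuadraticMap.polar_add_left, QuadraticMap.polar_add_left, QuadraticMap.polar_smul_left,
        QuadraticMap.polar_smul_left, smul_eq_mul, smul_eq_mul]
      ring
    rw [← mulVec_mulVec, CfsgH9.Og.siegel_mulVec, CfsgH9.Og.siegel_mulVec, CfsgH9.Og.siegel_mulVec, e1, e1, huu, hvv, huv, hvu]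
    simp only [mul_zero, add_zero, sub_zero]
    module

end Cfsg.Agent.S0793
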