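import Cfsg.Statements.S0794
import Cfsg.Agent.H9.Og7

set_option autoImplicit false
open Cfsg Matrix

namespace Cfsg.Agent.S0794

/-- For q odd, n ≥ 5 and Q with non-degenerate polar form: an isometry whose matrix is a Siegel transformation T_(u,v)(c) (u, v singular and orthogonal) is a commutator in the isometry group, so lies in Ω. -/
theorem result {F : Type*} [Field F] [Fintype F] (h2 : (2 : F) ≠ 0) {n : ℕ} (hn : 5 ≤ n) (Q : QuadraticForm F (Fin n → F)) (hQ : (QuadraticMap.polarBilin Q).Nondegenerate) (u v : Fin n → F) (hu : Q u = 0) (hv : Q v = 0) (huv : QuadraticMap.polar ⇑Q u v = 0) (c : F) (g : ↥(Cfsg.isometryGroup F ⇑Q)) (hg : ((g : Matrix.GeneralLinearGroup (Fin n) F) : Matrix (Fin n) (Fin n) F) = Cfsg.siegelMatrix ⇑Q u v c) : g ∈ commutatorSet ↥(Cfsg.isometryGroup F ⇑Q) ∧ g ∈ Cfsg.Omega F ⇑Q := by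
  have hf := CfsgH9.Og.qf_of_quad Q hQ
  have hE := (CfsgH9.Og.isE_iff Q hv).1 hg
  suffices h : g ∈ commutatorSet ↥(isometryGroup F ⇑Q) by
    refine ⟨h, ?_⟩
    have h1 : commutator ↥(isometryGroup F ⇑Q) = Subgroup.closure (commutatorSet ↥(isometryGroup F ⇑Q)) :=
      commutator_eq_closure _
    show g ∈ commutator ↥(isometryGroup F ⇑Q)
    rw [h1]
    exact Subgroup.subset_closure h
  by_cases hdep : v ∈ Submodule.span F {u}
  · obtain ⟨a, rfl⟩ := Submodule.mem_span_singleton.1 hdep
    have h1 : g = 1 := by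
      apply Subtype.ext
      apply CfsgH9.Tv.ext_mulVec
      intro x
      rw [hE, Subgroup.coe_one, Units.val_one, one_mulVec, hf.smul_right, hf.smul_right, hf.smul, hf.smul, hu]
      module
    rw [h1]
    exact ⟨1, 1, by simp⟩
  · have hu0 : u ≠ 0 ∨ u = 0 := (em (u = 0)).symm
    rcases hu0 with hu0 | hu0
    · have hun : u ∉ Submodule.span F {v} := by
        intro h
        obtain ⟨a, ha⟩ := Submodule.mem_span_singleton.1 h
        have ha0 : a ≠ 0 := by rintro rfl; rw [zero_smul] at ha; exact hu0 ha.symm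
        apply hdep
        rw [← Submodule.smul_mem_iff _ ha0, ha]
        exact Submodule.mem_span_singleton_self _
      obtain ⟨z, hz, hzu⟩ := CfsgH9.Og.exists_perp hf hun
      have hzv := (CfsgH9.Og.mem_perp_one hf).1 hz
      have hQz : Q (z + (-(Q z)) • u) = 0 := by
        have := hf.add z ((-(Q z)) • u)
        rw [this, hf.smul, hf.smul_right, hu, hzu]; ring
      have huz : QuadraticMap.polar ⇑Q u (z + (-(Q z)) • u) = 1 := by
        rw [hf.add_right, hf.smul_right, hf.self_of hu, mul_zero, add_zero, ← hf.symm]; exact hzu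
      have hvz : QuadraticMap.polar ⇑Q v (z + (-(Q z)) • u) = 0 := by
        rw [hf.add_right, hf.smul_right, hf.swap huv, mul_zero, add_zero]; exact hf.swap hzv
      obtain ⟨D, hD, hDu, hDx⟩ := CfsgH9.Og.exists_neg hf h2 hu hQz huz
      have huw : QuadraticMap.polar ⇑Q u ((-(c / 2)) • v) = 0 := by rw [hf.smul_right, huv, mul_zero]
      obtain ⟨e, he⟩ := CfsgH9.Og.exists_E hf hu huw
      have hei := he.iso hf hu huw
      refine ⟨CfsgH9.Og.mkO hD, CfsgH9.Og.mkO hei, ?_⟩
      apply Subtype.ext
      show D * e * D⁻¹ * e⁻¹ = g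
      have h1 := he.conj hf hD
      rw [hDu, Matrix.mulVec_smul, hDx v (hf.swap huv) hvz] at h1
      have h3 : (-u : Fin n → F) = (-1 : F) • u := by module
      rw [h3] at h1
      have h5 := h1.smul hf
      have h6 := h5.mul hf hu (by rw [hf.smul_right, huw, mul_zero]) (by rw [hf.neg_right, huw, neg_zero]) (he.inv hf hu huw)
      have h7 : (-1 : F) • (-(c / 2)) • v + -((-(c / 2)) • v) = c • v := by
        have : c • v = (c / 2 + c / 2) • v := by congr 1; field_simp; ring
        rw [this]; module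
      rw [h7] at h6
      exact h6.unique hE
    · have h1 : g = 1 := by
        apply Subtype.ext
        apply CfsgH9.Tv.ext_mulVec
        intro x
        rw [hE, Subgroup.coe_one, Units.val_one, one_mulVec, hu0, hf.zero_right]
        simp
      rw [h1]
      exact ⟨1, 1, by simp⟩

end Cfsg.Agent.S0794
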