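import Cfsg.Statements.S0795
import Cfsg.Agent.H9.Og7

set_option autoImplicit false
open Cfsg

namespace Cfsg.Agent.S0795

/-- Generation of Ω by root elements: for q odd, n ≥ 5 and Q with non-degenerate polar form on F^n, the commutator subgroup of the isometry group equals the subgroup generated by the isometries whose matrices are Siegel transformations T_(u,v)(c) with u, v singular and orthogonal. -/
theorem result {F : Type*} [Field F] [Fintype F] (h2 : (2 : F) ≠ 0) {n : ℕ} (hn : 5 ≤ n) (Q : QuadraticForm F (Fin n → F)) (hQ : (QuadraticMap.polarBilin Q).Nondegenerate) : Cfsg.Omega F ⇑Q = Subgroup.closure {g : ↥(Cfsg.isometryGroup F ⇑Q) | ∃ (u v : Fin n → F) (c : F), Q u = 0 ∧ Q v = 0 ∧ QuadraticMap.polar ⇑Q u v = 0 ∧ ((g : Matrix.GeneralLinearGroup (Fin n) F) : Matrix (Fin n) (Fin n) F) = Cfsg.siegelMatrix ⇑Q u v c} := by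
  have hf := CfsgH9.Og.qf_of_quad Q hQ
  have hn' : 5 ≤ Fintype.card (Fin n) := by rw [Fintype.card_fin]; exact hn
  set S := {g : ↥(Cfsg.isometryGroup F ⇑Q) | ∃ (u v : Fin n → F) (c : F), Q u = 0 ∧ Q v = 0 ∧ QuadraticMap.polar ⇑Q u v = 0 ∧ ((g : Matrix.GeneralLinearGroup (Fin n) F) : Matrix (Fin n) (Fin n) F) = Cfsg.siegelMatrix ⇑Q u v c} with hS
  have h1 : CfsgH9.Og.Tg (⇑Q) (QuadraticMap.polar ⇑Q) ≤ (Subgroup.closure S).map (Cfsg.isometryGroup F ⇑Q).subtype := by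
    apply CfsgH9.Og.T_le_of_long hf hn'
    intro u a hu ha hua g hg
    refine ⟨CfsgH9.Og.mkO (hg.iso hf hu hua), Subgroup.subset_closure ⟨u, a, 1, hu, ha, hua, ?_⟩, rfl⟩
    rw [CfsgH9.Og.isE_iff Q ha, one_smul]
    exact hg
  apply le_antisymm
  · intro g hg
    have h3 : ((g : Cfsg.isometryGroup F ⇑Q) : Matrix.GeneralLinearGroup (Fin n) F) ∈ Cfsg.Geo.omegaGL ⇑Q := ⟨g, hg, rfl⟩
    rw [CfsgH9.Og.omega_eq hf hn'] at h3
    obtain ⟨h, hh, hhg⟩ := h1 h3
    have : h = g := Subtype.ext hhg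
    rw [← this]; exact hh
  · rw [Subgroup.closure_le]
    rintro g ⟨u, v, c, hu, hv, huv, hg⟩
    have hE := (CfsgH9.Og.isE_iff Q hv).1 hg
    have h3 : (g : Matrix.GeneralLinearGroup (Fin n) F) ∈ Cfsg.Geo.omegaGL ⇑Q := by
      rw [CfsgH9.Og.omega_eq hf hn']
      exact CfsgH9.Og.E_mem hu (by rw [hf.smul_right, huv, mul_zero]) hE
    obtain ⟨h, hh, hhg⟩ := h3
    have : h = g := Subtype.ext hhg
    rw [← this]; exact hh

end Cfsg.Agent.S0795
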