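import Cfsg.Statements.S0796
import Mathlib

set_option autoImplicit false
open Cfsg

namespace Cfsg.Agent.S0796

/-- If G is finite and acts faithfully and primitively on X, H is the stabiliser of a point, A is a normal subgroup of H whose normal closure in G is G, then for every non-trivial normal subgroup K of G the quotient G ⧸ K is isomorphic to A ⧸ B for some normal subgroup B of A. -/
theorem result {G X : Type*} [Group G] [Finite G] [MulAction G X] [FaithfulSMul G X] (hprim : MulAction.IsPreprimitive G X) (x : X) (A : Subgroup G) (hA : A ≤ MulAction.stabilizer G x) (hAn : (A.subgroupOf (MulAction.stabilizer G x)).Normal) (hgen : Subgroup.normalClosure (A : Set G) = ⊤) (K : Subgroup G) [K.Normal] (hK : K ≠ ⊥) : ∃ (B : Subgroup A) (_ : B.Normal), Nonempty (G ⧸ K ≃* A ⧸ B) := by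
  classical
  have hne : MulAction.fixedPoints K X ≠ Set.univ := by
    intro h
    apply hK
    rw [eq_bot_iff]
    intro k hk
    rw [Subgroup.mem_bot]
    apply FaithfulSMul.eq_of_smul_eq_smul (α := X)
    intro y
    rw [one_smul]
    have : y ∈ MulAction.fixedPoints K X := by rw [h]; trivial
    exact this ⟨k, hk⟩
  haveI htr : MulAction.IsPretransitive K X := MulAction.IsQuasiPreprimitive.isPretransitive_of_normal hne
  have hsup : K ⊔ A = ⊤ := by
    rw [eq_top_iff, ← hgen]
    have hnorm : (K ⊔ A).Normal := by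
      refine ⟨fun n hn g => ?_⟩
      obtain ⟨k, hk⟩ := MulAction.exists_smul_eq K x (g • x)
      have hs : (k : G)⁻¹ * g ∈ MulAction.stabilizer G x := by
        rw [MulAction.mem_stabilizer_iff, mul_smul, inv_smul_eq_iff]
        exact hk.symm
      have hg : g = k * ((k : G)⁻¹ * g) := by group
      rw [Subgroup.mem_sup_of_normal_left] at hn
      obtain ⟨k', hk', a, ha, rfl⟩ := hn
      have h1 : ((k : G)⁻¹ * g) * a * ((k : G)⁻¹ * g)⁻¹ ∈ A := by
        have := hAn.conj_mem ⟨a, hA ha⟩ ha ⟨_, hs⟩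
        exact this
      have h2 : ((k : G)⁻¹ * g) * (k' * a) * ((k : G)⁻¹ * g)⁻¹ =
        (((k : G)⁻¹ * g) * k' * ((k : G)⁻¹ * g)⁻¹) * (((k : G)⁻¹ * g) * a * ((k : G)⁻¹ * g)⁻¹) := by group
      have h3 : g * (k' * a) * g⁻¹ = k * (((k : G)⁻¹ * g) * (k' * a) * ((k : G)⁻¹ * g)⁻¹) * (k : G)⁻¹ := by group
      rw [h3, h2]
      refine (K ⊔ A).mul_mem ((K ⊔ A).mul_mem (Subgroup.mem_sup_left k.2) ((K ⊔ A).mul_mem ?_ ?_)) (Subgroup.mem_sup_left (K.inv_mem k.2))
      · exact Subgroup.mem_sup_left (‹K.Normal›.conj_mem k' hk' _)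
      · exact Subgroup.mem_sup_right h1
    exact Subgroup.normalClosure_le_normal (le_sup_right : A ≤ K ⊔ A)
  refine ⟨K.subgroupOf A, inferInstance, ⟨?_⟩⟩
  have e1 := QuotientGroup.quotientInfEquivProdNormalQuotient A K
  have e2 : (A ⊔ K : Subgroup G) = ⊤ := by rw [sup_comm]; exact hsup
  let f : A →* G ⧸ K := (QuotientGroup.mk' K).comp A.subtype
  have hf : Function.Surjective f := by
    intro y
    obtain ⟨g, rfl⟩ := QuotientGroup.mk'_surjective K y
    have hg : g ∈ A ⊔ K := by rw [e2]; trivial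
    rw [Subgroup.mem_sup_of_normal_right] at hg
    obtain ⟨a, ha, k, hk, rfl⟩ := hg
    refine ⟨⟨a, ha⟩, ?_⟩
    show (QuotientGroup.mk' K) a = _
    rw [map_mul, show (QuotientGroup.mk' K) k = 1 from (QuotientGroup.eq_one_iff k).2 hk, mul_one]
  have hker : f.ker = K.subgroupOf A := by
    ext a
    rw [MonoidHom.mem_ker, Subgroup.mem_subgroupOf]
    exact QuotientGroup.eq_one_iff (a : G)
  exact ((QuotientGroup.quotientMulEquivOfEq hker.symm).trans (QuotientGroup.quotientKerEquivOfSurjective f hf)).symm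

end Cfsg.Agent.S0796
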