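import Cfsg.Statements.S0798
import Cfsg.Agent.H9.Og14
import Cfsg.Agent.H9.OgStd

set_option autoImplicit false
open Cfsg

namespace Cfsg.Agent.S0798

/-- For q odd, n ≥ 2 even, Q with non-degenerate polar form (n, |F|) ≠ (4, 3), and a fixed c ≠ 0: the subgroup of the isometry group generated by the reflections r_v with Q(v) ∈ c·(F^×)² has index 2. -/
theorem result {F : Type*} [Field F] [Fintype F] (h2 : (2 : F) ≠ 0) {n : ℕ} (hn : 2 ≤ n) (heven : Even n) (Q : QuadraticForm F (Fin n → F)) (hQ : (QuadraticMap.polarBilin Q).Nondegenerate) (h43 : ¬ (n = 4 ∧ Fintype.card F = 3)) (c : F) (hc : c ≠ 0) : (Subgroup.closure {g : ↥(Cfsg.isometryGroup F ⇑Q) | ∃ (v : Fin n → F) (t : F), t ≠ 0 ∧ Q v = c * t ^ 2 ∧ ((g : Matrix.GeneralLinearGroup (Fin n) F) : Matrix (Fin n) (Fin n) F) = Cfsg.reflectionMatrix ⇑Q v}).index = 2 := by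
  have hf := CfsgH9.Og.qf_of_quad Q hQ
  have h1 := CfsgH9.Og.index_class hf h2 (by rwa [Fintype.card_fin]) (by
    rw [Fintype.card_fin]
    obtain ⟨k, hk⟩ := heven
    by_contra hcon
    push Not at hcon
    obtain ⟨h3, h4, h5⟩ := hcon
    apply h43
    have h6 : Odd (Fintype.card F) := by
      rw [Nat.odd_iff]
      apply FiniteField.odd_card_of_char_ne_two
      intro h
      apply h2
      have h1 : ((2 : ℕ) : F) = 0 := by rw [← h]; exact ringChar.Nat.cast_ringChar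
      exact_mod_cast h1
    have h7 : 2 < Fintype.card F := by
      have h8 := Fintype.one_lt_card (α := F)
      obtain ⟨j, hj⟩ := h6
      omega
    obtain ⟨j, hj⟩ := h6
    refine ⟨by omega, by omega⟩) hc
  have h0 : {g : ↥(Cfsg.isometryGroup F ⇑Q) | ∃ (v : Fin n → F) (t : F), t ≠ 0 ∧ Q v = c * t ^ 2 ∧ ((g : Matrix.GeneralLinearGroup (Fin n) F) : Matrix (Fin n) (Fin n) F) = Cfsg.reflectionMatrix ⇑Q v} = CfsgH9.Og.Cs (⇑Q) (QuadraticMap.polar ⇑Q) c := by
    ext g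
    constructor
    · rintro ⟨v, t, ht, hv, hg⟩
      exact ⟨v, t, ht, hv, (CfsgH9.Og.isR_iff Q).1 hg⟩
    · rintro ⟨v, t, ht, hv, hg⟩
      exact ⟨v, t, ht, hv, (CfsgH9.Og.isR_iff Q).2 hg⟩
  rw [h0]
  exact h1

end Cfsg.Agent.S0798
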