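import Cfsg.Statements.S0799
import Cfsg.Agent.H9.Dk12

set_option autoImplicit false
open Cfsg

namespace Cfsg.Agent.S0799

open CfsgH9.Dk in
theorem cyc {F : Type*} [Field F] [Fintype F] (p : ℕ) [Fact p.Prime] [CharP F p]
    (C : Subgroup (Matrix.ProjectiveSpecialLinearGroup (Fin 2) F)) (hC : IsCyclic C) (hp : ¬ p ∣ Nat.card C) :
    Nat.card C ∣ (Fintype.card F + 1) / Nat.gcd 2 (Fintype.card F - 1) ∨ Nat.card C ∣ (Fintype.card F - 1) / Nat.gcd 2 (Fintype.card F - 1) := by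
  obtain ⟨c, hc⟩ := hC.exists_generator
  have h1 : orderOf (c : Matrix.ProjectiveSpecialLinearGroup (Fin 2) F) = Nat.card C := by
    rw [Subgroup.orderOf_coe, orderOf_eq_card_of_forall_mem_zpowers hc]
  rw [← h1] at hp ⊢
  exact ord_dvd (p := p) _ hp

/-- Dickson's classification of the subgroups of PSL_2(q), q a power of the prime p, d = gcd(2, q − 1): every subgroup H is (a) cyclic or dihedral with k dividing (q+1)/d or (q−1)/d (cyclic of order k, or dihedral of order 2k), (b) isomorphic to a subgroup of the normaliser of a Sylow p-subgroup, (c) isomorphic to A_4, S_4 or A_5, or (d) isomorphic to PSL_2(K) or PGL_2(K) for a finite field K with |K|^m = q. -/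
theorem result {F : Type*} [Field F] [Fintype F] {q : ℕ} (hF : Fintype.card F = q) (p : ℕ) [Fact p.Prime] [CharP F p] (H : Subgroup (Matrix.ProjectiveSpecialLinearGroup (Fin 2) F)) : (∃ k : ℕ, (k ∣ (q + 1) / Nat.gcd 2 (q - 1) ∨ k ∣ (q - 1) / Nat.gcd 2 (q - 1)) ∧ ((IsCyclic H ∧ Nat.card H = k) ∨ Nonempty (H ≃* DihedralGroup k))) ∨ (∃ (P : Sylow p (Matrix.ProjectiveSpecialLinearGroup (Fin 2) F)) (K : Subgroup (Matrix.ProjectiveSpecialLinearGroup (Fin 2) F)), K ≤ Subgroup.normalizer ((P : Subgroup (Matrix.ProjectiveSpecialLinearGroup (Fin 2) F)) : Set (Matrix.ProjectiveSpecialLinearGroup (Fin 2) F)) ∧ Nonempty (H ≃* K)) ∨ Nonempty (H ≃* alternatingGroup (Fin 4)) ∨ Nonempty (H ≃* Equiv.Perm (Fin 4)) ∨ Nonempty (H ≃* alternatingGroup (Fin 5)) ∨ (∃ (K : Type) (_ : Field K) (_ : Fintype K) (m : ℕ), Fintype.card K ^ m = q ∧ (Nonempty (H ≃* Matrix.ProjectiveSpecialLinearGroup (Fin 2) K) ∨ Nonempty (H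 ≃* Matrix.ProjGenLinGroup (Fin 2) K))) := by
  subst hF
  rcases CfsgH9.Dk.dickson_psl p H with ⟨h1, h2⟩ | ⟨S, h1, -⟩ | ⟨C, h1, h2, h3, h4⟩ | ⟨-, h⟩ | ⟨-, h⟩ | ⟨-, h⟩ | ⟨k, i1, i2, m, hm, h⟩
  · left
    exact ⟨Nat.card H, cyc p H h2 h1, Or.inl ⟨h2, rfl⟩⟩
  · right; left
    exact ⟨S, H, h1, ⟨MulEquiv.refl _⟩⟩
  · left
    exact ⟨Nat.card C, cyc p C h2 h3, Or.inr h4⟩
  · exact Or.inr (Or.inr (Or.inl h))
  · exact Or.inr (Or.inr (Or.inr (Or.inl h)))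
  · exact Or.inr (Or.inr (Or.inr (Or.inr (Or.inl h))))
  · refine Or.inr (Or.inr (Or.inr (Or.inr (Or.inr ⟨k, i1, i2, m, hm, ?_⟩))))
    rcases h with h | ⟨-, h⟩
    · exact Or.inr h
    · exact Or.inl h

end Cfsg.Agent.S0799
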