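import Cfsg.Statements.S0806
import Cfsg.Agent.H9.Dk14

set_option autoImplicit false
open Cfsg

namespace Cfsg.Agent.S0806

/-- Minimal index (Galois): if q ∉ {2, 3, 5, 7, 9, 11} then every proper subgroup of PSL_2(q) has index ≥ q + 1, and some subgroup has index exactly q + 1. -/
theorem result {F : Type*} [Field F] [Fintype F] {q : ℕ} (hF : Fintype.card F = q) (hq : q ∉ ({2, 3, 5, 7, 9, 11} : Finset ℕ)) : (∀ H : Subgroup (Matrix.ProjectiveSpecialLinearGroup (Fin 2) F), H ≠ ⊤ → q + 1 ≤ H.index) ∧ ∃ H : Subgroup (Matrix.ProjectiveSpecialLinearGroup (Fin 2) F), H.index = q + 1 := by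
  classical
  subst hF
  obtain ⟨p, hp⟩ := CharP.exists F
  haveI : Fact p.Prime := ⟨(CharP.char_is_prime_or_zero F p).resolve_right (CharP.char_ne_zero_of_finite F p)⟩
  refine ⟨fun H hH => ?_, CfsgH9.Dk.BB F, CfsgH9.Dk.BB_index⟩
  have hcard : Nat.gcd 2 (Fintype.card F - 1) * Nat.card (Matrix.ProjectiveSpecialLinearGroup (Fin 2) F) = Fintype.card F * (Fintype.card F - 1) * (Fintype.card F + 1) := CfsgH9.Dk.card_psl
  set q := Fintype.card F with hqd
  set d := Nat.gcd 2 (q - 1) with hd
  have hq1 : 1 < q := Fintype.one_lt_card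
  have hd2 : d ≤ 2 := Nat.gcd_le_left _ (by norm_num)
  have hd0 : 0 < d := Nat.gcd_pos_of_pos_left _ (by norm_num)
  have hdq : d ∣ q - 1 := Nat.gcd_dvd_right _ _
  have hq4 : 4 ≤ q ∧ (d = 2 → 13 ≤ q) := by
    simp only [Finset.mem_insert, Finset.mem_singleton, not_or] at hq
    constructor
    · omega
    · intro h2
      rw [h2] at hdq
      omega
  by_contra hcon
  push Not at hcon
  have hi := Subgroup.card_mul_index H
  have hHpos : 0 < Nat.card H := Nat.card_pos
  have hfinG : Nat.card (Matrix.ProjectiveSpecialLinearGroup (Fin 2) F) ≠ 0 := Nat.card_pos.ne'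
  have hidx0 : H.index ≠ 0 := Subgroup.index_ne_zero_of_finite
  have hbig : (q - 1) * (q + 1) ≤ d * Nat.card H := by
    have h1 : d * Nat.card H * H.index = q * ((q - 1) * (q + 1)) := by
      rw [mul_assoc, hi]
      rw [hcard]; ring
    have h2 : d * Nat.card H * H.index ≤ d * Nat.card H * q := Nat.mul_le_mul_left _ (by omega)
    rw [h1, mul_comm] at h2
    exact Nat.le_of_mul_le_mul_right h2 (by omega)
  obtain ⟨r, hr⟩ : ∃ r, q = r + 4 := ⟨q - 4, by omega⟩
  have hexp : (q - 1) * (q + 1) = r * r + 8 * r + 15 := by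
    rw [hr]
    have : r + 4 - 1 = r + 3 := by omega
    rw [this]; ring
  have htop : Nat.card H ≠ Nat.card (Matrix.ProjectiveSpecialLinearGroup (Fin 2) F) := by
    intro h
    exact hH (Subgroup.eq_top_of_card_eq H h)
  have hsmall : ∀ n : ℕ, Nat.card H = n → n ≤ 60 → (q = 4 → n ≤ 14 ∨ ¬ n ∣ 60 ∨ n = 60) → False := by
    intro n hn h60 h4
    rw [hn, hexp] at hbig
    by_cases hq4' : q = 4
    · have hr0 : r = 0 := by omega
      have hd1 : d = 1 := by
        rw [hd, hq4']; rfl
      rw [hr0, hd1] at hbig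
      rw [hq4', hd1] at hcard
      have hG : Nat.card (Matrix.ProjectiveSpecialLinearGroup (Fin 2) F) = 60 := by
        have h5 : 1 * Nat.card (Matrix.ProjectiveSpecialLinearGroup (Fin 2) F) = 4 * (4 - 1) * (4 + 1) := hcard
        omega
      rcases h4 hq4' with h | h | h
      · omega
      · apply h
        rw [← hn, ← hG]; exact Subgroup.card_subgroup_dvd_card _
      · exact htop (by rw [hn, h, hG])
    · by_cases h2 : d = 2
      · have h13 := hq4.2 h2
        have h9 : 9 ≤ r := by omega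
        have : 9 * 9 ≤ r * r := Nat.mul_le_mul h9 h9
        rw [h2] at hbig
        omega
      · have hd1 : d = 1 := by omega
        have hq8 : 8 ≤ q := by
          have h2' : Even q := by
            by_contra hodd
            rw [Nat.not_even_iff_odd] at hodd
            apply h2
            rw [hd]
            exact Nat.gcd_eq_left (by obtain ⟨t, ht⟩ := hodd; exact ⟨t, by omega⟩)
          obtain ⟨f, hpf, hff⟩ := FiniteField.card F p
          rw [← hqd] at hff
          have hp2 : p = 2 := by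
            have : 2 ∣ p ^ (f : ℕ) := by rw [← hff]; exact h2'.two_dvd
            exact ((Nat.prime_dvd_prime_iff_eq Nat.prime_two hpf).1 (Nat.prime_two.dvd_of_dvd_pow this)).symm
          rw [hp2] at hff
          have : 3 ≤ (f : ℕ) := by
            by_contra h
            have : (f : ℕ) ≤ 2 := by omega
            have := Nat.pow_le_pow_right (show 1 ≤ 2 by norm_num) this
            omega
          have := Nat.pow_le_pow_right (show 1 ≤ 2 by norm_num) this
          omega
        have h9 : 4 ≤ r := by omega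
        have : 4 * 4 ≤ r * r := Nat.mul_le_mul h9 h9
        rw [hd1] at hbig
        omega
  rcases CfsgH9.Dk.dickson_psl p H with ⟨h1, h2⟩ | ⟨S, h1, -⟩ | ⟨C, h1, h2, h3, ⟨h4⟩⟩ | ⟨-, h⟩ | ⟨-, h⟩ | ⟨-, h⟩ | ⟨k, i1, i2, m, hm, h⟩
  · have : d * Nat.card H ≤ q + 1 := CfsgH9.Dk.cyc_le p H h2 h1
    have h3 : 0 ≤ r * r := Nat.zero_le _
    omega
  · have h2 := Subgroup.index_dvd_of_le h1
    rw [CfsgH9.Dk.norm_sylow_index p S, ← hqd] at h2
    have := Nat.le_of_dvd (Nat.pos_of_ne_zero hidx0) h2
    omega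
  · have h5 : d * Nat.card C ≤ q + 1 := CfsgH9.Dk.cyc_le p C h2 h3
    have h6 : Nat.card H = 2 * Nat.card C := by rw [Nat.card_congr h4.toEquiv, DihedralGroup.nat_card]
    rw [h6] at hbig
    have h7 : d * (2 * Nat.card C) = 2 * (d * Nat.card C) := by ring
    rw [h7] at hbig
    have h3 : 0 ≤ r * r := Nat.zero_le _
    omega
  · obtain ⟨h⟩ := h
    exact hsmall 12 (by rw [Nat.card_congr h.toEquiv, CfsgH9.Dk.cA4]) (by norm_num) (fun _ => Or.inl (by norm_num))
  · obtain ⟨h⟩ := h
    exact hsmall 24 (by rw [Nat.card_congr h.toEquiv, CfsgH9.Dk.cS4]) (by norm_num) (fun _ => Or.inr (Or.inl (by norm_num)))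
  · obtain ⟨h⟩ := h
    exact hsmall 60 (by rw [Nat.card_congr h.toEquiv, CfsgH9.Dk.cA5]) (by norm_num) (fun _ => Or.inr (Or.inr rfl))
  · set Q := Fintype.card k with hQ
    have hQ1 : 1 < Q := Fintype.one_lt_card
    have hHle : Nat.card H = Q * (Q - 1) * (Q + 1) ∨ (Odd Q ∧ 2 * Nat.card H = Q * (Q - 1) * (Q + 1)) := CfsgH9.Dk.card_sub h
    have hm0 : m ≠ 0 := by
      rintro rfl
      rw [pow_zero] at hm
      omega
    by_cases hm1 : m = 1
    · rw [hm1, pow_one] at hm
      exact hH (CfsgH9.Dk.sub_top hm h)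
    · have hQ2 : Q * Q ≤ q := by
        rw [hqd, ← hm, ← pow_two]
        exact Nat.pow_le_pow_right (by omega) (by omega)
      obtain ⟨s, hs⟩ : ∃ s, Q = s + 2 := ⟨Q - 2, by omega⟩
      have hHle' : Nat.card H ≤ Q * (Q - 1) * (Q + 1) := by
        rcases hHle with h1 | ⟨-, h1⟩ <;> omega
      have e1 : Q * (Q - 1) * (Q + 1) + Q = Q * (Q * Q) := by
        rw [hs]
        have : s + 2 - 1 = s + 1 := by omega
        rw [this]; ring
      have e2 : Q * (Q * Q) ≤ Q * q := Nat.mul_le_mul_left _ hQ2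
      have e3 : Nat.card H ≤ Q * (q - 1) := by
        have : Q * (q - 1) = Q * q - Q := by rw [Nat.mul_sub, mul_one]
        rw [this]
        omega
      have e4 : 2 * Q < q + 1 := by
        have : 2 * Q < Q * Q + 1 := by
          rw [hs]
          have : (s + 2) * (s + 2) + 1 = s * s + 4 * s + 5 := by ring
          omega
        omega
      have e5 : d * Nat.card H ≤ 2 * Q * (q - 1) := by
        calc d * Nat.card H ≤ 2 * (Q * (q - 1)) := Nat.mul_le_mul hd2 e3
          _ = _ := by ring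
      have e6 : 2 * Q * (q - 1) < (q + 1) * (q - 1) := Nat.mul_lt_mul_of_pos_right e4 (by omega)
      rw [mul_comm (q + 1)] at e6
      omega

end Cfsg.Agent.S0806
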