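import Cfsg.Statements.S0808
import Cfsg.Agent.H9.SLt5

set_option autoImplicit false
open Cfsg

namespace Cfsg.Agent.S0808

/-- Conjugacy classes of four-groups in PSL_2(q), q odd: if q ≡ 3 or 5 (mod 8) all Klein four-subgroups are conjugate; if q ≡ 1 or 7 (mod 8) there are two Klein four-subgroups which are not conjugate, and every Klein four-subgroup is conjugate to one of them. -/
theorem result {F : Type*} [Field F] [Fintype F] {q : ℕ} (hF : Fintype.card F = q) (hodd : Odd q) : ((q % 8 = 3 ∨ q % 8 = 5) → ∀ V W : Subgroup (Matrix.ProjectiveSpecialLinearGroup (Fin 2) F), IsKleinFour V → IsKleinFour W → ∃ g : Matrix.ProjectiveSpecialLinearGroup (Fin 2) F, W = V.map (MulAut.conj g).toMonoidHom) ∧ ((q % 8 = 1 ∨ q % 8 = 7) → ∃ V₁ V₂ : Subgroup (Matrix.ProjectiveSpecialLinearGroup (Fin 2) F), IsKleinFour V₁ ∧ IsKleinFour V₂ ∧ (¬ ∃ g : Matrix.ProjectiveSpecialLinearGroup (Fin 2) F, V₂ = V₁.map (MulAut.conj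 g).toMonoidHom) ∧ ∀ W : Subgroup (Matrix.ProjectiveSpecialLinearGroup (Fin 2) F), IsKleinFour W → (∃ g : Matrix.ProjectiveSpecialLinearGroup (Fin 2) F, W = V₁.map (MulAut.conj g).toMonoidHom) ∨ (∃ g : Matrix.ProjectiveSpecialLinearGroup (Fin 2) F, W = V₂.map (MulAut.conj g).toMonoidHom)) := by
  classical
  have h2 := CfsgH9.SLt.two_ne_zero_of_card (F := F) (by rw [hF]; exact hodd)
  constructor
  · intro hq V W hV hW
    have hF' : Fact (Nat.Prime 2) := ⟨Nat.prime_two⟩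
    obtain ⟨P⟩ : Nonempty (Sylow 2 (Matrix.ProjectiveSpecialLinearGroup (Fin 2) F)) := inferInstance
    obtain ⟨a, ha⟩ := Cfsg.Agent.S0276.conj_syl hF hq P hV
    obtain ⟨b, hb⟩ := Cfsg.Agent.S0276.conj_syl hF hq P hW
    refine ⟨b⁻¹ * a, ?_⟩
    have h3 : (W.map (MulAut.conj b).toMonoidHom).map (MulAut.conj b⁻¹).toMonoidHom = (V.map (MulAut.conj a).toMonoidHom).map (MulAut.conj b⁻¹).toMonoidHom := by
      rw [← ha, ← hb]
    rw [Subgroup.map_map, Subgroup.map_map] at h3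
    have e1 : (MulAut.conj b⁻¹).toMonoidHom.comp (MulAut.conj b).toMonoidHom = MonoidHom.id _ := by
      ext x; simp
    have e2 : (MulAut.conj b⁻¹).toMonoidHom.comp (MulAut.conj a).toMonoidHom = (MulAut.conj (b⁻¹ * a)).toMonoidHom := by
      ext x; simp [mul_assoc]
    rw [e1, e2, Subgroup.map_id] at h3
    exact h3
  · intro hq
    have hsq : IsSquare (2 : F) := FiniteField.isSquare_two_iff.mpr (by rw [hF]; omega)
    obtain ⟨r, hr⟩ := hsq
    have hr' : r * r = 2 := hr.symm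
    obtain ⟨i, j, hij⟩ := CfsgH9.SLt.exists_q8 (F := F)
    have hij' : CfsgH9.SLt.QP i j := hij
    have hc1 := CfsgH9.SLt.card_PC h2 hij'
    have hc := CfsgH9.SLt.card_QP (F := F) h2
    have hpos : 0 < Nat.card (CfsgH7.SL2 F) := Nat.card_pos
    -- a pair outside of the first orbit
    have hex : ∃ u v : CfsgH7.SL2 F, CfsgH9.SLt.QP u v ∧ ¬ CfsgH9.SLt.PC (i, j) (u, v) := by
      by_contra hcon
      push Not at hcon
      have : Nat.card {p : CfsgH7.SL2 F × CfsgH7.SL2 F // CfsgH9.SLt.QP p.1 p.2} ≤ Nat.card {p : CfsgH7.SL2 F × CfsgH7.SL2 F // CfsgH9.SLt.PC (i, j) p} :=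
        Nat.card_le_card_of_injective (fun p => ⟨p.1, hcon _ _ p.2⟩) (fun a b hab => Subtype.ext (congrArg (fun t : {p : CfsgH7.SL2 F × CfsgH7.SL2 F // CfsgH9.SLt.PC (i, j) p} => t.1) hab))
      omega
    obtain ⟨u, v, huv, hno⟩ := hex
    have hc2 := CfsgH9.SLt.card_PC h2 huv
    have hall : ∀ p : CfsgH7.SL2 F × CfsgH7.SL2 F, CfsgH9.SLt.QP p.1 p.2 → CfsgH9.SLt.PC (i, j) p ∨ CfsgH9.SLt.PC (u, v) p := by
      have h3 : ({p | CfsgH9.SLt.PC (i, j) p} ∪ {p | CfsgH9.SLt.PC (u, v) p} : Set (CfsgH7.SL2 F × CfsgH7.SL2 F)) = {p | CfsgH9.SLt.QP p.1 p.2} := by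
        apply Set.eq_of_subset_of_ncard_le
        · rintro p (hp | hp)
          · exact CfsgH9.SLt.PC.qp hp hij'
          · exact CfsgH9.SLt.PC.qp hp huv
        · rw [Set.ncard_union_eq _ (Set.toFinite _) (Set.toFinite _)]
          · have a1 : ({p | CfsgH9.SLt.PC (i, j) p} : Set (CfsgH7.SL2 F × CfsgH7.SL2 F)).ncard = Nat.card {p : CfsgH7.SL2 F × CfsgH7.SL2 F // CfsgH9.SLt.PC (i, j) p} := rfl
            have a2 : ({p | CfsgH9.SLt.PC (u, v) p} : Set (CfsgH7.SL2 F × CfsgH7.SL2 F)).ncard = Nat.card {p : CfsgH7.SL2 F × CfsgH7.SL2 F // CfsgH9.SLt.PC (u, v) p} := rfl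
            have a3 : ({p | CfsgH9.SLt.QP p.1 p.2} : Set (CfsgH7.SL2 F × CfsgH7.SL2 F)).ncard = Nat.card {p : CfsgH7.SL2 F × CfsgH7.SL2 F // CfsgH9.SLt.QP p.1 p.2} := rfl
            rw [a1, a2, a3]
            omega
          · rw [Set.disjoint_left]
            intro p hp hp'
            exact hno (CfsgH9.SLt.PC.trans hp (CfsgH9.SLt.PC.symm hp'))
        · exact Set.toFinite _
      intro p hp
      have h4 : p ∈ {p : CfsgH7.SL2 F × CfsgH7.SL2 F | CfsgH9.SLt.QP p.1 p.2} := hp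
      rw [← h3] at h4
      exact h4
    refine ⟨CfsgH9.SLt.KV hij', CfsgH9.SLt.KV huv, CfsgH9.SLt.isKleinFour_KV h2 _, CfsgH9.SLt.isKleinFour_KV h2 _, ?_, ?_⟩
    · rintro ⟨g, hg⟩
      obtain ⟨c, rfl⟩ := CfsgH9.SLt.pr_surjective g
      have hp : CfsgH9.SLt.PC (i, j) (c * i * c⁻¹, c * j * c⁻¹) := ⟨c, rfl, rfl⟩
      have hq' := CfsgH9.SLt.PC.qp hp hij'
      have h5 := CfsgH9.SLt.KV_map hij' hq' rfl rfl
      rw [← hg] at h5
      exact hno (hp.trans (CfsgH9.SLt.pc_klein hq' huv hr' h2 h5))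
    · intro W hW
      obtain ⟨x, y, hxy, rfl⟩ := CfsgH9.SLt.exists_QP h2 hW
      rcases hall (x, y) hxy with ⟨c, e1, e2⟩ | ⟨c, e1, e2⟩
      · left; exact ⟨CfsgH9.SLt.pr c, CfsgH9.SLt.KV_map hij' hxy e1 e2⟩
      · right; exact ⟨CfsgH9.SLt.pr c, CfsgH9.SLt.KV_map huv hxy e1 e2⟩

end Cfsg.Agent.S0808
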