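import Cfsg.Statements.S0810
import Cfsg.Agent.H9.Dk27
import Cfsg.Agent.S0804

set_option autoImplicit false
open Cfsg

namespace Cfsg.Agent.S0810

/-- PSL_2(q) is minimal simple iff q is 2^r (r prime), 3^r (r an odd prime), a prime greater than 5 congruent to 2 or 3 mod 5, or 5. -/
theorem result {F : Type*} [Field F] [Fintype F] {q : ℕ} (hF : Fintype.card F = q) : Cfsg.IsMinimalSimple (Matrix.ProjectiveSpecialLinearGroup (Fin 2) F) ↔ ((∃ r : ℕ, r.Prime ∧ q = 2 ^ r) ∨ (∃ r : ℕ, r.Prime ∧ r ≠ 2 ∧ q = 3 ^ r) ∨ (q.Prime ∧ 5 < q ∧ (q % 5 = 2 ∨ q % 5 = 3)) ∨ q = 5) := by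
  classical
  subst hF
  have hcard : Nat.gcd 2 (Fintype.card F - 1) * Nat.card (Matrix.ProjectiveSpecialLinearGroup (Fin 2) F) = Fintype.card F * (Fintype.card F - 1) * (Fintype.card F + 1) := CfsgH9.Dk.card_psl
  obtain ⟨p, hp⟩ := CharP.exists F
  haveI : Fact p.Prime := ⟨(CharP.char_is_prime_or_zero F p).resolve_right (CharP.char_ne_zero_of_finite F p)⟩
  have hpp : p.Prime := Fact.out
  obtain ⟨f', hpf, hff⟩ := FiniteField.card F p
  obtain ⟨f, hf0, hf'⟩ : ∃ f : ℕ, 0 < f ∧ Fintype.card F = p ^ f := ⟨f', f'.pos, hff⟩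
  clear hff
  have hq1 : 1 < Fintype.card F := Fintype.one_lt_card
  have e1 : Fintype.card F * (Fintype.card F ^ 2 - 1) = Fintype.card F * (Fintype.card F - 1) * (Fintype.card F + 1) := (CfsgH9.Dk.card_expand _ (by omega)).symm
  constructor
  · rintro ⟨hs, hnc, hsol⟩
    have hns : ¬ Group.IsSolvable (Matrix.ProjectiveSpecialLinearGroup (Fin 2) F) := by
      intro h
      haveI := hs
      exact hnc ⟨⟨IsSimpleGroup.comm_iff_isSolvable.2 h⟩⟩
    have hno : ∀ a b : ℕ, a * b = f → 2 ≤ b → 4 ≤ p ^ a → False := by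
      intro a b hab hb ha
      have ha0 : a ≠ 0 := by
        rintro rfl
        rw [pow_zero] at ha; omega
      letI : Fintype (GaloisField p a) := Fintype.ofFinite _
      have hK : Fintype.card (GaloisField p a) = p ^ a := by
        rw [← Nat.card_eq_fintype_card]; exact GaloisField.card p a ha0
      obtain ⟨H, h1, h2⟩ := CfsgH9.Dk.sub_nonsolv (F := F) (k := GaloisField p a) (m := b) (by rw [hK, hf', ← pow_mul, hab]) hb (by rw [hK]; exact ha)
      exact h2 (hsol H h1)
    have hcomp : 2 ≤ f → 4 ≤ p ^ 2 → f.Prime := by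
      intro h2 h4
      by_contra hnp
      obtain ⟨a, ⟨b, hb⟩, ha2, haf⟩ := Nat.exists_dvd_of_not_prime2 h2 hnp
      refine hno a b hb.symm ?_ (h4.trans (Nat.pow_le_pow_right hpp.pos ha2))
      by_contra hb2
      have : b = 0 ∨ b = 1 := by omega
      rcases this with rfl | rfl <;> omega
    have hA5 : 5 ∣ Fintype.card F * (Fintype.card F ^ 2 - 1) → 60 < Nat.card (Matrix.ProjectiveSpecialLinearGroup (Fin 2) F) → False := by
      intro h5 h60
      obtain ⟨H, ⟨e⟩⟩ := (Cfsg.Agent.S0804.result (F := F) rfl).2 h5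
      refine CfsgH9.Dk.A5_nonsolv (CfsgH9.Dk.solv_congr e.symm (hsol H ?_))
      intro h
      have h1 : Nat.card H = 60 := by rw [Nat.card_congr e.toEquiv, CfsgH9.Dk.cA5]
      rw [h, Subgroup.card_top] at h1
      omega
    by_cases hp2 : p = 2
    · left
      subst hp2
      have hf2 : 2 ≤ f := by
        by_contra h
        have hf1 : f = 1 := by omega
        have hq2 : Fintype.card F = 2 := by rw [hf', hf1, pow_one]
        rw [hq2] at hcard
        exact hns (CfsgH9.Dk.card_solv (Or.inl (by simpa using hcard)))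
      exact ⟨f, hcomp hf2 (by norm_num), hf'⟩
    · right
      have ho : Odd (Fintype.card F) := by rw [hf']; exact (hpp.odd_of_ne_two hp2).pow
      rw [CfsgH9.Dk.d_odd ho] at hcard
      by_cases hp3 : p = 3
      · left
        subst hp3
        have hf2 : 2 ≤ f := by
          by_contra h
          have hf1 : f = 1 := by omega
          have hq2 : Fintype.card F = 3 := by rw [hf', hf1, pow_one]
          rw [hq2] at hcard
          exact hns (CfsgH9.Dk.card_solv (Or.inr (Or.inl (by omega))))
        refine ⟨f, hcomp hf2 (by norm_num), ?_, hf'⟩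
        rintro rfl
        have hq9 : Fintype.card F = 9 := by rw [hf']; norm_num
        apply hA5
        · rw [hq9]; norm_num
        · rw [hq9] at hcard; omega
      · right
        have hp5 : 5 ≤ p := by
          have := hpp.two_le
          by_contra h
          have h4 : p = 4 := by omega
          rw [h4] at hpp
          norm_num at hpp
        have hf1 : f = 1 := by
          by_contra h
          exact hno 1 f (one_mul f) (by omega) (by rw [pow_one]; omega)
        have hqp : Fintype.card F = p := by rw [hf', hf1, pow_one]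
        by_cases h5 : p = 5
        · right; rw [hqp, h5]
        · left
          rw [hqp]
          refine ⟨hpp, by omega, ?_⟩
          by_contra hcon
          have h50 : p % 5 ≠ 0 := by
            intro h
            exact h5 ((Nat.prime_dvd_prime_iff_eq (by norm_num) hpp).1 (Nat.dvd_of_mod_eq_zero h)).symm
          apply hA5
          · rw [e1, hqp, (show Nat.Prime 5 by norm_num).dvd_mul, (show Nat.Prime 5 by norm_num).dvd_mul]
            omega
          · have h7 : 7 ≤ p := by
              by_contra h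
              have : p = 6 := by omega
              rw [this] at hpp
              norm_num at hpp
            rw [hqp] at hcard
            have h8 : 7 * 6 * 8 ≤ p * (p - 1) * (p + 1) := Nat.mul_le_mul (Nat.mul_le_mul h7 (by omega)) (by omega)
            omega
  · intro hq
    have h4 : 4 ≤ Fintype.card F := by
      rcases hq with ⟨r, hr, h⟩ | ⟨r, hr, hr2, h⟩ | ⟨h, h5, -⟩ | h
      · rw [h]
        calc 4 = 2 ^ 2 := by norm_num
          _ ≤ 2 ^ r := Nat.pow_le_pow_right (by norm_num) hr.two_le
      · rw [h]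
        calc 4 ≤ 3 ^ 2 := by norm_num
          _ ≤ 3 ^ r := Nat.pow_le_pow_right (by norm_num) hr.two_le
      · omega
      · omega
    refine ⟨CfsgH9.Dk.simple_PS h4, ?_, ?_⟩
    · rintro ⟨⟨h⟩⟩
      obtain ⟨a, b, hab⟩ := CfsgH9.Dk.nc_PS h4
      exact hab (h a b)
    · intro H hH
      have hpq : ∀ ℓ r : ℕ, ℓ.Prime → Fintype.card F = ℓ ^ r → p = ℓ := by
        intro ℓ r hℓ h
        have h1 : p ∣ ℓ ^ r := by rw [← h, hf']; exact dvd_pow_self p hf0.ne'
        exact (Nat.prime_dvd_prime_iff_eq hpp hℓ).1 (hpp.dvd_of_dvd_pow h1)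
      have hsub : ∀ ℓ r : ℕ, ℓ.Prime → r.Prime → ℓ ≤ 3 → Fintype.card F = ℓ ^ r → ∀ κ m : ℕ, κ ^ m = Fintype.card F → m = 1 ∨ κ ≤ 3 := by
        intro ℓ r hℓ hr h3 h κ m hm
        have hm0 : m ≠ 0 := by
          rintro rfl
          rw [pow_zero] at hm; omega
        have h1 : κ ∣ ℓ ^ r := by rw [← h, ← hm]; exact dvd_pow_self κ hm0
        obtain ⟨b, -, hb⟩ := (Nat.dvd_prime_pow hℓ).1 h1
        rw [hb, h, ← pow_mul] at hm
        have h2 : b * m = r := Nat.pow_right_injective hℓ.two_le hm
        rcases (Nat.dvd_prime hr).1 (Dvd.intro _ h2) with h5 | h5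
        · right; rw [hb, h5, pow_one]; exact h3
        · left
          rw [h5] at h2
          exact Nat.eq_of_mul_eq_mul_left hr.pos (by rw [h2, mul_one])
      have hsubp : (Fintype.card F).Prime → ∀ κ m : ℕ, κ ^ m = Fintype.card F → m = 1 ∨ κ ≤ 3 := by
        intro h κ m hm
        left
        rw [← hm] at h
        exact Nat.Prime.eq_one_of_pow h
      have hA5 : ∀ H : Subgroup (Matrix.ProjectiveSpecialLinearGroup (Fin 2) F), Nonempty (H ≃* alternatingGroup (Fin 5)) → 5 ∣ Fintype.card F * (Fintype.card F - 1) * (Fintype.card F + 1) := by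
        intro H h
        rw [← e1]
        exact (Cfsg.Agent.S0804.result (F := F) rfl).1 ⟨H, h⟩
      rcases hq with ⟨r, hr, h⟩ | ⟨r, hr, hr2, h⟩ | ⟨h, h5, h'⟩ | h
      · refine CfsgH9.Dk.proper_solv p ?_ (hsub 2 r Nat.prime_two hr (by norm_num) h) H hH
        rintro K hK ⟨e⟩
        have h1 : Nat.card K = 60 := by rw [Nat.card_congr e.toEquiv, CfsgH9.Dk.cA5]
        rw [h1, hpq 2 r Nat.prime_two h] at hK
        norm_num at hK
      · refine CfsgH9.Dk.proper_solv p ?_ (hsub 3 r Nat.prime_three hr (by norm_num) h) H hH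
        rintro K - he
        have h1 := hA5 K he
        obtain ⟨t, ht⟩ := hr.odd_of_ne_two hr2
        have hQ3 : Fintype.card F % 5 = 3 ∨ Fintype.card F % 5 = 2 := by
          rw [h, ht, pow_succ, pow_mul, Nat.mul_mod, Nat.pow_mod]
          norm_num
          rcases Nat.even_or_odd t with ⟨s, hs⟩ | ⟨s, hs⟩
          · left
            rw [hs, ← two_mul, pow_mul]
            norm_num [Nat.mul_mod, Nat.pow_mod]
          · right
            rw [hs, pow_succ, pow_mul]
            norm_num [Nat.mul_mod, Nat.pow_mod]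
        rw [(show Nat.Prime 5 by norm_num).dvd_mul, (show Nat.Prime 5 by norm_num).dvd_mul] at h1
        omega
      · refine CfsgH9.Dk.proper_solv p ?_ (hsubp h) H hH
        rintro K - he
        have h1 := hA5 K he
        rw [(show Nat.Prime 5 by norm_num).dvd_mul, (show Nat.Prime 5 by norm_num).dvd_mul] at h1
        omega
      · have h5 : (Fintype.card F).Prime := by rw [h]; norm_num
        refine CfsgH9.Dk.proper_solv p ?_ (hsubp h5) H hH
        rintro K hK ⟨e⟩
        have h1 : Nat.card K = 60 := by rw [Nat.card_congr e.toEquiv, CfsgH9.Dk.cA5]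
        rw [h1, hpq 5 1 (by norm_num) (by rw [h, pow_one])] at hK
        norm_num at hK

end Cfsg.Agent.S0810
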