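import Cfsg.Statements.S0811
import Cfsg.Agent.H9.Dk26

set_option autoImplicit false
open Cfsg

namespace Cfsg.Agent.S0811

/-- For q ∉ {2, 7, 9}, PSL_2(q) has a maximal subgroup isomorphic to the dihedral group of order 2(q + 1)/d, d = gcd(2, q − 1). -/
theorem result {F : Type*} [Field F] [Fintype F] {q : ℕ} (hF : Fintype.card F = q) (hq : q ∉ ({2, 7, 9} : Finset ℕ)) : ∃ H : Subgroup (Matrix.ProjectiveSpecialLinearGroup (Fin 2) F), IsCoatom H ∧ Nonempty (H ≃* DihedralGroup ((q + 1) / Nat.gcd 2 (q - 1))) := by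
  classical
  subst hF
  have hcard : Nat.gcd 2 (Fintype.card F - 1) * Nat.card (Matrix.ProjectiveSpecialLinearGroup (Fin 2) F) = Fintype.card F * (Fintype.card F - 1) * (Fintype.card F + 1) := CfsgH9.Dk.card_psl
  obtain ⟨p, hp⟩ := CharP.exists F
  haveI : Fact p.Prime := ⟨(CharP.char_is_prime_or_zero F p).resolve_right (CharP.char_ne_zero_of_finite F p)⟩
  have hpp : p.Prime := Fact.out
  have hq1 : 1 < Fintype.card F := Fintype.one_lt_card
  obtain ⟨hd1, hd2, hd3, hd4⟩ := CfsgH9.Dk.d_facts (F := F)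
  simp only [Finset.mem_insert, Finset.mem_singleton, not_or] at hq
  obtain ⟨hq2, hq7, hq9⟩ := hq
  obtain ⟨f, hpf, hff⟩ := FiniteField.card F p
  have hpq : p ∣ Fintype.card F := by rw [hff]; exact dvd_pow_self _ f.pos.ne'
  obtain ⟨z, hz, hcz⟩ := CfsgH9.Dk.exists_nonsplit (F := F)
  have hT := CfsgH9.Dk.TT_card z
  rw [hcz] at hT
  have hn : Nat.card (CfsgH9.Dk.TT z) = (Fintype.card F + 1) / Nat.gcd 2 (Fintype.card F - 1) := by
    rw [← hT, Nat.mul_div_cancel_left _ hd1]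
  obtain ⟨D, t, w, hTt, hTD, hwD, hw, hinv, hwT, hot, hcD, hD⟩ := CfsgH9.Dk.exists_DD hz
  refine ⟨D, ?_, by rw [← hn]; exact hD⟩
  have hcop := CfsgH9.Dk.card_TT_coprime p hz
  generalize Nat.card (CfsgH9.Dk.TT z) = n at hT hn hot hcD hD hcop
  have hgcd : (Odd (Fintype.card F) ∧ Nat.gcd 2 (Fintype.card F - 1) = 2) ∨ (Even (Fintype.card F) ∧ Nat.gcd 2 (Fintype.card F - 1) = 1) := by
    rcases Nat.even_or_odd (Fintype.card F) with h | h
    · exact Or.inr ⟨h, CfsgH9.Dk.d_even h⟩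
    · exact Or.inl ⟨h, CfsgH9.Dk.d_odd h⟩
  have hnn : (Odd (Fintype.card F) ∧ 2 * n = Fintype.card F + 1) ∨ (Even (Fintype.card F) ∧ n = Fintype.card F + 1) := by
    rcases hgcd with ⟨h, h'⟩ | ⟨h, h'⟩
    · left; rw [h'] at hT; exact ⟨h, hT⟩
    · right; rw [h', one_mul] at hT; exact ⟨h, hT⟩
  by_cases hq3 : Fintype.card F = 3
  · -- q = 3
    have hn2 : n = 2 := by
      rcases hnn with ⟨-, h⟩ | ⟨⟨s, h⟩, -⟩ <;> omega
    have hG : Nat.card (Matrix.ProjectiveSpecialLinearGroup (Fin 2) F) = 12 := by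
      rcases hgcd with ⟨-, h⟩ | ⟨⟨s, h⟩, -⟩
      · rw [h, hq3] at hcard; omega
      · omega
    refine CfsgH9.Dk.coatom_of ?_ ?_
    · intro h
      have h1 : Nat.card D = Nat.card (Matrix.ProjectiveSpecialLinearGroup (Fin 2) F) := by rw [h, Subgroup.card_top]
      omega
    · intro H hDH hH
      have h1 : Nat.card D ∣ Nat.card H := Subgroup.card_dvd_of_le hDH
      have h2 : Nat.card H ∣ Nat.card (Matrix.ProjectiveSpecialLinearGroup (Fin 2) F) := Subgroup.card_subgroup_dvd_card H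
      rw [hG] at h2
      have h3 := Nat.le_of_dvd (by norm_num) h2
      have h4 : Nat.card H ≠ 12 := by
        intro h
        exact hH (Subgroup.eq_top_of_card_eq H (by rw [h, hG]))
      rw [hcD, hn2] at h1 ⊢
      interval_cases Nat.card H <;> omega
  have hn3 : 3 ≤ n := by
    rcases hnn with ⟨⟨s, hs⟩, h⟩ | ⟨⟨s, hs⟩, h⟩ <;> omega
  have hodd : (Odd (Fintype.card F)) → p ≠ 2 := by
    rintro ⟨s, hs⟩ rfl
    omega
  refine CfsgH9.Dk.coatom_of ?_ ?_
  · intro h
    have h1 : Nat.card D = Nat.card (Matrix.ProjectiveSpecialLinearGroup (Fin 2) F) := by rw [h, Subgroup.card_top]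
    rw [← h1, hcD] at hcard
    have h5 : Nat.gcd 2 (Fintype.card F - 1) * (2 * n) = 2 * (Fintype.card F + 1) := by rw [← hT]; ring
    rw [h5] at hcard
    have h6 := Nat.eq_of_mul_eq_mul_right (by omega) hcard
    have h7 : 3 * 2 ≤ Fintype.card F * (Fintype.card F - 1) := Nat.mul_le_mul (by rcases hnn with ⟨⟨s, hs⟩, h⟩ | ⟨⟨s, hs⟩, h⟩ <;> omega) (by rcases hnn with ⟨⟨s, hs⟩, h⟩ | ⟨⟨s, hs⟩, h⟩ <;> omega)
    omega
  · intro H hDH hH
    have htD : t ∈ D := hTD (by rw [hTt]; exact Subgroup.mem_zpowers t)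
    have htT : t ∈ CfsgH9.Dk.TT z := by rw [hTt]; exact Subgroup.mem_zpowers t
    rcases CfsgH9.Dk.dih_cases p htD hwD hw (hinv t htT) hot hn3 hcop hcD hDH with ⟨C, h1, h2, h3, h4⟩ | ⟨h1, h2, h3⟩ | ⟨h1, h2, h3⟩ | ⟨k, i1, i2, m, hm, h1, h2⟩
    · have h5 := CfsgH9.Dk.cyc_le p C h1 h2
      rw [← hT] at h5
      have h6 := Nat.le_of_mul_le_mul_left h5 hd1
      rw [h3, hcD]; omega
    · exfalso
      rw [h3] at h1
      have hp2 : p ≠ 2 := by rintro rfl; exact h1 (by norm_num)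
      have hp3 : p ≠ 3 := by rintro rfl; exact h1 (by norm_num)
      rcases hnn with ⟨ho, h⟩ | ⟨ho, h⟩
      · have hq5 : Fintype.card F = 5 := by omega
        have h5 : Nat.card H ∣ Nat.card (Matrix.ProjectiveSpecialLinearGroup (Fin 2) F) := Subgroup.card_subgroup_dvd_card H
        rw [CfsgH9.Dk.d_odd ho, hq5] at hcard
        have h6 : Nat.card (Matrix.ProjectiveSpecialLinearGroup (Fin 2) F) = 60 := by omega
        rw [h3, h6] at h5
        norm_num at h5
      · rw [hff] at ho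
        exact hp2 ((Nat.prime_dvd_prime_iff_eq Nat.prime_two hpp).1 (Nat.prime_two.dvd_of_dvd_pow ho.two_dvd)).symm
    · exfalso
      rw [h3] at h1
      rcases hnn with ⟨ho, h⟩ | ⟨ho, h⟩
      · have hq5 : Fintype.card F = 5 := by omega
        rw [hq5] at hpq
        have hp5 : p = 5 := (Nat.prime_dvd_prime_iff_eq hpp (by norm_num)).1 hpq
        rw [hp5] at h1
        norm_num at h1
      · have hp2 : p = 2 := by
          rw [hff] at ho
          exact ((Nat.prime_dvd_prime_iff_eq Nat.prime_two hpp).1 (Nat.prime_two.dvd_of_dvd_pow ho.two_dvd)).symm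
        rw [hp2] at h1
        norm_num at h1
    · exfalso
      have hk1 : 1 < Fintype.card k := Fintype.one_lt_card
      have hm1 : m ≠ 1 := by
        rintro rfl
        rw [pow_one] at hm
        exact hH (CfsgH9.Dk.sub_top hm h2)
      have hm0 : m ≠ 0 := by
        rintro rfl
        rw [pow_zero] at hm; omega
      have h5 : Fintype.card k ^ 2 ≤ Fintype.card F := by
        rw [← hm]; exact Nat.pow_le_pow_right (by omega) (by omega)
      rcases hnn with ⟨ho, h⟩ | ⟨ho, h⟩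
      · have hko : Odd (Fintype.card k) := by
          rw [← hm] at ho
          exact (Nat.odd_pow_iff hm0).1 ho
        have hk3 : 3 ≤ Fintype.card k := by obtain ⟨s, hs⟩ := hko; omega
        have h6 : 3 * Fintype.card k ≤ Fintype.card k ^ 2 := by rw [pow_two]; exact Nat.mul_le_mul_right _ hk3
        omega
      · have h6 : 2 * Fintype.card k ≤ Fintype.card k ^ 2 := by rw [pow_two]; exact Nat.mul_le_mul_right _ hk1
        omega

end Cfsg.Agent.S0811
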