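import Cfsg.Statements.S0813
import Cfsg.Agent.H6.PSLOut

set_option autoImplicit false
open Cfsg

namespace Cfsg.Agent.S0813

theorem card_ker {F : Type*} [Field F] [Fintype F] (n : ℕ) (hn : 2 ≤ n) :
    Nat.card (CfsgH6.DD n F) = Nat.card (Matrix.ProjGenLinGroup (Fin n) F) := by
  have hk : (CfsgH6.cAut n F).ker = Subgroup.center (GL (Fin n) F) := by
    ext g
    rw [MonoidHom.mem_ker, CfsgH6.cAut_eq_one_iff hn,
      Matrix.GeneralLinearGroup.mem_center_iff_val_mem_range_scalar]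
    constructor
    · rintro ⟨c, hc⟩; exact ⟨c, hc.symm⟩
    · rintro ⟨c, hc⟩; exact ⟨c, hc.symm⟩
  have e1 : (GL (Fin n) F ⧸ (CfsgH6.cAut n F).ker) ≃* (CfsgH6.cAut n F).range :=
    QuotientGroup.quotientKerEquivRange _
  have e2 : (GL (Fin n) F ⧸ (CfsgH6.cAut n F).ker) ≃* (GL (Fin n) F ⧸ Subgroup.center (GL (Fin n) F)) :=
    QuotientGroup.quotientMulEquivOfEq hk
  exact Nat.card_congr (e1.symm.trans e2).toEquiv

theorem card_of_surj {A B : Type*} [Group A] [Group B] (χ : A →* B) (h : Function.Surjective χ) :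
    Nat.card A = Nat.card B * Nat.card χ.ker := by
  rw [Subgroup.card_eq_card_quotient_mul_card_subgroup χ.ker,
    Nat.card_congr (QuotientGroup.quotientKerEquivOfSurjective χ h).toEquiv]

/-- |Aut(PSL_n(q))|, q = p^f: for n ≥ 3 it is 2 f |PGL_n(q)|, and for n = 2 (q ≥ 4) it is f |PGL_2(q)|. -/
theorem result {F : Type*} [Field F] [Fintype F] (p f : ℕ) [Fact p.Prime] (hf : 1 ≤ f) (hF : Fintype.card F = p ^ f) (n : ℕ) (hn : 2 ≤ n) (h2 : n = 2 → 4 ≤ p ^ f) : Nat.card (MulAut (Matrix.ProjectiveSpecialLinearGroup (Fin n) F)) = (if n = 2 then 1 else 2) * f * Nat.card (Matrix.ProjGenLinGroup (Fin n) F) := by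
  obtain ⟨e⟩ := CfsgH6.ringAut_equiv (F := F) hF
  have hf0 : NeZero f := ⟨by omega⟩
  have hc : Nat.card (F ≃+* F) = f := by
    rw [Nat.card_congr e.toEquiv]
    show Nat.card (ZMod f) = f
    rw [Nat.card_eq_fintype_card, ZMod.card]
  by_cases h : n = 2
  · subst h
    obtain ⟨χ, h1, h2⟩ := CfsgH6.exists_equiv_two (F := F)
    rw [card_of_surj χ h1, h2, card_ker 2 le_rfl, hc]
    simp
  · obtain ⟨χ, h1, h2⟩ := CfsgH6.exists_equiv_ge (F := F) (m := n) (by omega)
    rw [card_of_surj χ h1, h2, card_ker n hn, Nat.card_prod, hc, if_neg h]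
    have : Nat.card (Multiplicative (ZMod 2)) = 2 := by
      show Nat.card (ZMod 2) = 2
      rw [Nat.card_eq_fintype_card, ZMod.card]
    rw [this]; ring

end Cfsg.Agent.S0813
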