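import Cfsg.Statements.S0819
import Cfsg.Agent.H9.U32

set_option autoImplicit false
open Cfsg

namespace Cfsg.Agent.S0819

open Matrix in
theorem ch3 {F : Type*} [Field F] (Y : Matrix (Fin 3) (Fin 3) F) : ∃ s t : F, Y * Y * Y - s • (Y * Y) + t • Y - Y.det • (1 : Matrix (Fin 3) (Fin 3) F) = 0 ∧
    ∀ a : F, (Y - a • (1 : Matrix (Fin 3) (Fin 3) F)).det = - (a ^ 3 - s * a ^ 2 + t * a - Y.det) := by
  refine ⟨Y 0 0 + Y 1 1 + Y 2 2, (Y 0 0 * Y 1 1 - Y 0 1 * Y 1 0) + (Y 0 0 * Y 2 2 - Y 0 2 * Y 2 0) + (Y 1 1 * Y 2 2 - Y 1 2 * Y 2 1), ?_, ?_⟩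
  · ext i j
    fin_cases i <;> fin_cases j <;> simp [Matrix.mul_apply, Fin.sum_univ_three, Matrix.det_fin_three] <;> ring
  · intro a
    simp only [Matrix.det_fin_three, Matrix.sub_apply, Matrix.smul_apply, Matrix.one_apply, smul_eq_mul]
    simp
    ring

open Matrix in
theorem main_aux {F : Type*} [Field F] [Fintype F] (hF : Fintype.card F = 4) (w : F) (hw : w ^ 2 + w + 1 = 0) (X Y : Matrix (Fin 3) (Fin 3) F)
    (hY : Y * Y * Y = 1) (hYd : Y.det = 1) (hYs : ¬ ∃ c : F, Y = c • (1 : Matrix (Fin 3) (Fin 3) F)) (hXd : X.det ≠ 0) (hXY : X * Y = Y * X) : X * X * X = 1 := by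
  classical
  have hw0 : w ≠ 0 := by
    rintro rfl
    simp at hw
  have hw1 : w ≠ 1 := by
    rintro rfl
    have h4 : ((4 : ℕ) : F) = 0 := by rw [← hF]; exact Nat.cast_card_eq_zero F
    have h1 : (1 : F) = 0 := by
      push_cast at h4
      linear_combination h4 - hw
    exact one_ne_zero h1
  have hw3 : w ^ 3 = 1 := by linear_combination (w - 1) * hw
  obtain ⟨s, t, h1, h2⟩ := ch3 Y
  rw [hY, hYd, one_smul] at h1
  have h3 : s • (Y * Y) = t • Y := by
    have : s • (Y * Y) = t • Y - (1 - s • (Y * Y) + t • Y - 1) := by abel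
    rw [this, h1, sub_zero]
  have h4 : s • Y = t • (1 : Matrix (Fin 3) (Fin 3) F) := by
    have h5 := congrArg (fun Z => Z * (Y * Y)) h3
    simp only [smul_mul_assoc] at h5
    rw [show Y * Y * (Y * Y) = (Y * Y * Y) * Y by simp only [mul_assoc], show Y * (Y * Y) = Y * Y * Y by simp only [mul_assoc], hY, one_mul] at h5
    exact h5
  have hs : s = 0 := by
    by_contra hne
    apply hYs
    refine ⟨s⁻¹ * t, ?_⟩
    rw [mul_smul, ← h4, smul_smul, inv_mul_cancel₀ hne, one_smul]
  have ht : t = 0 := by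
    rw [hs, zero_smul] at h4
    have := congrFun (congrFun h4 0) 0
    simpa using this.symm
  let d : Fin 3 → F := ![1, w, w ^ 2]
  have hd3 : ∀ i, d i ^ 3 = 1 := by
    intro i
    fin_cases i
    · simp [d]
    · simp [d, hw3]
    · change (w ^ 2) ^ 3 = 1
      rw [← pow_mul, mul_comm, pow_mul, hw3, one_pow]
  have hdi : Function.Injective d := by
    have e1 : (1 : F) ≠ w := fun h => hw1 h.symm
    have e2 : (1 : F) ≠ w ^ 2 := by
      intro h
      apply hw1
      have : w ^ 3 = w := by rw [pow_succ, ← h, one_mul]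
      rw [← this, hw3]
    have e3 : w ≠ w ^ 2 := by
      intro h
      apply hw1
      have : w * (w - 1) = 0 := by linear_combination -h
      exact sub_eq_zero.1 ((mul_eq_zero.1 this).resolve_left hw0)
    intro i j hij
    fin_cases i <;> fin_cases j
    · rfl
    · exact absurd hij e1
    · exact absurd hij e2
    · exact absurd hij.symm e1
    · rfl
    · exact absurd hij e3
    · exact absurd hij.symm e2
    · exact absurd hij.symm e3
    · rfl
  have hev : ∀ i, ∃ v : Fin 3 → F, v ≠ 0 ∧ Y *ᵥ v = d i • v := by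
    intro i
    have h5 := h2 (d i)
    rw [hs, ht, hYd, hd3 i] at h5
    have h6 : (Y - d i • (1 : Matrix (Fin 3) (Fin 3) F)).det = 0 := by rw [h5]; ring
    obtain ⟨v, hv, hv2⟩ := Matrix.exists_mulVec_eq_zero_iff.2 h6
    refine ⟨v, hv, ?_⟩
    rw [sub_mulVec, smul_mulVec, one_mulVec] at hv2
    exact sub_eq_zero.1 hv2
  choose v hv0 hv using hev
  have hli : LinearIndependent F v := by
    refine Module.End.eigenvectors_linearIndependent' (Matrix.mulVecLin Y) d hdi v (fun i => ?_)
    rw [Module.End.hasEigenvector_iff]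
    refine ⟨?_, hv0 i⟩
    rw [Module.End.mem_eigenspace_iff]
    exact hv i
  let P : Matrix (Fin 3) (Fin 3) F := (Matrix.of v)ᵀ
  have hPu : IsUnit P := by
    rw [← Matrix.linearIndependent_cols_iff_isUnit]
    exact hli
  have hPY : Y * P = P * diagonal d := by
    ext i j
    rw [Matrix.mul_diagonal]
    have h5 := congrFun (hv j) i
    change (∑ k, Y i k * v j k) = v j i * d j
    rw [mul_comm]
    exact h5
  obtain ⟨U, hU⟩ := hPu
  set Q : Matrix (Fin 3) (Fin 3) F := ((U⁻¹ : (Matrix (Fin 3) (Fin 3) F)ˣ) : Matrix (Fin 3) (Fin 3) F) with hQ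
  have hQP : Q * P = 1 := by rw [← hU, hQ, Units.inv_mul]
  have hPQ : P * Q = 1 := by rw [← hU, hQ, Units.mul_inv]
  set Z := Q * X * P with hZ
  have hZd : Z * diagonal d = diagonal d * Z := by
    have e1 : diagonal d = Q * (Y * P) := by rw [hPY, ← mul_assoc, hQP, one_mul]
    calc Z * diagonal d = Q * X * (P * Q) * (Y * P) := by rw [hZ, e1]; simp only [mul_assoc]
      _ = Q * (X * Y) * P := by rw [hPQ]; simp only [mul_assoc, mul_one]
      _ = Q * Y * (P * Q) * (X * P) := by rw [hXY, hPQ]; simp only [mul_assoc, mul_one]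
      _ = diagonal d * Z := by rw [hZ, e1]; simp only [mul_assoc]
  have hZdet : Z.det ≠ 0 := by
    have h5 : Q.det * P.det = 1 := by rw [← Matrix.det_mul, hQP, Matrix.det_one]
    rw [hZ, Matrix.det_mul, Matrix.det_mul]
    have : Q.det * X.det * P.det = X.det := by linear_combination X.det * h5
    rw [this]; exact hXd
  have hZoff : ∀ i j, i ≠ j → Z i j = 0 := by
    intro i j hij
    have h5 := congrFun (congrFun hZd i) j
    rw [Matrix.mul_diagonal, Matrix.diagonal_mul] at h5
    have h6 : Z i j * (d j - d i) = 0 := by linear_combination h5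
    rcases mul_eq_zero.1 h6 with h | h
    · exact h
    · exact absurd (hdi (sub_eq_zero.1 h)).symm hij
  have hZdiag : Z = diagonal (fun i => Z i i) := by
    ext i j
    by_cases hij : i = j
    · rw [hij, Matrix.diagonal_apply_eq]
    · rw [hZoff i j hij, Matrix.diagonal_apply_ne _ hij]
  have hZ3 : Z * Z * Z = 1 := by
    rw [hZdiag, Matrix.diagonal_mul_diagonal, Matrix.diagonal_mul_diagonal, ← Matrix.diagonal_one]
    congr 1
    ext i
    have h5 : Z i i ≠ 0 := by
      intro h
      apply hZdet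
      rw [hZdiag, Matrix.det_diagonal]
      exact Finset.prod_eq_zero (Finset.mem_univ i) h
    have := FiniteField.pow_card_sub_one_eq_one (Z i i) h5
    rw [hF] at this
    rw [← this]; ring
  have hX : X = P * Z * Q := by
    rw [hZ]
    calc X = (P * Q) * X * (P * Q) := by rw [hPQ, one_mul, mul_one]
      _ = _ := by simp only [mul_assoc]
  calc X * X * X = P * Z * (Q * P) * Z * (Q * P) * Z * Q := by rw [hX]; simp only [mul_assoc]
    _ = P * (Z * Z * Z) * Q := by rw [hQP]; simp only [mul_assoc, mul_one]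
    _ = 1 := by rw [hZ3, mul_one, hPQ]

/-- No element of PSL_3(4) has order 15. -/
theorem result {F : Type*} [Field F] [Fintype F] (hF : Fintype.card F = 4) (g : Matrix.ProjectiveSpecialLinearGroup (Fin 3) F) : orderOf g ≠ 15 := by
  classical
  intro hg
  have hc3 : ∀ z ∈ Subgroup.center (Matrix.SpecialLinearGroup (Fin 3) F), z ^ 3 = 1 := by
    intro z hz
    obtain ⟨c, hc, hcz⟩ := Matrix.SpecialLinearGroup.mem_center_iff.1 hz
    rw [Fintype.card_fin] at hc
    apply Subtype.ext
    have : (z ^ 3 : Matrix.SpecialLinearGroup (Fin 3) F).1 = z.1 ^ 3 := rfl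
    rw [this, ← hcz, ← map_pow, hc, map_one]; rfl
  have hcc : ∀ z ∈ Subgroup.center (Matrix.SpecialLinearGroup (Fin 3) F), ∀ X, z * X = X * z := fun z hz X => ((Subgroup.mem_center_iff.1 hz) X).symm
  let π := QuotientGroup.mk' (Subgroup.center (Matrix.SpecialLinearGroup (Fin 3) F))
  have hπ : ∀ X, π X = 1 ↔ X ∈ Subgroup.center (Matrix.SpecialLinearGroup (Fin 3) F) := fun X => QuotientGroup.eq_one_iff X
  obtain ⟨w, hw, -⟩ := CfsgH9.U32.exists_w hF
  obtain ⟨G, hG⟩ := QuotientGroup.mk'_surjective (Subgroup.center (Matrix.SpecialLinearGroup (Fin 3) F)) g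
  have hG' : π G = g := hG
  have hg15 : g ^ 15 = 1 := by rw [← hg]; exact pow_orderOf_eq_one g
  have hG15 : G ^ 15 ∈ Subgroup.center (Matrix.SpecialLinearGroup (Fin 3) F) := by
    rw [← hπ, map_pow, hG', hg15]
  -- X = G^3 * z with X^5 = 1
  set z := G ^ 15 with hz
  have hzG : Commute z G := hcc z hG15 G
  have hz3 : z ^ 3 = 1 := hc3 z hG15
  set X := G ^ 3 * z with hX
  have hX5 : X ^ 5 = 1 := by
    rw [hX, ((hzG.pow_right 3).symm).mul_pow, ← pow_mul]
    change G ^ 15 * z ^ 5 = 1
    rw [← hz, ← pow_succ']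
    have : z ^ (5 + 1) = (z ^ 3) ^ 2 := (pow_mul z 3 2)
    rw [this, hz3, one_pow]
  have hπX : π X = g ^ 3 := by
    rw [hX, map_mul, map_pow, hG', (hπ z).2 hG15, mul_one]
  set Y := G ^ 5 with hY
  have hXY : X * Y = Y * X := by
    rw [hX, hY]
    have e1 : Commute (G ^ 3) (G ^ 5) := (Commute.refl G).pow_pow 3 5
    have e2 : Commute z (G ^ 5) := hzG.pow_right 5
    exact (e1.mul_left e2).eq
  have hYns : ¬ Y ∈ Subgroup.center (Matrix.SpecialLinearGroup (Fin 3) F) := by
    rw [← hπ, hY, map_pow, hG']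
    intro h
    have := Nat.le_of_dvd (by norm_num) (orderOf_dvd_of_pow_eq_one h)
    omega
  -- Y^3 = c scalar
  have hY3 : Y ^ 3 ∈ Subgroup.center (Matrix.SpecialLinearGroup (Fin 3) F) := by
    rw [hY, ← pow_mul]; exact hG15
  have hX1 : X ≠ 1 := by
    intro h
    rw [h, map_one] at hπX
    have := Nat.le_of_dvd (by norm_num) (orderOf_dvd_of_pow_eq_one hπX.symm)
    omega
  -- fixed vectors of X
  have hfix : ∃ v : Fin 3 → F, v ≠ 0 ∧ X.1.mulVec v = v ∧ ∀ u : Fin 3 → F, X.1.mulVec u = u → ∃ a : F, u = a • v := by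
    let f : Function.End (Fin 3 → F) := fun v => X.1.mulVec v
    have hfp : ∀ n : ℕ, ∀ v, (f ^ n) v = (X ^ n : Matrix.SpecialLinearGroup (Fin 3) F).1.mulVec v := by
      intro n
      induction n with
      | zero => intro v; simp; rfl
      | succ n ih =>
        intro v
        rw [pow_succ, pow_succ]
        change (f ^ n) (f v) = (X ^ n * X : Matrix.SpecialLinearGroup (Fin 3) F).1.mulVec v
        rw [ih]
        change (X ^ n : Matrix.SpecialLinearGroup (Fin 3) F).1.mulVec (X.1.mulVec v) = ((X ^ n : Matrix.SpecialLinearGroup (Fin 3) F).1 * X.1).mulVec v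
        rw [Matrix.mulVec_mulVec]
    haveI : Fact (Nat.Prime 5) := ⟨by norm_num⟩
    have h1 : f ^ 5 ^ 1 = 1 := by
      funext v
      rw [pow_one, hfp, hX5]
      simp
      rfl
    have h2 := Equiv.Perm.card_fixedPoints_modEq (p := 5) (n := 1) h1
    let K : Submodule F (Fin 3 → F) := LinearMap.ker (Matrix.mulVecLin (X.1 - 1))
    have hK : ∀ v, v ∈ K ↔ X.1.mulVec v = v := by
      intro v
      rw [LinearMap.mem_ker, Matrix.mulVecLin_apply, Matrix.sub_mulVec, Matrix.one_mulVec, sub_eq_zero]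
    have h3 : Fintype.card f.fixedPoints = Fintype.card K := by
      apply Fintype.card_congr
      exact Equiv.subtypeEquivRight (fun v => (hK v).symm)
    rw [h3, Fintype.card_fun, Fintype.card_fin, hF] at h2
    have h4 : Fintype.card K = 4 ^ Module.finrank F K := by
      rw [Module.card_eq_pow_finrank (K := F), hF]
    rw [h4] at h2
    have h5 : Module.finrank F K ≤ 3 := by
      have := Submodule.finrank_le K
      rwa [Module.finrank_fin_fun] at this
    have h6 : Module.finrank F K = 1 := by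
      have h7 : Module.finrank F K ≠ 3 := by
        intro h
        apply hX1
        have h8 : K = ⊤ := Submodule.eq_top_of_finrank_eq (by rw [h, Module.finrank_fin_fun])
        apply Subtype.ext
        apply Matrix.ext_of_mulVec_single
        intro i
        rw [(hK _).1 (by rw [h8]; trivial)]
        change _ = (1 : Matrix (Fin 3) (Fin 3) F).mulVec _
        rw [Matrix.one_mulVec]
      generalize Module.finrank F K = n at h2 h5 h7
      interval_cases n
      · exact absurd h2 (by decide)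
      · rfl
      · exact absurd h2 (by decide)
      · exact absurd rfl h7
    obtain ⟨v, hv0, hv⟩ := finrank_eq_one_iff'.1 h6
    refine ⟨v, fun h => hv0 (Subtype.ext h), (hK v).1 v.2, fun u hu => ?_⟩
    obtain ⟨a, ha⟩ := hv ⟨u, (hK u).2 hu⟩
    exact ⟨a, (congrArg Subtype.val ha).symm⟩
  obtain ⟨v, hv0, hv, hvu⟩ := hfix
  have hXYm : X.1 * Y.1 = Y.1 * X.1 := congrArg Subtype.val hXY
  obtain ⟨a, ha⟩ := hvu (Y.1.mulVec v) (by rw [Matrix.mulVec_mulVec, hXYm, ← Matrix.mulVec_mulVec, hv])
  obtain ⟨c, hc, hcY⟩ := Matrix.SpecialLinearGroup.mem_center_iff.1 hY3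
  have hY3' : Y.1 * Y.1 * Y.1 = Matrix.scalar (Fin 3) c := by
    rw [hcY]
    change _ = (Y ^ 3 : Matrix.SpecialLinearGroup (Fin 3) F).1
    rw [pow_succ, pow_two]; rfl
  have hac : a ^ 3 = c := by
    have h5 : (Y.1 * Y.1 * Y.1).mulVec v = a ^ 3 • v := by
      rw [← Matrix.mulVec_mulVec, ← Matrix.mulVec_mulVec, ha, Matrix.mulVec_smul, ha, Matrix.mulVec_smul, Matrix.mulVec_smul, ha, smul_smul, smul_smul]
      congr 1; ring
    rw [hY3'] at h5
    have h6 : (Matrix.scalar (Fin 3) c).mulVec v = c • v := by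
      ext i
      rw [Matrix.scalar_apply, Matrix.mulVec_diagonal]; rfl
    rw [h6] at h5
    by_contra hne
    apply hv0
    have h7 : (a ^ 3 - c) • v = 0 := by rw [sub_smul, h5, sub_self]
    exact (smul_eq_zero.1 h7).resolve_left (sub_ne_zero.2 hne)
  have hc1 : c = 1 := by
    have hc0 : c ≠ 0 := by
      rintro rfl
      rw [Fintype.card_fin] at hc
      simp at hc
    have ha0 : a ≠ 0 := by
      rintro rfl
      apply hc0
      rw [← hac]; simp
    have := FiniteField.pow_card_sub_one_eq_one a ha0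
    rw [hF] at this
    rw [← hac]; exact this
  have hY31 : Y.1 * Y.1 * Y.1 = 1 := by rw [hY3', hc1, map_one]
  have hX3 := main_aux hF w hw X.1 Y.1 hY31 Y.2 (by
    rintro ⟨e, he⟩
    apply hYns
    rw [Matrix.SpecialLinearGroup.mem_center_iff]
    refine ⟨e, ?_, ?_⟩
    · have h5 := Y.2
      rw [he, Matrix.det_smul, Matrix.det_one, mul_one] at h5
      exact h5
    · rw [he]
      ext i j
      simp [Matrix.scalar_apply, Matrix.diagonal_apply, Matrix.one_apply]) (by rw [X.2]; exact one_ne_zero) hXYm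
  have hX3' : X ^ 3 = 1 := by
    apply Subtype.ext
    rw [pow_succ, pow_two]
    exact hX3
  have h8 : orderOf X ∣ 3 := orderOf_dvd_of_pow_eq_one hX3'
  have h9 : orderOf X ∣ 5 := orderOf_dvd_of_pow_eq_one hX5
  apply hX1
  rw [← orderOf_eq_one_iff]
  exact Nat.eq_one_of_dvd_coprimes (by norm_num : Nat.Coprime 3 5) h8 h9

end Cfsg.Agent.S0819
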