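import Cfsg.Statements.S0820

set_option autoImplicit false
open Cfsg

namespace Cfsg.Agent.S0820

open Matrix in
theorem normal_form {F : Type*} [Field F] (N : Matrix (Fin 3) (Fin 3) F) (hN : N * N = 0) (hN0 : N ≠ 0) :
    ∃ P : Matrix.SpecialLinearGroup (Fin 3) F, N * P.1 = P.1 * !![0, 0, 0; 1, 0, 0; 0, 0, 0] := by
  classical
  obtain ⟨v, hv⟩ : ∃ v : Fin 3 → F, N *ᵥ v ≠ 0 := by
    by_contra h
    push Not at h
    apply hN0
    apply Matrix.ext_of_mulVec_single
    intro i
    rw [h, zero_mulVec]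
  set u := N *ᵥ v with hu
  have hNu : N *ᵥ u = 0 := by rw [hu, mulVec_mulVec, hN, zero_mulVec]
  let f := Matrix.mulVecLin N
  have hfk : LinearMap.range f ≤ LinearMap.ker f := by
    rintro _ ⟨x, rfl⟩
    rw [LinearMap.mem_ker]
    change N *ᵥ (N *ᵥ x) = 0
    rw [mulVec_mulVec, hN, zero_mulVec]
  have hdim := LinearMap.finrank_range_add_finrank_ker f
  rw [Module.finrank_fin_fun] at hdim
  have h1 := Submodule.finrank_mono hfk
  have h2 : ¬ LinearMap.ker f ≤ Submodule.span F {u} := by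
    intro h
    have h3 := Submodule.finrank_mono h
    have h4 := finrank_span_singleton (K := F) hv
    omega
  obtain ⟨k, hk, hku⟩ := SetLike.not_le_iff_exists.1 h2
  have hNk : N *ᵥ k = 0 := hk
  let M : Matrix (Fin 3) (Fin 3) F := !![v 0, u 0, k 0; v 1, u 1, k 1; v 2, u 2, k 2]
  have hMc : ∀ x : Fin 3 → F, M *ᵥ x = x 0 • v + x 1 • u + x 2 • k := by
    intro x
    ext i
    fin_cases i <;> simp [M, mulVec, dotProduct, Fin.sum_univ_three] <;> ring
  have hdet : M.det ≠ 0 := by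
    intro h
    obtain ⟨x, hx0, hx⟩ := Matrix.exists_mulVec_eq_zero_iff.2 h
    rw [hMc] at hx
    have h3 := congrArg (fun y => N *ᵥ y) hx
    simp only [mulVec_add, mulVec_smul, hNu, hNk, smul_zero, add_zero, mulVec_zero] at h3
    have hx0' : x 0 = 0 := (smul_eq_zero.1 h3).resolve_right hv
    rw [hx0', zero_smul, zero_add] at hx
    have hx2 : x 2 = 0 := by
      by_contra hne
      apply hku
      rw [Submodule.mem_span_singleton]
      refine ⟨-(x 2)⁻¹ * x 1, ?_⟩
      have h5 : k = (x 2)⁻¹ • (x 2 • k) := by rw [smul_smul, inv_mul_cancel₀ hne, one_smul]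
      have h6 : x 2 • k = - (x 1 • u) := eq_neg_of_add_eq_zero_right hx
      rw [h5, h6]
      module
    rw [hx2, zero_smul, add_zero] at hx
    have hx1 : x 1 = 0 := (smul_eq_zero.1 hx).resolve_right hv
    apply hx0
    ext i
    fin_cases i
    · exact hx0'
    · exact hx1
    · exact hx2
  let D : Matrix (Fin 3) (Fin 3) F := !![1, 0, 0; 0, 1, 0; 0, 0, (M.det)⁻¹]
  have hDdet : D.det = (M.det)⁻¹ := by simp [D, Matrix.det_fin_three]
  refine ⟨⟨M * D, by rw [Matrix.det_mul, hDdet, mul_inv_cancel₀ hdet]⟩, ?_⟩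
  change N * (M * D) = M * D * !![0, 0, 0; 1, 0, 0; 0, 0, 0]
  have hNM : N * M = M * !![0, 0, 0; 1, 0, 0; 0, 0, 0] := by
    apply Matrix.ext_of_mulVec_single
    intro i
    rw [← mulVec_mulVec, hMc, ← mulVec_mulVec, hMc, mulVec_add, mulVec_add, mulVec_smul, mulVec_smul, mulVec_smul, hNu, hNk, ← hu]
    fin_cases i <;> simp [mulVec, dotProduct, Fin.sum_univ_three]
  rw [← mul_assoc, hNM, mul_assoc, mul_assoc]
  congr 1
  ext i j
  fin_cases i <;> fin_cases j <;> simp [D, Matrix.mul_apply, Fin.sum_univ_three]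

open Matrix in
theorem lift_inv {F : Type*} [Field F] [Fintype F] (hF : Fintype.card F = 4) (h2 : (2 : F) = 0) (x : Matrix.ProjectiveSpecialLinearGroup (Fin 3) F) (hx : orderOf x = 2) :
    ∃ X : Matrix.SpecialLinearGroup (Fin 3) F, QuotientGroup.mk' (Subgroup.center (Matrix.SpecialLinearGroup (Fin 3) F)) X = x ∧ X * X = 1 ∧ X ≠ 1 := by
  classical
  obtain ⟨X, hX⟩ := QuotientGroup.mk'_surjective (Subgroup.center (Matrix.SpecialLinearGroup (Fin 3) F)) x
  have hx2 : x * x = 1 := by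
    have := pow_orderOf_eq_one x
    rwa [hx, pow_two] at this
  have h3 : X * X ∈ Subgroup.center (Matrix.SpecialLinearGroup (Fin 3) F) := by
    rw [← QuotientGroup.ker_mk' (Subgroup.center (Matrix.SpecialLinearGroup (Fin 3) F)), MonoidHom.mem_ker, map_mul, hX, hx2]
  have hc3 : ∀ z ∈ Subgroup.center (Matrix.SpecialLinearGroup (Fin 3) F), z * z * z = 1 := by
    intro z hz
    obtain ⟨c, hc, hcz⟩ := Matrix.SpecialLinearGroup.mem_center_iff.1 hz
    rw [Fintype.card_fin] at hc
    apply Subtype.ext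
    have : (z * z * z : Matrix.SpecialLinearGroup (Fin 3) F).1 = z.1 * z.1 * z.1 := rfl
    rw [this, ← hcz, ← map_mul, ← map_mul]
    have h4 : c * c * c = 1 := by rw [← hc]; ring
    rw [h4, map_one]; rfl
  set z := X * X with hz
  have hzX : z * X = X * z := by rw [hz, mul_assoc]
  refine ⟨z * X, ?_, ?_, ?_⟩
  · rw [map_mul, hX]
    have : QuotientGroup.mk' (Subgroup.center (Matrix.SpecialLinearGroup (Fin 3) F)) z = 1 := by
      rw [← MonoidHom.mem_ker, QuotientGroup.ker_mk']; exact h3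
    rw [this, one_mul]
  · have : z * X * (z * X) = z * z * z := by
      calc z * X * (z * X) = z * (X * z) * X := by group
        _ = z * (z * X) * X := by rw [hzX]
        _ = z * z * (X * X) := by group
        _ = z * z * z := by rw [← hz]
    rw [this]; exact hc3 z h3
  · intro h
    have h5 : x = 1 := by
      have : QuotientGroup.mk' (Subgroup.center (Matrix.SpecialLinearGroup (Fin 3) F)) z = 1 := by
        rw [← MonoidHom.mem_ker, QuotientGroup.ker_mk']; exact h3
      have h6 : x = QuotientGroup.mk' (Subgroup.center (Matrix.SpecialLinearGroup (Fin 3) F)) (z * X) := by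
        rw [map_mul, this, one_mul, hX]
      rw [h6, h, map_one]
    rw [h5, orderOf_one] at hx
    omega

/-- Any two elements of order 2 of PSL_3(4) are conjugate. -/
theorem result {F : Type*} [Field F] [Fintype F] (hF : Fintype.card F = 4) (x y : Matrix.ProjectiveSpecialLinearGroup (Fin 3) F) (hx : orderOf x = 2) (hy : orderOf y = 2) : IsConj x y := by
  classical
  have h2 : (2 : F) = 0 := by
    have h4 : ((4 : ℕ) : F) = 0 := by rw [← hF]; exact Nat.cast_card_eq_zero F
    have h5 : (2 : F) * 2 = 0 := by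
      have : ((4 : ℕ) : F) = 2 * 2 := by norm_num
      rw [← this]; exact h4
    exact mul_self_eq_zero.1 h5
  obtain ⟨X, hX, hX2, hX1⟩ := lift_inv hF h2 x hx
  obtain ⟨Y, hY, hY2, hY1⟩ := lift_inv hF h2 y hy
  have key : ∀ X : Matrix.SpecialLinearGroup (Fin 3) F, X * X = 1 → X ≠ 1 → ∃ P : Matrix.SpecialLinearGroup (Fin 3) F,
      X.1 * P.1 = P.1 * (1 + !![0, 0, 0; 1, 0, 0; 0, 0, 0]) := by
    intro X hX2 hX1
    have e1 : X.1 * X.1 = 1 := congrArg Subtype.val hX2
    obtain ⟨P, hP⟩ := normal_form (X.1 - 1) (by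
      rw [sub_mul, mul_sub, mul_sub, e1, mul_one, one_mul, mul_one]
      have : (1 : Matrix (Fin 3) (Fin 3) F) - X.1 - (X.1 - 1) = (2 : F) • (1 - X.1) := by
        rw [two_smul]; abel
      rw [this, h2, zero_smul]) (by
      intro h
      apply hX1
      apply Subtype.ext
      exact sub_eq_zero.1 h)
    refine ⟨P, ?_⟩
    rw [mul_add, mul_one, ← hP, sub_mul, one_mul]
    abel
  obtain ⟨P, hP⟩ := key X hX2 hX1
  obtain ⟨Q, hQ⟩ := key Y hY2 hY1
  have h3 : Q * P⁻¹ * X * (Q * P⁻¹)⁻¹ = Y := by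
    have h4 : X * P * (Y * Q)⁻¹ = P * Q⁻¹ := by
      have h5 : ∃ J : Matrix.SpecialLinearGroup (Fin 3) F, X * P = P * J ∧ Y * Q = Q * J := by
        refine ⟨P⁻¹ * (X * P), by group, ?_⟩
        apply Subtype.ext
        change Y.1 * Q.1 = Q.1 * ((P⁻¹ : Matrix.SpecialLinearGroup (Fin 3) F).1 * (X.1 * P.1))
        rw [hP, hQ, ← mul_assoc (P⁻¹ : Matrix.SpecialLinearGroup (Fin 3) F).1]
        have : (P⁻¹ : Matrix.SpecialLinearGroup (Fin 3) F).1 * P.1 = 1 := congrArg Subtype.val (inv_mul_cancel P)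
        rw [this, one_mul]
      obtain ⟨J, h6, h7⟩ := h5
      rw [h6, h7]; group
    have h8 : X * P = P * Q⁻¹ * (Y * Q) := by rw [← h4]; group
    have h9 : X = P * Q⁻¹ * (Y * Q) * P⁻¹ := by rw [← h8]; group
    rw [h9]; group
  rw [isConj_iff]
  refine ⟨QuotientGroup.mk' (Subgroup.center (Matrix.SpecialLinearGroup (Fin 3) F)) (Q * P⁻¹), ?_⟩
  rw [← hX, ← hY, ← map_inv, ← map_mul, ← map_mul, h3]

end Cfsg.Agent.S0820
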