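import Cfsg.Statements.S0821
import Cfsg.Agent.H9.Og12
import Cfsg.Agent.H9.SpInv

set_option autoImplicit false
open Cfsg

namespace Cfsg.Agent.S0821

theorem key {F : Type*} [Field F] [Fintype F] (hodd : Odd (Fintype.card F)) (m : ℕ) (hm : 3 ≤ m)
    (e : Cfsg.PSp m F ≃* Cfsg.POmega F (Cfsg.quadFormOdd m F)) : False := by
  have h2 := CfsgH9.Og.two_ne hodd
  have hf := CfsgH9.Og.qf_of_quad (CfsgH9.ClForms.qOdd m F) (CfsgH9.ClForms.nondeg_odd m F h2)
  rw [CfsgH9.ClForms.qOdd_coe] at hf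
  have hc : Fintype.card (Unit ⊕ (Fin m ⊕ Fin m)) = 2 * m + 1 := by
    rw [Fintype.card_sum, Fintype.card_sum, Fintype.card_fin, Fintype.card_unit]; omega
  have hn : 5 ≤ Fintype.card (Unit ⊕ (Fin m ⊕ Fin m)) := by rw [hc]; omega
  have hcen : Subgroup.center (Cfsg.Omega F (Cfsg.quadFormOdd m F)) = ⊥ := by
    apply CfsgH9.Og.center_bot hf hn (Or.inr ?_)
    rintro ⟨g, hg, hg1⟩
    have h4 := CfsgH9.Og.det_eq hf (Or.inl (CfsgH9.Og.two_c (h2 := h2))) g
    have h5 : CfsgH9.Og.dHom hf (Or.inl (CfsgH9.Og.two_c (h2 := h2))) g = 1 := CfsgH9.Og.comm_le_ker _ hg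
    rw [h5, hg1, Matrix.det_neg, Matrix.det_one, hc, mul_one, (show Odd (2 * m + 1) from ⟨m, rfl⟩).neg_one_pow, Units.val_one, Int.cast_one] at h4
    apply h2
    linear_combination -h4
  -- involutions
  have hinv : ∀ a : Fin m, ∃ g : Cfsg.Omega F (Cfsg.quadFormOdd m F), g * g = 1 ∧
      Module.finrank F (CfsgH9.Og.Vg ((g : Cfsg.isometryGroup F (Cfsg.quadFormOdd m F)) : Matrix.GeneralLinearGroup (Unit ⊕ (Fin m ⊕ Fin m)) F)) = 2 * (a + 1) :=
    fun a => CfsgH9.Og.exists_involutions hf h2 m (by rw [hc]) (by omega) (a + 1) (by omega)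
  choose g hg hr using hinv
  have hty : ∀ a : Fin m, ∃ k : Fin (m / 2 + 1), CfsgH9.SpInv.Ty (e.symm (QuotientGroup.mk (g a))) (k : ℕ) := by
    intro a
    obtain ⟨k, hk, h⟩ := CfsgH9.SpInv.exists_ty (F := F) (m := m) (by omega) h2 (z := e.symm (QuotientGroup.mk (g a))) (by
      rw [← map_mul, ← QuotientGroup.mk_mul, hg]
      exact map_one _) (by
      intro h
      have h1 : (QuotientGroup.mk (g a) : Cfsg.POmega F (Cfsg.quadFormOdd m F)) = 1 := by
        apply e.symm.injective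
        rw [h, map_one]
      have h3 : g a ∈ Subgroup.center (Cfsg.Omega F (Cfsg.quadFormOdd m F)) := (QuotientGroup.eq_one_iff _).1 h1
      rw [hcen, Subgroup.mem_bot] at h3
      have h4 := hr a
      rw [h3] at h4
      have h5 : CfsgH9.Og.Vg (1 : Matrix.GeneralLinearGroup (Unit ⊕ (Fin m ⊕ Fin m)) F) = ⊥ := by
        rw [eq_bot_iff]
        rintro _ ⟨y, rfl⟩
        show y - ((1 : Matrix.GeneralLinearGroup (Unit ⊕ (Fin m ⊕ Fin m)) F) : Matrix _ _ F).mulVec y ∈ _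
        rw [Units.val_one, Matrix.one_mulVec, sub_self]; exact Submodule.zero_mem _
      have h6 : Module.finrank F (CfsgH9.Og.Vg (1 : Matrix.GeneralLinearGroup (Unit ⊕ (Fin m ⊕ Fin m)) F)) = 2 * (a + 1) := h4
      rw [h5, finrank_bot] at h6
      omega)
    exact ⟨⟨k, by omega⟩, h⟩
  choose k hk using hty
  obtain ⟨a, b, hab, hkab⟩ := Fintype.exists_ne_map_eq_of_card_lt k (by rw [Fintype.card_fin, Fintype.card_fin]; omega)
  have hb := hk b
  rw [← hkab] at hb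
  obtain ⟨w, hw⟩ := CfsgH9.SpInv.conj_ty h2 (hk a) hb
  obtain ⟨t, ht⟩ := QuotientGroup.mk_surjective (e w)
  have h1 : (QuotientGroup.mk (t * g a * t⁻¹) : Cfsg.POmega F (Cfsg.quadFormOdd m F)) = QuotientGroup.mk (g b) := by
    rw [QuotientGroup.mk_mul, QuotientGroup.mk_mul, QuotientGroup.mk_inv, ht]
    apply e.symm.injective
    rw [map_mul, map_mul, map_inv, MulEquiv.symm_apply_apply]
    exact hw
  have h3 : t * g a * t⁻¹ = g b := by
    have h4 := QuotientGroup.eq.1 h1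
    rw [hcen, Subgroup.mem_bot] at h4
    exact inv_mul_eq_one.1 h4
  have h4 := CfsgH9.Og.finrank_Vg_conj (((g a : Cfsg.Omega F (Cfsg.quadFormOdd m F)) : Cfsg.isometryGroup F (Cfsg.quadFormOdd m F)) : Matrix.GeneralLinearGroup (Unit ⊕ (Fin m ⊕ Fin m)) F)
    ((t : Cfsg.isometryGroup F (Cfsg.quadFormOdd m F)) : Matrix.GeneralLinearGroup (Unit ⊕ (Fin m ⊕ Fin m)) F)
  rw [hr a] at h4
  have h5 := hr b
  rw [← h3] at h5
  have h6 := h4.symm.trans h5
  exact hab (Fin.ext (by omega))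

/-- PSp_2m(q) ≇ PΩ_(2m+1)(q) for q odd and m ≥ 3 (they have the same order). -/
theorem result {F : Type*} [Field F] [Fintype F] (hodd : Odd (Fintype.card F)) (m : ℕ) (hm : 3 ≤ m) : IsEmpty (Cfsg.PSp m F ≃* Cfsg.POmega F (Cfsg.quadFormOdd m F)) := by
  exact ⟨fun e => key hodd m hm e⟩

end Cfsg.Agent.S0821
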