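import Cfsg.Statements.S0823
import Cfsg.Agent.H9.PO2
import Cfsg.Agent.S0298
import Cfsg.Agent.S0242
import Cfsg.Agent.S0264
import Cfsg.Agent.S0265
import Cfsg.Agent.S0266
import Cfsg.Agent.S0286

set_option autoImplicit false
open Cfsg

namespace Cfsg.Agent.S0823

open Matrix Cfsg CfsgH9.Og CfsgH9.ClForms CfsgH9.PO
open Cfsg.Agent.S0298 (rho rho0 rho_one toM toM_rho0 toM_inj frM frM_toM I3)

/-- SO_3(3) ≅ S_4: the determinant-one isometries of the form x_0² + x_1y_1 over the field with 3 elements form a group isomorphic to the symmetric group on 4 letters. -/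
theorem result {F : Type*} [Field F] [Fintype F] (hF : Fintype.card F = 3) : Nonempty (↥(Cfsg.specialIsometryGroup F (Cfsg.quadFormOdd 1 F)) ≃* Equiv.Perm (Fin 4)) := by
  classical
  have h3 : (3 : F) = 0 := by
    have := FiniteField.cast_card_eq_zero F
    rw [hF] at this
    exact_mod_cast this
  have h2 : (2 : F) ≠ 0 := by
    intro h
    have : (1 : F) = 0 := by linear_combination h3 - h
    exact one_ne_zero this
  have hc : ∃ a : F, a ≠ 0 ∧ a ≠ 1 := two_c (h2 := h2)
  have hodd : Odd (Fintype.card F) := by rw [hF]; decide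
  -- determinant one
  have hdet : ∀ g : GL (Fin 2) F, rho g ∈ specialIsometryGroup F (quadFormOdd 1 F) := by
    have hSL : ∀ g : GL (Fin 2) F, g.1.det = 1 → rho g ∈ specialIsometryGroup F (quadFormOdd 1 F) := by
      intro g hg
      have h3 : g ∈ commutator (GL (Fin 2) F) := by
        rw [Cfsg.Agent.S0264.result 2 (fun _ => hc), MonoidHom.mem_ker]
        apply Units.ext
        exact hg
      have h4 : (commutator (GL (Fin 2) F)).map rho ≤ commutator (isometryGroup F (quadFormOdd 1 F)) := by
        rw [commutator_def, Subgroup.map_commutator]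
        exact Subgroup.commutator_mono le_top le_top
      have h5 := h4 ⟨_, h3, rfl⟩
      exact Abelianization.commutator_subset_ker _ h5
    intro g
    set t := g.1.det with ht
    have ht0 : t ≠ 0 := by
      have := (Matrix.isUnit_iff_isUnit_det g.1).1 g.isUnit
      exact this.ne_zero
    have hD : (Matrix.diagonal ![t, 1] : Matrix (Fin 2) (Fin 2) F).det ≠ 0 := by
      rw [Matrix.det_diagonal, Fin.prod_univ_two]; simpa using ht0
    set D : GL (Fin 2) F := Matrix.GeneralLinearGroup.mkOfDetNeZero _ hD with hDd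
    have hDdet : D.1.det = t := by
      change (Matrix.diagonal ![t, 1] : Matrix (Fin 2) (Fin 2) F).det = t
      rw [Matrix.det_diagonal, Fin.prod_univ_two]; simp
    have hs : (D⁻¹ * g).1.det = 1 := by
      have h6 : D.1.det * (D⁻¹ * g).1.det = t := by
        rw [← Matrix.det_mul, ← Units.val_mul, mul_inv_cancel_left]
      rw [hDdet] at h6
      exact mul_left_cancel₀ ht0 (by rw [h6, mul_one])
    have hDm : rho D ∈ specialIsometryGroup F (quadFormOdd 1 F) := by
      change Matrix.GeneralLinearGroup.det (rho0 D) = 1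
      apply Units.ext
      change (rho0 D).1.det = 1
      have hDi : (D⁻¹ : GL (Fin 2) F).1 = Matrix.diagonal ![t⁻¹, 1] := by
        have h7 : D.1 * Matrix.diagonal ![t⁻¹, 1] = 1 := by
          change (Matrix.diagonal ![t, 1] : Matrix (Fin 2) (Fin 2) F) * Matrix.diagonal ![t⁻¹, 1] = 1
          rw [Matrix.diagonal_mul_diagonal, ← Matrix.diagonal_one]
          congr 1
          ext j; fin_cases j <;> simp [ht0]
        calc (D⁻¹ : GL (Fin 2) F).1 = (D⁻¹ : GL (Fin 2) F).1 * (D.1 * Matrix.diagonal ![t⁻¹, 1]) := by rw [h7, Matrix.mul_one]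
          _ = Matrix.diagonal ![t⁻¹, 1] := by rw [← Matrix.mul_assoc, ← Units.val_mul, inv_mul_cancel, Units.val_one, Matrix.one_mul]
      have h8 : (rho0 D).1 = Matrix.diagonal (Sum.elim (fun _ => 1) (Sum.elim (fun _ => t) (fun _ => t⁻¹))) := by
        apply Cfsg.Agent.S0298.ext'
        intro v
        apply Cfsg.Agent.S0298.toM_inj
        rw [toM_rho0, hDi]
        change (Matrix.diagonal ![t, 1] : Matrix (Fin 2) (Fin 2) F) * Cfsg.Agent.S0298.toM v * _ = _
        ext j k
        fin_cases j <;> fin_cases k <;> simp [Cfsg.Agent.S0298.toM, Matrix.mulVec_diagonal, Matrix.mul_apply, Fin.sum_univ_two, Matrix.diagonal_apply]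
        · field_simp
        · ring
      rw [h8, Matrix.det_diagonal, Fintype.prod_sum_type, Fintype.prod_sum_type]
      simp [ht0]
    have h9 : rho g = rho D * rho (D⁻¹ * g) := by rw [← map_mul, mul_inv_cancel_left]
    rw [h9]
    exact Subgroup.mul_mem _ hDm (hSL _ hs)
  let τ : GL (Fin 2) F →* specialIsometryGroup F (quadFormOdd 1 F) := rho.codRestrict _ hdet
  have hker : τ.ker = Subgroup.center (GL (Fin 2) F) := by
    ext g
    rw [MonoidHom.mem_ker]
    constructor
    · intro h
      obtain ⟨c, hc⟩ := rho_one (g := g) (congrArg Subtype.val h)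
      rw [Subgroup.mem_center_iff]
      intro y
      apply Units.ext
      rw [Units.val_mul, Units.val_mul, hc, Matrix.mul_smul, Matrix.smul_mul, Matrix.mul_one, Matrix.one_mul]
    · intro h
      have hs : ∃ c : F, g.1 = c • 1 := by
        apply CfsgH9.PO.scalar_of_comm
        intro i j hij
        have hd : (Matrix.transvection i j (1 : F)).det ≠ 0 := by rw [Matrix.det_transvection_of_ne i j hij]; exact one_ne_zero
        have := congrArg Units.val (Subgroup.mem_center_iff.1 h (Matrix.GeneralLinearGroup.mkOfDetNeZero _ hd))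
        exact this
      obtain ⟨c, hc⟩ := hs
      apply Subtype.ext
      apply Subtype.ext
      apply Units.ext
      change (rho0 g).1 = 1
      apply Cfsg.Agent.S0298.ext'
      intro v
      apply Cfsg.Agent.S0298.toM_inj
      rw [toM_rho0, one_mulVec, hc, Matrix.smul_mul, Matrix.one_mul, Matrix.smul_mul]
      have h7 : c • (g⁻¹ : GL (Fin 2) F).1 = 1 := by
        have : g.1 * (g⁻¹ : GL (Fin 2) F).1 = 1 := by rw [← Units.val_mul, mul_inv_cancel, Units.val_one]
        rw [hc, Matrix.smul_mul, Matrix.one_mul] at this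
        exact this
      rw [← Matrix.mul_smul, h7, Matrix.mul_one]
  -- the isomorphism with PGL
  let φ : Matrix.ProjGenLinGroup (Fin 2) F →* specialIsometryGroup F (quadFormOdd 1 F) := QuotientGroup.lift _ τ (fun g hg => by
    have : g ∈ τ.ker := by rw [hker]; exact hg
    exact this)
  have hφi : Function.Injective φ := by
    rw [injective_iff_map_eq_one]
    intro x hx
    obtain ⟨g, rfl⟩ := QuotientGroup.mk'_surjective _ x
    have h7 : g ∈ τ.ker := hx
    rw [hker] at h7
    exact (QuotientGroup.eq_one_iff g).2 h7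
  have hPGL : Nat.card (Matrix.ProjGenLinGroup (Fin 2) F) = 24 := by
    rw [Cfsg.Agent.S0265.result 2]
    have := Cfsg.Agent.S0242.result hF 2 (by norm_num)
    rw [Fin.prod_univ_two] at this
    have e : (3 ^ 2 - 3 ^ ((0 : Fin 2) : ℕ)) * (3 ^ 2 - 3 ^ ((1 : Fin 2) : ℕ)) = 48 := by decide
    rw [e] at this
    omega
  have hO : Nat.card (isometryGroup F (quadFormOdd 1 F)) = 48 := by
    rw [Cfsg.Agent.S0286.result hF (by decide) 1]; decide
  have hneg : (-1 : Matrix I3 I3 F).det = -1 := by
    rw [Matrix.det_neg, Matrix.det_one, Fintype.card_sum, Fintype.card_sum, Fintype.card_fin, Fintype.card_unit]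
    norm_num
  have hSO : Nat.card (specialIsometryGroup F (quadFormOdd 1 F)) ≤ 24 := by
    have h5 := Subgroup.card_mul_index (specialIsometryGroup F (quadFormOdd 1 F))
    rw [hO] at h5
    have h6 : (specialIsometryGroup F (quadFormOdd 1 F)).index ≠ 1 := by
      intro h7
      rw [Subgroup.index_eq_one] at h7
      have hm : (-1 : GL I3 F) ∈ isometryGroup F (quadFormOdd 1 F) := by
        intro u v
        change quadFormOdd 1 F ((-1 : Matrix I3 I3 F) *ᵥ u) = quadFormOdd 1 F u
        rw [neg_mulVec, one_mulVec, quadFormOdd, quadFormOdd]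
        simp
      have h8 : (⟨-1, hm⟩ : isometryGroup F (quadFormOdd 1 F)) ∈ specialIsometryGroup F (quadFormOdd 1 F) := by rw [h7]; exact Subgroup.mem_top _
      have h9 := congrArg Units.val (show Matrix.GeneralLinearGroup.det (-1 : GL I3 F) = 1 from h8)
      change (-1 : Matrix I3 I3 F).det = 1 at h9
      rw [hneg] at h9
      exact h2 (by linear_combination -h9)
    have h7 : 1 ≤ (specialIsometryGroup F (quadFormOdd 1 F)).index := Nat.one_le_iff_ne_zero.2 Subgroup.FiniteIndex.index_ne_zero
    have h8 : 2 ≤ (specialIsometryGroup F (quadFormOdd 1 F)).index := by omega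
    have h9 := Nat.mul_le_mul_left (Nat.card (specialIsometryGroup F (quadFormOdd 1 F))) h8
    omega
  have hcard1 : Nat.card (Matrix.ProjGenLinGroup (Fin 2) F) = Nat.card (specialIsometryGroup F (quadFormOdd 1 F)) := by
    apply le_antisymm
    · exact Nat.card_le_card_of_injective φ hφi
    · rw [hPGL]; exact hSO
  haveI : Finite (specialIsometryGroup F (quadFormOdd 1 F)) := inferInstance
  let E1 := MulEquiv.ofBijective φ ((Nat.bijective_iff_injective_and_card φ).2 ⟨hφi, hcard1⟩)
  -- the action on the projective line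
  have hP : Nat.card (Projectivization F (Fin 2 → F)) = 4 := by
    rw [Projectivization.card_of_finrank_two F (Fin 2 → F) (by rw [Module.finrank_fintype_fun_eq_card, Fintype.card_fin]), Nat.card_eq_fintype_card, hF]
  haveI : Finite (Projectivization F (Fin 2 → F)) := Nat.finite_of_card_ne_zero (by rw [hP]; norm_num)
  let e4 : Projectivization F (Fin 2 → F) ≃ Fin 4 := Finite.equivFinOfCardEq hP
  let ψ : Matrix.ProjGenLinGroup (Fin 2) F →* Equiv.Perm (Projectivization F (Fin 2 → F)) := MulAction.toPermHom _ _
  have hψ : Function.Injective ψ := by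
    rw [injective_iff_map_eq_one]
    intro g hg
    have hfix : ∀ x : Projectivization F (Fin 2 → F), g • x = x := fun x => by
      have := congrArg (fun s : Equiv.Perm (Projectivization F (Fin 2 → F)) => s x) hg
      exact this
    obtain ⟨a, b, c, hab, hac, hbc⟩ : ∃ a b c : Projectivization F (Fin 2 → F), a ≠ b ∧ a ≠ c ∧ b ≠ c := by
      refine ⟨e4.symm 0, e4.symm 1, e4.symm 2, ?_, ?_, ?_⟩
      · intro h; exact absurd (e4.symm.injective h) (by decide)
      · intro h; exact absurd (e4.symm.injective h) (by decide)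
      · intro h; exact absurd (e4.symm.injective h) (by decide)
    exact (Cfsg.Agent.S0266.result (F := F)).2 g a b c hab hac hbc (hfix a) (hfix b) (hfix c)
  have hcard2 : Nat.card (Matrix.ProjGenLinGroup (Fin 2) F) = Nat.card (Equiv.Perm (Projectivization F (Fin 2 → F))) := by
    rw [hPGL, Nat.card_perm, hP]; rfl
  let E2 := MulEquiv.ofBijective ψ ((Nat.bijective_iff_injective_and_card ψ).2 ⟨hψ, hcard2⟩)
  exact ⟨E1.symm.trans (E2.trans (Equiv.permCongrHom e4))⟩

end Cfsg.Agent.S0823
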