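import Cfsg.Statements.S0824
import Cfsg.Agent.H9.PM2
import Cfsg.Agent.H9.PM3
import Cfsg.Agent.S0288

set_option autoImplicit false
open Cfsg

namespace Cfsg.Agent.S0824

open Matrix Cfsg CfsgH9.PM

/-- O⁻_4(2) ≅ S_5: the isometry group of the form x y + z_1² + z_1 z_2 + z_2² over the field with 2 elements is isomorphic to the symmetric group on 5 letters. -/
theorem result {F : Type*} [Field F] [Fintype F] (hF : Fintype.card F = 2) : Nonempty (↥(Cfsg.isometryGroup F (Cfsg.quadFormMinus 1 F 1 1)) ≃* Equiv.Perm (Fin 5)) := by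
  classical
  have h11 : (1 : ZMod 2) + 1 = 0 := by decide
  have hn : ((5 + 1 : ℕ) : ZMod 2) = 0 := by decide
  haveI : Fact (Nat.Prime 2) := ⟨Nat.prime_two⟩
  have e : ZMod 2 ≃+* F := ZMod.ringEquivOfPrime F Nat.prime_two hF
  let L : ((Fin 1 ⊕ Fin 1) ⊕ Fin 2 → ZMod 2) →ₗ[ZMod 2] E0 5 := (Matrix.mulVecLin P6).codRestrict (E0 5) P6_mem
  have hL : ∀ x, (L x).1 = P6 *ᵥ x := fun x => rfl
  have hLi : Function.Injective L := by
    rw [injective_iff_map_eq_zero]
    intro x hx
    apply P6_inj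
    rw [← hL, hx]; rfl
  have hd := finrank_E0 (n := 5) (by norm_num)
  let φ : ((Fin 1 ⊕ Fin 1) ⊕ Fin 2 → ZMod 2) ≃ₗ[ZMod 2] E0 5 := LinearEquiv.ofInjectiveOfFinrankEq L hLi (by
    rw [Module.finrank_fintype_fun_eq_card, Fintype.card_sum, Fintype.card_sum, Fintype.card_fin, Fintype.card_fin]; omega)
  have hφ : ∀ x, (φ x).1 = P6 *ᵥ x := fun x => rfl
  obtain ⟨ρ, hρ, hinj⟩ := exists_rho (n := 5) hn φ
  let S := {x : Fin 6 // x ≠ Fin.last 5}
  let emb : Equiv.Perm S →* Equiv.Perm (Fin 6) := Equiv.Perm.ofSubtype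
  have hemb : Function.Injective emb := Equiv.Perm.ofSubtype_injective
  have hlast : ∀ s : Equiv.Perm S, (emb s)⁻¹ (Fin.last 5) = Fin.last 5 := by
    intro s
    rw [← map_inv]
    exact Equiv.Perm.ofSubtype_apply_of_not_mem _ (fun h => h rfl)
  have hS : Fintype.card S = 5 := by decide
  have hmem : ∀ s : Equiv.Perm S, ρ (emb s) ∈ isometryGroup (ZMod 2) (quadFormMinus 1 (ZMod 2) 1 1) := by
    intro g u v
    change quadFormMinus 1 (ZMod 2) 1 1 ((ρ (emb g)).1 *ᵥ u) = quadFormMinus 1 (ZMod 2) 1 1 u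
    rw [← P6_q, ← P6_q, ← hφ, ← hφ, hρ]
    have e1 : (T (n := 5) hn (emb g) (φ u)).1 = fun i => (φ u).1 ((emb g)⁻¹ i) := by
      ext i; rw [T_apply, hlast, (φ u).2.2, add_zero]
    rw [e1, wtq, wtq, card_comp (φ u).1 (emb g)⁻¹]
  obtain ⟨f, hf⟩ := exists_isoMap e (QF := quadFormMinus 1 (ZMod 2) 1 1) (QK := quadFormMinus 1 F 1 1) (by
    intro v
    simp only [quadFormMinus, map_sum, map_mul, map_add, map_pow, map_one])
  let g : Equiv.Perm S →* isometryGroup F (quadFormMinus 1 F 1 1) := f.comp ((ρ.comp emb).codRestrict _ hmem)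
  have hg : Function.Injective g := by
    refine hf.comp ?_
    intro a b hab
    exact hemb (hinj (by norm_num) (congrArg Subtype.val hab))
  have hcard : Nat.card (Equiv.Perm S) = Nat.card (isometryGroup F (quadFormMinus 1 F 1 1)) := by
    rw [Nat.card_perm, Nat.card_eq_fintype_card, hS]
    have := Cfsg.Agent.S0288.result hF 2 (by norm_num) 1 1 (by
      intro z₁ z₂ h
      have hz : ∀ z : F, z = 0 ∨ z = 1 := by
        intro z
        obtain ⟨y, rfl⟩ := e.surjective z
        rcases zmod2 y with rfl | rfl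
        · left; exact map_zero e
        · right; exact map_one e
      have h2 : (1 : F) + 1 = 0 := by
        rw [← map_one e, ← map_add]
        have : (1 : ZMod 2) + 1 = 0 := h11
        rw [this, map_zero]
      rcases hz z₁ with rfl | rfl <;> rcases hz z₂ with rfl | rfl
      · exact ⟨rfl, rfl⟩
      · exfalso; apply one_ne_zero (α := F); linear_combination h
      · exfalso; apply one_ne_zero (α := F); linear_combination h
      · exfalso; apply one_ne_zero (α := F); linear_combination h - h2)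
    rw [this]
    decide
  haveI : Finite (isometryGroup F (quadFormMinus 1 F 1 1)) := inferInstance
  have hb : Function.Bijective g := (Nat.bijective_iff_injective_and_card g).2 ⟨hg, hcard⟩
  have e0 : S ≃ Fin 5 := Fintype.equivFinOfCardEq hS
  exact ⟨(MulEquiv.ofBijective g hb).symm.trans (Equiv.permCongrHom e0)⟩

end Cfsg.Agent.S0824
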