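import Cfsg.Statements.S0828
import Cfsg.Agent.H9.Frames2
import Cfsg.Agent.H9.SpBridge

set_option autoImplicit false
open Cfsg

namespace Cfsg.Agent.S0828

open CfsgH9.CountHyp CfsgH9.Witt CfsgH9.Frames in
theorem count (F : Type*) [Field F] [Fintype F] (q : ℕ) (hF : Fintype.card F = q) :
    Nat.card {W : Submodule F (Fin 2 ⊕ Fin 2 → F) // Module.finrank F W = 2 ∧ ∀ u ∈ W, ∀ v ∈ W, Cfsg.sympForm 2 F u v = 0} = (q + 1) * (q ^ 2 + 1) := by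
  have h := CfsgH9.SpBridge.fm 2 F
  have hF' : Nat.card F = q := by rw [Nat.card_eq_fintype_card, hF]
  have hq : 1 < q := by rw [← hF]; exact Fintype.one_lt_card
  have h1 := card_ts h 2
  rw [card_Fr_alt 2 2 h (by rw [Module.finrank_fintype_fun_eq_card]; rfl), hF', Fin.prod_univ_two] at h1
  have h2 : Nat.card {W : Submodule F (Fin 2 ⊕ Fin 2 → F) // Module.finrank F W = 2 ∧ ∀ u ∈ W, ∀ v ∈ W, Cfsg.sympForm 2 F u v = 0} =
      Nat.card {W : Submodule F (Fin 2 ⊕ Fin 2 → F) // Module.finrank F W = 2 ∧ (∀ x ∈ W, (fun _ => (0 : F)) x = 0) ∧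
        ∀ x ∈ W, ∀ y ∈ W, CfsgH9.SpBridge.form 2 F x y = 0} := by
    refine Nat.card_congr (Equiv.subtypeEquivRight fun W => ?_)
    constructor
    · rintro ⟨a, b⟩; exact ⟨a, fun _ _ => rfl, b⟩
    · rintro ⟨a, -, b⟩; exact ⟨a, b⟩
  rw [h2]
  have e1 : (q ^ 2 - q ^ ((0 : Fin 2) : ℕ)) * (q ^ 2 - q ^ ((1 : Fin 2) : ℕ)) = (q ^ 2 - 1) * (q * (q - 1)) := by
    show (q ^ 2 - q ^ 0) * (q ^ 2 - q ^ 1) = _
    rw [pow_zero, pow_one]
    congr 1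
    rw [Nat.mul_sub, mul_one, pow_two]
  have e2 : cfS q 2 2 = ((q + 1) * (q ^ 2 + 1)) * ((q ^ 2 - 1) * (q * (q - 1))) := by
    show (q ^ (2 * 2) - 1) * (q ^ 1 * ((q ^ (2 * 1) - 1) * (q ^ 0 * 1))) = _
    obtain ⟨t, rfl⟩ : ∃ t, q = t + 1 := ⟨q - 1, by omega⟩
    have a1 : (t + 1) ^ (2 * 2) - 1 = t * (t + 2) * ((t + 1) ^ 2 + 1) := by
      have : (t + 1) ^ (2 * 2) = t * (t + 2) * ((t + 1) ^ 2 + 1) + 1 := by ring
      rw [this, Nat.add_sub_cancel]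
    have a2 : (t + 1) ^ 2 - 1 = t * (t + 2) := by
      have : (t + 1) ^ 2 = t * (t + 2) + 1 := by ring
      rw [this, Nat.add_sub_cancel]
    rw [a1, mul_one, mul_one, a2, Nat.add_sub_cancel, pow_one, pow_zero, mul_one]
    ring
  rw [e1, e2] at h1
  refine Nat.eq_of_mul_eq_mul_right ?_ h1
  have : 1 < q ^ 2 := Nat.one_lt_pow (by norm_num) hq
  exact Nat.mul_pos (by omega) (Nat.mul_pos (by omega) (by omega))

open CfsgH9.CountHyp CfsgH9.Witt CfsgH9.Frames in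
theorem count2 (F : Type*) [Field F] [Fintype F] (q : ℕ) (hF : Fintype.card F = q) (v : Fin 2 ⊕ Fin 2 → F) (hv : v ≠ 0) :
    Nat.card {W : Submodule F (Fin 2 ⊕ Fin 2 → F) // Module.finrank F W = 2 ∧ v ∈ W ∧ ∀ u ∈ W, ∀ w ∈ W, Cfsg.sympForm 2 F u w = 0} = q + 1 := by
  classical
  have h := CfsgH9.SpBridge.fm 2 F
  have hF' : Nat.card F = q := by rw [Nat.card_eq_fintype_card, hF]
  have hq : 1 < q := by rw [← hF]; exact Fintype.one_lt_card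
  haveI : Finite (Submodule F (Fin 2 ⊕ Fin 2 → F)) := Finite.of_injective (fun W : Submodule F (Fin 2 ⊕ Fin 2 → F) => (W : Set (Fin 2 ⊕ Fin 2 → F))) SetLike.coe_injective
  set P : Submodule F (Fin 2 ⊕ Fin 2 → F) → Prop := fun W => Module.finrank F W = 2 ∧ ∀ u ∈ W, ∀ w ∈ W, Cfsg.sympForm 2 F u w = 0 with hP
  have hconst : ∀ w : {w : Fin 2 ⊕ Fin 2 → F // w ≠ 0}, Nat.card {W : Submodule F (Fin 2 ⊕ Fin 2 → F) // P W ∧ (w : Fin 2 ⊕ Fin 2 → F) ∈ W} =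
      Nat.card {W : Submodule F (Fin 2 ⊕ Fin 2 → F) // P W ∧ v ∈ W} := by
    intro w
    have hfr : ∀ z : Fin 2 ⊕ Fin 2 → F, z ≠ 0 → IsFr (CfsgH9.SpBridge.form 2 F) (fun _ => (0 : F)) (fun _ : Fin 1 => z) := by
      intro z hz
      refine ⟨LinearIndependent.of_subsingleton (0 : Fin 1) hz, fun _ => rfl, fun _ _ => ?_⟩
      exact (CfsgH9.SpGen.sympForm_isSymplectic (F := F) 2).alternating z
    obtain ⟨g, hg⟩ := trans_fr h ⟨_, hfr w w.2⟩ ⟨_, hfr v hv⟩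
    have hgw : g.1 w = v := hg 0
    refine Nat.card_congr (Equiv.subtypeEquiv (Submodule.orderIsoMapComap g.1).toEquiv fun W => ?_)
    show P W ∧ _ ↔ P (W.map (g.1 : _ →ₗ[F] _)) ∧ v ∈ W.map (g.1 : _ →ₗ[F] _)
    have h3 : P W ↔ P (W.map (g.1 : (Fin 2 ⊕ Fin 2 → F) →ₗ[F] (Fin 2 ⊕ Fin 2 → F))) := by
      rw [hP]
      simp only
      rw [LinearEquiv.finrank_map_eq]
      refine and_congr_right fun _ => ?_
      constructor
      · rintro h4 _ ⟨a, ha, rfl⟩ _ ⟨b, hb, rfl⟩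
        exact (g.2.1 a b).trans (h4 a ha b hb)
      · intro h4 a ha b hb
        exact (g.2.1 a b).symm.trans (h4 _ ⟨a, ha, rfl⟩ _ ⟨b, hb, rfl⟩)
    rw [h3]
    refine and_congr_right fun _ => ?_
    constructor
    · intro h4; exact ⟨w, h4, hgw⟩
    · rintro ⟨a, ha, hav⟩
      have : a = w := g.1.injective (hav.trans hgw.symm)
      rw [← this]; exact ha
  have e : (Σ w : {w : Fin 2 ⊕ Fin 2 → F // w ≠ 0}, {W : Submodule F (Fin 2 ⊕ Fin 2 → F) // P W ∧ (w : Fin 2 ⊕ Fin 2 → F) ∈ W}) ≃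
      (Σ W : {W : Submodule F (Fin 2 ⊕ Fin 2 → F) // P W}, {w : W.1 // w ≠ 0}) :=
    { toFun := fun p => ⟨⟨p.2.1, p.2.2.1⟩, ⟨⟨p.1.1, p.2.2.2⟩, fun h => p.1.2 (congrArg Subtype.val h)⟩⟩
      invFun := fun p => ⟨⟨p.2.1.1, fun h => p.2.2 (Subtype.ext h)⟩, ⟨p.1.1, p.1.2, p.2.1.2⟩⟩
      left_inv := fun p => rfl
      right_inv := fun p => rfl }
  have h5 := Nat.card_congr e
  rw [card_sigma_const (fun _ => inferInstance) _ hconst] at h5
  rw [card_sigma_const (fun _ => inferInstance) (q ^ 2 - 1) (by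
    intro W
    rw [Nat.card_eq_fintype_card, Fintype.card_subtype_compl, Fintype.card_subtype_eq, ← Nat.card_eq_fintype_card,
      card_eq_pow (F := F) (V := W.1), W.2.1, hF']), hP] at h5
  rw [count F q hF] at h5
  have h6 : Nat.card {w : Fin 2 ⊕ Fin 2 → F // w ≠ 0} = q ^ 4 - 1 := by
    rw [Nat.card_eq_fintype_card, Fintype.card_subtype_compl, Fintype.card_subtype_eq, ← Nat.card_eq_fintype_card,
      card_eq_pow (F := F) (V := Fin 2 ⊕ Fin 2 → F), Module.finrank_fintype_fun_eq_card, hF']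
    rfl
  rw [h6] at h5
  have h7 : Nat.card {W : Submodule F (Fin 2 ⊕ Fin 2 → F) // Module.finrank F W = 2 ∧ v ∈ W ∧ ∀ u ∈ W, ∀ w ∈ W, Cfsg.sympForm 2 F u w = 0} =
      Nat.card {W : Submodule F (Fin 2 ⊕ Fin 2 → F) // (Module.finrank F W = 2 ∧ ∀ u ∈ W, ∀ w ∈ W, Cfsg.sympForm 2 F u w = 0) ∧ v ∈ W} :=
    Nat.card_congr (Equiv.subtypeEquivRight fun W => by tauto)
  rw [h7]
  have h8 : (q ^ 4 - 1) * Nat.card {W : Submodule F (Fin 2 ⊕ Fin 2 → F) // (Module.finrank F W = 2 ∧ ∀ u ∈ W, ∀ w ∈ W, Cfsg.sympForm 2 F u w = 0) ∧ v ∈ W} =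
      (q ^ 4 - 1) * (q + 1) := by
    rw [h5]
    have a1 : q ^ 4 - 1 = (q ^ 2 - 1) * (q ^ 2 + 1) := by
      have h9 : 1 ≤ q ^ 2 := Nat.one_le_pow _ _ (by omega)
      obtain ⟨t, ht⟩ : ∃ t, q ^ 2 = t + 1 := ⟨q ^ 2 - 1, by omega⟩
      have : q ^ 4 = (t + 1) ^ 2 := by rw [← ht]; ring
      rw [this, ht, Nat.add_sub_cancel]
      have : (t + 1) ^ 2 = t * (t + 1 + 1) + 1 := by ring
      rw [this, Nat.add_sub_cancel]
    rw [a1]; ring
  refine Nat.eq_of_mul_eq_mul_left ?_ h8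
  have : 1 < q ^ 4 := Nat.one_lt_pow (by norm_num) hq
  omega

/-- The symplectic generalised quadrangle over a field with q elements: the number of 2-dimensional subspaces of F^4 on which the symplectic form vanishes is (q + 1)(q² + 1), and every non-zero vector lies in exactly q + 1 of them. -/
theorem result {F : Type*} [Field F] [Fintype F] {q : ℕ} (hF : Fintype.card F = q) : Nat.card {W : Submodule F (Fin 2 ⊕ Fin 2 → F) // Module.finrank F W = 2 ∧ ∀ u ∈ W, ∀ v ∈ W, Cfsg.sympForm 2 F u v = 0} = (q + 1) * (q ^ 2 + 1) ∧ ∀ v : Fin 2 ⊕ Fin 2 → F, v ≠ 0 → Nat.card {W : Submodule F (Fin 2 ⊕ Fin 2 → F) // Module.finrank F W = 2 ∧ v ∈ W ∧ ∀ u ∈ W, ∀ w ∈ W, Cfsg.sympForm 2 F u w = 0} = q + 1 := by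
  exact ⟨count F q hF, fun v hv => count2 F q hF v hv⟩

end Cfsg.Agent.S0828
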