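import Cfsg.Statements.S0829
import Cfsg.Agent.H9.Frames2

set_option autoImplicit false
open Cfsg

namespace Cfsg.Agent.S0829

open CfsgH9.CountHyp CfsgH9.Witt CfsgH9.Frames CfsgH9.HermF in
theorem count (F : Type*) [Field F] [Fintype F] (q n : ℕ) (hF : Fintype.card F = q ^ 2) (hn : 3 ≤ n) (c : ℕ)
    (hc : zu q n * ((q ^ 2) ^ 1 * (zu q (n - 2) * ((q ^ 2) ^ 0 * 1))) = c * (((q ^ 2) ^ 2 - 1) * (q ^ 2 * (q ^ 2 - 1)))) :
    Nat.card {W : Submodule F (Fin n → F) // Module.finrank F W = 2 ∧ ∀ u ∈ W, ∀ v ∈ W, Cfsg.hermForm n F q u v = 0} = c := by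
  obtain ⟨σ, hσ, hσ1, hσ2⟩ := exists_sigma hF
  have h := fm_herm σ hσ1 hσ2 (hB hσ n) (hB_symm hσ n hσ2) (hB_nondeg hσ n hσ2)
  have hF' : Nat.card F = q ^ 2 := by rw [Nat.card_eq_fintype_card, hF]
  have hq : 1 < q := one_lt_q hF
  have h1 := card_ts h 2
  rw [card_Fr_herm hF hσ hσ1 hσ2 2 n (hB hσ n) (hB_symm hσ n hσ2) (hB_nondeg hσ n hσ2) (by
    rw [Module.finrank_fintype_fun_eq_card, Fintype.card_fin]) (zrel_std hF hσ n) (by omega), hF', Fin.prod_univ_two] at h1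
  have h2 : Nat.card {W : Submodule F (Fin n → F) // Module.finrank F W = 2 ∧ ∀ u ∈ W, ∀ v ∈ W, Cfsg.hermForm n F q u v = 0} =
      Nat.card {W : Submodule F (Fin n → F) // Module.finrank F W = 2 ∧ (∀ x ∈ W, (fun x => hB hσ n x x) x = 0) ∧
        ∀ x ∈ W, ∀ y ∈ W, hB hσ n x y = 0} := by
    refine Nat.card_congr (Equiv.subtypeEquivRight fun W => ?_)
    constructor
    · rintro ⟨a, b⟩; exact ⟨a, fun x hx => b x hx x hx, fun x hx y hy => b y hy x hx⟩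
    · rintro ⟨a, -, b⟩; exact ⟨a, fun x hx y hy => b y hy x hx⟩
  rw [h2]
  have e1 : ((q ^ 2) ^ 2 - (q ^ 2) ^ ((0 : Fin 2) : ℕ)) * ((q ^ 2) ^ 2 - (q ^ 2) ^ ((1 : Fin 2) : ℕ)) = ((q ^ 2) ^ 2 - 1) * (q ^ 2 * (q ^ 2 - 1)) := by
    show ((q ^ 2) ^ 2 - (q ^ 2) ^ 0) * ((q ^ 2) ^ 2 - (q ^ 2) ^ 1) = _
    rw [pow_zero, pow_one]
    congr 1
    rw [Nat.mul_sub, mul_one, ← pow_two]
  have e2 : cfU q 2 n = zu q n * ((q ^ 2) ^ 1 * (zu q (n - 2) * ((q ^ 2) ^ 0 * 1))) := rfl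
  rw [e1, e2, hc] at h1
  refine Nat.eq_of_mul_eq_mul_right ?_ h1
  have : 1 < q ^ 2 := Nat.one_lt_pow (by norm_num) hq
  have : 1 < (q ^ 2) ^ 2 := Nat.one_lt_pow (by norm_num) this
  exact Nat.mul_pos (by omega) (Nat.mul_pos (by omega) (by omega))

lemma sub1 {q : ℕ} (hq : 1 < q) (k : ℕ) : ∃ t, q ^ k = t + 1 := ⟨q ^ k - 1, by
  have : 0 < q ^ k := Nat.pow_pos (by omega)
  omega⟩

/-- The unitary quadrangle of PSU_4(q): with |F| = q², the number of 2-dimensional subspaces of F^4 on which the Hermitian form Σ x_i y_i^q vanishes is (q + 1)(q³ + 1). -/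
theorem result {F : Type*} [Field F] [Fintype F] {q : ℕ} (hF : Fintype.card F = q ^ 2) : Nat.card {W : Submodule F (Fin 4 → F) // Module.finrank F W = 2 ∧ ∀ u ∈ W, ∀ v ∈ W, Cfsg.hermForm 4 F q u v = 0} = (q + 1) * (q ^ 3 + 1) := by
  refine count F q 4 hF (by norm_num) _ ?_
  show (if Even 4 then q ^ 4 - 1 else q ^ 4 + 1) * (if Even 4 then q ^ 3 + 1 else q ^ 3 - 1) *
    ((q ^ 2) ^ 1 * ((if Even 2 then q ^ 2 - 1 else q ^ 2 + 1) * (if Even 2 then q ^ 1 + 1 else q ^ 1 - 1) * ((q ^ 2) ^ 0 * 1))) = _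
  rw [if_pos (by decide), if_pos (by decide), if_pos (by decide), if_pos (by decide), (by ring : (q ^ 2) ^ 2 = q ^ 4)]
  ring

end Cfsg.Agent.S0829
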