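import Cfsg.Statements.S0831
import Cfsg.Agent.H9.Og15

set_option autoImplicit false
open Cfsg

namespace Cfsg.Agent.S0831

/-- The two families of maximal totally singular subspaces of the hyperbolic quadric: for the form Σ x_i y_i on F^(2m), m ≥ 1, and m-dimensional subspaces U, W, X on which it vanishes, the parities of m − dim(U ∩ W), m − dim(W ∩ X) and m − dim(U ∩ X) sum to an even number (so 'even codimension of the intersection' is an equivalence relation), and there exist two such subspaces meeting in codimension 1 (so there are exactly two classes). -/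
theorem result {F : Type*} [Field F] (m : ℕ) (hm : 1 ≤ m) : (∀ U W X : Submodule F (Fin m ⊕ Fin m → F), (Module.finrank F U = m ∧ ∀ w ∈ U, Cfsg.quadFormPlus m F w = 0) → (Module.finrank F W = m ∧ ∀ w ∈ W, Cfsg.quadFormPlus m F w = 0) → (Module.finrank F X = m ∧ ∀ w ∈ X, Cfsg.quadFormPlus m F w = 0) → Even ((m - Module.finrank F ↥(U ⊓ W)) + (m - Module.finrank F ↥(W ⊓ X)) + (m - Module.finrank F ↥(U ⊓ X)))) ∧ ∃ U W : Submodule F (Fin m ⊕ Fin m → F), (Module.finrank F U = m ∧ ∀ w ∈ U, Cfsg.quadFormPlus m F w = 0) ∧ (Module.finrank F W = m ∧ ∀ w ∈ W, Cfsg.quadFormPlus m F w = 0) ∧ Module.finrank F ↥(U ⊓ W) + 1 = m := by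
  have hf := CfsgH9.Og.qf_of_quad (CfsgH9.ClForms.qPlus m F) (CfsgH9.ClForms.nondeg_plus m F)
  rw [CfsgH9.ClForms.qPlus_coe] at hf
  have hc : Fintype.card (Fin m ⊕ Fin m) = 2 * m := by
    rw [Fintype.card_sum, Fintype.card_fin]; omega
  refine ⟨fun U W X hU hW hX => CfsgH9.Og.parity hf hc hU _ W X hW hX rfl, ?_⟩
  obtain ⟨U, hU⟩ := CfsgH9.Og.std_MT m F
  obtain ⟨H, hHU, hH⟩ : ∃ H ≤ U, Module.finrank F H + 1 = m := by
    have hne : U ≠ ⊤ := by
      intro h
      have h1 := hU.1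
      rw [h, finrank_top, Module.finrank_fintype_fun_eq_card, hc] at h1
      omega
    obtain ⟨x, -, hx⟩ := SetLike.exists_of_lt (lt_top_iff_ne_top.2 hne)
    have h1 : U ⊓ CfsgH9.Og.perp hf (Submodule.span F {x}) = CfsgH9.Og.perp hf (U ⊔ Submodule.span F {x}) := by
      rw [← CfsgH9.Og.perp_inf, hU.perp hf hc]
    have h2 := CfsgH9.Og.finrank_perp hf (U ⊔ Submodule.span F {x})
    rw [CfsgH9.Og.finrank_sup_span_eq hx, hU.1, ← h1, hc] at h2
    exact ⟨U ⊓ CfsgH9.Og.perp hf (Submodule.span F {x}), inf_le_left, by omega⟩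
  obtain ⟨W, W', hW, hW', hne, h1, h2⟩ := CfsgH9.Og.second hf hc hU hH (fun x hx => hU.2 x (hHU hx))
  refine ⟨W, W', hW, hW', ?_⟩
  rw [CfsgH9.Og.inf_finrank hW hW' hne hH h1 h2, hH]

end Cfsg.Agent.S0831
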