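import Cfsg.Statements.S0832
import Cfsg.Agent.H9.Og15

set_option autoImplicit false
open Cfsg

namespace Cfsg.Agent.S0832

/-- For the form Σ x_i y_i on F^(2m) over a finite field, m ≥ 1: an (m−1)-dimensional subspace on which the form vanishes is contained in exactly two m-dimensional subspaces on which it vanishes. -/
theorem result {F : Type*} [Field F] [Finite F] (m : ℕ) (hm : 1 ≤ m) (U : Submodule F (Fin m ⊕ Fin m → F)) (hU : Module.finrank F U + 1 = m ∧ ∀ u ∈ U, Cfsg.quadFormPlus m F u = 0) : Nat.card {W : Submodule F (Fin m ⊕ Fin m → F) // Module.finrank F W = m ∧ (∀ w ∈ W, Cfsg.quadFormPlus m F w = 0) ∧ U ≤ W} = 2 := by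
  have hf := CfsgH9.Og.qf_of_quad (CfsgH9.ClForms.qPlus m F) (CfsgH9.ClForms.nondeg_plus m F)
  rw [CfsgH9.ClForms.qPlus_coe] at hf
  have hc : Fintype.card (Fin m ⊕ Fin m) = 2 * m := by
    rw [Fintype.card_sum, Fintype.card_fin]; omega
  obtain ⟨U0, hU0⟩ := CfsgH9.Og.std_MT m F
  obtain ⟨W, W', hW, hW', hne, h1, h2⟩ := CfsgH9.Og.second hf hc hU0 hU.1 hU.2
  have hset : {W : Submodule F (Fin m ⊕ Fin m → F) | Module.finrank F W = m ∧ (∀ w ∈ W, Cfsg.quadFormPlus m F w = 0) ∧ U ≤ W} = {W, W'} := by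
    ext Y
    rw [Set.mem_setOf_eq, Set.mem_insert_iff, Set.mem_singleton_iff]
    constructor
    · rintro ⟨hY1, hY2, hY3⟩
      exact CfsgH9.Og.two hf hc hW hW' hne hU.1 h1 h2 ⟨hY1, hY2⟩ hY3
    · rintro (rfl | rfl)
      · exact ⟨hW.1, hW.2, h1⟩
      · exact ⟨hW'.1, hW'.2, h2⟩
  have h3 : Nat.card {W : Submodule F (Fin m ⊕ Fin m → F) // Module.finrank F W = m ∧ (∀ w ∈ W, Cfsg.quadFormPlus m F w = 0) ∧ U ≤ W} =
      {W : Submodule F (Fin m ⊕ Fin m → F) | Module.finrank F W = m ∧ (∀ w ∈ W, Cfsg.quadFormPlus m F w = 0) ∧ U ≤ W}.ncard :=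
    Nat.card_coe_set_eq _
  rw [h3, hset, Set.ncard_pair hne]

end Cfsg.Agent.S0832
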