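import Cfsg.Statements.S0833
import Cfsg.Agent.H9.Alt

set_option autoImplicit false
open Cfsg

namespace Cfsg.Agent.S0833

open CfsgH9.Alt in
theorem gram_swap {F : Type*} [Field F] {m : ℕ} (j : Fin m ⊕ Fin m) : ∃ e : F, e ≠ 0 ∧ ∀ i, gram F m i j.swap = if i = j then e else 0 := by
  rcases j with j | j
  · refine ⟨1, one_ne_zero, ?_⟩
    rintro (i | i)
    · simp [gram]
    · simp [gram]
  · refine ⟨-1, neg_ne_zero.2 one_ne_zero, ?_⟩
    rintro (i | i)
    · simp [gram]
    · simp [gram]

open CfsgH9.Alt in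
theorem gram_skew {F : Type*} [Field F] {m : ℕ} (i j : Fin m ⊕ Fin m) : gram F m i j = - gram F m j i := by
  rcases i with i | i <;> rcases j with j | j
  · simp [gram]
  · by_cases h : i = j
    · subst h; simp [gram]
    · simp [gram, h, Ne.symm h]
  · by_cases h : i = j
    · subst h; simp [gram]
    · simp [gram, h, Ne.symm h]
  · simp [gram]

/-- If B₁, B₂ are non-degenerate alternating forms on U (dim 2k) and W (dim 2l), then B₁ ⊗ B₂ on U ⊗ W is symmetric, non-degenerate, and vanishes identically on some subspace of dimension 2kl (half of dim U ⊗ W). -/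
theorem result {F U W : Type*} [Field F] [Fintype F] [AddCommGroup U] [Module F U] [FiniteDimensional F U] [AddCommGroup W] [Module F W] [FiniteDimensional F W] (B₁ : LinearMap.BilinForm F U) (B₂ : LinearMap.BilinForm F W) (h₁ : B₁.Nondegenerate) (h₂ : B₂.Nondegenerate) (hA₁ : B₁.IsAlt) (hA₂ : B₂.IsAlt) (k l : ℕ) (hU : Module.finrank F U = 2 * k) (hW : Module.finrank F W = 2 * l) : (B₁.tmul B₂).IsSymm ∧ (B₁.tmul B₂).Nondegenerate ∧ (∃ X : Submodule F (TensorProduct F U W), Module.finrank F X = 2 * k * l ∧ ∀ x ∈ X, ∀ y ∈ X, (B₁.tmul B₂) x y = 0) := by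
  classical
  have g1 : ∀ x, x ≠ 0 → ∃ y, B₁ x y ≠ 0 := by
    intro x hx
    by_contra h
    push Not at h
    exact hx (h₁.1 x h)
  have g2 : ∀ x, x ≠ 0 → ∃ y, B₂ x y ≠ 0 := by
    intro x hx
    by_contra h
    push Not at h
    exact hx (h₂.1 x h)
  obtain ⟨k', b, hb, hk'⟩ := CfsgH9.Alt.exists_basis g1 hA₁
  obtain ⟨l', c, hc, hl'⟩ := CfsgH9.Alt.exists_basis g2 hA₂
  have hkk : k' = k := by omega
  have hll : l' = l := by omega
  subst hkk
  subst hll
  let T := b.tensorProduct c
  have hT : ∀ p r, (B₁.tmul B₂) (T p) (T r) = CfsgH9.Alt.gram F k' p.1 r.1 * CfsgH9.Alt.gram F l' p.2 r.2 := by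
    rintro ⟨i, j⟩ ⟨i', j'⟩
    rw [Module.Basis.tensorProduct_apply, Module.Basis.tensorProduct_apply, LinearMap.BilinForm.tmul]
    rw [LinearMap.BilinForm.tensorDistrib_tmul, hb, hc]
    first | rfl | simp [mul_comm]
  have hS : ∀ x y, (B₁.tmul B₂) x y = (B₁.tmul B₂) y x := by
    have h1 : (B₁.tmul B₂) = LinearMap.flip (B₁.tmul B₂) := by
      refine T.ext (fun p => T.ext (fun r => ?_))
      rw [LinearMap.flip_apply, hT, hT, gram_skew p.1 r.1, gram_skew p.2 r.2]; ring
    intro x y
    conv_lhs => rw [h1]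
    rfl
  have hL : ∀ x, (∀ y, (B₁.tmul B₂) x y = 0) → x = 0 := by
    intro x hx
    have h1 : ∀ p, T.repr x p = 0 := by
      intro p
      have h2 := hx (T (p.1.swap, p.2.swap))
      have h3 : (B₁.tmul B₂) x (T (p.1.swap, p.2.swap)) = ∑ r, T.repr x r * (CfsgH9.Alt.gram F k' r.1 p.1.swap * CfsgH9.Alt.gram F l' r.2 p.2.swap) := by
        conv_lhs => rw [← T.sum_repr x]
        rw [map_sum, LinearMap.sum_apply]
        refine Finset.sum_congr rfl (fun r _ => ?_)
        rw [map_smul, LinearMap.smul_apply, smul_eq_mul, hT]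
      obtain ⟨e1, he1, he1'⟩ := gram_swap (F := F) p.1
      obtain ⟨e2, he2, he2'⟩ := gram_swap (F := F) p.2
      rw [h3, Finset.sum_eq_single p] at h2
      · rw [he1', he2', if_pos rfl, if_pos rfl] at h2
        exact (mul_eq_zero.1 h2).resolve_right (mul_ne_zero he1 he2)
      · intro r _ hr
        rw [he1', he2']
        by_cases h4 : r.1 = p.1
        · have h5 : r.2 ≠ p.2 := fun h => hr (Prod.ext h4 h)
          rw [if_neg h5, mul_zero, mul_zero]
        · rw [if_neg h4, zero_mul, mul_zero]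
      · simp
    rw [← T.sum_repr x]
    exact Finset.sum_eq_zero (fun p _ => by rw [h1, zero_smul])
  refine ⟨⟨hS⟩, ⟨hL, fun y hy => hL y (fun x => by rw [hS]; exact hy x)⟩, ?_⟩
  let u : Fin k' × (Fin l' ⊕ Fin l') → TensorProduct F U W := fun p => T (Sum.inl p.1, p.2)
  have hu : LinearIndependent F u := T.linearIndependent.comp (fun p : Fin k' × (Fin l' ⊕ Fin l') => (Sum.inl p.1, p.2)) (by
    rintro ⟨a, b⟩ ⟨c, d⟩ h
    simp only [Prod.mk.injEq, Sum.inl.injEq] at h
    exact Prod.ext h.1 h.2)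
  refine ⟨Submodule.span F (Set.range u), ?_, ?_⟩
  · rw [finrank_span_eq_card hu, Fintype.card_prod, Fintype.card_sum, Fintype.card_fin, Fintype.card_fin]
    ring
  · intro x hx y hy
    induction hx using Submodule.span_induction with
    | mem x hx =>
      obtain ⟨p, rfl⟩ := hx
      induction hy using Submodule.span_induction with
      | mem y hy =>
        obtain ⟨r, rfl⟩ := hy
        rw [hT]
        simp [CfsgH9.Alt.gram]
      | zero => exact map_zero _
      | add y z _ _ h3 h4 => rw [map_add, h3, h4, add_zero]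
      | smul a y _ h3 => rw [map_smul, h3, smul_zero]
    | zero => rw [map_zero]; rfl
    | add x z _ _ h3 h4 => rw [map_add, LinearMap.add_apply, h3, h4, add_zero]
    | smul a x _ h3 => rw [map_smul, LinearMap.smul_apply, h3, smul_zero]

end Cfsg.Agent.S0833
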