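import Cfsg.Statements.S0835
import Cfsg.Agent.H9.Disc

set_option autoImplicit false
open Cfsg

namespace Cfsg.Agent.S0835

open Matrix

theorem tens_det {F U W : Type*} [Field F] [AddCommGroup U] [Module F U] [FiniteDimensional F U] [AddCommGroup W] [Module F W] [FiniteDimensional F W]
    (B₁ : LinearMap.BilinForm F U) (B₂ : LinearMap.BilinForm F W) {κ κ' : Type*} [Fintype κ] [DecidableEq κ] [Fintype κ'] [DecidableEq κ']
    (b : Module.Basis κ F U) (c : Module.Basis κ' F W) :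
    (LinearMap.BilinForm.toMatrix (b.tensorProduct c) (B₁.tmul B₂)).det =
      (LinearMap.BilinForm.toMatrix b B₁).det ^ Fintype.card κ' * (LinearMap.BilinForm.toMatrix c B₂).det ^ Fintype.card κ := by
  rw [← Matrix.det_kronecker]
  congr 1
  ext ⟨i, i'⟩ ⟨j, j'⟩
  rw [LinearMap.BilinForm.toMatrix_apply, Module.Basis.tensorProduct_apply, Module.Basis.tensorProduct_apply, Matrix.kroneckerMap_apply,
    LinearMap.BilinForm.toMatrix_apply, LinearMap.BilinForm.toMatrix_apply]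
  change B₂ (c i') (c j') • B₁ (b i) (b j) = B₁ (b i) (b j) * B₂ (c i') (c j')
  rw [smul_eq_mul, mul_comm]

/-- Over a finite field with 2 ≠ 0: if B₁ on U (dim 2k, k ≥ 1) is non-degenerate symmetric of minus type (no totally isotropic k-subspace) and B₂ on W (dim 2l + 1) is non-degenerate symmetric, then B₁ ⊗ B₂ (dimension 2k(2l+1)) admits no totally isotropic subspace of dimension k(2l+1) (minus type). -/
theorem result {F U W : Type*} [Field F] [Fintype F] [AddCommGroup U] [Module F U] [FiniteDimensional F U] [AddCommGroup W] [Module F W] [FiniteDimensional F W] (h2 : (2 : F) ≠ 0) (B₁ : LinearMap.BilinForm F U) (B₂ : LinearMap.BilinForm F W) (h₁ : B₁.Nondegenerate) (h₂ : B₂.Nondegenerate) (hS₁ : B₁.IsSymm) (hS₂ : B₂.IsSymm) (k l : ℕ) (hk : 1 ≤ k) (hU : Module.finrank F U = 2 * k) (hW : Module.finrank F W = 2 * l + 1) (hm₁ : ¬ (∃ X : Submodule F (U), Module.finrank F X = k ∧ ∀ x ∈ X, ∀ y ∈ X, (B₁) x y = 0)) : ¬ (∃ X : Submodule F (TensorProduct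 F U W), Module.finrank F X = k * (2 * l + 1) ∧ ∀ x ∈ X, ∀ y ∈ X, (B₁.tmul B₂) x y = 0) := by
  classical
  let b := Module.finBasisOfFinrankEq F U hU
  let c := Module.finBasisOfFinrankEq F W hW
  have hd := tens_det B₁ B₂ b c
  have hST : LinearMap.BilinForm.IsSymm (B₁.tmul B₂) := by
    have h1 : LinearMap.IsSymm B₁ := ⟨fun x y => hS₁.eq x y⟩
    have h2 : LinearMap.IsSymm B₂ := ⟨fun x y => hS₂.eq x y⟩
    have h3 := LinearMap.IsSymm.tmul h1 h2
    exact ⟨fun x y => h3.eq x y⟩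
  have hd1 := (LinearMap.BilinForm.nondegenerate_iff_det_ne_zero b).1 h₁
  have hd2 := (LinearMap.BilinForm.nondegenerate_iff_det_ne_zero c).1 h₂
  rw [Fintype.card_fin, Fintype.card_fin] at hd
  rintro ⟨X, hX, hXX⟩
  have h3 := CfsgH9.Disc.disc_of_plus (m := k * (2 * l + 1)) (B₁.tmul B₂) hST (by
    rw [Module.finrank_tensorProduct, hU, hW]; ring) hX hXX (b.tensorProduct c)
  rw [hd] at h3
  apply hm₁
  refine CfsgH9.Disc.plus_of_disc h2 B₁ hS₁ h₁ hU b ?_
  set x := (LinearMap.BilinForm.toMatrix b B₁).det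
  set y := (LinearMap.BilinForm.toMatrix c B₂).det
  obtain ⟨r, hr⟩ := h3
  refine ⟨r / (((-1) ^ (k * l)) * x ^ l * y ^ k), ?_⟩
  have hn : ((-1 : F) ^ (k * l)) ≠ 0 := pow_ne_zero _ (neg_ne_zero.2 one_ne_zero)
  have hx : x ^ l ≠ 0 := pow_ne_zero _ hd1
  have hy : y ^ k ≠ 0 := pow_ne_zero _ hd2
  rw [div_mul_div_comm, ← hr, eq_div_iff (mul_ne_zero (mul_ne_zero (mul_ne_zero hn hx) hy) (mul_ne_zero (mul_ne_zero hn hx) hy))]
  rw [show k * (2 * l + 1) = k * l + k * l + k by ring]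
  ring

end Cfsg.Agent.S0835
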