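import Cfsg.Statements.S0837
import Cfsg.Agent.H9.Split2
import Cfsg.Agent.H9.HermF
import Cfsg.Agent.H9.Ort

set_option autoImplicit false
open Cfsg

namespace Cfsg.Agent.S0837

open Matrix Cfsg CfsgH9.Split CfsgH9.HermF

section
variable {F : Type*} [Field F] {q : ℕ} {σ : F →+* F}

theorem h_sq (hσ : ∀ x, σ x = x ^ q) (n : ℕ) : Sq (V := Fin n → F) (fun a => a) (fun a => σ a) (hermForm n F q) := by
  refine ⟨fun x y z => ?_, fun x y z => ?_, fun a x y => ?_, fun a x y => ?_⟩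
  · rw [← hB_apply hσ, map_add]; rfl
  · rw [← hB_apply hσ, map_add]; rfl
  · rw [← hB_apply hσ, map_smul]; rfl
  · rw [← hB_apply hσ, LinearMap.map_smulₛₗ]; rfl

theorem h_sq' (hσ : ∀ x, σ x = x ^ q) (n : ℕ) : Sq (V := Fin n → F) (fun a => σ a) (fun a => a) (fun u v => hermForm n F q v u) := by
  have h := h_sq hσ n
  exact ⟨fun x y z => h.ar z x y, fun x y z => h.al y z x, fun a x y => h.sr a y x, fun a x y => h.sl a y x⟩

theorem h_symm (hσ : ∀ x, σ x = x ^ q) (hσ2 : ∀ x, σ (σ x) = x) {n : ℕ} (x y : Fin n → F) : σ (hermForm n F q x y) = hermForm n F q y x := by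
  have := (hB_symm hσ n hσ2).eq y x
  simpa [hB_apply] using this

theorem h_refl (hσ : ∀ x, σ x = x ^ q) (hσ2 : ∀ x, σ (σ x) = x) {n : ℕ} {x y : Fin n → F} (h : hermForm n F q x y = 0) : hermForm n F q y x = 0 := by
  rw [← h_symm hσ hσ2, h, map_zero]

theorem h_gram (hσ : ∀ x, σ x = x ^ q) (k : ℕ) (i j : Fin k) : hermForm k F q (Pi.single i 1) (Pi.single j 1) = if i = j then 1 else 0 := by
  rw [hermForm, Finset.sum_eq_single i]
  · rw [Pi.single_eq_same, one_mul, ← hσ]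
    by_cases hij : i = j
    · subst hij; rw [Pi.single_eq_same, map_one, if_pos rfl]
    · rw [Pi.single_eq_of_ne hij, map_zero, if_neg hij]
  · intro l _ hl
    rw [Pi.single_eq_of_ne hl, zero_mul]
  · intro h; exact absurd (Finset.mem_univ i) h

theorem h_nondeg (hσ : ∀ x, σ x = x ^ q) (hσ2 : ∀ x, σ (σ x) = x) {n : ℕ} {u : Fin n → F} (h : ∀ v, hermForm n F q u v = 0) : u = 0 := by
  apply (hB_nondeg hσ n hσ2).1
  intro y
  rw [hB_apply]
  exact h_refl hσ hσ2 (h y)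

/-- orthonormal bases of a subspace -/
theorem exists_ob [Finite F] (hσ : ∀ x, σ x = x ^ q) (hσ1 : σ ≠ RingHom.id F) (hσ2 : ∀ x, σ (σ x) = x) (n : ℕ) (W : Submodule F (Fin n → F)) (k : ℕ) (hk : Module.finrank F W = k)
    (hW : ∀ u ∈ W, (∀ v ∈ W, hermForm n F q u v = 0) → u = 0) :
    ∃ b : Module.Basis (Fin k) F W, ∀ i j, hermForm n F q (b i) (b j) = hermForm k F q (Pi.single i 1) (Pi.single j 1) := by
  let β : W →ₛₗ[σ] W →ₗ[F] F := ((hB hσ n).domRestrict W).compl₂ W.subtype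
  have hβ : ∀ x y : W, β x y = hermForm n F q y x := fun x y => rfl
  obtain ⟨e, he, he1⟩ := CfsgH9.Ort.exists_orthonormal (β := β) hσ1 hσ2 (fun x y => by
    rw [hβ, hβ]; exact h_symm hσ hσ2 _ _) (fun x hx => by
    apply Subtype.ext
    apply hW _ x.2
    intro v hv
    apply h_refl hσ hσ2
    exact hx ⟨v, hv⟩) k hk.ge
  let b := basisOfLinearIndependentOfCardEqFinrank' e he.linearIndependent (by rw [Fintype.card_fin, hk])
  have hb : ∀ i, b i = e i := by intro i; simp [b]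
  refine ⟨b, fun i j => ?_⟩
  rw [h_gram hσ, hb, hb]
  by_cases hij : i = j
  · subst hij; rw [if_pos rfl]; exact he1 i
  · rw [if_neg hij]; exact he.orth j i (Ne.symm hij)

end

/-- If W ≤ F^n (|F| = q²) is a k-dimensional subspace on which the Hermitian form Σ x_i y_i^q is non-degenerate, then the stabiliser of W in GU_n(q) is isomorphic to GU_k(q) × GU_(n−k)(q). -/
theorem result {F : Type*} [Field F] [Fintype F] {q : ℕ} (hF : Fintype.card F = q ^ 2) (n k : ℕ) (hk : k ≤ n) (W : Submodule F (Fin n → F)) (hWk : Module.finrank F W = k) (hW : ∀ u ∈ W, (∀ v ∈ W, Cfsg.hermForm n F q u v = 0) → u = 0) : Nonempty (↥((Cfsg.stabilizing (Cfsg.glToMat (Fin n) F) (W : Set (Fin n → F))).subgroupOf (Cfsg.GU n F q)) ≃* ↥(Cfsg.GU k F q) × ↥(Cfsg.GU (n - k) F q)) := by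
  classical
  obtain ⟨σ, hσ, hσ1, hσ2⟩ := exists_sigma hF
  have hc := isCompl_perp (f := fun u v => hermForm n F q v u) (h_sq' hσ n) (W := W) (fun x y h => h_refl hσ hσ2 h)
    (fun u hu h => hW u hu (fun v hv => h_refl hσ hσ2 (h v hv)))
  have hp := perp_nondeg (f := fun u v => hermForm n F q v u) (h_sq' hσ n) (W := W) (fun x y h => h_refl hσ hσ2 h)
    (fun u hu h => hW u hu (fun v hv => h_refl hσ hσ2 (h v hv))) (fun u h => h_nondeg hσ hσ2 (fun v => h_refl hσ hσ2 (h v)))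
  have hdim : Module.finrank F (perp (f := fun u v => hermForm n F q v u) (h_sq' hσ n) W) = n - k := by
    have h1 := Submodule.finrank_add_eq_of_isCompl hc
    rw [hWk, Module.finrank_fintype_fun_eq_card, Fintype.card_fin] at h1
    omega
  obtain ⟨b, hb⟩ := exists_ob hσ hσ1 hσ2 n W k hWk hW
  obtain ⟨c, hcc⟩ := exists_ob hσ hσ1 hσ2 n _ (n - k) hdim (fun u hu h => hp u hu (fun v hv => h_refl hσ hσ2 (h v hv)))
  exact split_main (h_sq hσ n) (h_sq hσ k) (h_sq hσ (n - k)) hc b c (fun w hw v hv => h_refl hσ hσ2 (hv w hw))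
    (fun w hw v hv => hv w hw) hb hcc (fun u h => h_nondeg hσ hσ2 h)

end Cfsg.Agent.S0837
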