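import Cfsg.Statements.S0839
import Cfsg.Agent.H9.Transv

set_option autoImplicit false
open Cfsg

namespace Cfsg.Agent.S0839

open Matrix in
lemma rank_one {ι : Type*} [Fintype ι] [DecidableEq ι] {F : Type*} [Field F] {M : Matrix ι ι F} (h : M.rank = 1)
    (h2 : M * M = 0) : ∃ u a : ι → F, a ≠ 0 ∧ a ⬝ᵥ u = 0 ∧ M = vecMulVec u a := by
  rw [Matrix.rank, finrank_eq_one_iff'] at h
  obtain ⟨⟨u, hu⟩, hu0, hu2⟩ := h
  have hu0' : u ≠ 0 := fun h => hu0 (Subtype.ext h)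
  have h3 : ∀ j, ∃ c : F, M *ᵥ (Pi.single j 1) = c • u := by
    intro j
    obtain ⟨c, hc⟩ := hu2 ⟨M *ᵥ (Pi.single j 1), ⟨_, rfl⟩⟩
    exact ⟨c, (congrArg Subtype.val hc).symm⟩
  choose a ha using h3
  have hM : M = vecMulVec u a := by
    apply Matrix.ext_of_mulVec_single
    intro j
    rw [ha, vecMulVec_mulVec]
    ext k
    simp [mul_comm]
  have hu' := hu
  obtain ⟨x, hx⟩ := hu
  have hx' : M *ᵥ x = u := hx
  refine ⟨u, a, ?_, ?_, hM⟩
  · rintro rfl
    rw [hM, vecMulVec_mulVec] at hx'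
    apply hu0'
    rw [← hx']; simp
  · have h4 : M *ᵥ u = 0 := by
      rw [← hx', mulVec_mulVec, h2, zero_mulVec]
    rw [hM, vecMulVec_mulVec] at h4
    by_contra hc
    apply hu0'
    have h5 : (a ⬝ᵥ u) • u = 0 := by
      rw [← h4]; ext k; simp [mul_comm]
    exact (smul_eq_zero.1 h5).resolve_left hc

open Matrix CfsgH9.Tv in
lemma exists_g {F : Type*} [Field F] {n : ℕ} (a : Fin (n + 2) → F) (ha : a ≠ 0) :
    ∃ g : Matrix.SpecialLinearGroup (Fin (n + 2)) F, a ᵥ* (g : Matrix (Fin (n + 2)) (Fin (n + 2)) F) = Pi.single 0 1 := by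
  -- it suffices when some coordinate other than 0 is nonzero
  have key : ∀ a : Fin (n + 2) → F, (∃ k, k ≠ 0 ∧ a k ≠ 0) →
      ∃ g : GL (Fin (n + 2)) F, (g : Matrix (Fin (n + 2)) (Fin (n + 2)) F).det = 1 ∧
        a ᵥ* (g : Matrix (Fin (n + 2)) (Fin (n + 2)) F) = Pi.single 0 1 := by
    rintro a ⟨k, hk, hak⟩
    have h1 : (Pi.single 0 ((1 - a 0) / a k) : Fin (n + 2) → F) ⬝ᵥ (Pi.single k 1) = 0 := by
      simp [hk]
    set a' : Fin (n + 2) → F := a + Pi.single 0 (1 - a 0) with ha'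
    have ha0 : a' 0 = 1 := by simp [ha']
    have h2 : (Pi.single 0 1 - a' : Fin (n + 2) → F) ⬝ᵥ (Pi.single 0 1) = 0 := by
      simp [ha0]
    refine ⟨tv _ _ h1 * tv _ _ h2, ?_, ?_⟩
    · rw [Units.val_mul, det_mul, det_tv, det_tv, one_mul]
    · rw [Units.val_mul, ← vecMul_vecMul, tv_val, tv_val, vecMul_add, vecMul_one, vecMul_add, vecMul_one,
        vecMul_vecMulVec, vecMul_vecMulVec]
      have h3 : a + (a ⬝ᵥ Pi.single k 1) • (Pi.single 0 ((1 - a 0) / a k) : Fin (n + 2) → F) = a' := by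
        rw [ha']
        congr 1
        ext j
        simp only [dotProduct_single, mul_one, Pi.smul_apply, smul_eq_mul, Pi.single_apply]
        split_ifs
        · field_simp
        · simp
      rw [h3]
      simp [ha0]
  by_cases hk : ∃ k, k ≠ 0 ∧ a k ≠ 0
  · obtain ⟨g, hg, hg2⟩ := key a hk
    exact ⟨⟨g, hg⟩, hg2⟩
  · push Not at hk
    have ha0 : a 0 ≠ 0 := by
      intro h0
      apply ha
      ext k
      by_cases h : k = 0
      · rw [h, h0]; rfl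
      · exact hk k h
    have h1 : (Pi.single 1 1 : Fin (n + 2) → F) ⬝ᵥ (Pi.single 0 1) = 0 := by
      simp
    obtain ⟨g, hg, hg2⟩ := key (a ᵥ* ((tv _ _ h1 : GL (Fin (n+2)) F) : Matrix _ _ F)) ⟨1, by simp, by
      rw [tv_val, vecMul_add, vecMul_one, vecMul_vecMulVec]
      simp [hk 1 (by simp), ha0]⟩
    refine ⟨⟨((tv _ _ h1 * g : GL (Fin (n+2)) F) : Matrix (Fin (n+2)) (Fin (n+2)) F), ?_⟩, ?_⟩
    · rw [Units.val_mul, det_mul, det_tv, hg, one_mul]
    · show a ᵥ* ((tv _ _ h1 * g : GL (Fin (n+2)) F) : Matrix (Fin (n+2)) (Fin (n+2)) F) = _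
      rw [Units.val_mul, ← vecMul_vecMul, hg2]

/-- Every transvection t ∈ SL_(n+2)(F) (rank(t − 1) = 1, (t − 1)² = 0) is conjugate in SL_(n+2)(F) to 1 + v·e_0ᵀ for some column vector v with v_0 = 0 (the group A of matrices that are the identity except in the first column below the diagonal); the dimension is written n + 2 ≥ 2. -/
theorem result {F : Type*} [Field F] (n : ℕ) (t : Matrix.SpecialLinearGroup (Fin (n + 2)) F) (ht : Cfsg.IsTransvection (t : Matrix (Fin (n + 2)) (Fin (n + 2)) F)) : ∃ (g : Matrix.SpecialLinearGroup (Fin (n + 2)) F) (v : Fin (n + 2) → F), v 0 = 0 ∧ ((g⁻¹ * t * g : Matrix.SpecialLinearGroup (Fin (n + 2)) F) : Matrix (Fin (n + 2)) (Fin (n + 2)) F) = 1 + Matrix.vecMulVec v (Pi.single 0 1) := by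
  obtain ⟨u, a, ha, hau, hM⟩ := rank_one ht.1 ht.2
  obtain ⟨g, hg⟩ := exists_g a ha
  have ht' : (t : Matrix (Fin (n + 2)) (Fin (n + 2)) F) = 1 + Matrix.vecMulVec u a := by
    rw [← hM]; abel
  have hgg : ((g⁻¹ : Matrix.SpecialLinearGroup (Fin (n + 2)) F) : Matrix (Fin (n + 2)) (Fin (n + 2)) F) *
      (g : Matrix (Fin (n + 2)) (Fin (n + 2)) F) = 1 := by
    rw [← Matrix.SpecialLinearGroup.coe_mul, inv_mul_cancel, Matrix.SpecialLinearGroup.coe_one]
  refine ⟨g, ((g⁻¹ : Matrix.SpecialLinearGroup (Fin (n + 2)) F) : Matrix (Fin (n + 2)) (Fin (n + 2)) F).mulVec u, ?_, ?_⟩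
  · have h1 : (Pi.single 0 1 : Fin (n + 2) → F) ⬝ᵥ (((g⁻¹ : Matrix.SpecialLinearGroup (Fin (n + 2)) F) :
        Matrix (Fin (n + 2)) (Fin (n + 2)) F).mulVec u) = 0 := by
      rw [← hg, ← Matrix.dotProduct_mulVec, Matrix.mulVec_mulVec, ← Matrix.SpecialLinearGroup.coe_mul, mul_inv_cancel,
        Matrix.SpecialLinearGroup.coe_one, Matrix.one_mulVec, hau]
    rwa [single_one_dotProduct] at h1
  · rw [Matrix.SpecialLinearGroup.coe_mul, Matrix.SpecialLinearGroup.coe_mul, ht', mul_add, mul_one, add_mul, hgg,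
      Matrix.mul_vecMulVec, Matrix.vecMulVec_mul, hg]

end Cfsg.Agent.S0839
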