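import Cfsg.Statements.S0840
import Cfsg.Agent.H4.Classes

set_option autoImplicit false
open scoped ComplexConjugate
open Cfsg

namespace Cfsg.Agent.S0840

/-- Class multiplication coefficients from the character table: for elements a, b, c of a finite group G, the number of ordered pairs (x, y) with x conjugate to a, y conjugate to b and x * y = c equals the product of the sizes of the conjugacy classes of a and b, divided by the order of G, times the sum over the irreducible characters χ of χ a * χ b * conj (χ c) / χ 1. -/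
theorem result {G : Type*} [Group G] [Finite G] (a b c : G) : (Nat.card {p : G × G // IsConj a p.1 ∧ IsConj b p.2 ∧ p.1 * p.2 = c} : ℂ) = (Nat.card {x : G // IsConj a x} : ℂ) * (Nat.card {x : G // IsConj b x} : ℂ) / (Nat.card G : ℂ) * ∑ᶠ χ : Cfsg.IrrCharacter G, (χ : G → ℂ) a * (χ : G → ℂ) b * conj ((χ : G → ℂ) c) / (χ : G → ℂ) 1 := by
  classical
  haveI : Fintype G := Fintype.ofFinite G
  rw [finsum_eq_sum_of_fintype]
  -- number N
  set T := Finset.univ.filter (fun p : G × G => IsConj a p.1 ∧ IsConj b p.2 ∧ p.1 * p.2 = c) with hT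
  have hcard : (Nat.card {p : G × G // IsConj a p.1 ∧ IsConj b p.2 ∧ p.1 * p.2 = c} : ℂ) = T.card := by
    rw [Nat.card_eq_fintype_card, Fintype.card_subtype]
  rw [hcard]
  have hca : (Nat.card (Subgroup.centralizer ({a} : Set G)) : ℂ) ≠ 0 := CfsgH4.card_ne_zero _
  have hcb : (Nat.card (Subgroup.centralizer ({b} : Set G)) : ℂ) ≠ 0 := CfsgH4.card_ne_zero _
  have hcc : (Nat.card (Subgroup.centralizer ({c} : Set G)) : ℂ) ≠ 0 := CfsgH4.card_ne_zero _
  have hG0 : (Nat.card G : ℂ) ≠ 0 := CfsgH4.card_ne_zero _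
  -- count 1 : sum over u, v
  have h1 : ∑ u : G, ∑ v : G, (if (u * a * u⁻¹) * (v * b * v⁻¹) = c then (1 : ℂ) else 0) =
      (Nat.card (Subgroup.centralizer ({a} : Set G)) : ℂ) *
        (Nat.card (Subgroup.centralizer ({b} : Set G)) : ℂ) * T.card := by
    have e1 : ∀ x : G, ∑ v : G, (if x * (v * b * v⁻¹) = c then (1 : ℂ) else 0) =
        (Nat.card (Subgroup.centralizer ({b} : Set G)) : ℂ) *
          ∑ y ∈ Finset.univ.filter (IsConj b), (if x * y = c then (1 : ℂ) else 0) := fun x =>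
      CfsgH4.sum_conj (fun y => if x * y = c then (1 : ℂ) else 0) b
    rw [Finset.sum_congr rfl (fun u _ => e1 (u * a * u⁻¹)),
      CfsgH4.sum_conj (fun x => (Nat.card (Subgroup.centralizer ({b} : Set G)) : ℂ) *
          ∑ y ∈ Finset.univ.filter (IsConj b), (if x * y = c then (1 : ℂ) else 0)) a,
      ← Finset.mul_sum, mul_assoc]
    congr 1
    congr 1
    rw [← Finset.sum_product', ← Finset.sum_filter, Finset.sum_const, nsmul_eq_mul, mul_one]
    congr 2
    ext p
    simp only [Finset.mem_filter, Finset.mem_product, Finset.mem_univ, true_and, hT, and_assoc]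
  -- count 2
  have h2 : (Nat.card G : ℂ) * ∑ u : G, ∑ v : G, (if (u * a * u⁻¹) * (v * b * v⁻¹) = c then (1 : ℂ) else 0) =
      (Nat.card (Subgroup.centralizer ({c} : Set G)) : ℂ) * ∑ u : G, ∑ v : G,
        (if IsConj c ((u * a * u⁻¹) * (v * b * v⁻¹)) then (1 : ℂ) else 0) := by
    have e1 : ∀ w : G, ∑ u : G, ∑ v : G, (if (u * a * u⁻¹) * (v * b * v⁻¹) = c then (1 : ℂ) else 0) =
        ∑ u : G, ∑ v : G, (if w * c * w⁻¹ = (u * a * u⁻¹) * (v * b * v⁻¹) then (1 : ℂ) else 0) := by
      intro w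
      apply Fintype.sum_equiv (Equiv.mulLeft w)
      intro u
      apply Fintype.sum_equiv (Equiv.mulLeft w)
      intro v
      have : (w * c * w⁻¹ = (w * u * a * (w * u)⁻¹) * (w * v * b * (w * v)⁻¹)) ↔
          ((u * a * u⁻¹) * (v * b * v⁻¹) = c) := by
        have e : (w * u * a * (w * u)⁻¹) * (w * v * b * (w * v)⁻¹) =
            w * ((u * a * u⁻¹) * (v * b * v⁻¹)) * w⁻¹ := by group
        rw [e]
        constructor
        · intro h; exact (mul_left_cancel (mul_right_cancel h)).symm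
        · intro h; rw [h]
      simp only [Equiv.coe_mulLeft, this]
    have e2 : (Nat.card G : ℂ) * ∑ u : G, ∑ v : G, (if (u * a * u⁻¹) * (v * b * v⁻¹) = c then (1 : ℂ) else 0) =
        ∑ w : G, ∑ u : G, ∑ v : G, (if w * c * w⁻¹ = (u * a * u⁻¹) * (v * b * v⁻¹) then (1 : ℂ) else 0) := by
      rw [← Finset.sum_congr rfl (fun w _ => e1 w), Finset.sum_const, Finset.card_univ, nsmul_eq_mul,
        Fintype.card_eq_nat_card]
    rw [e2, Finset.sum_comm, Finset.mul_sum]
    refine Finset.sum_congr rfl fun u _ => ?_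
    rw [Finset.sum_comm, Finset.mul_sum]
    refine Finset.sum_congr rfl fun v _ => ?_
    rw [CfsgH4.sum_conj (fun y => if y = (u * a * u⁻¹) * (v * b * v⁻¹) then (1 : ℂ) else 0) c]
    congr 1
    rw [Finset.sum_ite_eq']
    simp
  -- count 3 : columns
  have h3 : ∀ g : G, (Nat.card (Subgroup.centralizer ({c} : Set G)) : ℂ) * (if IsConj c g then (1 : ℂ) else 0) =
      ∑ χ : Cfsg.IrrCharacter G, (χ : G → ℂ) g * conj ((χ : G → ℂ) c) := by
    intro g
    by_cases h : IsConj c g
    · rw [if_pos h, mul_one]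
      have e := CfsgH4.col_orth_isConj h.symm
      rw [e]
      have e2 : Nat.card (Subgroup.centralizer ({c} : Set G)) = Nat.card (Subgroup.centralizer ({g} : Set G)) := by
        have f1 := CfsgH4.card_isConj_mul_centralizer c
        have f2 := CfsgH4.card_isConj_mul_centralizer g
        have f3 : Nat.card {x : G // IsConj c x} = Nat.card {x : G // IsConj g x} :=
          Nat.card_congr (Equiv.subtypeEquivRight fun x => ⟨fun k => h.symm.trans k, fun k => h.trans k⟩)
        rw [f3, ← f2] at f1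
        exact Nat.eq_of_mul_eq_mul_left (CfsgH4.card_isConj_pos g) f1
      rw [e2]
    · rw [if_neg h, mul_zero, CfsgH4.col_orth_not (fun k => h k.symm)]
  have h4 : ∀ χ : Cfsg.IrrCharacter G, ∑ u : G, ∑ v : G,
      (χ : G → ℂ) ((u * a * u⁻¹) * (v * b * v⁻¹)) = (Nat.card G : ℂ) * ((Nat.card G : ℂ) *
        ((χ : G → ℂ) a * (χ : G → ℂ) b) / (χ : G → ℂ) 1) := by
    intro χ
    have e1 : ∀ u : G, ∑ v : G, (χ : G → ℂ) ((u * a * u⁻¹) * (v * b * v⁻¹)) =
        ∑ v : G, (χ : G → ℂ) (a * (v * b * v⁻¹)) := by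
      intro u
      apply Fintype.sum_equiv (Equiv.mulLeft u⁻¹)
      intro v
      rw [← CfsgH4.IsIrr.isClassFunction χ.2 ((u * a * u⁻¹) * (v * b * v⁻¹)) u⁻¹]
      congr 1
      simp only [Equiv.coe_mulLeft]; group
    rw [Finset.sum_congr rfl (fun u _ => e1 u), Finset.sum_const, Finset.card_univ, nsmul_eq_mul,
      Fintype.card_eq_nat_card]
    congr 1
    have e2 := CfsgH4.irr_mul χ.2 a b
    rw [eq_div_iff (CfsgH4.IsIrr.one_ne_zero χ.2), ← e2]; ring
  have h5 : (Nat.card (Subgroup.centralizer ({c} : Set G)) : ℂ) * ∑ u : G, ∑ v : G,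
        (if IsConj c ((u * a * u⁻¹) * (v * b * v⁻¹)) then (1 : ℂ) else 0) =
      (Nat.card G : ℂ) * (Nat.card G : ℂ) * ∑ χ : Cfsg.IrrCharacter G,
        (χ : G → ℂ) a * (χ : G → ℂ) b * conj ((χ : G → ℂ) c) / (χ : G → ℂ) 1 := by
    have e1 : (Nat.card (Subgroup.centralizer ({c} : Set G)) : ℂ) * ∑ u : G, ∑ v : G,
        (if IsConj c ((u * a * u⁻¹) * (v * b * v⁻¹)) then (1 : ℂ) else 0) =
        ∑ χ : Cfsg.IrrCharacter G, (∑ u : G, ∑ v : G,
          (χ : G → ℂ) ((u * a * u⁻¹) * (v * b * v⁻¹))) * conj ((χ : G → ℂ) c) := by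
      rw [Finset.mul_sum]
      have : ∀ u : G, (Nat.card (Subgroup.centralizer ({c} : Set G)) : ℂ) * ∑ v : G,
        (if IsConj c ((u * a * u⁻¹) * (v * b * v⁻¹)) then (1 : ℂ) else 0) =
        ∑ χ : Cfsg.IrrCharacter G, ∑ v : G,
          (χ : G → ℂ) ((u * a * u⁻¹) * (v * b * v⁻¹)) * conj ((χ : G → ℂ) c) := by
        intro u
        rw [Finset.mul_sum, Finset.sum_comm]
        exact Finset.sum_congr rfl fun v _ => h3 _
      rw [Finset.sum_congr rfl (fun u _ => this u), Finset.sum_comm]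
      refine Finset.sum_congr rfl fun χ _ => ?_
      rw [Finset.sum_mul]
      exact Finset.sum_congr rfl fun u _ => by rw [Finset.sum_mul]
    rw [e1, Finset.mul_sum]
    refine Finset.sum_congr rfl fun χ _ => ?_
    rw [h4]
    ring
  have h6 : (Nat.card (Subgroup.centralizer ({a} : Set G)) : ℂ) *
        (Nat.card (Subgroup.centralizer ({b} : Set G)) : ℂ) * T.card =
      (Nat.card G : ℂ) * ∑ χ : Cfsg.IrrCharacter G,
        (χ : G → ℂ) a * (χ : G → ℂ) b * conj ((χ : G → ℂ) c) / (χ : G → ℂ) 1 := by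
    have e := h2
    rw [h1, h5] at e
    have e3 : (Nat.card G : ℂ) * ((Nat.card (Subgroup.centralizer ({a} : Set G)) : ℂ) *
        (Nat.card (Subgroup.centralizer ({b} : Set G)) : ℂ) * T.card) =
        (Nat.card G : ℂ) * ((Nat.card G : ℂ) * ∑ χ : Cfsg.IrrCharacter G,
        (χ : G → ℂ) a * (χ : G → ℂ) b * conj ((χ : G → ℂ) c) / (χ : G → ℂ) 1) := by
      rw [e]; ring
    exact mul_left_cancel₀ hG0 e3
  have ha := CfsgH4.card_isConj_mul_centralizer a
  have hb := CfsgH4.card_isConj_mul_centralizer b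
  have ha' : (Nat.card {x : G // IsConj a x} : ℂ) * Nat.card (Subgroup.centralizer ({a} : Set G)) = Nat.card G := by
    exact_mod_cast ha
  have hb' : (Nat.card {x : G // IsConj b x} : ℂ) * Nat.card (Subgroup.centralizer ({b} : Set G)) = Nat.card G := by
    exact_mod_cast hb
  have key : (Nat.card (Subgroup.centralizer ({a} : Set G)) : ℂ) *
        (Nat.card (Subgroup.centralizer ({b} : Set G)) : ℂ) * T.card =
      (Nat.card (Subgroup.centralizer ({a} : Set G)) : ℂ) *
        (Nat.card (Subgroup.centralizer ({b} : Set G)) : ℂ) * ((Nat.card {x : G // IsConj a x} : ℂ) *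
        (Nat.card {x : G // IsConj b x} : ℂ) / (Nat.card G : ℂ) * ∑ χ : Cfsg.IrrCharacter G,
        (χ : G → ℂ) a * (χ : G → ℂ) b * conj ((χ : G → ℂ) c) / (χ : G → ℂ) 1) := by
    rw [h6]
    set X := ∑ χ : Cfsg.IrrCharacter G,
        (χ : G → ℂ) a * (χ : G → ℂ) b * conj ((χ : G → ℂ) c) / (χ : G → ℂ) 1
    have : (Nat.card (Subgroup.centralizer ({a} : Set G)) : ℂ) *
        (Nat.card (Subgroup.centralizer ({b} : Set G)) : ℂ) * ((Nat.card {x : G // IsConj a x} : ℂ) *
        (Nat.card {x : G // IsConj b x} : ℂ) / (Nat.card G : ℂ) * X) =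
        (((Nat.card {x : G // IsConj a x} : ℂ) * Nat.card (Subgroup.centralizer ({a} : Set G))) *
        ((Nat.card {x : G // IsConj b x} : ℂ) * Nat.card (Subgroup.centralizer ({b} : Set G))) / (Nat.card G : ℂ)) * X := by ring
    rw [this, ha', hb', mul_div_assoc, div_self hG0, mul_one]
  exact mul_left_cancel₀ (mul_ne_zero hca hcb) key

end Cfsg.Agent.S0840
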