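import Cfsg.Statements.S0841
import Cfsg.Agent.H4.Basic

set_option autoImplicit false
open Cfsg

namespace Cfsg.Agent.S0841

/-- If the commutator subgroup of G lies in the centre, then for all x, y in G and every natural number n one has (x * y) ^ n = x ^ n * y ^ n * c ^ (n * (n - 1) / 2) with c = y⁻¹ * x⁻¹ * y * x. -/
theorem result {G : Type*} [Group G] (hG : commutator G ≤ Subgroup.center G) (x y : G) (n : ℕ) : (x * y) ^ n = x ^ n * y ^ n * (y⁻¹ * x⁻¹ * y * x) ^ (n * (n - 1) / 2) := by
  have key : ∀ g : G, (y⁻¹ * x⁻¹ * y * x) * g = g * (y⁻¹ * x⁻¹ * y * x) := by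
    intro g
    have h1 : (y⁻¹ * x⁻¹ * y * x) ∈ commutator G := by
      have h2 := Subgroup.commutator_mem_commutator (H₁ := (⊤ : Subgroup G)) (H₂ := ⊤)
        (Subgroup.mem_top y⁻¹) (Subgroup.mem_top x⁻¹)
      rw [commutatorElement_def, inv_inv, inv_inv] at h2
      exact h2
    exact (Subgroup.mem_center_iff.1 (hG h1) g).symm
  set c := y⁻¹ * x⁻¹ * y * x with hc
  have hc1 : y * x = x * y * c := by rw [hc]; group
  have hcg : ∀ (k : ℕ) (g : G), c ^ k * g = g * c ^ k := by
    intro k g
    exact (show Commute c g from key g).pow_left k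
  have hyx : ∀ n : ℕ, y ^ n * x = x * y ^ n * c ^ n := by
    intro n
    induction n with
    | zero => simp
    | succ n ih =>
      calc y ^ (n + 1) * x = y * (y ^ n * x) := by rw [pow_succ']; group
        _ = (y * x) * y ^ n * c ^ n := by rw [ih]; group
        _ = x * y * (c * y ^ n) * c ^ n := by rw [hc1]; group
        _ = x * y * (y ^ n * c) * c ^ n := by rw [key]
        _ = x * y ^ (n + 1) * c ^ (n + 1) := by rw [pow_succ' y, pow_succ' c]; group
  induction n with
  | zero => simp
  | succ n ih =>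
    have hn : (n + 1) * (n + 1 - 1) / 2 = n + n * (n - 1) / 2 := by
      have h1 : (n + 1) * (n + 1 - 1) = n * 2 + n * (n - 1) := by
        cases n with
        | zero => simp
        | succ m => simp; ring
      rw [h1]
      generalize n * (n - 1) = m
      omega
    rw [hn, pow_add c]
    calc (x * y) ^ (n + 1) = (x * y) ^ n * (x * y) := pow_succ _ _
      _ = x ^ n * y ^ n * (c ^ (n * (n - 1) / 2) * (x * y)) := by rw [ih]; group
      _ = x ^ n * (y ^ n * x) * y * c ^ (n * (n - 1) / 2) := by rw [hcg]; group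
      _ = x ^ n * x * y ^ n * (c ^ n * y) * c ^ (n * (n - 1) / 2) := by rw [hyx]; group
      _ = x ^ n * x * y ^ n * (y * c ^ n) * c ^ (n * (n - 1) / 2) := by rw [hcg]
      _ = _ := by rw [pow_succ x, pow_succ y]; group

end Cfsg.Agent.S0841
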