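import Cfsg.Statements.S0843
import Cfsg.Agent.H5.BSe

set_option autoImplicit false
open Cfsg

namespace Cfsg.Agent.S0843

open CfsgH5

/-- Suppose a Sylow 2-subgroup S of the finite group G is generalized quaternion of order at least 16; let D be the commutator subgroup of S and X the set of elements of the centralizer of D whose order is divisible by the order of D. Then D is contained in the cyclic subgroup generated by any element of X; an element of G conjugating some element of X into the centralizer of D normalizes D; and the normalizer of D maps X to itself under conjugation. -/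
theorem result {G : Type*} [Group G] [Finite G] (S : Sylow 2 G) (n : ℕ) (e : (S : Subgroup G) ≃* QuaternionGroup (2 ^ (n + 2))) (D : Subgroup G) (hD : D = ⁅(S : Subgroup G), (S : Subgroup G)⁆) : (∀ y : G, y ∈ Subgroup.centralizer (D : Set G) → Nat.card D ∣ orderOf y → D ≤ Subgroup.zpowers y) ∧ (∀ g y : G, y ∈ Subgroup.centralizer (D : Set G) → Nat.card D ∣ orderOf y → g * y * g⁻¹ ∈ Subgroup.centralizer (D : Set G) → g ∈ Subgroup.normalizer (D : Set G)) ∧ (∀ g y : G, g ∈ Subgroup.normalizer (D : Set G) → y ∈ Subgroup.centralizer (D : Set G) → Nat.card D ∣ orderOf y → g * y * g⁻¹ ∈ Subgroup.centralizer (D : Set G) ∧ Nat.card D ∣ orderOf (g * y * g⁻¹)) := by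
  have h := qg_of_equiv e
  have hP := CfsgH7.isSyl_of_sylow S
  rw [h.commutator_eq] at hD
  subst hD
  have hd : ((e.symm (QuaternionGroup.a 1) : (S : Subgroup G)) : G) ^ 2 ∈ Subgroup.zpowers ((e.symm (QuaternionGroup.a 1) : (S : Subgroup G)) : G) :=
    Subgroup.npow_mem_zpowers _ _
  rw [centralizer_zpowers, Nat.card_zpowers]
  refine ⟨fun y hy hyd => (Subgroup.zpowers_le).2 (h.mem_of_dvd hP hd h.sq_four hy hyd),
    fun g y hy hyd hgy => h.norm_of_conj hP hd h.sq_four hy hyd hgy, fun g y hg hy hyd => ⟨?_, ?_⟩⟩
  · exact ((Subgroup.mem_normalizer_iff.1 (norm_le_norm_cen hg)) y).1 hy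
  · rw [CfsgH3.orderOf_conj]; exact hyd

end Cfsg.Agent.S0843
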