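import Cfsg.Statements.S0845
import Cfsg.Agent.H5.BSe

set_option autoImplicit false
open Cfsg

namespace Cfsg.Agent.S0845

open CfsgH5 CfsgH4

/-- Suppose a Sylow 2-subgroup S of the finite group G is generalized quaternion of order at least 16. Then G has a normal subgroup M of even order such that G / M is non-abelian, that is, M does not contain the commutator subgroup of G. -/
theorem result {G : Type*} [Group G] [Finite G] (S : Sylow 2 G) (n : ℕ) (e : (S : Subgroup G) ≃* QuaternionGroup (2 ^ (n + 2))) : ∃ M : Subgroup G, M.Normal ∧ Even (Nat.card M) ∧ ¬ commutator G ≤ M := by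
  haveI := Fintype.ofFinite G
  have h := qg_of_equiv e
  obtain ⟨φ, ψ, hφ, hψ, hφ1, hψ1, h1, h2, h3⟩ := h.main (CfsgH7.isSyl_of_sylow S)
  obtain ⟨z, hz⟩ : ∃ z, z = ((e.symm (QuaternionGroup.a 1) : (S : Subgroup G)) : G) ^ 2 ^ (n + 2) := ⟨_, rfl⟩
  have hzo : orderOf z = 2 := by rw [hz]; exact h.orderOf_z
  rw [← hz] at h3
  have hψz : ψ z = ψ 1 := by
    have := h2 z (by rw [hzo]; norm_num)
    rw [h1, ← h3]; linear_combination this
  refine ⟨charKerSub (IsIrr.isCharacter hψ), charKerSub_normal _, ?_, fun hle => ?_⟩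
  · rw [even_iff_two_dvd, ← hzo]
    have := orderOf_dvd_natCard (⟨z, hψz⟩ : charKerSub (IsIrr.isCharacter hψ))
    rw [← orderOf_submonoid] at this
    exact this
  · have h4 := one_of_commutator_le hψ (fun n hn => hle hn)
    rw [h1] at h4
    exact IsIrr.one_ne_zero hφ (by linear_combination h4)

end Cfsg.Agent.S0845
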