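import Cfsg.Statements.S0849
import Cfsg.Agent.H4.Perms

set_option autoImplicit false
open Cfsg

namespace Cfsg.Agent.S0849

/-- Let H be a subgroup of a finite group G and S a subset of H that is mapped to itself under conjugation by H, is disjoint from its conjugate by any element outside H, and is closed under inverses. Let φ be a class function of H vanishing on H away from S, and let u, v be involutions of G. Then the sum of the induced function of φ over all products a * b with a conjugate to u and b conjugate to v equals the index of H times the sum of φ (a * b) over such pairs with a and b in H. -/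
theorem result {G : Type*} [Group G] [Fintype G] (H : Subgroup G) (S : Set G) (hSH : S ⊆ H) (hHS : ∀ h ∈ H, ∀ s ∈ S, h * s * h⁻¹ ∈ S) (hTI : ∀ g : G, g ∉ H → ∀ s ∈ S, g * s * g⁻¹ ∉ S) (hinv : ∀ s ∈ S, s⁻¹ ∈ S) (φ : H → ℂ) (hφ : Cfsg.IsClassFunction H φ) (hφS : ∀ x : H, (x : G) ∉ S → φ x = 0) (u v : G) (hu : orderOf u = 2) (hv : orderOf v = 2) : ∑ᶠ p ∈ {p : G × G | IsConj u p.1 ∧ IsConj v p.2}, Cfsg.indFun H φ (p.1 * p.2) = (H.index : ℂ) * ∑ᶠ p ∈ {p : H × H | IsConj u (p.1 : G) ∧ IsConj v (p.2 : G)}, φ (p.1 * p.2) := by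
  classical
  -- both sides as sums
  set F : G → ℂ := Cfsg.extendByZero H φ with hF
  have hFS : ∀ g : G, g ∉ S → F g = 0 := by
    intro g hg
    by_cases hgH : g ∈ H
    · rw [hF, CfsgH4.extendByZero_of_mem H φ hgH]; exact hφS ⟨g, hgH⟩ hg
    · exact CfsgH4.extendByZero_of_not_mem H φ hgH
  have hinvol : ∀ a : G, IsConj u a → a * a = 1 := by
    intro a ha
    obtain ⟨c, hc⟩ := isConj_iff.1 ha
    have h2 : u * u = 1 := by rw [← pow_two, ← hu, pow_orderOf_eq_one]
    rw [← hc]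
    calc c * u * c⁻¹ * (c * u * c⁻¹) = c * (u * u) * c⁻¹ := by group
      _ = 1 := by rw [h2]; group
  have hinvol' : ∀ a : G, IsConj v a → a * a = 1 := by
    intro a ha
    obtain ⟨c, hc⟩ := isConj_iff.1 ha
    have h2 : v * v = 1 := by rw [← pow_two, ← hv, pow_orderOf_eq_one]
    rw [← hc]
    calc c * v * c⁻¹ * (c * v * c⁻¹) = c * (v * v) * c⁻¹ := by group
      _ = 1 := by rw [h2]; group
  have key : ∀ a b : G, IsConj u a → IsConj v b → a * b ∈ S → a ∈ H ∧ b ∈ H := by
    intro a b ha hb hs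
    have ha2 := hinvol a ha
    have hb2 := hinvol' b hb
    have hai : a⁻¹ = a := by rw [inv_eq_iff_mul_eq_one]; exact ha2
    have hbi : b⁻¹ = b := by rw [inv_eq_iff_mul_eq_one]; exact hb2
    constructor
    · by_contra hcon
      apply hTI a hcon (a * b) hs
      have h3 : a * (a * b) * a⁻¹ = (a * b)⁻¹ := by
        rw [mul_inv_rev, hbi, hai, ← mul_assoc, ha2, one_mul]
      rw [h3]; exact hinv _ hs
    · by_contra hcon
      apply hTI b hcon (a * b) hs
      have h3 : b * (a * b) * b⁻¹ = (a * b)⁻¹ := by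
        rw [mul_inv_rev, hbi, hai]
        calc b * (a * b) * b = b * a * (b * b) := by group
          _ = b * a := by rw [hb2, mul_one]
      rw [h3]; exact hinv _ hs
  -- finsums to finite sums
  have hL : ∑ᶠ p ∈ {p : G × G | IsConj u p.1 ∧ IsConj v p.2}, Cfsg.indFun H φ (p.1 * p.2) =
      ∑ p ∈ Finset.univ.filter (fun p : G × G => IsConj u p.1 ∧ IsConj v p.2),
        Cfsg.indFun H φ (p.1 * p.2) := by
    rw [finsum_mem_eq_finite_toFinset_sum _ (Set.toFinite _)]
    apply Finset.sum_congr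
    · ext p; simp
    · intros; rfl
  have hR : ∑ᶠ p ∈ {p : H × H | IsConj u (p.1 : G) ∧ IsConj v (p.2 : G)}, φ (p.1 * p.2) =
      ∑ p ∈ Finset.univ.filter (fun p : H × H => IsConj u (p.1 : G) ∧ IsConj v (p.2 : G)),
        φ (p.1 * p.2) := by
    rw [finsum_mem_eq_finite_toFinset_sum _ (Set.toFinite _)]
    apply Finset.sum_congr
    · ext p; simp
    · intros; rfl
  rw [hL, hR]
  have h1 : ∀ p : G × G, Cfsg.indFun H φ (p.1 * p.2) =
      (Nat.card H : ℂ)⁻¹ * ∑ x : G, F ((x⁻¹ * p.1 * x) * (x⁻¹ * p.2 * x)) := by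
    intro p
    rw [CfsgH4.indFun_apply]
    congr 1
    refine Finset.sum_congr rfl fun x _ => ?_
    rw [hF]; congr 1; group
  rw [Finset.sum_congr rfl (fun p _ => h1 p), ← Finset.mul_sum, Finset.sum_comm]
  have h2 : ∀ x : G, ∑ p ∈ Finset.univ.filter (fun p : G × G => IsConj u p.1 ∧ IsConj v p.2),
      F ((x⁻¹ * p.1 * x) * (x⁻¹ * p.2 * x)) =
      ∑ p ∈ Finset.univ.filter (fun p : G × G => IsConj u p.1 ∧ IsConj v p.2), F (p.1 * p.2) := by
    intro x
    apply Finset.sum_bij' (fun p _ => (x⁻¹ * p.1 * x, x⁻¹ * p.2 * x))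
      (fun p _ => (x * p.1 * x⁻¹, x * p.2 * x⁻¹))
    · intro p hp
      rw [Finset.mem_filter] at hp ⊢
      refine ⟨Finset.mem_univ _, hp.2.1.trans (isConj_iff.2 ⟨x⁻¹, by simp⟩),
        hp.2.2.trans (isConj_iff.2 ⟨x⁻¹, by simp⟩)⟩
    · intro p hp
      rw [Finset.mem_filter] at hp ⊢
      refine ⟨Finset.mem_univ _, hp.2.1.trans (isConj_iff.2 ⟨x, rfl⟩),
        hp.2.2.trans (isConj_iff.2 ⟨x, rfl⟩)⟩
    · intro p _; apply Prod.ext <;> simp [mul_assoc]
    · intro p _; apply Prod.ext <;> simp [mul_assoc]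
    · intro p _; rfl
  rw [Finset.sum_congr rfl (fun x _ => h2 x), Finset.sum_const, Finset.card_univ, nsmul_eq_mul,
    Fintype.card_eq_nat_card]
  have h3 : ∑ p ∈ Finset.univ.filter (fun p : G × G => IsConj u p.1 ∧ IsConj v p.2), F (p.1 * p.2) =
      ∑ p ∈ Finset.univ.filter (fun p : H × H => IsConj u (p.1 : G) ∧ IsConj v (p.2 : G)),
        φ (p.1 * p.2) := by
    symm
    have h4 : ∑ p ∈ Finset.univ.filter (fun p : H × H => IsConj u (p.1 : G) ∧ IsConj v (p.2 : G)),
        φ (p.1 * p.2) = ∑ p ∈ (Finset.univ.filter (fun p : H × H => IsConj u (p.1 : G) ∧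
          IsConj v (p.2 : G))).image (fun p : H × H => ((p.1 : G), (p.2 : G))), F (p.1 * p.2) := by
      rw [Finset.sum_image]
      · refine Finset.sum_congr rfl fun p _ => ?_
        rw [hF, ← Subgroup.coe_mul, CfsgH4.extendByZero_coe]
      · intro p _ q _ h
        exact Prod.ext (Subtype.ext (Prod.ext_iff.1 h).1) (Subtype.ext (Prod.ext_iff.1 h).2)
    rw [h4]
    apply Finset.sum_subset
    · intro p hp
      obtain ⟨q, hq, rfl⟩ := Finset.mem_image.1 hp
      rw [Finset.mem_filter] at hq ⊢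
      exact ⟨Finset.mem_univ _, hq.2⟩
    · intro p hp hnp
      apply hFS
      intro hs
      apply hnp
      rw [Finset.mem_filter] at hp
      obtain ⟨ha, hb⟩ := key p.1 p.2 hp.2.1 hp.2.2 hs
      exact Finset.mem_image.2 ⟨(⟨p.1, ha⟩, ⟨p.2, hb⟩), Finset.mem_filter.2 ⟨Finset.mem_univ _, hp.2⟩, rfl⟩
  rw [h3, ← mul_assoc]
  congr 1
  have h5 := CfsgH4.card_ne_zero H
  rw [← Subgroup.card_mul_index H]
  push_cast
  field_simp

end Cfsg.Agent.S0849
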