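import Cfsg.Statements.S0850
import Cfsg.Agent.H4.Perms
import Cfsg.Agent.H4.PGrp

set_option autoImplicit false
open Cfsg

namespace Cfsg.Agent.S0850

/-- Let K be a subgroup of the finite group G that meets each conjugate by an element outside its normalizer N trivially, is properly contained in N, and contains the centralizer of each of its non-identity elements (a T.I. subgroup with Frobenius normalizer). Then no element of N outside K is conjugate in G to an element of K, and for every class function ϑ of N that vanishes on N away from K and at the identity, the function induced from ϑ to G agrees with ϑ on all of N. -/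
theorem result {G : Type*} [Group G] [Fintype G] (K : Subgroup G) (hTI : ∀ g : G, g ∉ Subgroup.normalizer (K : Set G) → ∀ k ∈ K, g * k * g⁻¹ ∈ K → k = 1) (hlt : K < Subgroup.normalizer (K : Set G)) (hC : ∀ k ∈ K, k ≠ 1 → Subgroup.centralizer ({k} : Set G) ≤ K) : (∀ x ∈ Subgroup.normalizer (K : Set G), x ∉ K → ∀ g : G, g * x * g⁻¹ ∉ K) ∧ ∀ (ϑ : Subgroup.normalizer (K : Set G) → ℂ), Cfsg.IsClassFunction (Subgroup.normalizer (K : Set G)) ϑ → (∀ x : Subgroup.normalizer (K : Set G), (x : G) ∉ K → ϑ x = 0) → ϑ 1 = 0 → ∀ x : Subgroup.normalizer (K : Set G), Cfsg.indFun (Subgroup.normalizer (K : Set G)) ϑ x = ϑ x := by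
  classical
  set N := Subgroup.normalizer (K : Set G) with hN
  have hKN : K ≤ N := Subgroup.le_normalizer
  -- coprimality
  have hcop : Nat.Coprime (Nat.card K) (K.relIndex N) := by
    rw [Nat.coprime_iff_gcd_eq_one] 
    by_contra hne
    obtain ⟨p, hp, hpd⟩ := Nat.exists_prime_and_dvd hne
    haveI := Fact.mk hp
    have hpK := hpd.trans (Nat.gcd_dvd_left _ _)
    have hpI := hpd.trans (Nat.gcd_dvd_right _ _)
    obtain ⟨P⟩ : Nonempty (Sylow p N) := inferInstance
    set K' := K.subgroupOf N with hK'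
    haveI hK'n : K'.Normal := Subgroup.normal_subgroupOf_of_le_normalizer le_rfl
    have hcK' : Nat.card K' = Nat.card K := Nat.card_congr (Subgroup.subgroupOfEquivOfLe hKN).toEquiv
    -- P ∩ K' nontrivial
    have hPK : (P : Subgroup N) ⊓ K' ≠ ⊥ := by
      intro h
      obtain ⟨x, hx⟩ := exists_prime_orderOf_dvd_card' (G := K') p (by rw [hcK']; exact hpK)
      have hzp : IsPGroup p (Subgroup.zpowers (x : N)) := by
        apply IsPGroup.of_card (n := 1)
        rw [Nat.card_zpowers, Subgroup.orderOf_coe, hx, pow_one]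
      obtain ⟨Q, hQ⟩ := hzp.exists_le_sylow
      obtain ⟨g, hg⟩ := MulAction.exists_smul_eq N Q P
      have h1 : g * (x : N) * g⁻¹ ∈ (P : Subgroup N) := by
        rw [← hg]
        have h2 : (x : N) ∈ (Q : Subgroup N) := hQ (Subgroup.mem_zpowers _)
        show g * (x : N) * g⁻¹ ∈ ((g • Q : Sylow p N) : Subgroup N)
        rw [Sylow.coe_subgroup_smul]
        exact ⟨(x : N), h2, rfl⟩
      have h2 : g * (x : N) * g⁻¹ ∈ (P : Subgroup N) ⊓ K' := ⟨h1, hK'n.conj_mem _ x.2 g⟩
      rw [h, Subgroup.mem_bot] at h2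
      have h3 : (x : N) = 1 := by
        have := congrArg (fun z => g⁻¹ * z * g) h2
        simpa [mul_assoc] using this
      have h4 : orderOf (x : N) = p := by rw [Subgroup.orderOf_coe, hx]
      rw [h3, orderOf_one] at h4
      exact hp.one_lt.ne h4
    -- central element of P in P ⊓ K'
    haveI : ((K').subgroupOf (P : Subgroup N)).Normal := Subgroup.normal_subgroupOf
    have hne2 : (K').subgroupOf (P : Subgroup N) ≠ ⊥ := by
      intro h
      apply hPK
      rw [eq_bot_iff]
      intro x hx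
      have h1 : (⟨x, hx.1⟩ : (P : Subgroup N)) ∈ (K').subgroupOf (P : Subgroup N) := hx.2
      rw [h, Subgroup.mem_bot] at h1
      exact congrArg Subtype.val h1
    obtain ⟨z, hzK, hzc, hzo⟩ := CfsgH4.exists_central_order_p P.isPGroup' _ hne2
    have hz1 : ((z : N) : G) ≠ 1 := by
      intro h
      have h1 : z = 1 := Subtype.ext (Subtype.ext h)
      rw [h1, orderOf_one] at hzo
      exact hp.one_lt.ne hzo
    have hPK2 : (P : Subgroup N) ≤ K' := by
      intro y hy
      show (y : G) ∈ K
      apply hC ((z : N) : G) hzK hz1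
      rw [Subgroup.mem_centralizer_singleton_iff]
      have h1 := Subgroup.mem_center_iff.1 hzc ⟨y, hy⟩
      exact congrArg (fun w : (P : Subgroup N) => ((w : N) : G)) h1
    exact P.not_dvd_index (hpI.trans (Subgroup.index_dvd_of_le hPK2))
  have hpart1 : ∀ x ∈ N, x ∉ K → ∀ g : G, g * x * g⁻¹ ∉ K := by
    intro x hx hxK g hg
    apply hxK
    have h1 : orderOf x ∣ Nat.card K := by
      have h2 : orderOf (g * x * g⁻¹) = orderOf x :=
        orderOf_injective (MulAut.conj g).toMonoidHom (MulAut.conj g).injective x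
      rw [← h2]
      have h3 := orderOf_dvd_natCard (⟨g * x * g⁻¹, hg⟩ : K)
      rwa [← Subgroup.orderOf_coe] at h3
    haveI hK'n : (K.subgroupOf N).Normal := Subgroup.normal_subgroupOf_of_le_normalizer le_rfl
    let y : N := ⟨x, hx⟩
    have h2 : orderOf ((y : N ⧸ K.subgroupOf N)) ∣ Nat.card K := by
      refine (orderOf_map_dvd (QuotientGroup.mk' (K.subgroupOf N)) y).trans ?_
      rw [← Subgroup.orderOf_coe]; exact h1
    have h3 : orderOf ((y : N ⧸ K.subgroupOf N)) ∣ K.relIndex N := orderOf_dvd_natCard _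
    have h4 : orderOf ((y : N ⧸ K.subgroupOf N)) ∣ 1 := by
      rw [← hcop.gcd_eq_one]; exact Nat.dvd_gcd h2 h3
    have h5 := orderOf_eq_one_iff.1 (Nat.dvd_one.1 h4)
    have h6 : y ∈ K.subgroupOf N := (QuotientGroup.eq_one_iff _).1 h5
    exact h6
  refine ⟨hpart1, ?_⟩
  intro ϑ hϑ hϑK hϑ1 x
  by_cases hx1 : x = 1
  · rw [hx1]
    show Cfsg.indFun N ϑ ((1 : N) : G) = ϑ 1
    rw [Subgroup.coe_one, CfsgH4.indFun_one, hϑ1, mul_zero]
  · by_cases hxK : (x : G) ∈ K
    · exact CfsgH4.indFun_TI (K : Set G) N hTI ϑ hϑ hϑK x hxK hx1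
    · rw [hϑK x hxK, CfsgH4.indFun_apply']
      have : ∀ g : G, Cfsg.extendByZero N ϑ (g * x * g⁻¹) = 0 := by
        intro g
        by_cases hg : g * x * g⁻¹ ∈ N
        · rw [CfsgH4.extendByZero_of_mem N ϑ hg]
          exact hϑK _ (hpart1 x x.2 hxK g)
        · exact CfsgH4.extendByZero_of_not_mem N ϑ hg
      rw [Finset.sum_congr rfl (fun g _ => this g)]
      simp

end Cfsg.Agent.S0850
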