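import Cfsg.Statements.S0851
import Cfsg.Agent.H4.Sib2

set_option autoImplicit false
open Cfsg

namespace Cfsg.Agent.S0851

open CfsgH4 ComplexConjugate

/-- Let K be a subgroup of the finite group G that meets each conjugate by an element outside its normalizer N trivially, is properly contained in N, and contains the centralizer of each of its non-identity elements (a T.I. subgroup with Frobenius normalizer). Suppose K is abelian, let e be the index of K in N, and call an irreducible character of N relevant when it takes at some element of K a value different from its degree. Then either there is exactly one relevant character and K is an elementary abelian p-group of order e + 1 for some prime p, or there are a sign ε and an injective map f from the relevant characters to the irreducible characters of G such that inducing χ - ξ to G gives ε (f χ - f ξ) for all relevant χ and ξ. -/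
theorem result {G : Type*} [Group G] [Fintype G] (K : Subgroup G) (hTI : ∀ g : G, g ∉ Subgroup.normalizer (K : Set G) → ∀ k ∈ K, g * k * g⁻¹ ∈ K → k = 1) (hlt : K < Subgroup.normalizer (K : Set G)) (hC : ∀ k ∈ K, k ≠ 1 → Subgroup.centralizer ({k} : Set G) ≤ K) (hab : ∀ a ∈ K, ∀ b ∈ K, a * b = b * a) : (Nat.card {χ : Cfsg.IrrCharacter (Subgroup.normalizer (K : Set G)) // ∃ k : Subgroup.normalizer (K : Set G), (k : G) ∈ K ∧ (χ : ↥(Subgroup.normalizer (K : Set G)) → ℂ) k ≠ (χ : ↥(Subgroup.normalizer (K : Set G)) → ℂ) 1} = 1 ∧ ∃ p : ℕ, p.Prime ∧ Cfsg.IsElementaryAbelian p K ∧ Nat.card K = (K.subgroupOf (Subgroup.normalizer (K : Set G))).index + 1) ∨ ∃ (ε : ℂ) (f : {χ : Cfsg.IrrCharacter (Subgroup.normalizer (K : Set G)) // ∃ k : Subgroup.normalizer (K : Set G), (k : G) ∈ K ∧ (χ : ↥(Subgroup.normalizer (K : Set G)) → ℂ) k ≠ (χ : ↥(Subgroup.normalizer (K : Set G)) → ℂ) 1} → Cfsg.IrrCharacter G), (ε = 1 ∨ ε = -1) ∧ Function.Injective f ∧ ∀ χ ξ, Cfsg.indFun (Subgroup.normalizer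 (K : Set G)) ((χ.1 : ↥(Subgroup.normalizer (K : Set G)) → ℂ) - (ξ.1 : ↥(Subgroup.normalizer (K : Set G)) → ℂ)) = ε • ((f χ : G → ℂ) - (f ξ : G → ℂ)) := by
  classical
  right
  haveI : Fintype (Subgroup.normalizer (K : Set G)) := Fintype.ofFinite _
  have h : TIData K := ⟨hTI, hlt, hC⟩
  set ι := {χ : Cfsg.IrrCharacter (Subgroup.normalizer (K : Set G)) // ∃ k : Subgroup.normalizer (K : Set G), (k : G) ∈ K ∧ (χ : ↥(Subgroup.normalizer (K : Set G)) → ℂ) k ≠ (χ : ↥(Subgroup.normalizer (K : Set G)) → ℂ) 1} with hι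
  by_cases hne : Nonempty ι
  · obtain ⟨i₀⟩ := hne
    have hmem : ∀ i : ι, ((i.1 : Cfsg.IrrCharacter _) : ↥(Subgroup.normalizer (K : Set G)) → ℂ) ∈ SKN K :=
      fun i => ⟨i.1.2, i.2⟩
    haveI : Fintype (KN K) := Fintype.ofFinite _
    have habK : ∀ a b : KN K, a * b = b * a := by
      intro a b
      apply Subtype.ext
      apply Subtype.ext
      exact hab _ (Subgroup.mem_subgroupOf.1 a.2) _ (Subgroup.mem_subgroupOf.1 b.2)
    have hdeg : ∀ i : ι, ((i.1 : Cfsg.IrrCharacter _) : ↥(Subgroup.normalizer (K : Set G)) → ℂ) 1 = (KN K).index := by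
      intro i
      obtain ⟨θ, hθ, -, he⟩ := sk_induced (KN K) (KN_cent h) i.1.2 (SKN_ker (hmem i))
      obtain ⟨f, hf⟩ := CfsgH4.IsIrr.linear_of_comm habK hθ
      rw [he, indFun_one, hf]
      simp
    have hin : ∀ i j : ι, ((i.1 : Cfsg.IrrCharacter _) : ↥(Subgroup.normalizer (K : Set G)) → ℂ) - ((j.1 : Cfsg.IrrCharacter _) : ↥(Subgroup.normalizer (K : Set G)) → ℂ) ∈ Cfsg.zspanOn (SKN K) {1}ᶜ := by
      intro i j
      rw [mem_zspanOn]
      refine ⟨zspan_sub (zspan_self (hmem i)) (zspan_self (hmem j)), ?_⟩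
      rw [Pi.sub_apply, hdeg, hdeg, sub_self]
    have hval : ∀ i j k l : ι, Cfsg.classInner (Cfsg.indFun (Subgroup.normalizer (K : Set G)) ((i.1 : ↥(Subgroup.normalizer (K : Set G)) → ℂ) - (j.1 : ↥(Subgroup.normalizer (K : Set G)) → ℂ))) (Cfsg.indFun (Subgroup.normalizer (K : Set G)) ((k.1 : ↥(Subgroup.normalizer (K : Set G)) → ℂ) - (l.1 : ↥(Subgroup.normalizer (K : Set G)) → ℂ))) =
        (if i = k then 1 else 0) - (if i = l then 1 else 0) - (if j = k then 1 else 0) + (if j = l then 1 else 0) := by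
      intro i j k l
      have hh := (TI_iso h).2.2.1 _ (hin i j) _ (hin k l)
      rw [hh, classInner_diff i.1.2 j.1.2 k.1.2 l.1.2]
      have e : ∀ a b : ι, (((a.1 : Cfsg.IrrCharacter _) : ↥(Subgroup.normalizer (K : Set G)) → ℂ) = ((b.1 : Cfsg.IrrCharacter _) : ↥(Subgroup.normalizer (K : Set G)) → ℂ)) = (a = b) := by
        intro a b
        apply propext
        exact ⟨fun h => Subtype.ext (Subtype.ext h), fun h => by rw [h]⟩
      simp only [e]
    obtain ⟨ε, hε, μ, hμ, hinj, hμe⟩ := isometry_lemma i₀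
      (fun i : ι => Cfsg.indFun (Subgroup.normalizer (K : Set G)) ((i.1 : ↥(Subgroup.normalizer (K : Set G)) → ℂ) - (i₀.1 : ↥(Subgroup.normalizer (K : Set G)) → ℂ)))
      (by rw [sub_self, indFun_zero])
      (fun i => (TI_iso h).2.2.2 _ (hin i i₀)) (fun i => TI_one _ (hin i i₀))
      (fun i hi => by
        rw [hval, if_pos rfl, if_neg hi, if_neg (Ne.symm hi), if_pos rfl]; norm_num)
      (fun i j hi hj hij => by
        rw [hval, if_neg hij, if_neg hi, if_neg (Ne.symm hj), if_pos rfl]; norm_num)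
    refine ⟨ε, fun i => ⟨μ i, hμ i⟩, hε, fun i j hij => hinj (congrArg Subtype.val hij), ?_⟩
    intro i j
    have e1 : ((i.1 : ↥(Subgroup.normalizer (K : Set G)) → ℂ) - (j.1 : ↥(Subgroup.normalizer (K : Set G)) → ℂ)) =
      ((i.1 : ↥(Subgroup.normalizer (K : Set G)) → ℂ) - (i₀.1 : ↥(Subgroup.normalizer (K : Set G)) → ℂ)) -
      ((j.1 : ↥(Subgroup.normalizer (K : Set G)) → ℂ) - (i₀.1 : ↥(Subgroup.normalizer (K : Set G)) → ℂ)) := by abel
    rw [e1, indFun_sub, hμe i, hμe j, ← smul_sub]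
    show ε • (μ i - μ i₀ - (μ j - μ i₀)) = ε • (μ i - μ j)
    congr 1; abel
  · refine ⟨1, fun i => absurd ⟨i⟩ hne, Or.inl rfl, fun i => absurd ⟨i⟩ hne, fun i => absurd ⟨i⟩ hne⟩

end Cfsg.Agent.S0851
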