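import Cfsg.Statements.S0852
import Cfsg.Agent.H4.Sib2

set_option autoImplicit false
open Cfsg

namespace Cfsg.Agent.S0852

open CfsgH4 ComplexConjugate

/-- Let K be a subgroup of the finite group G that meets each conjugate by an element outside its normalizer N trivially, is properly contained in N, and contains the centralizer of each of its non-identity elements (a T.I. subgroup with Frobenius normalizer). Let S be the set of irreducible characters of N taking at some element of K a value different from their degree, suppose S has at least two members, and let star be a linear isometry on the integer span of S into the generalized characters of G that agrees with induction on the members vanishing at the identity (so S is coherent, with star as the extending isometry). Then an irreducible character ψ of G is of the form star χ or -star χ for some χ in S if and only if ψ is not constant on the non-identity elements of K. -/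
theorem result {G : Type*} [Group G] [Fintype G] (K : Subgroup G) (hTI : ∀ g : G, g ∉ Subgroup.normalizer (K : Set G) → ∀ k ∈ K, g * k * g⁻¹ ∈ K → k = 1) (hlt : K < Subgroup.normalizer (K : Set G)) (hC : ∀ k ∈ K, k ≠ 1 → Subgroup.centralizer ({k} : Set G) ≤ K) [Fintype ↥(Subgroup.normalizer (K : Set G))] (S : Set (↥(Subgroup.normalizer (K : Set G)) → ℂ)) (hS : S = {χ : ↥(Subgroup.normalizer (K : Set G)) → ℂ | Cfsg.IsIrrCharacter ↥(Subgroup.normalizer (K : Set G)) χ ∧ ∃ k : ↥(Subgroup.normalizer (K : Set G)), (k : G) ∈ K ∧ χ k ≠ χ 1}) (htwo : ∃ χ ∈ S, ∃ ξ ∈ S, χ ≠ ξ) (star : (↥(Subgroup.normalizer (K : Set G)) → ℂ) → (G → ℂ)) (hstar : Cfsg.IsLinearIsometryOn (Cfsg.zspan S) star) (hext : ∀ α ∈ Cfsg.zspanOn S ({1}ᶜ : Set ↥(Subgroup.normalizer (K : Set G))), star α = Cfsg.indFun (Subgroup.normalizer (K : Set G)) α) (ψ : G → ℂ) (hψ : Cfsg.IsIrrCharacter G ψ) : (∃ χ ∈ S, ψ = star χ ∨ ψ = -star χ) ↔ ∃ a ∈ K, ∃ b ∈ K, a ≠ 1 ∧ b ≠ 1 ∧ ψ a ≠ ψ b := by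
  classical
  have h : TIData K := ⟨hTI, hlt, hC⟩
  have hSK : S = SKN K := hS
  subst hSK
  have hψc := CfsgH4.IsIrr.isClassFunction hψ
  have hψi := CfsgH4.IsCharacter.isGen (CfsgH4.IsIrr.isCharacter hψ)
  have hsgn : ∀ χ ∈ SKN K, IsSgn (star χ) := fun χ hχ => isSgn_of_norm_one (hstar.2.2.2 χ (zspan_self hχ))
    (by rw [hstar.2.2.1 χ (zspan_self hχ) χ (zspan_self hχ)]; exact classInner_irr_self hχ.1)
  -- inner products with combinations
  have hcomb : ∀ χ ∈ SKN K, ∀ ξ ∈ SKN K, ∀ a b : ℕ, χ 1 = a → ξ 1 = b →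
      Cfsg.classInner ψ (star ((b : ℤ) • χ - (a : ℤ) • ξ)) =
        (b : ℂ) * Cfsg.classInner (fun x : Subgroup.normalizer (K : Set G) => ψ x) χ -
        (a : ℂ) * Cfsg.classInner (fun x : Subgroup.normalizer (K : Set G) => ψ x) ξ := by
    intro χ hχ ξ hξ a b ha hb
    rw [hext _ (deg_comb SKN_irr hχ hξ ha hb), frobenius_right _ _ hψc, zs_eq, zs_eq,
      classInner_sub_right, classInner_smul_right, classInner_smul_right, conj_int, conj_int]
    push_cast; ring
  have hcomb2 : ∀ χ ∈ SKN K, ∀ ξ ∈ SKN K, ∀ a b : ℕ, χ 1 = a → ξ 1 = b →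
      Cfsg.classInner ψ (star ((b : ℤ) • χ - (a : ℤ) • ξ)) =
        (b : ℂ) * Cfsg.classInner ψ (star χ) - (a : ℂ) * Cfsg.classInner ψ (star ξ) := by
    intro χ hχ ξ hξ a b ha hb
    rw [iso_sub' hstar (zspan_smul _ (zspan_self hχ)) (zspan_smul _ (zspan_self hξ)),
      hstar.2.1 _ (zspan_self hχ), hstar.2.1 _ (zspan_self hξ), zs_eq, zs_eq,
      classInner_sub_right, classInner_smul_right, classInner_smul_right, conj_int, conj_int]
    push_cast; ring
  constructor
  · rintro ⟨χ, hχ, hψχ⟩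
    by_contra hcon
    push Not at hcon
    obtain ⟨ξ, hξ, hne⟩ : ∃ ξ ∈ SKN K, ξ ≠ χ := by
      obtain ⟨a, ha, b, hb, hab⟩ := htwo
      by_cases h1 : a = χ
      · exact ⟨b, hb, fun h' => hab (h1.trans h'.symm)⟩
      · exact ⟨a, ha, h1⟩
    obtain ⟨a, ha, hae⟩ := irr_deg' hχ.1
    obtain ⟨b, hb, hbe⟩ := irr_deg' hξ.1
    -- `ψ` is constant on `K` minus one
    obtain ⟨k₀, hk₀, hk₀1⟩ := hχ.2
    have hk₀ne : (k₀ : G) ≠ 1 := fun h' => hk₀1 (by rw [show k₀ = 1 from Subtype.ext h'])
    have h1 := hcomb χ hχ ξ hξ a b hae hbe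
    have h2 := hcomb2 χ hχ ξ hξ a b hae hbe
    have hξ0 : Cfsg.classInner (star χ) (star ξ) = 0 := by
      rw [hstar.2.2.1 _ (zspan_self hχ) _ (zspan_self hξ), classInner_irr_ne hχ.1 hξ.1 (Ne.symm hne)]
    have hχ1 : Cfsg.classInner (star χ) (star χ) = 1 := (hsgn χ hχ).self
    have h3 : Cfsg.classInner ψ (star ((b : ℤ) • χ - (a : ℤ) • ξ)) ≠ 0 := by
      have hb' : (b : ℂ) ≠ 0 := by exact_mod_cast hb.ne'
      rw [h2]
      rcases hψχ with h4 | h4
      · rw [h4, hξ0, hχ1]; simpa using hb'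
      · rw [h4, classInner_neg_left, classInner_neg_left, hξ0, hχ1]; simpa using hb'
    apply h3
    rw [hext _ (deg_comb SKN_irr hχ hξ hae hbe), frobenius_right _ _ hψc]
    have hα := deg_comb SKN_irr hχ hξ hae hbe
    set α := (b : ℤ) • χ - (a : ℤ) • ξ with hαd
    have hαm := mem_zspanOn.1 hα
    have h5 : Cfsg.classInner (fun x : Subgroup.normalizer (K : Set G) => ψ x) α =
        ψ k₀ * Cfsg.classInner (fun _ => 1) α := by
      rw [classInner_def, classInner_def, mul_left_comm, Finset.mul_sum (a := ψ k₀)]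
      congr 1
      refine Finset.sum_congr rfl fun x _ => ?_
      by_cases hx : (x : G) ∈ K
      · by_cases hx1 : (x : G) = 1
        · have : x = 1 := Subtype.ext hx1
          rw [this, hαm.2, map_zero, mul_zero, mul_zero, mul_zero]
        · show ψ x * _ = _
          rw [hcon x hx k₀ hk₀ hx1 hk₀ne]; ring
      · rw [SKN_span_zero h hαm.1 hx, map_zero, mul_zero, mul_zero, mul_zero]
    rw [h5]
    have h6 : ∀ ζ ∈ SKN K, Cfsg.classInner (fun _ => 1) ζ = 0 := by
      intro ζ hζ
      apply classInner_irr_ne isIrrCharacter_one hζ.1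
      intro h'
      obtain ⟨-, k, -, hk⟩ := hζ
      exact hk (by rw [← h'])
    rw [hαd, zs_eq, zs_eq, classInner_sub_right, classInner_smul_right, classInner_smul_right,
      h6 χ hχ, h6 ξ hξ]
    ring
  · rintro ⟨a, ha, b, hb, ha1, hb1, hab⟩
    by_contra hcon
    push Not at hcon
    have h0 : ∀ χ ∈ SKN K, Cfsg.classInner ψ (star χ) = 0 := by
      intro χ hχ
      rcases (show IsSgn ψ from Or.inl hψ).cases (hsgn χ hχ) with h1 | h1 | h1
      · exact absurd h1 (hcon χ hχ).1
      · exact absurd h1 (hcon χ hχ).2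
      · exact h1
    obtain ⟨η, hη, -⟩ := htwo
    obtain ⟨d, hd, hde⟩ := irr_deg' hη.1
    obtain ⟨r, hr, -⟩ := sk_const (KN K) (isClassFunction_restrict _ hψc) hη.1 (by
      intro ξ hξ
      have hξS : (ξ : Subgroup.normalizer (K : Set G) → ℂ) ∈ SKN K := by
        push Not at hξ
        obtain ⟨n, hn, hn1⟩ := hξ
        exact ⟨ξ.2, n, Subgroup.mem_subgroupOf.1 hn, hn1⟩
      obtain ⟨e, he, hee⟩ := irr_deg' ξ.2
      have h1 := hcomb _ hξS η hη e d hee hde
      have h2 := hcomb2 _ hξS η hη e d hee hde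
      rw [h0 _ hξS, h0 η hη] at h2
      rw [h2] at h1
      rw [hde, hee]
      linear_combination -h1)
    have haN : a ∈ Subgroup.normalizer (K : Set G) := hlt.le ha
    have hbN : b ∈ Subgroup.normalizer (K : Set G) := hlt.le hb
    have e1 := hr ⟨a, haN⟩ (Subgroup.mem_subgroupOf.2 ha) (fun h' => ha1 (congrArg Subtype.val h'))
    have e2 := hr ⟨b, hbN⟩ (Subgroup.mem_subgroupOf.2 hb) (fun h' => hb1 (congrArg Subtype.val h'))
    exact hab (e1.trans e2.symm)

end Cfsg.Agent.S0852
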