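import Cfsg.Statements.S0853
import Cfsg.Agent.H4.Sib2

set_option autoImplicit false
open Cfsg

namespace Cfsg.Agent.S0853

open CfsgH4 ComplexConjugate

/-- Let K be a subgroup of the finite group G that meets each conjugate by an element outside its normalizer N trivially, is properly contained in N, and contains the centralizer of each of its non-identity elements (a T.I. subgroup with Frobenius normalizer). Let S be the set of irreducible characters of N taking at some element of K a value different from their degree, suppose S has at least two members, and let star be a linear isometry on the integer span of S into the generalized characters of G that agrees with induction on the members vanishing at the identity (so S is coherent, with star as the extending isometry). Then there is a single integer m such that star χ k - χ k = m * χ 1 / e for every χ in S and every non-identity element k of K, where e is the index of K in N. -/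
theorem result {G : Type*} [Group G] [Fintype G] (K : Subgroup G) (hTI : ∀ g : G, g ∉ Subgroup.normalizer (K : Set G) → ∀ k ∈ K, g * k * g⁻¹ ∈ K → k = 1) (hlt : K < Subgroup.normalizer (K : Set G)) (hC : ∀ k ∈ K, k ≠ 1 → Subgroup.centralizer ({k} : Set G) ≤ K) [Fintype ↥(Subgroup.normalizer (K : Set G))] (S : Set (↥(Subgroup.normalizer (K : Set G)) → ℂ)) (hS : S = {χ : ↥(Subgroup.normalizer (K : Set G)) → ℂ | Cfsg.IsIrrCharacter ↥(Subgroup.normalizer (K : Set G)) χ ∧ ∃ k : ↥(Subgroup.normalizer (K : Set G)), (k : G) ∈ K ∧ χ k ≠ χ 1}) (htwo : ∃ χ ∈ S, ∃ ξ ∈ S, χ ≠ ξ) (star : (↥(Subgroup.normalizer (K : Set G)) → ℂ) → (G → ℂ)) (hstar : Cfsg.IsLinearIsometryOn (Cfsg.zspan S) star) (hext : ∀ α ∈ Cfsg.zspanOn S ({1}ᶜ : Set ↥(Subgroup.normalizer (K : Set G))), star α = Cfsg.indFun (Subgroup.normalizer (K : Set G)) α) : ∃ m : ℤ, ∀ χ ∈ S, ∀ k : ↥(Subgroup.normalizer (K : Set G)), (k : G) ∈ K → k ≠ 1 → star χ k - χ k = (m : ℂ) * χ 1 / ((K.subgroupOf (Subgroup.normalizer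 (K : Set G))).index : ℂ) := by
  classical
  have h : TIData K := ⟨hTI, hlt, hC⟩
  have hSK : S = SKN K := hS
  subst hSK
  haveI : Fintype (KN K) := Fintype.ofFinite _
  have hsg : ∀ χ ∈ SKN K, Cfsg.IsGeneralizedCharacter G (star χ) := fun χ hχ =>
    hstar.2.2.2 χ (zspan_self hχ)
  -- the difference is constant
  have hconst : ∀ χ ∈ SKN K, ∃ r : ℂ, (∀ k : Subgroup.normalizer (K : Set G), (k : G) ∈ K → k ≠ 1 →
      star χ k - χ k = r) ∧ ∃ n : ℤ, r = n := by
    intro χ hχ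
    have hfg : Cfsg.IsGeneralizedCharacter (Subgroup.normalizer (K : Set G))
        ((fun x : Subgroup.normalizer (K : Set G) => star χ x) - χ) :=
      isGen_sub (isGen_comp (Subgroup.normalizer (K : Set G)).subtype (hsg χ hχ))
        (CfsgH4.IsCharacter.isGen (CfsgH4.IsIrr.isCharacter hχ.1))
    obtain ⟨r, hr, hq⟩ := sk_const (KN K) (IsGen.isClassFunction hfg) hχ.1 (by
      intro ξ hξ
      have hξS : (ξ : Subgroup.normalizer (K : Set G) → ℂ) ∈ SKN K := by
        push Not at hξ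
        obtain ⟨n, hn, hn1⟩ := hξ
        exact ⟨ξ.2, n, Subgroup.mem_subgroupOf.1 hn, hn1⟩
      obtain ⟨e, he, hee⟩ := irr_deg' ξ.2
      obtain ⟨d, hd, hde⟩ := irr_deg' hχ.1
      have hα := deg_comb SKN_irr hξS hχ hee hde
      have hαm := mem_zspanOn.1 hα
      have h1 : Cfsg.classInner (star χ) (star ((d : ℤ) • (ξ : Subgroup.normalizer (K : Set G) → ℂ) - (e : ℤ) • χ)) =
          Cfsg.classInner χ ((d : ℤ) • (ξ : Subgroup.normalizer (K : Set G) → ℂ) - (e : ℤ) • χ) :=
        hstar.2.2.1 _ (zspan_self hχ) _ hαm.1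
      rw [hext _ hα, frobenius_right _ _ (IsGen.isClassFunction (hsg χ hχ))] at h1
      have h2 : Cfsg.classInner ((fun x : Subgroup.normalizer (K : Set G) => star χ x) - χ)
          ((d : ℤ) • (ξ : Subgroup.normalizer (K : Set G) → ℂ) - (e : ℤ) • χ) = 0 := by
        rw [classInner_sub_left, h1, sub_self]
      rw [zs_eq, zs_eq, classInner_sub_right, classInner_smul_right, classInner_smul_right,
        conj_int, conj_int] at h2
      rw [hde, hee]
      push_cast at h2
      linear_combination h2)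
    refine ⟨r, fun k hk hk1 => hr k (Subgroup.mem_subgroupOf.2 hk) hk1, ?_⟩
    obtain ⟨q, hq'⟩ := hq (fun ξ => IsGen.inner_int hfg
      (CfsgH4.IsCharacter.isGen (CfsgH4.IsIrr.isCharacter ξ.2)))
    obtain ⟨-, k₀, hk₀, hk₀1⟩ := hχ
    have hk₀ne : k₀ ≠ 1 := fun h' => hk₀1 (by rw [h'])
    have e1 := hr k₀ (Subgroup.mem_subgroupOf.2 hk₀) hk₀ne
    have hint : IsIntegral ℤ r := by rw [← e1]; exact IsGen.isIntegral hfg k₀
    exact int_of_isIntegral_rat hint hq'
  choose! r hr hrint using hconst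
  choose! m hm using hrint
  -- proportionality
  obtain ⟨χ₀, hχ₀, -⟩ := htwo
  obtain ⟨k₀, hk₀, hk₀1⟩ := hχ₀.2
  have hk₀ne : k₀ ≠ 1 := fun h' => hk₀1 (by rw [h'])
  have hprop : ∀ χ ∈ SKN K, ∀ ξ ∈ SKN K, ξ 1 * r χ = χ 1 * r ξ := by
    intro χ hχ ξ hξ
    obtain ⟨a, ha, hae⟩ := irr_deg' hχ.1
    obtain ⟨b, hb, hbe⟩ := irr_deg' hξ.1
    have hα := deg_comb SKN_irr hχ hξ hae hbe
    have hαm := mem_zspanOn.1 hα
    have h1 := TI_val h (fun x hx => SKN_span_zero h hαm.1 hx)
      (IsGen.isClassFunction (span_classFun SKN_irr hαm.1)) hk₀ hk₀ne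
    rw [← hext _ hα, iso_sub' hstar (zspan_smul _ (zspan_self hχ)) (zspan_smul _ (zspan_self hξ)),
      hstar.2.1 _ (zspan_self hχ), hstar.2.1 _ (zspan_self hξ), Pi.sub_apply, Pi.sub_apply,
      zs_apply, zs_apply, zs_apply, zs_apply] at h1
    rw [← hr χ hχ k₀ hk₀ hk₀ne, ← hr ξ hξ k₀ hk₀ hk₀ne, hae, hbe]
    push_cast at h1
    linear_combination h1
  -- the constant
  set e : ℂ := ((KN K).index : ℂ) with he
  have he0 : e ≠ 0 := by
    rw [he]; exact_mod_cast Subgroup.index_ne_zero_of_finite (H := KN K)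
  set q : ℂ := r χ₀ * e / χ₀ 1 with hq
  have hχ₀d : χ₀ 1 ≠ 0 := CfsgH4.IsIrr.one_ne_zero hχ₀.1
  have hrq : ∀ χ ∈ SKN K, r χ = q * χ 1 / e := by
    intro χ hχ
    have h1 := hprop χ hχ χ₀ hχ₀
    rw [hq]
    field_simp
    linear_combination h1
  -- integrality
  have hθint : ∀ θ : Cfsg.IrrCharacter (KN K), (θ : KN K → ℂ) ≠ (fun _ => 1) → ∃ n : ℤ,
      q * (θ : KN K → ℂ) 1 = n := by
    intro θ hθ1
    obtain ⟨hirr, n, hn, hne⟩ := ind_mem_sk (KN K) (KN_cent h) θ.2 hθ1
    have hmem : Cfsg.indFun (KN K) (θ : KN K → ℂ) ∈ SKN K := ⟨hirr, n, Subgroup.mem_subgroupOf.1 hn, hne⟩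
    refine ⟨m (Cfsg.indFun (KN K) (θ : KN K → ℂ)), ?_⟩
    have h1 := hrq _ hmem
    rw [hm _ hmem, indFun_one, ← he] at h1
    rw [h1]
    field_simp
  have hqint : ∃ n : ℤ, q = n := by
    choose! n hn using hθint
    have hdex : ∀ θ : Cfsg.IrrCharacter (KN K), ∃ d : ℕ, (θ : KN K → ℂ) 1 = d := fun θ =>
      CfsgH4.IsCharacter.one_nat (CfsgH4.IsIrr.isCharacter θ.2)
    choose d hd using hdex
    obtain ⟨θ₀, hθ₀, hθ₀1, -⟩ := sk_induced (KN K) (KN_cent h) hχ₀.1 (SKN_ker hχ₀)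
    have hsum := sum_sq (G := KN K)
    obtain ⟨c, hc⟩ := degree_dvd_card hθ₀ (hd ⟨θ₀, hθ₀⟩)
    have e1 : q * (Nat.card (KN K) : ℂ) = ((n ⟨θ₀, hθ₀⟩ * c : ℤ) : ℂ) := by
      rw [hc]
      push_cast
      have := hn ⟨θ₀, hθ₀⟩ hθ₀1
      rw [hd ⟨θ₀, hθ₀⟩] at this
      rw [← this]; ring
    have e2 : q * (Nat.card (KN K) : ℂ) = q + ((∑ θ : Cfsg.IrrCharacter (KN K),
        (if (θ : KN K → ℂ) = (fun _ => 1) then 0 else n θ * d θ) : ℤ) : ℂ) := by
      rw [← hsum, Finset.mul_sum]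
      push_cast
      have h3 : q = ∑ θ : Cfsg.IrrCharacter (KN K), (if θ = ⟨fun _ => 1, isIrrCharacter_one⟩ then q else 0) := by
        rw [Finset.sum_ite_eq' Finset.univ, if_pos (Finset.mem_univ _)]
      conv_rhs => rw [h3]
      rw [← Finset.sum_add_distrib]
      refine Finset.sum_congr rfl fun θ _ => ?_
      by_cases h4 : (θ : KN K → ℂ) = fun _ => 1
      · rw [if_pos h4, if_pos (Subtype.ext h4), h4]; simp
      · rw [if_neg h4, if_neg (fun h5 => h4 (congrArg Subtype.val h5)), zero_add]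
        push_cast
        rw [← hn θ h4, hd θ]; ring
    refine ⟨n ⟨θ₀, hθ₀⟩ * c - ∑ θ : Cfsg.IrrCharacter (KN K),
        (if (θ : KN K → ℂ) = (fun _ => 1) then 0 else n θ * d θ), ?_⟩
    rw [e1] at e2
    push_cast at e2 ⊢
    linear_combination -e2
  obtain ⟨M, hM⟩ := hqint
  refine ⟨M, fun χ hχ k hk hk1 => ?_⟩
  rw [hr χ hχ k hk hk1, hrq χ hχ, hM]

end Cfsg.Agent.S0853
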