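import Cfsg.Statements.S0854
import Cfsg.Agent.H4.Corr

set_option autoImplicit false
open Cfsg

namespace Cfsg.Agent.S0854

/-- Let H be a normal subgroup of the finite group G, ϑ an irreducible character of H, and T the inertia group of ϑ (the elements g with ϑ(g n g⁻¹) = ϑ(n) for all n in H). If χ is an irreducible character of G whose restriction to H has nonzero inner product with ϑ, then χ is induced from some irreducible character ψ of T, and the restrictions of ψ and of χ to H have the same inner product with ϑ. -/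
theorem result {G : Type*} [Group G] [Fintype G] (H : Subgroup G) [hN : H.Normal] [Fintype H] (ϑ : H → ℂ) (hϑ : Cfsg.IsIrrCharacter H ϑ) (T : Subgroup G) [Fintype T] (hT : ∀ g : G, g ∈ T ↔ ∀ n : H, ϑ ⟨g * n * g⁻¹, hN.conj_mem (n : G) n.2 g⟩ = ϑ n) (hHT : H ≤ T) (χ : G → ℂ) (hχ : Cfsg.IsIrrCharacter G χ) (hcon : Cfsg.classInner (fun n : H => χ n) ϑ ≠ 0) : ∃ ψ : T → ℂ, Cfsg.IsIrrCharacter T ψ ∧ Cfsg.indFun T ψ = χ ∧ Cfsg.classInner (fun n : H => ψ ⟨(n : G), hHT n.2⟩) ϑ = Cfsg.classInner (fun n : H => χ n) ϑ := by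
  classical
  have hTe : T = CfsgH4.inertia H ϑ := by
    ext g
    rw [hT, CfsgH4.mem_inertia]
    constructor
    · intro h; ext n; exact h n
    · intro h n; exact congrFun h n
  subst hTe
  obtain ⟨ψ, hψ, -, hind, hres⟩ := CfsgH4.clifford_corr H hχ hϑ hcon
  have h1 := CfsgH4.clifford_degree H hχ hϑ hcon
  refine ⟨ψ, hψ, hind.symm, ?_⟩
  have h2 := congrFun hind 1
  rw [CfsgH4.indFun_one] at h2
  have h3 := congrFun hres 1
  rw [CfsgH4.resLE_one] at h3
  have h3' : ψ 1 = Cfsg.classInner (CfsgH4.resLE (CfsgH4.le_inertia H (CfsgH4.IsIrr.isClassFunction hϑ)) ψ) ϑ * ϑ 1 := h3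
  have h4 : ((CfsgH4.inertia H ϑ).index : ℂ) ≠ 0 := by
    exact_mod_cast Subgroup.index_ne_zero_of_finite
  have h5 := CfsgH4.IsIrr.one_ne_zero hϑ
  show Cfsg.classInner (CfsgH4.resLE (CfsgH4.le_inertia H (CfsgH4.IsIrr.isClassFunction hϑ)) ψ) ϑ = _
  rw [h1, h3'] at h2
  have h6 : ((CfsgH4.inertia H ϑ).index : ℂ) * ϑ 1 * Cfsg.classInner (fun n : H => χ n) ϑ =
      ((CfsgH4.inertia H ϑ).index : ℂ) * ϑ 1 * Cfsg.classInner (CfsgH4.resLE (CfsgH4.le_inertia H (CfsgH4.IsIrr.isClassFunction hϑ)) ψ) ϑ := by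
    linear_combination h2
  exact (mul_left_cancel₀ (mul_ne_zero h4 h5) h6).symm

end Cfsg.Agent.S0854
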