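import Cfsg.Statements.S0860
import Cfsg.Agent.H4.Perms

set_option autoImplicit false
open Cfsg

namespace Cfsg.Agent.S0860

/-- Let a group A act on the set of irreducible characters and on the set of conjugacy classes of a finite group G in such a way that (a • χ) evaluated on the class a • C equals χ evaluated on C, for all a, χ and C. Then every element of A fixes exactly as many irreducible characters as it fixes conjugacy classes. -/
theorem result {G : Type*} [Group G] [Finite G] {A : Type*} [Group A] [MulAction A (Cfsg.IrrCharacter G)] [MulAction A (ConjClasses G)] (hcompat : ∀ (a : A) (χ : Cfsg.IrrCharacter G) (g g' : G), ConjClasses.mk g' = a • ConjClasses.mk g → ((a • χ : Cfsg.IrrCharacter G) : G → ℂ) g' = (χ : G → ℂ) g) (a : A) : Nat.card {χ : Cfsg.IrrCharacter G // a • χ = χ} = Nat.card {C : ConjClasses G // a • C = C} := by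
  classical
  haveI : Fintype G := Fintype.ofFinite G
  let f : G → G := fun g => Quotient.out (a⁻¹ • ConjClasses.mk g)
  have hfm : ∀ g, ConjClasses.mk (f g) = a⁻¹ • ConjClasses.mk g := fun g => Quotient.out_eq _
  have hf : ∀ x y, IsConj x y → IsConj (f x) (f y) := by
    intro x y h
    rw [← ConjClasses.mk_eq_mk_iff_isConj, hfm, hfm, ConjClasses.mk_eq_mk_iff_isConj.2 h]
  have hval : ∀ (χ : Cfsg.IrrCharacter G) (g : G), ((a • χ : Cfsg.IrrCharacter G) : G → ℂ) g =
      (χ : G → ℂ) (f g) := by
    intro χ g
    apply hcompat a χ (f g) g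
    rw [hfm, smul_inv_smul]
  have hfe : ∀ χ : Cfsg.IrrCharacter G, (fun g => (χ : G → ℂ) (f g)) =
      ((a • χ : Cfsg.IrrCharacter G) : G → ℂ) := by
    intro χ; ext g; exact (hval χ g).symm
  have h1 := CfsgH4.card_fixed_irr f hf (fun χ => by rw [hfe]; exact (a • χ).2)
  have h2 : Nat.card {χ : Cfsg.IrrCharacter G // a • χ = χ} =
      Nat.card {χ : Cfsg.IrrCharacter G // (fun g => (χ : G → ℂ) (f g)) = (χ : G → ℂ)} := by
    refine Nat.card_congr (Equiv.subtypeEquivRight fun χ => ?_)
    rw [hfe]
    exact Subtype.ext_iff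
  have h3 : Nat.card {C : ConjClasses G // a • C = C} =
      Nat.card {C : ConjClasses G // ∀ g : G, ConjClasses.mk g = C → IsConj (f g) g} := by
    refine Nat.card_congr (Equiv.subtypeEquivRight fun C => ?_)
    constructor
    · intro h g hg
      rw [← ConjClasses.mk_eq_mk_iff_isConj, hfm, hg, inv_smul_eq_iff, h]
    · intro h
      obtain ⟨g, rfl⟩ := ConjClasses.mk_surjective C
      have := h g rfl
      rw [← ConjClasses.mk_eq_mk_iff_isConj, hfm, inv_smul_eq_iff] at this
      exact this.symm
  rw [h2, h1, h3]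

end Cfsg.Agent.S0860
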