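import Cfsg.Statements.S0861
import Cfsg.Agent.H4.Degrees

set_option autoImplicit false
open Cfsg

namespace Cfsg.Agent.S0861

/-- Let P be a normal abelian Sylow p-subgroup of the finite group G and suppose some element g of P has centralizer exactly P. Then the number of irreducible characters of G is at most the order of P, and if equality holds then G / P is abelian (the commutator subgroup lies in P). -/
theorem result {G : Type*} [Group G] [Finite G] (p : ℕ) [Fact p.Prime] (P : Sylow p G) [(P : Subgroup G).Normal] (hab : ∀ a ∈ P, ∀ b ∈ P, a * b = b * a) (g : G) (hg : g ∈ P) (hC : Subgroup.centralizer ({g} : Set G) = P) : Nat.card (Cfsg.IrrCharacter G) ≤ Nat.card P ∧ (Nat.card (Cfsg.IrrCharacter G) = Nat.card P → commutator G ≤ P) := by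
  classical
  haveI : Fintype G := Fintype.ofFinite G
  have hp : p.Prime := Fact.out
  have hnv : ∀ χ : Cfsg.IrrCharacter G, (χ : G → ℂ) g ≠ 0 := by
    intro χ
    obtain ⟨d, hd, hdvd⟩ := CfsgH4.ito (P : Subgroup G) hab χ.2
    obtain ⟨k, hk⟩ := P.isPGroup' ⟨g, hg⟩
    have hk' : g ^ p ^ k = 1 := congrArg Subtype.val hk
    exact CfsgH4.ne_zero_of_p_element hp (CfsgH4.IsIrr.isCharacter χ.2) hd
      (fun h => P.not_dvd_index (h.trans hdvd)) hk'
  obtain ⟨h1, h2⟩ := CfsgH4.card_irr_le_of_nonvanishing g hnv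
  rw [hC] at h1 h2
  refine ⟨h1, fun heq => ?_⟩
  have h3 := h2 heq
  have hcomm : ∀ a b : G ⧸ (P : Subgroup G), a * b = b * a := by
    apply CfsgH4.comm_of_linear
    intro χ
    have h4 := CfsgH4.isIrr_inflate (P : Subgroup G) χ.2
    have h5 := h3 ⟨_, h4⟩
    have h6 : ((g : G) : G ⧸ (P : Subgroup G)) = 1 := (QuotientGroup.eq_one_iff _).2 hg
    have h7 : ‖(χ : G ⧸ (P : Subgroup G) → ℂ) ((g : G) : G ⧸ (P : Subgroup G))‖ = 1 := h5
    rw [h6] at h7
    obtain ⟨d, hd⟩ := CfsgH4.IsCharacter.one_nat (CfsgH4.IsIrr.isCharacter χ.2)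
    rw [hd] at h7 ⊢
    have h8 : (d : ℝ) = 1 := by simpa using h7
    have h9 : d = 1 := by exact_mod_cast h8
    rw [h9]; simp
  rw [commutator_eq_closure, Subgroup.closure_le]
  rintro _ ⟨x, y, rfl⟩
  have h5 : ((x * y * x⁻¹ * y⁻¹ : G) : G ⧸ (P : Subgroup G)) = 1 := by
    simp only [QuotientGroup.mk_mul, QuotientGroup.mk_inv]
    rw [hcomm (x : G ⧸ (P : Subgroup G)) y]; group
  exact (QuotientGroup.eq_one_iff _).1 h5

end Cfsg.Agent.S0861
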