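import Cfsg.Statements.S0866
import Cfsg.Agent.H4.Extend2

set_option autoImplicit false
open Cfsg

namespace Cfsg.Agent.S0866

/-- Let N be a normal subgroup of the finite group G and ϑ an irreducible character of N, invariant under conjugation by G, of degree d coprime to the index of N. Then ϑ is the restriction of an irreducible character of G if and only if the determinantal character of ϑ is the restriction of a character of G of degree 1. -/
theorem result {G : Type*} [Group G] [Finite G] (N : Subgroup G) [hN : N.Normal] (ϑ : N → ℂ) (hϑ : Cfsg.IsIrrCharacter N ϑ) (hinv : ∀ (g : G) (n : N), ϑ ⟨g * n * g⁻¹, hN.conj_mem (n : G) n.2 g⟩ = ϑ n) (d : ℕ) (hd : ϑ 1 = d) (hcop : Nat.Coprime N.index d) : (∃ χ : G → ℂ, Cfsg.IsIrrCharacter G χ ∧ (∀ n : N, χ n = ϑ n)) ↔ ∃ μ : G → ℂ, Cfsg.IsCharacter G μ ∧ μ 1 = 1 ∧ ∀ n : N, μ n = Cfsg.detChar ϑ n := by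
  classical
  constructor
  · rintro ⟨χ, hχ, hχN⟩
    have hχc := CfsgH4.IsIrr.isCharacter hχ
    obtain ⟨f, hf⟩ := CfsgH4.exists_det_hom hχc
    refine ⟨Cfsg.detChar χ, ?_, ?_, ?_⟩
    · have : Cfsg.detChar χ = fun g => (f g : ℂ) := by ext g; exact hf g
      rw [this]; exact CfsgH4.IsIrr.isCharacter (CfsgH4.isCharacter_one_dim f)
    · rw [hf, map_one]; rfl
    · intro n
      have h1 := CfsgH4.detChar_comp N.subtype hχc n
      have h2 : (fun x : N => χ (N.subtype x)) = ϑ := by ext m; exact hχN m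
      rw [h2] at h1
      rw [h1]; rfl
  · rintro ⟨μ, hμ, hμ1, hμN⟩
    obtain ⟨f, hf⟩ := CfsgH4.IsCharacter.linear_of_one hμ hμ1
    exact CfsgH4.extend_of_det hϑ (fun g => by ext n; exact hinv g n) hd hcop f
      (fun n => by rw [← hμN, hf])

end Cfsg.Agent.S0866
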