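import Cfsg.Statements.S0864
import Cfsg.Agent.H4.Extend2

set_option autoImplicit false
open Cfsg

namespace Cfsg.Agent.S0864

/-- Let N be a normal subgroup of the finite group G and λ a character of N of degree 1 invariant under conjugation by G. Suppose that for every prime p dividing the order of λ (in the group of functions under pointwise multiplication) there is a subgroup H containing N, of index prime to p and with the index of N in H a power of p, together with a character of H of degree 1 restricting to λ. Then λ is the restriction of a character of G of degree 1. -/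
theorem result {G : Type*} [Group G] [Finite G] (N : Subgroup G) [hN : N.Normal] (lam : N → ℂ) (hlam : Cfsg.IsCharacter N lam ∧ lam 1 = 1) (hinv : ∀ (g : G) (n : N), lam ⟨g * n * g⁻¹, hN.conj_mem (n : G) n.2 g⟩ = lam n) (hsyl : ∀ p : ℕ, p.Prime → p ∣ orderOf lam → ∃ (H : Subgroup G) (hNH : N ≤ H) (ν : H → ℂ), Nat.Coprime H.index p ∧ (∃ k : ℕ, N.relIndex H = p ^ k) ∧ Cfsg.IsCharacter H ν ∧ ν 1 = 1 ∧ ∀ n : N, ν ⟨(n : G), hNH n.2⟩ = lam n) : ∃ μ : G → ℂ, Cfsg.IsCharacter G μ ∧ μ 1 = 1 ∧ ∀ n : N, μ n = lam n := by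
  classical
  obtain ⟨f, hf⟩ := CfsgH4.IsCharacter.linear_of_one hlam.1 hlam.2
  have hfinv : ∀ (g : G) (n : N), f ⟨g * n * g⁻¹, hN.conj_mem n n.2 g⟩ = f n := by
    intro g n
    apply Units.ext
    have := hinv g n
    rw [hf] at this
    exact this
  have hone : (1 : ℤ) ∈ CfsgH4.extExp N f := by
    apply CfsgH4.one_mem_of_prime
    intro p hp
    by_cases h : p ∣ orderOf lam
    · obtain ⟨H, hNH, ν, hcop, -, hν, hν1, hνN⟩ := hsyl p hp h
      obtain ⟨k, hk⟩ := CfsgH4.IsCharacter.linear_of_one hν hν1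
      refine ⟨H.index, CfsgH4.index_mem_extExp f hfinv H hNH k (fun n => ?_), fun h' => ?_⟩
      · apply Units.ext
        have := hνN n
        rw [hf, hk] at this
        exact this
      · have h1 : p ∣ H.index := by exact_mod_cast h'
        have h2 : p ∣ Nat.gcd H.index p := Nat.dvd_gcd h1 dvd_rfl
        rw [hcop.gcd_eq_one] at h2
        exact hp.one_lt.ne' (Nat.dvd_one.1 h2)
    · refine ⟨orderOf lam, ⟨1, fun n => ?_⟩, fun h' => h (by exact_mod_cast h')⟩
      rw [hf, CfsgH4.orderOf_linear, zpow_natCast, CfsgH4.hom_orderOf_apply]; rfl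
  obtain ⟨ν, hν⟩ := CfsgH4.extends_of_one_mem hone
  refine ⟨fun g => (ν g : ℂ), CfsgH4.IsIrr.isCharacter (CfsgH4.isCharacter_one_dim ν), by simp, ?_⟩
  intro n
  show (ν n : ℂ) = _
  rw [hν, hf]

end Cfsg.Agent.S0864
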