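import Cfsg.Statements.S0865
import Cfsg.Agent.H4.Extend2

set_option autoImplicit false
open Cfsg

namespace Cfsg.Agent.S0865

/-- Let N be a normal subgroup of the finite group G and λ a character of N of degree 1, invariant under conjugation by G, whose order (under pointwise multiplication) is coprime to the index of N. Then there is a character μ of G of degree 1 restricting to λ with the same order as λ, and μ is the only degree-1 character of G restricting to λ whose order is coprime to the index of N. -/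
theorem result {G : Type*} [Group G] [Finite G] (N : Subgroup G) [hN : N.Normal] (lam : N → ℂ) (hlam : Cfsg.IsCharacter N lam ∧ lam 1 = 1) (hinv : ∀ (g : G) (n : N), lam ⟨g * n * g⁻¹, hN.conj_mem (n : G) n.2 g⟩ = lam n) (hcop : Nat.Coprime N.index (orderOf lam)) : ∃ μ : G → ℂ, (Cfsg.IsCharacter G μ ∧ μ 1 = 1 ∧ (∀ n : N, μ n = lam n) ∧ orderOf μ = orderOf lam) ∧ ∀ μ' : G → ℂ, Cfsg.IsCharacter G μ' ∧ μ' 1 = 1 → (∀ n : N, μ' n = lam n) → Nat.Coprime N.index (orderOf μ') → μ' = μ := by
  classical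
  obtain ⟨f, rfl⟩ := CfsgH4.IsCharacter.linear_of_one hlam.1 hlam.2
  have hfinv : ∀ (g : G) (n : N), f ⟨g * n * g⁻¹, hN.conj_mem n n.2 g⟩ = f n := by
    intro g n
    apply Units.ext
    exact hinv g n
  rw [CfsgH4.orderOf_linear] at hcop
  obtain ⟨ν, hν, ho, hu⟩ := CfsgH4.linear_canonical f hfinv hcop
  refine ⟨fun g => (ν g : ℂ), ⟨CfsgH4.IsIrr.isCharacter (CfsgH4.isCharacter_one_dim ν), by simp,
    fun n => by show (ν n : ℂ) = f n; rw [hν], by rw [CfsgH4.orderOf_linear, CfsgH4.orderOf_linear, ho]⟩, ?_⟩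
  rintro μ' ⟨hμ', hμ'1⟩ hμ'N hμ'cop
  obtain ⟨k, rfl⟩ := CfsgH4.IsCharacter.linear_of_one hμ' hμ'1
  rw [CfsgH4.orderOf_linear] at hμ'cop
  rw [hu k (fun n => Units.ext (hμ'N n)) hμ'cop]

end Cfsg.Agent.S0865
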