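import Cfsg.Statements.S0868
import Cfsg.Agent.H4.Gallagher

set_option autoImplicit false
open scoped ComplexConjugate
open Cfsg

namespace Cfsg.Agent.S0868

/-- Let N be a normal subgroup of the finite group G, χ an irreducible character of G whose restriction ϑ to N is irreducible, and ψ an irreducible character of G. Define η on G by η g = (1 / order of N) * Σ over n in N of ψ (n * g) * conj (χ (n * g)). Then: if the restriction of ψ to N has nonzero inner product with ϑ, η is an irreducible character of G; if that inner product is zero, η vanishes identically; and if ψ = χ then η is identically 1. -/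
theorem result {G : Type*} [Group G] [Fintype G] (N : Subgroup G) [N.Normal] [Fintype N] (χ : G → ℂ) (hχ : Cfsg.IsIrrCharacter G χ) (hχN : Cfsg.IsIrrCharacter N (fun n : N => χ n)) (ψ : G → ℂ) (hψ : Cfsg.IsIrrCharacter G ψ) (η : G → ℂ) (hη : η = fun g => (Nat.card N : ℂ)⁻¹ * ∑ n : N, ψ ((n : G) * g) * conj (χ ((n : G) * g))) : (Cfsg.classInner (fun n : N => ψ n) (fun n : N => χ n) ≠ 0 → Cfsg.IsIrrCharacter G η) ∧ (Cfsg.classInner (fun n : N => ψ n) (fun n : N => χ n) = 0 → η = 0) ∧ (ψ = χ → η = fun _ => 1) := by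
  classical
  have hχc := CfsgH4.IsIrr.isCharacter hχ
  have hψc := CfsgH4.IsIrr.isCharacter hψ
  obtain ⟨hG1, hG2, hG3⟩ := CfsgH4.gallagher N hχc hχN
  -- expand ψ conj χ
  have hφc : Cfsg.IsCharacter G (ψ * fun g => conj (χ g)) :=
    CfsgH4.isCharacter_mul hψc (CfsgH4.isCharacter_conj hχc)
  have hexp : ∀ g, ψ g * conj (χ g) = ∑ β : Cfsg.IrrCharacter G,
      Cfsg.classInner (ψ * fun g => conj (χ g)) (β : G → ℂ) * (β : G → ℂ) g := fun g =>
    CfsgH4.classFun_expand_apply (CfsgH4.IsCharacter.isClassFunction hφc) g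
  have hin : ∀ β : Cfsg.IrrCharacter G, Cfsg.classInner (ψ * fun g => conj (χ g)) (β : G → ℂ) =
      Cfsg.classInner ψ ((β : G → ℂ) * χ) := by
    intro β
    rw [CfsgH4.classInner_def, CfsgH4.classInner_def]
    congr 1
    refine Finset.sum_congr rfl fun g _ => ?_
    simp only [Pi.mul_apply, map_mul]; ring
  have hη' : ∀ g, η g = ∑ β : Cfsg.IrrCharacter G, Cfsg.classInner ψ ((β : G → ℂ) * χ) *
      (Cfsg.classInner (fun n : N => (β : G → ℂ) n) (fun _ => 1) / (β : G → ℂ) 1 * (β : G → ℂ) g) := by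
    intro g
    rw [hη]
    show (Nat.card N : ℂ)⁻¹ * ∑ n : N, ψ ((n : G) * g) * conj (χ ((n : G) * g)) = _
    rw [Finset.sum_congr rfl (fun (n : N) _ => hexp ((n : G) * g)), Finset.sum_comm, Finset.mul_sum]
    refine Finset.sum_congr rfl fun β _ => ?_
    rw [← Finset.mul_sum, ← CfsgH4.avg_irr N β.2 g, hin]; ring
  have hgal : ∀ β : G → ℂ, Cfsg.IsIrrCharacter G β → (∀ n ∈ N, β n = β 1) → ψ = β * χ → η = β := by
    intro β hβ hβN hψe
    ext g
    rw [hη' g, Finset.sum_eq_single (⟨β, hβ⟩ : Cfsg.IrrCharacter G)]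
    · rcases CfsgH4.inner_one_restrict N hβ with ⟨-, h4⟩ | h4
      · rw [← hψe, CfsgH4.classInner_irr_self hψ]
        show 1 * (Cfsg.classInner (fun n : N => β n) (fun _ => 1) / β 1 * β g) = β g
        rw [h4, div_self (CfsgH4.IsIrr.one_ne_zero hβ)]; ring
      · exfalso
        have h5 : Cfsg.classInner (fun n : N => β n) (fun _ => 1) = β 1 := by
          rw [CfsgH4.classInner_def]
          rw [Finset.sum_congr rfl (g := fun _ => β 1) (fun n _ => by
            simp only [map_one, mul_one]; exact hβN n n.2)]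
          have := CfsgH4.card_ne_zero N
          simp
        rw [h5] at h4
        exact CfsgH4.IsIrr.one_ne_zero hβ h4
    · intro γ _ hne
      rcases CfsgH4.inner_one_restrict N γ.2 with ⟨h3, -⟩ | h3
      · have h4 := hG1 γ γ.2 h3
        have h5 : ψ ≠ (γ : G → ℂ) * χ := by
          intro h
          apply hne
          apply Subtype.ext
          exact hG2 γ β γ.2 hβ h3 hβN (h.symm.trans hψe)
        rw [CfsgH4.classInner_irr_ne hψ h4 h5, zero_mul]
      · rw [h3]; ring
    · intro h; exact absurd (Finset.mem_univ _) h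
  refine ⟨?_, ?_, ?_⟩
  · intro hne
    obtain ⟨β, hβ, hβN, hψe⟩ := hG3 ψ hψ hne
    rw [hgal β hβ hβN hψe]; exact hβ
  · intro h0
    ext g
    rw [hη' g]
    apply Finset.sum_eq_zero
    intro γ _
    rcases CfsgH4.inner_one_restrict N γ.2 with ⟨h3, -⟩ | h3
    · have h4 := hG1 γ γ.2 h3
      have h5 : ψ ≠ (γ : G → ℂ) * χ := by
        intro h
        have h6 : (fun n : N => ψ n) = (γ : G → ℂ) 1 • fun n : N => χ n := by
          ext n; rw [h]; show (γ : G → ℂ) n * χ n = _; rw [h3 n n.2]; rfl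
        rw [h6, CfsgH4.classInner_smul_left, CfsgH4.classInner_irr_self hχN, mul_one] at h0
        exact CfsgH4.IsIrr.one_ne_zero γ.2 h0
      rw [CfsgH4.classInner_irr_ne hψ h4 h5, zero_mul]
    · rw [h3]; ring
  · intro he
    have := hgal (fun _ => 1) CfsgH4.isIrrCharacter_one (fun _ _ => rfl) (by
      rw [he]; ext g; simp)
    exact this

end Cfsg.Agent.S0868
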