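import Cfsg.Statements.S0870
import Cfsg.Agent.H4.BrauerA

set_option autoImplicit false
open Cfsg

namespace Cfsg.Agent.S0870

/-- For subgroups H and K of a finite group G, the pointwise product of the functions induced from the constant function 1 on H and on K is a sum, over subgroups U of H with natural-number coefficients, of the functions induced from the constant function 1 on U. -/
theorem result {G : Type*} [Group G] [Fintype G] (H K : Subgroup G) : ∃ a : Subgroup G → ℕ, (∀ U, a U ≠ 0 → U ≤ H) ∧ Cfsg.indFun H (fun _ => 1) * Cfsg.indFun K (fun _ => 1) = ∑ U : Subgroup G, (a U : ℂ) • Cfsg.indFun U (fun _ => 1) := by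
  classical
  haveI : Fintype H := Fintype.ofFinite H
  haveI : Fintype (Quotient (MulAction.orbitRel H (G ⧸ K))) := Fintype.ofFinite _
  have h1 : Cfsg.indFun H (fun _ => (1 : ℂ)) * Cfsg.indFun K (fun _ => 1) =
      ∑ ω : Quotient (MulAction.orbitRel H (G ⧸ K)),
        Cfsg.indFun ((MulAction.stabilizer H (Quotient.out ω)).map H.subtype) (fun _ => 1) := by
    have h2 := CfsgH4.indFun_mul_restrict H (fun _ => (1 : ℂ))
      (CfsgH4.indFun_isClassFunction K (fun _ => (1 : ℂ)))
    rw [← h2]
    have h3 : ((fun _ : H => (1 : ℂ)) * fun h : H => Cfsg.indFun K (fun _ => 1) h) =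
        ∑ ω : Quotient (MulAction.orbitRel H (G ⧸ K)),
          Cfsg.indFun (MulAction.stabilizer H (Quotient.out ω)) (fun _ => 1) := by
      ext h
      rw [Finset.sum_apply, Pi.mul_apply, one_mul, CfsgH4.indFun_one_eq_perm]
      haveI := Fintype.ofFinite (G ⧸ K)
      exact CfsgH4.perm_decomp (G := H) (G ⧸ K) h
    rw [h3, CfsgH4.indFun_sum]
    refine Finset.sum_congr rfl fun ω _ => ?_
    rw [CfsgH4.indFun_map]
  refine ⟨fun U => (Finset.univ.filter (fun ω : Quotient (MulAction.orbitRel H (G ⧸ K)) =>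
    (MulAction.stabilizer H (Quotient.out ω)).map H.subtype = U)).card, ?_, ?_⟩
  · intro U hU
    obtain ⟨ω, hω⟩ := Finset.card_ne_zero.1 hU
    rw [← (Finset.mem_filter.1 hω).2]
    rintro _ ⟨y, _, rfl⟩
    exact y.2
  · rw [h1, ← Finset.sum_fiberwise (s := Finset.univ)
      (g := fun ω : Quotient (MulAction.orbitRel H (G ⧸ K)) =>
        (MulAction.stabilizer H (Quotient.out ω)).map H.subtype)]
    refine Finset.sum_congr rfl fun U _ => ?_
    rw [Finset.sum_congr rfl (g := fun _ => Cfsg.indFun U (fun _ => (1 : ℂ))) (by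
      intro ω hω
      rw [← (Finset.mem_filter.1 hω).2])]
    rw [Finset.sum_const, ← Nat.cast_smul_eq_nsmul ℂ]

end Cfsg.Agent.S0870
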