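import Cfsg.Statements.S0871
import Cfsg.Agent.H4.BrauerB

set_option autoImplicit false
open Cfsg

namespace Cfsg.Agent.S0871

theorem qe_conv {G : Type*} [Group G] [Finite G] {p : ℕ} (hp : p.Prime) {H : Subgroup G}
    (h : CfsgH4.IsQE p H) : ∃ C : Subgroup G, C ≤ H ∧ H ≤ Subgroup.normalizer (C : Set G) ∧
      IsCyclic C ∧ Nat.Coprime (Nat.card C) p ∧ ∃ k : ℕ, C.relIndex H = p ^ k := by
  obtain ⟨c, hn, hcop, hpow⟩ := h
  haveI := Fact.mk hp
  refine ⟨Subgroup.zpowers (c : G), ?_, ?_, inferInstance, ?_, ?_⟩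
  · rw [Subgroup.zpowers_le]; exact c.2
  · intro y hy
    have key : ∀ y ∈ H, ∀ w ∈ Subgroup.zpowers (c : G), y * w * y⁻¹ ∈ Subgroup.zpowers (c : G) := by
      rintro y hy w ⟨k, rfl⟩
      have h1 := hn.conj_mem (c ^ k) ⟨k, rfl⟩ ⟨y, hy⟩
      obtain ⟨j, hj⟩ := h1
      exact ⟨j, congrArg Subtype.val hj⟩
    rw [Subgroup.mem_normalizer_iff]
    intro w
    constructor
    · exact key y hy w
    · intro hw
      have := key y⁻¹ (H.inv_mem hy) _ hw
      simpa [mul_assoc] using this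
  · rw [Nat.card_zpowers, Subgroup.orderOf_coe]; exact hcop
  · have hpg : IsPGroup p (H ⧸ Subgroup.zpowers c) := by
      intro g
      obtain ⟨a, rfl⟩ := QuotientGroup.mk_surjective g
      obtain ⟨k, hk⟩ := hpow a
      exact ⟨k, (QuotientGroup.eq_one_iff _).2 hk⟩
    obtain ⟨k, hk⟩ := IsPGroup.iff_card.1 hpg
    refine ⟨k, ?_⟩
    rw [← hk]
    have : (Subgroup.zpowers (c : G)).subgroupOf H = Subgroup.zpowers c := by
      ext y
      rw [Subgroup.mem_subgroupOf]
      constructor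
      · rintro ⟨j, hj⟩; exact ⟨j, Subtype.ext hj⟩
      · rintro ⟨j, rfl⟩; exact ⟨j, rfl⟩
    rw [Subgroup.relIndex, this]
    rfl

/-- Let x be an element of the finite group G and p a prime. Then there is a subgroup H having a cyclic normal subgroup C of order prime to p and p-power index in H, such that the value at x of the function induced from the constant function 1 on H is a natural number not divisible by p. -/
theorem result {G : Type*} [Group G] [Fintype G] (x : G) (p : ℕ) (hp : p.Prime) : ∃ H : Subgroup G, (∃ C : Subgroup G, C ≤ H ∧ H ≤ Subgroup.normalizer (C : Set G) ∧ IsCyclic C ∧ Nat.Coprime (Nat.card C) p ∧ ∃ k : ℕ, C.relIndex H = p ^ k) ∧ ∃ n : ℕ, Cfsg.indFun H (fun _ => 1) x = (n : ℂ) ∧ ¬ p ∣ n := by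
  obtain ⟨H, hH, hnd⟩ := CfsgH4.exists_QE x p hp
  refine ⟨H, qe_conv hp hH, _, ?_, hnd⟩
  rw [CfsgH4.indFun_one_eq_perm]

end Cfsg.Agent.S0871
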