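import Cfsg.Statements.S0873
import Cfsg.Agent.H4.BrauerB

set_option autoImplicit false
open Cfsg

namespace Cfsg.Agent.S0873

/-- Let C be a normal subgroup of the finite group G of order prime to p and P a p-subgroup with C ⊔ P = G. Let λ be a character of C of degree 1 invariant under conjugation by G and equal to 1 at every element of C centralized by P. Then λ is identically 1. -/
theorem result {G : Type*} [Group G] [Finite G] (p : ℕ) [Fact p.Prime] (C P : Subgroup G) [hC : C.Normal] (hP : IsPGroup p P) (hcop : Nat.Coprime (Nat.card C) p) (hCP : C ⊔ P = ⊤) (lam : C → ℂ) (hlam : Cfsg.IsCharacter C lam ∧ lam 1 = 1) (hinv : ∀ (g : G) (c : C), lam ⟨g * c * g⁻¹, hC.conj_mem (c : G) c.2 g⟩ = lam c) (hker : ∀ c : C, (c : G) ∈ Subgroup.centralizer (P : Set G) → lam c = 1) : lam = fun _ => 1 := by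
  classical
  obtain ⟨f, hf⟩ := CfsgH4.IsCharacter.linear_of_one hlam.1 hlam.2
  ext x
  haveI : Fintype G := Fintype.ofFinite G
  haveI : Fintype C := Fintype.ofFinite C
  let X := {y : C // lam y = lam x}
  letI act : MulAction P X :=
    { smul := fun u y => ⟨⟨u * y.1 * (u : G)⁻¹, hC.conj_mem _ y.1.2 _⟩, (hinv u y.1).trans y.2⟩
      one_smul := by
        intro y; apply Subtype.ext; apply Subtype.ext
        show ((1 : P) : G) * y.1 * ((1 : P) : G)⁻¹ = y.1
        simp
      mul_smul := by
        intro u v y; apply Subtype.ext; apply Subtype.ext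
        show ((u * v : P) : G) * y.1 * ((u * v : P) : G)⁻¹ =
          u * (v * y.1 * (v : G)⁻¹) * (u : G)⁻¹
        simp [mul_assoc] }
  have hcardX : ¬ p ∣ Nat.card X := by
    have h1 : Nat.card X = Nat.card f.ker := by
      refine Nat.card_congr ⟨fun y => ⟨x⁻¹ * y.1, ?_⟩, fun k => ⟨x * k.1, ?_⟩, ?_, ?_⟩
      · rw [MonoidHom.mem_ker, map_mul, map_inv]
        have h2 : (f y.1 : ℂ) = f x := by
          rw [← congrFun hf y.1, ← congrFun hf x]
          exact y.2
        have h3 : f y.1 = f x := Units.ext h2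
        rw [h3, inv_mul_cancel]
      · rw [congrFun hf (x * k.1), congrFun hf x, map_mul, MonoidHom.mem_ker.1 k.2, mul_one]
      · intro y; simp
      · intro y; simp
    rw [h1]
    intro h2
    have h3 : p ∣ Nat.card C := h2.trans (Subgroup.card_subgroup_dvd_card _)
    have h4 : p ∣ Nat.gcd (Nat.card C) p := Nat.dvd_gcd h3 dvd_rfl
    rw [hcop.gcd_eq_one] at h4
    exact (Fact.out : p.Prime).one_lt.ne' (Nat.dvd_one.1 h4)
  obtain ⟨y, hy⟩ := hP.nonempty_fixed_point_of_prime_not_dvd_card X hcardX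
  have hyZ : ((y.1 : C) : G) ∈ Subgroup.centralizer (P : Set G) := by
    refine Subgroup.mem_centralizer_iff.2 ?_
    intro s hs
    have h1 := congrArg (fun w : X => ((w.1 : C) : G)) (hy ⟨s, hs⟩)
    have h2 : s * y.1 * s⁻¹ = y.1 := h1
    exact mul_inv_eq_iff_eq_mul.1 h2
  rw [← y.2, hker y.1 hyZ]

end Cfsg.Agent.S0873
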