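import Cfsg.Statements.S0878
import Cfsg.Agent.H1.FrobKer

set_option autoImplicit false
open Cfsg

namespace Cfsg.Agent.S0878

open scoped Pointwise

/-- Let G be a Zassenhaus group on the finite set Ω, a a point, and let H be the subgroup of the stabilizer of a consisting of the identity and the elements fixing no point other than a (given here as a subgroup of the stabilizer of order one less than the number of points whose non-identity elements fix only a; it is the Frobenius kernel of the stabilizer). Then an element outside the stabilizer of a conjugates no non-identity element of H into H, and the normalizer of H is exactly the stabilizer of a. -/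
theorem result {G Ω : Type*} [Group G] [Finite G] [MulAction G Ω] [Fintype Ω] (hZ : Cfsg.IsZassenhausGroup G Ω) (a : Ω) (H : Subgroup G) (hHa : H ≤ MulAction.stabilizer G a) (hHcard : Nat.card H + 1 = Fintype.card Ω) (hHfix : ∀ u ∈ H, u ≠ 1 → ∀ c : Ω, u • c = c → c = a) : (∀ g : G, g ∉ MulAction.stabilizer G a → ∀ u ∈ H, g * u * g⁻¹ ∈ H → u = 1) ∧ Subgroup.normalizer (H : Set G) = MulAction.stabilizer G a := by
  classical
  obtain ⟨hF, h2t, h3, ⟨x₀, hx₀1, a₀, b₀, hab₀, hxa, hxb⟩, -⟩ := hZ
  have h2 : ∀ a b c d : Ω, a ≠ b → c ≠ d → ∃ g : G, g • a = c ∧ g • b = d := by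
    rw [MulAction.is_two_pretransitive_iff] at h2t
    intro a b c d h h'
    obtain ⟨g, hg⟩ := h2t h h'
    exact ⟨g, hg.1, hg.2⟩
  have hcl1 : ∀ g : G, g ∉ MulAction.stabilizer G a → ∀ u ∈ H, g * u * g⁻¹ ∈ H → u = 1 := by
    intro g hg u hu hgu
    by_contra hu1
    apply hg
    rw [MulAction.mem_stabilizer_iff]
    have hne : g * u * g⁻¹ ≠ 1 := by
      intro h
      apply hu1
      have : u = g⁻¹ * (g * u * g⁻¹) * g := by group
      rw [this, h]; group
    refine hHfix _ hgu hne (g • a) ?_
    rw [mul_smul, mul_smul, inv_smul_smul, MulAction.mem_stabilizer_iff.1 (hHa hu)]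
  refine ⟨hcl1, ?_⟩
  -- card Ω ≥ 3
  have hcardΩ : 3 ≤ Fintype.card Ω := by
    by_contra hlt
    apply hx₀1
    apply hF.eq_of_smul_eq_smul
    intro c
    rw [one_smul]
    have hc : c = a₀ ∨ c = b₀ := by
      by_contra hcon
      push Not at hcon
      apply hlt
      have : ({a₀, b₀, c} : Finset Ω).card = 3 := by
        rw [Finset.card_eq_three]
        exact ⟨a₀, b₀, c, hab₀, hcon.1.symm, hcon.2.symm, rfl⟩
      rw [← this]
      exact Finset.card_le_univ _
    rcases hc with rfl | rfl
    · exact hxa
    · exact hxb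
  obtain ⟨b, hba⟩ : ∃ b : Ω, b ≠ a := by
    by_contra hcon
    push Not at hcon
    have h5 : Fintype.card Ω ≤ 1 := Fintype.card_le_one_iff.2 (fun x y => by rw [hcon x, hcon y])
    omega
  let A : Subgroup G := MulAction.stabilizer G a
  let E : Subgroup A := (MulAction.stabilizer G b).subgroupOf A
  have hEmem : ∀ x : A, x ∈ E ↔ (x : G) • b = b := fun x => Iff.rfl
  have hAmem : ∀ x : A, (x : G) • a = a := fun x => x.2
  have hTI : ∀ g : A, g ∉ E → E ⊓ (MulAut.conj g • E) = ⊥ := by
    intro g hg
    rw [eq_bot_iff]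
    rintro x ⟨hx1, hx2⟩
    rw [Subgroup.mem_bot]
    have hx3 : g⁻¹ * x * g ∈ E := by
      obtain ⟨y, hy, he⟩ := hx2
      have e1 : g * y * g⁻¹ = x := he
      rw [← e1]
      have : g⁻¹ * (g * y * g⁻¹) * g = y := by group
      rw [this]; exact hy
    have hx4 : (x : G) • ((g : G) • b) = (g : G) • b := by
      have := (hEmem _).1 hx3
      simp only [Subgroup.coe_mul, InvMemClass.coe_inv] at this
      rw [mul_smul, mul_smul, inv_smul_eq_iff] at this
      exact this
    have h5 : (x : G) = 1 := by
      refine h3 x a b ((g : G) • b) hba.symm ?_ ?_ (hAmem x) ((hEmem x).1 hx1) hx4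
      · intro h; exact hg ((hEmem g).2 h.symm)
      · intro h
        apply hba
        have := hAmem g
        exact MulAction.injective (g : G) (h.symm.trans this.symm)
    exact Subtype.ext h5
  have hidx : E.index + 1 = Fintype.card Ω := by
    -- orbit of b under A is complement of a
    have e1 : E = MulAction.stabilizer A b := by
      ext x; rfl
    rw [e1, MulAction.index_stabilizer]
    have e2 : MulAction.orbit A b = {c | c ≠ a} := by
      ext c
      constructor
      · rintro ⟨g, rfl⟩ h
        apply hba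
        have := hAmem g
        exact MulAction.injective (g : G) (h.trans this.symm)
      · intro hc
        obtain ⟨g, hga, hgb⟩ := h2 a b a c hba.symm (Ne.symm hc)
        exact ⟨⟨g, hga⟩, hgb⟩
    rw [e2]
    have e3 : ({c | c ≠ a} : Set Ω) = ((Finset.univ.erase a : Finset Ω) : Set Ω) := by
      ext c; simp
    rw [e3, Set.ncard_coe_finset, Finset.card_erase_of_mem (Finset.mem_univ a), Finset.card_univ]
    omega
  have hHidx : Nat.card H = E.index := by omega
  have hsub : ((H.subgroupOf A : Subgroup A) : Set A) ⊆ Cfsg.frobeniusKernel E := by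
    intro x hx
    rw [CfsgH1.mem_frobKer_iff]
    rintro ⟨hx1, g, hg⟩
    have hxH : (x : G) ∈ H := hx
    have hx1' : (x : G) ≠ 1 := fun h => hx1 (Subtype.ext h)
    have h5 : (x : G) • ((g : G) • b) = (g : G) • b := by
      have := (hEmem _).1 hg
      simp only [Subgroup.coe_mul, InvMemClass.coe_inv] at this
      rw [mul_smul, mul_smul, inv_smul_eq_iff] at this
      exact this
    have h6 := hHfix _ hxH hx1' _ h5
    apply hba
    have := hAmem g
    exact MulAction.injective (g : G) (h6.trans this.symm)
  have hcardK := CfsgH1.card_frobKer hTI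
  have hker : ((H.subgroupOf A : Subgroup A) : Set A) = Cfsg.frobeniusKernel E := by
    apply Set.eq_of_subset_of_ncard_le hsub
    · rw [← Nat.card_coe_set_eq, ← Nat.card_coe_set_eq, hcardK, ← hHidx]
      have : Nat.card (H.subgroupOf A) = Nat.card H := Nat.card_congr (Subgroup.subgroupOfEquivOfLe hHa).toEquiv
      rw [← this]
      rfl
  have hkm : ∀ x : A, (x : G) ∈ H ↔ ¬ CfsgH1.ConjEl E x := by
    intro x
    rw [← CfsgH1.mem_frobKer_iff, ← hker]
    rfl
  have hconj : ∀ g x : A, CfsgH1.ConjEl E (g * x * g⁻¹) ↔ CfsgH1.ConjEl E x := by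
    have h5 : ∀ g x : A, CfsgH1.ConjEl E x → CfsgH1.ConjEl E (g * x * g⁻¹) := by
      rintro g x ⟨hx1, y, hy⟩
      refine ⟨?_, g * y, ?_⟩
      · intro h
        apply hx1
        have : x = g⁻¹ * (g * x * g⁻¹) * g := by group
        rw [this, h]; group
      · have : (g * y)⁻¹ * (g * x * g⁻¹) * (g * y) = y⁻¹ * x * y := by group
        rw [this]; exact hy
    intro g x
    constructor
    · intro h
      have h6 := h5 g⁻¹ _ h
      have : g⁻¹ * (g * x * g⁻¹) * g⁻¹⁻¹ = x := by group
      rwa [this] at h6
    · exact h5 g x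
  apply le_antisymm
  · intro g hg
    by_contra hgA
    obtain ⟨u, hu, hu1⟩ : ∃ u ∈ H, u ≠ 1 := by
      by_contra hcon
      push Not at hcon
      have : H = ⊥ := (Subgroup.eq_bot_iff_forall H).2 hcon
      rw [this, Subgroup.card_bot] at hHcard
      omega
    exact hu1 (hcl1 g hgA u hu ((Subgroup.mem_normalizer_iff.1 hg u).1 hu))
  · intro g hg
    rw [Subgroup.mem_normalizer_iff]
    have h7 : ∀ u : A, (u : G) ∈ H ↔ g * u * g⁻¹ ∈ H := by
      intro u
      have h8 := hkm (⟨g, hg⟩ * u * ⟨g, hg⟩⁻¹)
      rw [hconj] at h8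
      rw [hkm u]
      exact h8.symm
    intro u
    constructor
    · intro hu
      exact (h7 ⟨u, hHa hu⟩).1 hu
    · intro hu
      have huA : u ∈ A := by
        have h8 := hHa hu
        have : u = g⁻¹ * (g * u * g⁻¹) * g := by group
        rw [this]
        exact A.mul_mem (A.mul_mem (A.inv_mem hg) h8) hg
      exact (h7 ⟨u, huA⟩).2 hu

end Cfsg.Agent.S0878
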