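import Cfsg.Statements.S0879

set_option autoImplicit false
open Cfsg

namespace Cfsg.Agent.S0879

/-- Let G be a Zassenhaus group on the finite set Ω and E the stabilizer of two distinct points a, b. Then an element outside the normalizer of E conjugates no non-identity element of E into E, and E has index 2 in its normalizer. -/
theorem result {G Ω : Type*} [Group G] [Finite G] [MulAction G Ω] [Fintype Ω] (hZ : Cfsg.IsZassenhausGroup G Ω) {a b : Ω} (hab : a ≠ b) : (∀ g : G, g ∉ Subgroup.normalizer ((MulAction.stabilizer G a ⊓ MulAction.stabilizer G b : Subgroup G) : Set G) → ∀ x ∈ (MulAction.stabilizer G a ⊓ MulAction.stabilizer G b : Subgroup G), g * x * g⁻¹ ∈ (MulAction.stabilizer G a ⊓ MulAction.stabilizer G b : Subgroup G) → x = 1) ∧ ((MulAction.stabilizer G a ⊓ MulAction.stabilizer G b : Subgroup G).subgroupOf (Subgroup.normalizer ((MulAction.stabilizer G a ⊓ MulAction.stabilizer G b : Subgroup G) : Set G))).index = 2 := by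
  obtain ⟨hF, h2t, h3, ⟨x₀, hx₀1, a₀, b₀, hab₀, hxa, hxb⟩, -⟩ := hZ
  have h2 : ∀ a b c d : Ω, a ≠ b → c ≠ d → ∃ g : G, g • a = c ∧ g • b = d := by
    rw [MulAction.is_two_pretransitive_iff] at h2t
    intro a b c d h h'
    obtain ⟨g, hg⟩ := h2t h h'
    exact ⟨g, hg.1, hg.2⟩
  set E : Subgroup G := MulAction.stabilizer G a ⊓ MulAction.stabilizer G b with hE
  have hEmem : ∀ x : G, x ∈ E ↔ x • a = a ∧ x • b = b := fun x => Iff.rfl
  -- points fixed by nontrivial elements
  have hfix : ∀ x ∈ E, x ≠ 1 → ∀ c : Ω, x • c = c → c = a ∨ c = b := by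
    intro x hx hx1 c hc
    by_contra hcon
    push Not at hcon
    exact hx1 (h3 x a b c hab hcon.2.symm hcon.1.symm ((hEmem x).1 hx).1 ((hEmem x).1 hx).2 hc)
  -- E is nontrivial
  obtain ⟨y, hyE, hy1⟩ : ∃ y ∈ E, y ≠ 1 := by
    obtain ⟨g, hga, hgb⟩ := h2 a₀ b₀ a b hab₀ hab
    refine ⟨g * x₀ * g⁻¹, (hEmem _).2 ⟨?_, ?_⟩, ?_⟩
    · rw [mul_smul, mul_smul, ← hga, inv_smul_smul, hxa]
    · rw [mul_smul, mul_smul, ← hgb, inv_smul_smul, hxb]
    · intro h
      apply hx₀1
      have : x₀ = g⁻¹ * (g * x₀ * g⁻¹) * g := by group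
      rw [this, h]; group
  -- main lemma
  have hset : ∀ g : G, ∀ x ∈ E, x ≠ 1 → g * x * g⁻¹ ∈ E → (g • a = a ∨ g • a = b) ∧ (g • b = a ∨ g • b = b) := by
    intro g x hx hx1 hgx
    have hne : g * x * g⁻¹ ≠ 1 := by
      intro h
      apply hx1
      have : x = g⁻¹ * (g * x * g⁻¹) * g := by group
      rw [this, h]; group
    refine ⟨hfix _ hgx hne _ ?_, hfix _ hgx hne _ ?_⟩
    · rw [mul_smul, mul_smul, inv_smul_smul, ((hEmem x).1 hx).1]
    · rw [mul_smul, mul_smul, inv_smul_smul, ((hEmem x).1 hx).2]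
  -- normalizer = set stabilizer
  have hN : ∀ g : G, g ∈ Subgroup.normalizer (E : Set G) ↔
      (g • a = a ∧ g • b = b) ∨ (g • a = b ∧ g • b = a) := by
    intro g
    constructor
    · intro hg
      have h5 := (Subgroup.mem_normalizer_iff.1 hg y).1 hyE
      obtain ⟨h6, h7⟩ := hset g y hyE hy1 h5
      rcases h6 with h6 | h6 <;> rcases h7 with h7 | h7
      · exact absurd (MulAction.injective g (h6.trans h7.symm)) hab
      · exact Or.inl ⟨h6, h7⟩
      · exact Or.inr ⟨h6, h7⟩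
      · exact absurd (MulAction.injective g (h6.trans h7.symm)) hab
    · intro hg
      rw [Subgroup.mem_normalizer_iff]
      intro x
      rw [hEmem, hEmem]
      have e1 : ∀ c : Ω, (g * x * g⁻¹) • (g • c) = g • c ↔ x • c = c := by
        intro c
        rw [mul_smul, mul_smul, inv_smul_smul]
        exact (MulAction.injective g).eq_iff
      rcases hg with ⟨ha, hb⟩ | ⟨ha, hb⟩
      · have e2 := e1 a
        have e3 := e1 b
        rw [ha] at e2; rw [hb] at e3
        rw [e2, e3]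
      · have e2 := e1 a
        have e3 := e1 b
        rw [ha] at e2; rw [hb] at e3
        rw [e2, e3, and_comm]
  refine ⟨?_, ?_⟩
  · intro g hg x hx hgx
    by_contra hx1
    apply hg
    rw [hN]
    obtain ⟨h6, h7⟩ := hset g x hx hx1 hgx
    rcases h6 with h6 | h6 <;> rcases h7 with h7 | h7
    · exact absurd (MulAction.injective g (h6.trans h7.symm)) hab
    · exact Or.inl ⟨h6, h7⟩
    · exact Or.inr ⟨h6, h7⟩
    · exact absurd (MulAction.injective g (h6.trans h7.symm)) hab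
  · obtain ⟨s, hsa, hsb⟩ := h2 a b b a hab hab.symm
    have hs : s ∈ Subgroup.normalizer (E : Set G) := (hN s).2 (Or.inr ⟨hsa, hsb⟩)
    rw [Subgroup.index_eq_two_iff]
    refine ⟨⟨s, hs⟩, fun g => ?_⟩
    rw [Subgroup.mem_subgroupOf, Subgroup.mem_subgroupOf]
    have hg := (hN g).1 g.2
    have e1 : ((g * ⟨s, hs⟩ : Subgroup.normalizer (E : Set G)) : G) = g * s := rfl
    rw [e1, hEmem, hEmem, mul_smul, mul_smul, hsa, hsb]
    rcases hg with ⟨ha, hb⟩ | ⟨ha, hb⟩
    · right
      refine ⟨⟨ha, hb⟩, fun h => hab ?_⟩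
      rw [← h.1, hb]
    · left
      refine ⟨⟨hb, ha⟩, fun h => hab ?_⟩
      rw [← h.1, ha]

end Cfsg.Agent.S0879
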