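import Cfsg.Statements.S0887
import Cfsg.Agent.H4.Extend2

set_option autoImplicit false
open Cfsg

namespace Cfsg.Agent.S0887

/-- Let N be a normal subgroup of the finite group G, χ an irreducible character of G and ϑ an irreducible character of N having nonzero inner product with the restriction of χ. If χ 1 = c and ϑ 1 = d as natural numbers, then d divides c and c / d divides the index of N. -/
theorem result {G : Type*} [Group G] [Fintype G] (N : Subgroup G) [N.Normal] [Fintype N] (χ : G → ℂ) (hχ : Cfsg.IsIrrCharacter G χ) (ϑ : N → ℂ) (hϑ : Cfsg.IsIrrCharacter N ϑ) (hcon : Cfsg.classInner (fun n : N => χ n) ϑ ≠ 0) (c d : ℕ) (hc : χ 1 = c) (hd : ϑ 1 = d) : d ∣ c ∧ c / d ∣ N.index := by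
  obtain ⟨e, he, hdvd⟩ := CfsgH4.degree_quot N hχ hϑ hcon
  have hd0 : d ≠ 0 := by
    rintro rfl
    exact CfsgH4.IsIrr.one_ne_zero hϑ (by rw [hd]; simp)
  have h1 : c = e * d := by
    rw [hc, hd] at he; exact_mod_cast he
  rw [h1]
  refine ⟨Dvd.intro_left e rfl, ?_⟩
  rw [Nat.mul_div_cancel _ (Nat.pos_of_ne_zero hd0)]
  exact hdvd

end Cfsg.Agent.S0887
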