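import Cfsg.Statements.S0893
import Cfsg.Agent.H4.Gallagher

set_option autoImplicit false
open Cfsg

namespace Cfsg.Agent.S0893

/-- Let P be an extraspecial p-group of order p ^ (2 * n + 1), A an abelian subgroup of order p ^ (n + 1), and λ a character of A of degree 1 that is not identically 1 on the elements of A lying in the centre of P. Then the function induced from λ to P is an irreducible character of P and vanishes at every element outside the centre. -/
theorem result {P : Type*} [Group P] [Fintype P] (p n : ℕ) [Fact p.Prime] (hP : Cfsg.IsExtraspecial p P) (hcard : Nat.card P = p ^ (2 * n + 1)) (A : Subgroup P) (hab : ∀ a ∈ A, ∀ b ∈ A, a * b = b * a) (hA : Nat.card A = p ^ (n + 1)) (lam : A → ℂ) (hlam : Cfsg.IsCharacter A lam ∧ lam 1 = 1) (hZ : ∃ a : A, (a : P) ∈ Subgroup.center P ∧ lam a ≠ 1) : Cfsg.IsIrrCharacter P (Cfsg.indFun A lam) ∧ ∀ x : P, x ∉ Subgroup.center P → Cfsg.indFun A lam x = 0 := by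
  classical
  obtain ⟨f, rfl⟩ := CfsgH4.IsCharacter.linear_of_one hlam.1 hlam.2
  obtain ⟨⟨hpg, -, hcomm⟩, hZcard⟩ := hP
  have hp : p.Prime := Fact.out
  obtain ⟨a, haZ, hane⟩ := hZ
  -- elements of the centre of prime order generate
  have hgen : ∀ c : P, c ∈ Subgroup.center P → c ≠ 1 → ∀ z ∈ Subgroup.center P, z ∈ Subgroup.zpowers c := by
    intro c hc hc1 z hz
    haveI : Fact (Nat.card (Subgroup.center P)).Prime := ⟨by rw [hZcard]; exact hp⟩
    have h1 := mem_zpowers_of_prime_card (G := Subgroup.center P) (p := p) (g := ⟨c, hc⟩)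
      (g' := ⟨z, hz⟩) hZcard (by intro h; exact hc1 (congrArg Subtype.val h))
    obtain ⟨k, hk⟩ := h1
    exact ⟨k, congrArg Subtype.val hk⟩
  have ha1 : (a : P) ≠ 1 := by
    intro h
    apply hane
    have : a = 1 := Subtype.ext h
    rw [this]; simp
  have hZA : Subgroup.center P ≤ A := by
    intro z hz
    have h1 := hgen a haZ ha1 z hz
    exact (Subgroup.zpowers_le.2 a.2) h1
  have hcommmem : ∀ x y : P, y * x * y⁻¹ * x⁻¹ ∈ Subgroup.center P := by
    intro x y
    rw [← hcomm]
    have := Subgroup.commutator_mem_commutator (H₁ := (⊤ : Subgroup P)) (H₂ := ⊤)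
        (Subgroup.mem_top y) (Subgroup.mem_top x)
    exact this
  haveI hAn : A.Normal := by
    constructor
    intro x hx y
    have h1 := hZA (hcommmem x y)
    have h2 := A.mul_mem h1 hx
    simpa using h2
  have hfZ : ∀ (c : P) (hc : c ∈ Subgroup.center P), c ≠ 1 → f ⟨c, hZA hc⟩ ≠ 1 := by
    intro c hc hc1 h
    apply hane
    obtain ⟨k, hk⟩ := hgen c hc hc1 a haZ
    have h1 : a = (⟨c, hZA hc⟩ : A) ^ k := Subtype.ext hk.symm
    show (f a : ℂ) = 1
    rw [h1, map_zpow, h, one_zpow]; rfl
  set I := Cfsg.indFun A (fun g => (f g : ℂ)) with hI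
  have hvan : ∀ x : P, x ∉ Subgroup.center P → I x = 0 := by
    intro x hx
    by_cases hxA : x ∈ A
    · obtain ⟨y, hy⟩ : ∃ y : P, y * x ≠ x * y := by
        by_contra hcon
        push Not at hcon
        exact hx (Subgroup.mem_center_iff.2 hcon)
      set c := y * x * y⁻¹ * x⁻¹ with hc
      have hcZ := hcommmem x y
      have hc1 : c ≠ 1 := by
        intro h
        apply hy
        rw [hc] at h
        exact mul_inv_eq_iff_eq_mul.1 (mul_inv_eq_one.1 h)
      have h1 : I x = I (c * x) := by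
        have h2 : I (y * x * y⁻¹) = I x := CfsgH4.indFun_isClassFunction A (fun g => (f g : ℂ)) x y
        rw [← h2]
        congr 1
        rw [hc]; group
      have h2 : I (c * x) = f ⟨c, hZA hcZ⟩ * I x := by
        rw [hI, CfsgH4.indFun_apply', CfsgH4.indFun_apply', mul_left_comm]
        congr 1
        rw [Finset.mul_sum]
        refine Finset.sum_congr rfl fun g _ => ?_
        have h3 : g * (c * x) * g⁻¹ = c * (g * x * g⁻¹) := by
          have hcg : g * c = c * g := Subgroup.mem_center_iff.1 hcZ g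
          rw [← mul_assoc, hcg]
          simp only [mul_assoc]
        have h4 : g * x * g⁻¹ ∈ A := hAn.conj_mem x hxA g
        have h5 : c * (g * x * g⁻¹) ∈ A := A.mul_mem (hZA hcZ) h4
        rw [h3, CfsgH4.extendByZero_of_mem A _ h4, CfsgH4.extendByZero_of_mem A _ h5,
          ← Units.val_mul, ← map_mul]
        rfl
      rw [h2] at h1
      have h6 : (1 - (f ⟨c, hZA hcZ⟩ : ℂ)) * I x = 0 := by linear_combination h1
      rcases mul_eq_zero.1 h6 with h7 | h7
      · exfalso
        apply hfZ c hcZ hc1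
        apply Units.ext
        rw [Units.val_one]
        linear_combination -h7
      · exact h7
    · exact CfsgH4.indFun_normal_not_mem A _ hxA
  refine ⟨?_, hvan⟩
  apply CfsgH4.isIrr_of_norm_one (CfsgH4.isCharacter_indFun A hlam.1)
  -- values on the centre
  have hval : ∀ z ∈ Subgroup.center P, ∀ hz : z ∈ A, I z = (A.index : ℂ) * f ⟨z, hz⟩ := by
    intro z hzc hz
    rw [hI, CfsgH4.indFun_apply']
    have h1 : ∀ g : P, Cfsg.extendByZero A (fun g => (f g : ℂ)) (g * z * g⁻¹) = f ⟨z, hz⟩ := by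
      intro g
      have h2 : g * z * g⁻¹ = z := by
        rw [Subgroup.mem_center_iff.1 hzc g, mul_inv_cancel_right]
      rw [h2, CfsgH4.extendByZero_of_mem A _ hz]
    rw [Finset.sum_congr rfl (fun g _ => h1 g), Finset.sum_const, Finset.card_univ, nsmul_eq_mul,
      Fintype.card_eq_nat_card, ← Subgroup.card_mul_index A]
    have := CfsgH4.card_ne_zero A
    push_cast
    field_simp
  have hidx : A.index = p ^ n := by
    have h1 := Subgroup.card_mul_index A
    rw [hA, hcard] at h1
    have h2 : p ^ (n + 1) * A.index = p ^ (n + 1) * p ^ n := by rw [h1, ← pow_add]; congr 1; omega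
    exact Nat.eq_of_mul_eq_mul_left (pow_pos hp.pos _) h2
  show Cfsg.classInner I I = 1
  rw [CfsgH4.classInner_def]
  haveI : Fintype (Subgroup.center P) := Fintype.ofFinite _
  have h3 : ∀ g : P, I g * (starRingEnd ℂ) (I g) =
      Cfsg.extendByZero (Subgroup.center P) (fun _ => ((p : ℂ) ^ n) ^ 2) g * 1 := by
    intro g
    by_cases hg : g ∈ Subgroup.center P
    · rw [CfsgH4.extendByZero_of_mem _ _ hg, hval g hg (hZA hg), hidx, mul_one, map_mul]
      have h4 : (f ⟨g, hZA hg⟩ : ℂ) * (starRingEnd ℂ) (f ⟨g, hZA hg⟩ : ℂ) = 1 := by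
        rw [Complex.mul_conj, Complex.normSq_eq_norm_sq]
        have h5 : ‖(f ⟨g, hZA hg⟩ : ℂ)‖ = 1 := by
          have h1 : (f ⟨g, hZA hg⟩ : ℂ) ^ Nat.card A = 1 := by
            rw [← Units.val_pow_eq_pow_val, ← map_pow, pow_card_eq_one', map_one, Units.val_one]
          exact Complex.norm_eq_one_of_pow_eq_one h1 Nat.card_pos.ne'
        rw [h5]; simp
      have h6 : (starRingEnd ℂ) (((p ^ n : ℕ) : ℂ)) = ((p ^ n : ℕ) : ℂ) := Complex.conj_natCast _
      rw [h6]
      push_cast
      linear_combination ((p : ℂ) ^ n) ^ 2 * h4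
    · rw [CfsgH4.extendByZero_of_not_mem _ _ hg, hvan g hg]; simp
  rw [Finset.sum_congr rfl (fun g _ => h3 g),
    CfsgH4.sum_extendByZero (Subgroup.center P) (fun _ => ((p : ℂ) ^ n) ^ 2) (fun _ => 1)]
  simp only [mul_one, Finset.sum_const, Finset.card_univ, nsmul_eq_mul, Fintype.card_eq_nat_card]
  rw [hZcard, hcard]
  have : (p : ℂ) ≠ 0 := by exact_mod_cast hp.ne_zero
  push_cast
  field_simp
  ring

end Cfsg.Agent.S0893
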