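import Cfsg.Statements.S0894
import Cfsg.Agent.H4.Extend2

set_option autoImplicit false
open Cfsg

namespace Cfsg.Agent.S0894

/-- Let P be an extraspecial p-group of order p ^ (2 * n + 1). Then every irreducible character of P has degree 1 or p ^ n, and exactly p - 1 of them have degree p ^ n. -/
theorem result {P : Type*} [Group P] [Finite P] (p n : ℕ) [Fact p.Prime] (hP : Cfsg.IsExtraspecial p P) (hcard : Nat.card P = p ^ (2 * n + 1)) : (∀ χ : Cfsg.IrrCharacter P, (χ : P → ℂ) 1 = 1 ∨ (χ : P → ℂ) 1 = (p : ℂ) ^ n) ∧ Nat.card {χ : Cfsg.IrrCharacter P // (χ : P → ℂ) 1 = (p : ℂ) ^ n} = p - 1 := by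
  classical
  haveI : Fintype P := Fintype.ofFinite P
  obtain ⟨⟨hpg, -, hcomm⟩, hZcard⟩ := hP
  have hp : p.Prime := Fact.out
  have hgen : ∀ c : P, c ∈ Subgroup.center P → c ≠ 1 → ∀ z ∈ Subgroup.center P, z ∈ Subgroup.zpowers c := by
    intro c hc hc1 z hz
    have h1 := mem_zpowers_of_prime_card (G := Subgroup.center P) (p := p) (g := ⟨c, hc⟩)
      (g' := ⟨z, hz⟩) hZcard (by intro h; exact hc1 (congrArg Subtype.val h))
    obtain ⟨k, hk⟩ := h1
    exact ⟨k, congrArg Subtype.val hk⟩
  have hcommmem : ∀ x y : P, y * x * y⁻¹ * x⁻¹ ∈ Subgroup.center P := by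
    intro x y
    rw [← hcomm]
    have := Subgroup.commutator_mem_commutator (H₁ := (⊤ : Subgroup P)) (H₂ := ⊤)
        (Subgroup.mem_top y) (Subgroup.mem_top x)
    exact this
  have hn : n ≠ 0 := by
    rintro rfl
    have h1 : Subgroup.center P = ⊤ := by
      apply Subgroup.eq_top_of_card_eq
      rw [hZcard, hcard]; simp
    have h2 : commutator P = ⊥ := by
      rw [eq_bot_iff, commutator_eq_closure, Subgroup.closure_le]
      rintro _ ⟨x, y, rfl⟩
      have hx : y ∈ Subgroup.center P := by rw [h1]; trivial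
      have := Subgroup.mem_center_iff.1 hx x
      rw [commutatorElement_def, this]; simp
    rw [hcomm] at h2
    rw [h2, Subgroup.card_bot] at hZcard
    exact hp.one_lt.ne hZcard
  have hdeg : ∀ χ : Cfsg.IrrCharacter P, (χ : P → ℂ) 1 = 1 ∨ (χ : P → ℂ) 1 = (p : ℂ) ^ n := by
    intro χ
    have hχ := χ.2
    have hχc := CfsgH4.IsIrr.isCharacter hχ
    obtain ⟨lam, hlam⟩ := CfsgH4.exists_central_char hχ (Subgroup.center P) le_rfl
    by_cases htriv : ∀ z : Subgroup.center P, lam z = 1
    · left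
      obtain ⟨f, hf⟩ := CfsgH4.linear_of_comm_image hχ (by
        intro x y z
        have h1 : x * y * x⁻¹ * y⁻¹ ∈ Subgroup.center P := hcommmem y x
        have h2 := hlam ⟨_, h1⟩ z
        rw [htriv] at h2
        simpa using h2)
      rw [hf]; simp
    · right
      push Not at htriv
      obtain ⟨z0, hz0⟩ := htriv
      have hlamne : ∀ c : Subgroup.center P, (c : P) ≠ 1 → lam c ≠ 1 := by
        intro c hc h
        apply hz0
        obtain ⟨k, hk⟩ := hgen c c.2 hc z0 z0.2
        have : z0 = c ^ k := Subtype.ext hk.symm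
        rw [this, map_zpow, h, one_zpow]
      have hvan : ∀ x : P, x ∉ Subgroup.center P → (χ : P → ℂ) x = 0 := by
        intro x hx
        obtain ⟨y, hy⟩ : ∃ y : P, y * x ≠ x * y := by
          by_contra hcon
          push Not at hcon
          exact hx (Subgroup.mem_center_iff.2 hcon)
        have hcZ := hcommmem x y
        have hc1 : y * x * y⁻¹ * x⁻¹ ≠ 1 := by
          intro h
          apply hy
          exact mul_inv_eq_iff_eq_mul.1 (mul_inv_eq_one.1 h)
        have h1 := hlam ⟨_, hcZ⟩ x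
        have h2 : x * (y * x * y⁻¹ * x⁻¹) = y * x * y⁻¹ := by
          rw [Subgroup.mem_center_iff.1 hcZ x]; group
        have h3 : (χ : P → ℂ) (y * x * y⁻¹) = (χ : P → ℂ) x := CfsgH4.IsCharacter.conj_eq hχc x y
        have h1' : (χ : P → ℂ) (x * (y * x * y⁻¹ * x⁻¹)) = lam ⟨_, hcZ⟩ * (χ : P → ℂ) x := h1
        rw [h2, h3] at h1'
        have h6 : (1 - (lam ⟨_, hcZ⟩ : ℂ)) * (χ : P → ℂ) x = 0 := by linear_combination h1'
        rcases mul_eq_zero.1 h6 with h7 | h7
        · exfalso
          apply hlamne ⟨_, hcZ⟩ hc1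
          apply Units.ext
          rw [Units.val_one]
          linear_combination -h7
        · exact h7
      obtain ⟨d, hd⟩ := CfsgH4.IsCharacter.one_nat hχc
      have h1 := CfsgH4.classInner_irr_self hχ
      rw [CfsgH4.classInner_def] at h1
      haveI : Fintype (Subgroup.center P) := Fintype.ofFinite _
      have h3 : ∀ g : P, (χ : P → ℂ) g * (starRingEnd ℂ) ((χ : P → ℂ) g) =
          Cfsg.extendByZero (Subgroup.center P) (fun _ => (d : ℂ) ^ 2) g * 1 := by
        intro g
        by_cases hg : g ∈ Subgroup.center P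
        · rw [CfsgH4.extendByZero_of_mem _ _ hg, mul_one]
          have h4 := hlam ⟨g, hg⟩ 1
          rw [one_mul, hd] at h4
          have h5 : (χ : P → ℂ) g = lam ⟨g, hg⟩ * d := h4
          have h6 := CfsgH4.norm_unit_of_finite lam ⟨g, hg⟩
          have h7 : (lam ⟨g, hg⟩ : ℂ) * (starRingEnd ℂ) (lam ⟨g, hg⟩ : ℂ) = 1 := by
            rw [Complex.mul_conj, Complex.normSq_eq_norm_sq, h6]; simp
          rw [h5, map_mul, Complex.conj_natCast]
          linear_combination (d : ℂ) ^ 2 * h7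
        · rw [CfsgH4.extendByZero_of_not_mem _ _ hg, hvan g hg]; simp
      rw [Finset.sum_congr rfl (fun g _ => h3 g),
        CfsgH4.sum_extendByZero (Subgroup.center P) (fun _ => (d : ℂ) ^ 2) (fun _ => 1)] at h1
      simp only [mul_one, Finset.sum_const, Finset.card_univ, nsmul_eq_mul,
        Fintype.card_eq_nat_card] at h1
      rw [hZcard, hcard] at h1
      have hp0 : (p : ℂ) ≠ 0 := by exact_mod_cast hp.ne_zero
      have h8 : (p : ℂ) * d ^ 2 = p ^ (2 * n + 1) := by
        have : ((p ^ (2 * n + 1) : ℕ) : ℂ) ≠ 0 := by push_cast; exact pow_ne_zero _ hp0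
        field_simp at h1
        push_cast at h1
        exact h1
      have h9 : p * d ^ 2 = p ^ (2 * n + 1) := by exact_mod_cast h8
      have h10 : d ^ 2 = (p ^ n) ^ 2 := by
        have : p * d ^ 2 = p * (p ^ n) ^ 2 := by rw [h9]; ring
        exact Nat.eq_of_mul_eq_mul_left hp.pos this
      have h11 : d = p ^ n := by
        exact Nat.pow_left_injective (n := 2) (by norm_num) h10
      rw [hd, h11]; push_cast; rfl
  refine ⟨hdeg, ?_⟩
  -- counting
  have hpn : (p : ℂ) ^ n ≠ 1 := by
    intro h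
    have h1 : p ^ n = 1 := by exact_mod_cast h
    exact (Nat.one_lt_pow hn hp.one_lt).ne' h1
  have hlin := CfsgH4.card_linear (G := P)
  have hidx : (commutator P).index = p ^ (2 * n) := by
    have h1 := Subgroup.card_mul_index (commutator P)
    rw [hcomm] at h1
    rw [hcomm]
    rw [hZcard, hcard] at h1
    have h2 : p * (Subgroup.center P).index = p * p ^ (2 * n) := by rw [h1]; ring
    exact Nat.eq_of_mul_eq_mul_left hp.pos h2
  have hsum := CfsgH4.sum_sq (G := P)
  have hsplit : ∀ χ : Cfsg.IrrCharacter P, (χ : P → ℂ) 1 ^ 2 =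
      (if (χ : P → ℂ) 1 = 1 then 1 else 0) + (if (χ : P → ℂ) 1 = (p : ℂ) ^ n then ((p : ℂ) ^ n) ^ 2 else 0) := by
    intro χ
    rcases hdeg χ with h | h
    · rw [h, if_pos rfl, if_neg (fun k => hpn k.symm)]; ring
    · rw [h, if_neg hpn, if_pos rfl]; ring
  rw [Finset.sum_congr rfl (fun χ _ => hsplit χ), Finset.sum_add_distrib, ← Finset.sum_filter,
    ← Finset.sum_filter, Finset.sum_const, Finset.sum_const, nsmul_eq_mul, nsmul_eq_mul,
    mul_one] at hsum
  have hc1 : (Finset.univ.filter (fun χ : Cfsg.IrrCharacter P => (χ : P → ℂ) 1 = 1)).card =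
      p ^ (2 * n) := by
    rw [← hidx, ← hlin, Nat.card_eq_fintype_card, Fintype.card_subtype]
  have hc2 : Nat.card {χ : Cfsg.IrrCharacter P // (χ : P → ℂ) 1 = (p : ℂ) ^ n} =
      (Finset.univ.filter (fun χ : Cfsg.IrrCharacter P => (χ : P → ℂ) 1 = (p : ℂ) ^ n)).card := by
    rw [Nat.card_eq_fintype_card, Fintype.card_subtype]
  rw [hc1, hcard] at hsum
  rw [hc2]
  set m := (Finset.univ.filter (fun χ : Cfsg.IrrCharacter P => (χ : P → ℂ) 1 = (p : ℂ) ^ n)).card
  have h1 : p ^ (2 * n) + m * (p ^ n) ^ 2 = p ^ (2 * n + 1) := by exact_mod_cast hsum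
  have h2 : p ^ (2 * n) * (1 + m) = p ^ (2 * n) * p := by
    have : (p ^ n) ^ 2 = p ^ (2 * n) := by rw [← pow_mul]; congr 1; ring
    rw [this] at h1
    rw [← pow_succ, ← h1]; ring
  have h3 := Nat.eq_of_mul_eq_mul_left (pow_pos hp.pos _) h2
  omega

end Cfsg.Agent.S0894
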