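import Cfsg.Statements.S0900
import Cfsg.Agent.H4.Gallagher

set_option autoImplicit false
open Cfsg

namespace Cfsg.Agent.S0900

/-- Let N be a normal subgroup of the finite group G, χ an irreducible character of G and ϑ an irreducible character of N having nonzero inner product with the restriction of χ. Consider: (a) the restriction of χ to N is e • ϑ for a natural number e with e ^ 2 equal to the index of N; (b) χ vanishes outside N and ϑ is invariant under conjugation by G; (c) ϑ is invariant and every irreducible character of G having nonzero inner product with the function induced from ϑ equals χ. Then (a) ↔ (b) and (a) ↔ (c). -/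
theorem result {G : Type*} [Group G] [Fintype G] (N : Subgroup G) [hN : N.Normal] [Fintype N] (χ : G → ℂ) (hχ : Cfsg.IsIrrCharacter G χ) (ϑ : N → ℂ) (hϑ : Cfsg.IsIrrCharacter N ϑ) (hcon : Cfsg.classInner (fun n : N => χ n) ϑ ≠ 0) : ((∃ e : ℕ, (fun n : N => χ n) = (e : ℂ) • ϑ ∧ e ^ 2 = N.index) ↔ ((∀ g : G, g ∉ N → χ g = 0) ∧ ∀ (g : G) (n : N), ϑ ⟨g * n * g⁻¹, hN.conj_mem (n : G) n.2 g⟩ = ϑ n)) ∧ ((∃ e : ℕ, (fun n : N => χ n) = (e : ℂ) • ϑ ∧ e ^ 2 = N.index) ↔ (∀ (g : G) (n : N), ϑ ⟨g * n * g⁻¹, hN.conj_mem (n : G) n.2 g⟩ = ϑ n ∧ ∀ ψ : G → ℂ, Cfsg.IsIrrCharacter G ψ → Cfsg.classInner (Cfsg.indFun N ϑ) ψ ≠ 0 → ψ = χ)) := by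
  classical
  have hχc := CfsgH4.IsIrr.isCharacter hχ
  obtain ⟨m, hm⟩ := CfsgH4.IsCharacter.inner_irr_nat (CfsgH4.isCharacter_restrict N hχc) hϑ
  have hNc := CfsgH4.card_ne_zero N
  have hGc := CfsgH4.card_ne_zero G
  -- norm of the restriction
  have hnorm : (Nat.card N : ℂ) * Cfsg.classInner (fun n : N => χ n) (fun n : N => χ n) =
      ((∑ n : N, ‖χ n‖ ^ 2 : ℝ) : ℂ) := by
    rw [CfsgH4.classInner_self_eq]
    push_cast
    rw [← mul_assoc, mul_inv_cancel₀ hNc, one_mul]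
  have hG : ((∑ g : G, ‖χ g‖ ^ 2 : ℝ) : ℂ) = Nat.card G := by
    have h1 := CfsgH4.classInner_irr_self hχ
    rw [CfsgH4.classInner_self_eq] at h1
    push_cast at h1 ⊢
    field_simp at h1
    exact h1
  have hsplit : (∑ g : G, ‖χ g‖ ^ 2 : ℝ) = ∑ n : N, ‖χ n‖ ^ 2 +
      ∑ g ∈ Finset.univ.filter (fun g : G => g ∉ N), ‖χ g‖ ^ 2 := by
    rw [← Finset.sum_filter_add_sum_filter_not Finset.univ (fun g : G => g ∈ N)]
    congr 1
    rw [← Finset.sum_subtype (Finset.univ.filter (fun g : G => g ∈ N)) (by simp)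
      (fun g => ‖χ g‖ ^ 2)]
  have hiff : Cfsg.classInner (fun n : N => χ n) (fun n : N => χ n) = N.index ↔
      ∀ g : G, g ∉ N → χ g = 0 := by
    have h1 : Cfsg.classInner (fun n : N => χ n) (fun n : N => χ n) = N.index ↔
        ∑ g ∈ Finset.univ.filter (fun g : G => g ∉ N), ‖χ g‖ ^ 2 = 0 := by
      constructor
      · intro h
        rw [h] at hnorm
        have h2 : ((∑ n : N, ‖χ n‖ ^ 2 : ℝ) : ℂ) = ((∑ g : G, ‖χ g‖ ^ 2 : ℝ) : ℂ) := by
          rw [hG, ← hnorm, ← Subgroup.card_mul_index N]; push_cast; rfl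
        have h3 : (∑ n : N, ‖χ n‖ ^ 2 : ℝ) = (∑ g : G, ‖χ g‖ ^ 2 : ℝ) := by exact_mod_cast h2
        linarith
      · intro h
        rw [h, add_zero] at hsplit
        rw [hsplit] at hG
        have h2 : (Nat.card N : ℂ) * Cfsg.classInner (fun n : N => χ n) (fun n : N => χ n) =
            Nat.card N * N.index := by
          rw [hnorm, hG, ← Subgroup.card_mul_index N]; push_cast; rfl
        exact mul_left_cancel₀ hNc h2
    rw [h1, Finset.sum_eq_zero_iff_of_nonneg (fun g _ => by positivity)]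
    constructor
    · intro h g hg
      have := h g (Finset.mem_filter.2 ⟨Finset.mem_univ _, hg⟩)
      have h2 : ‖χ g‖ = 0 := by
        exact pow_eq_zero_iff (two_ne_zero) |>.1 this
      exact norm_eq_zero.1 h2
    · intro h g hg
      rw [h g (Finset.mem_filter.1 hg).2]; simp
  -- invariance implies homogeneous
  have hhom : (∀ (g : G) (n : N), ϑ ⟨g * n * g⁻¹, hN.conj_mem (n : G) n.2 g⟩ = ϑ n) →
      (fun n : N => χ n) = (m : ℂ) • ϑ := by
    intro hinv
    have hconj : ∀ g : G, CfsgH4.conjFun N ϑ g = ϑ := fun g => by ext n; exact hinv g n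
    have h1 := CfsgH4.clifford_sum N hχ hϑ hcon
    rw [(CfsgH4.inertia_eq_top_iff N _).2 hconj, Subgroup.card_top,
      Finset.sum_congr rfl (fun x _ => hconj x), Finset.sum_const,
      Finset.card_univ, Fintype.card_eq_nat_card, hm] at h1
    ext n
    have h5 : (Nat.card G : ℂ) * χ n = (m : ℂ) * (Nat.card G • (ϑ n : ℂ)) := congrFun h1 n
    rw [nsmul_eq_mul] at h5
    have h7 : (Nat.card G : ℂ) * χ n = (Nat.card G : ℂ) * (m * ϑ n) := by rw [h5]; ring
    exact mul_left_cancel₀ hGc h7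
  have hinvof : ∀ e : ℕ, (fun n : N => χ n) = (e : ℂ) • ϑ → e ≠ 0 →
      ∀ (g : G) (n : N), ϑ ⟨g * n * g⁻¹, hN.conj_mem (n : G) n.2 g⟩ = ϑ n := by
    intro e he he0 g n
    have h1 := congrFun he ⟨g * n * g⁻¹, hN.conj_mem (n : G) n.2 g⟩
    have h2 := congrFun he n
    have h3 : χ (g * n * g⁻¹) = χ n := CfsgH4.IsCharacter.conj_eq hχc n g
    have h4 : (e : ℂ) * ϑ ⟨g * n * g⁻¹, hN.conj_mem (n : G) n.2 g⟩ = e * ϑ n := by
      have h1' : χ (g * n * g⁻¹) = (e : ℂ) * ϑ ⟨g * n * g⁻¹, hN.conj_mem (n : G) n.2 g⟩ := h1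
      have h2' : χ n = (e : ℂ) * ϑ n := h2
      rw [← h1', ← h2', h3]
    exact mul_left_cancel₀ (by exact_mod_cast he0) h4
  have hself : ∀ e : ℕ, (fun n : N => χ n) = (e : ℂ) • ϑ →
      Cfsg.classInner (fun n : N => χ n) (fun n : N => χ n) = (e : ℂ) ^ 2 := by
    intro e he
    rw [he, CfsgH4.classInner_smul_left, CfsgH4.classInner_smul_right,
      CfsgH4.classInner_irr_self hϑ]
    simp; ring
  have hene : ∀ e : ℕ, (fun n : N => χ n) = (e : ℂ) • ϑ → e ≠ 0 := by
    rintro e he rfl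
    apply hcon
    rw [he]; simp [CfsgH4.classInner_zero_left]
  have hab : (∃ e : ℕ, (fun n : N => χ n) = (e : ℂ) • ϑ ∧ e ^ 2 = N.index) ↔
      ((∀ g : G, g ∉ N → χ g = 0) ∧ ∀ (g : G) (n : N), ϑ ⟨g * n * g⁻¹, hN.conj_mem (n : G) n.2 g⟩ = ϑ n) := by
    constructor
    · rintro ⟨e, he, he2⟩
      refine ⟨hiff.1 ?_, hinvof e he (hene e he)⟩
      rw [hself e he]; exact_mod_cast he2
    · rintro ⟨h1, h2⟩
      refine ⟨m, hhom h2, ?_⟩
      have := hiff.2 h1
      rw [hself m (hhom h2)] at this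
      exact_mod_cast this
  refine ⟨hab, ?_⟩
  have hindc : Cfsg.IsCharacter G (Cfsg.indFun N ϑ) :=
    CfsgH4.isCharacter_indFun N (CfsgH4.IsIrr.isCharacter hϑ)
  have hindχ : Cfsg.classInner (Cfsg.indFun N ϑ) χ = m := by
    rw [CfsgH4.frobenius N _ (CfsgH4.IsIrr.isClassFunction hχ), ← CfsgH4.classInner_conj_symm, hm]
    simp
  constructor
  · rintro ⟨e, he, he2⟩ g n
    have hinv := hinvof e he (hene e he)
    refine ⟨hinv g n, ?_⟩
    have hem : e = m := by
      have h1 := hm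
      rw [he, CfsgH4.classInner_smul_left, CfsgH4.classInner_irr_self hϑ, mul_one] at h1
      exact_mod_cast h1
    subst hem
    intro ψ hψ hne
    by_contra hψχ
    have hn := CfsgH4.norm_indFun_invariant N hϑ (fun g => by ext n; exact hinv g n)
    rw [CfsgH4.parseval (CfsgH4.IsCharacter.isClassFunction hindc)
      (CfsgH4.IsCharacter.isClassFunction hindc)] at hn
    have hc : ∀ β : Cfsg.IrrCharacter G, ∃ k : ℕ,
        Cfsg.classInner (Cfsg.indFun N ϑ) (β : G → ℂ) = k :=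
      fun β => CfsgH4.IsCharacter.inner_irr_nat hindc β.2
    choose k hk using hc
    have hs : ∑ β : Cfsg.IrrCharacter G, k β * k β = N.index := by
      have h2 : ((N.index : ℕ) : ℂ) = ∑ β : Cfsg.IrrCharacter G, ((k β * k β : ℕ) : ℂ) := by
        rw [← hn]
        refine Finset.sum_congr rfl fun β _ => ?_
        rw [hk β]; simp
      exact_mod_cast h2.symm
    have h3 : k ⟨χ, hχ⟩ = e := by
      have := hk ⟨χ, hχ⟩
      rw [hindχ] at this
      exact_mod_cast this.symm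
    have h4 : k ⟨ψ, hψ⟩ ≠ 0 := by
      intro h0
      have := hk ⟨ψ, hψ⟩
      rw [h0] at this
      exact hne (by simpa using this)
    have h5 : k ⟨χ, hχ⟩ * k ⟨χ, hχ⟩ + k ⟨ψ, hψ⟩ * k ⟨ψ, hψ⟩ ≤ ∑ β : Cfsg.IrrCharacter G, k β * k β := by
      have hne' : (⟨χ, hχ⟩ : Cfsg.IrrCharacter G) ≠ ⟨ψ, hψ⟩ := by
        intro h; exact hψχ (congrArg Subtype.val h).symm
      rw [← Finset.sum_pair hne' (f := fun β => k β * k β)]
      exact Finset.sum_le_sum_of_subset (Finset.subset_univ _)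
    rw [hs, h3, ← he2] at h5
    have h6 : 0 < k ⟨ψ, hψ⟩ * k ⟨ψ, hψ⟩ := Nat.mul_pos (Nat.pos_of_ne_zero h4) (Nat.pos_of_ne_zero h4)
    have h7 : e ^ 2 = e * e := by ring
    omega
  · intro h
    have hinv : ∀ (g : G) (n : N), ϑ ⟨g * n * g⁻¹, hN.conj_mem (n : G) n.2 g⟩ = ϑ n :=
      fun g n => (h g n).1
    have huniq := (h 1 1).2
    refine ⟨m, hhom hinv, ?_⟩
    have hn := CfsgH4.norm_indFun_invariant N hϑ (fun g => by ext n; exact hinv g n)
    have hexp : Cfsg.indFun N ϑ = (m : ℂ) • χ := by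
      rw [CfsgH4.classFun_expand (CfsgH4.IsCharacter.isClassFunction hindc)]
      rw [Finset.sum_eq_single (⟨χ, hχ⟩ : Cfsg.IrrCharacter G)]
      · rw [← hindχ]
      · intro β _ hβ
        have : Cfsg.classInner (Cfsg.indFun N ϑ) (β : G → ℂ) = 0 := by
          by_contra hne
          exact hβ (Subtype.ext (huniq β β.2 hne))
        rw [this, zero_smul]
      · intro h'; exact absurd (Finset.mem_univ _) h'
    rw [hexp, CfsgH4.classInner_smul_left, CfsgH4.classInner_smul_right,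
      CfsgH4.classInner_irr_self hχ] at hn
    have h2 : ((m * m : ℕ) : ℂ) = N.index := by
      rw [← hn]; simp
    have h3 : m * m = N.index := by exact_mod_cast h2
    rw [← h3]; ring

end Cfsg.Agent.S0900
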