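import Cfsg.Statements.S0903

set_option autoImplicit false
open Cfsg

namespace Cfsg.Agent.S0903

/-- a p-group acts, so the fixed points are congruent to the total -/
theorem aux {P : Type*} [Group P] {p : ℕ} [Fact p.Prime] (hP : IsPGroup p P) {α : Type*} [Finite α]
    [MulAction P α] : Nat.card α ≡ Nat.card (MulAction.fixedPoints P α) [MOD p] :=
  IsPGroup.card_modEq_card_fixedPoints hP α


/-- Let P be a p-subgroup of the finite group G, let c centralize P and let g, h ∈ G. The number of pairs (x, y) with x conjugate to g, y conjugate to h and x * y = c is congruent modulo p to the number of such pairs in which x and y both centralize P. (This is why the Brauer map on class sums is multiplicative.) -/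
theorem result {G : Type*} [Group G] [Finite G] (p : ℕ) [Fact p.Prime] (P : Subgroup G) (hP : IsPGroup p P) (c : G) (hc : c ∈ Subgroup.centralizer (P : Set G)) (g h : G) : Nat.card {xy : G × G // IsConj g xy.1 ∧ IsConj h xy.2 ∧ xy.1 * xy.2 = c} ≡ Nat.card {xy : G × G // IsConj g xy.1 ∧ IsConj h xy.2 ∧ xy.1 * xy.2 = c ∧ xy.1 ∈ Subgroup.centralizer (P : Set G) ∧ xy.2 ∈ Subgroup.centralizer (P : Set G)} [MOD p] := by
  classical
  let X := {xy : G × G // IsConj g xy.1 ∧ IsConj h xy.2 ∧ xy.1 * xy.2 = c}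
  letI act : MulAction P X :=
    { smul := fun k x => ⟨((k : G) * x.1.1 * (k : G)⁻¹, (k : G) * x.1.2 * (k : G)⁻¹), by
        obtain ⟨h1, h2, h3⟩ := x.2
        refine ⟨h1.trans (isConj_iff.2 ⟨k, rfl⟩), h2.trans (isConj_iff.2 ⟨k, rfl⟩), ?_⟩
        have hk : (k : G) * c = c * (k : G) := (Subgroup.mem_centralizer_iff.1 hc) k k.2
        calc (k : G) * x.1.1 * (k : G)⁻¹ * ((k : G) * x.1.2 * (k : G)⁻¹)
            = (k : G) * (x.1.1 * x.1.2) * (k : G)⁻¹ := by group
          _ = (k : G) * c * (k : G)⁻¹ := by rw [h3]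
          _ = c := by rw [hk]; group⟩
      one_smul := fun x => by
        apply Subtype.ext
        show ((((1 : P) : G) * x.1.1 * ((1 : P) : G)⁻¹, ((1 : P) : G) * x.1.2 * ((1 : P) : G)⁻¹) : G × G) = x.1
        simp
      mul_smul := fun a b x => by
        apply Subtype.ext
        show (((((a * b : P) : G) * x.1.1 * ((a * b : P) : G)⁻¹), (((a * b : P) : G) * x.1.2 * ((a * b : P) : G)⁻¹)) : G × G) =
          ((a : G) * ((b : G) * x.1.1 * (b : G)⁻¹) * (a : G)⁻¹, (a : G) * ((b : G) * x.1.2 * (b : G)⁻¹) * (a : G)⁻¹)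
        ext
        · simp [mul_assoc]
        · simp [mul_assoc] }
  have key := aux (α := X) hP
  refine key.trans ?_
  have e : Nat.card (MulAction.fixedPoints P X) = Nat.card {xy : G × G // IsConj g xy.1 ∧ IsConj h xy.2 ∧ xy.1 * xy.2 = c ∧ xy.1 ∈ Subgroup.centralizer (P : Set G) ∧ xy.2 ∈ Subgroup.centralizer (P : Set G)} := by
    refine Nat.card_congr ⟨fun x => ⟨x.1.1, x.1.2.1, x.1.2.2.1, x.1.2.2.2, ?_, ?_⟩,
      fun x => ⟨⟨x.1, x.2.1, x.2.2.1, x.2.2.2.1⟩, ?_⟩, ?_, ?_⟩
    · rw [Subgroup.mem_centralizer_iff]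
      intro k hk
      have h1 := x.2 ⟨k, hk⟩
      have h2 := congrArg (fun y : X => y.1.1) h1
      have h3 : k * x.1.1.1 * k⁻¹ = x.1.1.1 := h2
      calc k * x.1.1.1 = k * x.1.1.1 * k⁻¹ * k := by group
        _ = x.1.1.1 * k := by rw [h3]
    · rw [Subgroup.mem_centralizer_iff]
      intro k hk
      have h1 := x.2 ⟨k, hk⟩
      have h2 := congrArg (fun y : X => y.1.2) h1
      have h3 : k * x.1.1.2 * k⁻¹ = x.1.1.2 := h2
      calc k * x.1.1.2 = k * x.1.1.2 * k⁻¹ * k := by group
        _ = x.1.1.2 * k := by rw [h3]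
    · intro k
      apply Subtype.ext
      show (((k : G) * x.1.1 * (k : G)⁻¹, (k : G) * x.1.2 * (k : G)⁻¹) : G × G) = x.1
      have h1 := (Subgroup.mem_centralizer_iff.1 x.2.2.2.2.1) k k.2
      have h2 := (Subgroup.mem_centralizer_iff.1 x.2.2.2.2.2) k k.2
      ext
      · show (k : G) * x.1.1 * (k : G)⁻¹ = x.1.1
        rw [h1]; group
      · show (k : G) * x.1.2 * (k : G)⁻¹ = x.1.2
        rw [h2]; group
    · intro x; rfl
    · intro x; rfl
  rw [e]

end Cfsg.Agent.S0903
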