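import Cfsg.Statements.S0905
import Cfsg.Agent.H5.LemN
import Cfsg.Agent.H2.Cores

set_option autoImplicit false
open Cfsg

namespace Cfsg.Agent.S0905

open CfsgH4 CfsgH5

/-- Let F be a field of characteristic p and let g be an element of the finite group G no conjugate of which centralizes O_p(G). Then the class sum of g is a nilpotent element of the group algebra F[G]. -/
theorem result {G : Type*} [Group G] [Finite G] (p : ℕ) [Fact p.Prime] (F : Type*) [Field F] [CharP F p] (g : G) (hg : ∀ x : G, IsConj g x → x ∉ Subgroup.centralizer (Cfsg.pCore p G : Set G)) : IsNilpotent (∑ᶠ x ∈ ConjClasses.carrier (ConjClasses.mk g), MonoidAlgebra.single x (1 : F) : MonoidAlgebra F G) := by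
  classical
  haveI : CharP F p := inferInstance
  have hP : IsPGroup p (pCore p G) := CfsgH2.isPGroup_pCore p
  haveI : (pCore p G).Normal := inferInstance
  obtain ⟨n, hn⟩ := cs_nilpotent_zmod hP (hg g (IsConj.refl g))
  refine ⟨n, ?_⟩
  have h1 : (∑ᶠ x ∈ ConjClasses.carrier (ConjClasses.mk g), MonoidAlgebra.single x (1 : F) : MonoidAlgebra F G) = cs F g := by
    haveI := Fintype.ofFinite G
    rw [finsum_mem_eq_finite_toFinset_sum _ (Set.toFinite _), eq_sum_single (cs F g)]
    have h2 : ∀ x : G, MonoidAlgebra.single x ((cs F g).coeff x) = if x ∈ (Set.toFinite (ConjClasses.carrier (ConjClasses.mk g))).toFinset then MonoidAlgebra.single x (1 : F) else 0 := by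
      intro x
      rw [coeff_cs]
      simp only [Set.Finite.mem_toFinset, ConjClasses.mem_carrier_iff_mk_eq]
      have : (ConjClasses.mk x = ConjClasses.mk g) ↔ IsConj g x := by
        rw [ConjClasses.mk_eq_mk_iff_isConj, isConj_comm]
      simp only [this]
      split_ifs <;> simp
    simp only [h2]
    rw [Finset.sum_ite_mem]
    simp
  rw [h1, ← map_cs' (ZMod.castHom (dvd_refl p) F) g, ← map_pow, hn, map_zero]

end Cfsg.Agent.S0905
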