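import Cfsg.Statements.S0906
import Cfsg.Agent.H5.Idem

set_option autoImplicit false
open Cfsg

namespace Cfsg.Agent.S0906

open CfsgH4 CfsgH5

/-- Let B be a block of the finite group G relative to a maximal ideal M of the algebraic integers containing the prime p. Then some element g represents a defect class of B: the idempotent coefficient of B at g is a local integer not in the local ideal at M, and the central characters of the members of B at g are not in the local ideal. -/
theorem result {G : Type*} [Group G] [Finite G] (p : ℕ) [Fact p.Prime] (M : Ideal Cfsg.AlgInt) (hM : Cfsg.IsPModular p M) (B : Set (Cfsg.IrrCharacter G)) (hB : Cfsg.IsPBlock M B) : ∃ g : G, Cfsg.IsDefectClass M B g := by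
  haveI := IsPModular.isPrime hM
  classical
  haveI := Fintype.ofFinite G
  haveI := Fintype.ofFinite (ConjClasses G)
  obtain ⟨χ, hχ⟩ := IsPBlock.nonempty hB
  have hS := inS_eSet hB
  by_contra hc
  push Not at hc
  have h1 : om (χ : G → ℂ) (eSet B) = 1 := by rw [om_eSet, if_pos hχ]
  apply not_memLocalIdeal_one (M := M)
  rw [← h1, (isCen_eSet B).eq_sum_cs, om_sum]
  refine memLocalIdeal_sum _ _ fun K _ => ?_
  rw [om_smul, om_cs χ.2]
  by_cases h2 : MemLocalIdeal M ((eSet B).coeff K.out)
  · exact MemLocalIdeal.mul_right h2 (memLocalRing_centralChar χ.2 _)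
  · apply MemLocalIdeal.mul_left (hS _)
    by_contra h3
    apply hc K.out
    refine ⟨hS _, h2, fun ψ hψ => ?_⟩
    exact not_memLocalIdeal_of_sub (sameBlock_symm ((IsPBlock.mem_iff hB hχ).1 hψ) _) h3

end Cfsg.Agent.S0906
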