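import Cfsg.Statements.S0911
import Cfsg.Agent.H5.MinMax

set_option autoImplicit false
open Cfsg

namespace Cfsg.Agent.S0911

open CfsgH5

/-- The min–max Theorem for defect classes. Let B be a block of the finite group G relative to a maximal ideal M of the algebraic integers containing the prime p, let g represent a defect class of B and let D be a Sylow p-subgroup of the centralizer of g (viewed in G). For any h: (a) if the idempotent coefficient of B at h is a local integer outside the local ideal, then some conjugate of D contains a Sylow p-subgroup of the centralizer of h; (b) if the central character of some member of B at h is outside the local ideal, then some conjugate of D is contained in a Sylow p-subgroup of the centralizer of h. -/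
theorem result {G : Type*} [Group G] [Finite G] (p : ℕ) [Fact p.Prime] (M : Ideal Cfsg.AlgInt) (hM : Cfsg.IsPModular p M) (B : Set (Cfsg.IrrCharacter G)) (hB : Cfsg.IsPBlock M B) (g : G) (hg : Cfsg.IsDefectClass M B g) (D : Sylow p (Subgroup.centralizer ({g} : Set G))) (h : G) : (Cfsg.MemLocalRing M (Cfsg.blockCoeff B h) → ¬ Cfsg.MemLocalIdeal M (Cfsg.blockCoeff B h) → ∃ (x : G) (Q : Sylow p (Subgroup.centralizer ({h} : Set G))), (Q : Subgroup (Subgroup.centralizer ({h} : Set G))).map (Subgroup.centralizer ({h} : Set G)).subtype ≤ ((D : Subgroup (Subgroup.centralizer ({g} : Set G))).map (Subgroup.centralizer ({g} : Set G)).subtype).map (MulAut.conj x).toMonoidHom) ∧ ((∃ χ ∈ B, ¬ Cfsg.MemLocalIdeal M (Cfsg.centralChar (χ : G → ℂ) h)) → ∃ (x : G) (Q : Sylow p (Subgroup.centralizer ({h} : Set G))), ((D : Subgroup (Subgroup.centralizer ({g} : Set G))).map (Subgroup.centralizer ({g} : Set G)).subtype).map (MulAut.conj x).toMonoidHom ≤ (Q : Subgroup (Subgroup.centralizer ({h} : Set G))).map (Subgroup.centralizer ({h} : Set G)).subtype)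 := by
  haveI := IsPModular.isPrime hM
  have hDs := isSyl_map D
  have hBD : IsDefectGroup p M B ((D : Subgroup (Subgroup.centralizer ({g} : Set G))).map (Subgroup.centralizer ({g} : Set G)).subtype) :=
    isDefectGroup_iff.2 ⟨g, hg, hDs⟩
  refine ⟨fun _ h2 => ?_, fun h2 => ?_⟩
  · obtain ⟨Q, hQ⟩ := exists_isSyl p (Subgroup.centralizer ({h} : Set G))
    obtain ⟨x, hx⟩ := le_defect hM hB hBD h2 hQ.isPGroup (le_centralizer_singleton_iff.1 hQ.1)
    obtain ⟨P, -, hP⟩ := hQ.exists_sylow
    refine ⟨x⁻¹, P, ?_⟩
    rw [hP]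
    rw [← inv_inv x, cj_le_iff, inv_inv] at hx
    exact hx
  · obtain ⟨χ, hχ, h3⟩ := h2
    obtain ⟨x, hx1, hx2⟩ := defect_le_centralizer hM hB hBD hχ h3
    obtain ⟨c, rfl⟩ := isConj_iff.1 hx1
    rw [← cj_centralizer_singleton] at hx2
    have h5 : cj c⁻¹ ((D : Subgroup (Subgroup.centralizer ({g} : Set G))).map (Subgroup.centralizer ({g} : Set G)).subtype) ≤
        Subgroup.centralizer ({h} : Set G) := by
      rw [cj_le_iff, inv_inv]; exact hx2
    obtain ⟨Q, hQ1, hQ2⟩ := exists_isSyl_ge (p := p) (IsPGroup.map hDs.isPGroup _) h5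
    obtain ⟨P, -, hP⟩ := hQ2.exists_sylow
    refine ⟨c⁻¹, P, ?_⟩
    rw [hP]
    exact hQ1

end Cfsg.Agent.S0911
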