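import Cfsg.Statements.S0914
import Cfsg.Agent.H5.Weak

set_option autoImplicit false
open Cfsg

namespace Cfsg.Agent.S0914

open CfsgH5

/-- Let χ be an irreducible character of the finite group G, p a prime and M a maximal ideal of the algebraic integers containing p. Then p does not divide the integer (Nat.card G) / χ(1) if and only if the block of χ relative to M consists of χ alone. -/
theorem result {G : Type*} [Group G] [Finite G] (p : ℕ) [Fact p.Prime] (M : Ideal Cfsg.AlgInt) (hM : Cfsg.IsPModular p M) (χ : Cfsg.IrrCharacter G) : ¬ p ∣ Nat.card G / Cfsg.charDegree (χ : G → ℂ) ↔ Cfsg.blockOf M (χ : G → ℂ) = {χ} := by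
  classical
  haveI := IsPModular.isPrime hM
  have hd := charDegree_dvd χ
  have hd0 := charDegree_ne_zero χ
  have hone := (IsIrr.one_eq χ.2).1
  have hG : (Nat.card G : ℂ) ≠ 0 := by exact_mod_cast Nat.card_pos.ne'
  have hcoef : ∀ g : G, blockCoeff ({χ} : Set (IrrCharacter G)) g = (Nat.card G : ℂ)⁻¹ * ((χ : G → ℂ) 1 * (χ : G → ℂ) g⁻¹) := by
    intro g
    rw [blockCoeff_eq]
    congr 1
    rw [Finset.sum_eq_single χ]
    · simp
    · intro ψ _ hψ; simp [hψ]
    · intro h; exact absurd (Finset.mem_univ _) h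
  constructor
  · intro h
    apply Set.eq_singleton_iff_unique_mem.2
    refine ⟨mem_blockOf_self χ, fun ψ hψ => ?_⟩
    by_contra hne
    have hA : InS M (eSet ({χ} : Set (IrrCharacter G))) := by
      intro g
      rw [coeff_eSet, hcoef, hone]
      obtain ⟨c, hc⟩ := hd
      have hc' : ¬ p ∣ c := by
        rwa [hc, Nat.mul_div_cancel_left _ (Nat.pos_of_ne_zero hd0)] at h
      have e1 : (Nat.card G : ℂ)⁻¹ * ((charDegree (χ : G → ℂ) : ℂ) * (χ : G → ℂ) g⁻¹) = (c : ℂ)⁻¹ * (χ : G → ℂ) g⁻¹ := by
        rw [hc] at hG ⊢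
        push_cast at hG ⊢
        have h1 : (charDegree (χ : G → ℂ) : ℂ) ≠ 0 := left_ne_zero_of_mul hG
        have h2 : (c : ℂ) ≠ 0 := right_ne_zero_of_mul hG
        field_simp
      rw [e1]
      exact MemLocalRing.mul (memLocalRing_natCast_inv hM hc') (memLocalRing_char (CfsgH4.IsIrr.isCharacter χ.2) _)
    have h2 := sameBlock_om χ.2 ψ.2 hψ (isCen_eSet _) hA
    rw [om_eSet, om_eSet, if_pos (Set.mem_singleton χ), if_neg (by simpa using hne), sub_zero] at h2
    exact not_memLocalIdeal_one h2
  · intro h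
    have hBS : InS M (eSet ({χ} : Set (IrrCharacter G))) := by
      rw [← h]; exact inS_eSet (isPBlock_blockOf χ)
    obtain ⟨P⟩ : Nonempty (Sylow p G) := inferInstance
    obtain ⟨n, hn1, hn2⟩ := exists_div (p := p) (y := (1 : G)) (by rw [orderOf_one]; exact (Fact.out : p.Prime).not_dvd_one)
      (Q := P) P.isPGroup' (Subgroup.one_mem _)
    have h1 := hn2 (fun ψ => if ψ = χ then 1 else 0) (fun x hx => by
      have h3 := blockCoeff_singular hM hBS (y := x⁻¹) (by rwa [orderOf_inv])
      rw [hcoef, inv_inv, mul_eq_zero, or_iff_right (inv_ne_zero hG), mul_eq_zero,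
        or_iff_right (CfsgH4.IsIrr.one_ne_zero χ.2)] at h3
      simp [h3])
    simp only [ite_mul, one_mul, zero_mul, Finset.sum_ite_eq', Finset.mem_univ, if_true] at h1
    rw [hone] at h1
    have hP0 : (Nat.card P : ℂ) ≠ 0 := by exact_mod_cast Nat.card_pos.ne'
    have h2 : Nat.card P ∣ charDegree (χ : G → ℂ) := by
      apply CfsgH4.dvd_of_isIntegral_div Nat.card_pos.ne'
      rw [h1, mul_div_cancel_left₀ _ hP0]
      exact hn1 χ
    intro h3
    have h4 := P.card_eq_multiplicity
    have h5 : (Nat.card G).factorization p ≤ (charDegree (χ : G → ℂ)).factorization p := by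
      rw [h4] at h2
      exact ((Fact.out : p.Prime).pow_dvd_iff_le_factorization hd0).1 h2
    have h6 : Nat.card G / charDegree (χ : G → ℂ) ≠ 0 := by
      exact (Nat.div_pos (Nat.le_of_dvd Nat.card_pos hd) (Nat.pos_of_ne_zero hd0)).ne'
    have h7 := Nat.factorization_div hd
    have h8 : 1 ≤ (Nat.card G / charDegree (χ : G → ℂ)).factorization p :=
      ((Fact.out : p.Prime).dvd_iff_one_le_factorization h6).1 h3
    rw [h7, Finsupp.tsub_apply] at h8
    omega

end Cfsg.Agent.S0914
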