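import Cfsg.Statements.S0920
import Cfsg.Agent.H5.MinMax

set_option autoImplicit false
open Cfsg

namespace Cfsg.Agent.S0920

open CfsgH5

/-- Brauer's First Main Theorem. Let D be a p-subgroup of the finite group G with normalizer N, and fix a maximal ideal M of the algebraic integers containing p. Then (i) every block b of N having D as a defect group induces some block B of G having D as a defect group; (ii) every block of G with defect group D is induced by exactly one block of N with defect group D. -/
theorem result {G : Type*} [Group G] [Finite G] (p : ℕ) [Fact p.Prime] (M : Ideal Cfsg.AlgInt) (hM : Cfsg.IsPModular p M) (D : Subgroup G) (hD : IsPGroup p D) : (∀ b : Set (Cfsg.IrrCharacter (Subgroup.normalizer (D : Set G))), Cfsg.IsPBlock M b → Cfsg.IsDefectGroup p M b (D.subgroupOf (Subgroup.normalizer (D : Set G))) → ∃ B : Set (Cfsg.IrrCharacter G), Cfsg.IsPBlock M B ∧ Cfsg.IsDefectGroup p M B D ∧ Cfsg.IsInducedBlock M (Subgroup.normalizer (D : Set G)) b B) ∧ (∀ B : Set (Cfsg.IrrCharacter G), Cfsg.IsPBlock M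 B → Cfsg.IsDefectGroup p M B D → ∃! b : Set (Cfsg.IrrCharacter (Subgroup.normalizer (D : Set G))), Cfsg.IsPBlock M b ∧ Cfsg.IsDefectGroup p M b (D.subgroupOf (Subgroup.normalizer (D : Set G))) ∧ Cfsg.IsInducedBlock M (Subgroup.normalizer (D : Set G)) b B) := by
  haveI := IsPModular.isPrime hM
  refine ⟨fun b hb hbD => ?_, fun B hB hBD => ?_⟩
  · obtain ⟨B, hB⟩ := inducedBlockDefined hM hD Subgroup.le_normalizer centralizer_le_normalizer' le_rfl hb
    exact ⟨B, hB.2.1, first_main_defect hM hD hbD hB, hB⟩
  · obtain ⟨b, hb1, hb2⟩ := first_main_exists hM hD hB hBD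
    refine ⟨b, ⟨hb2.1, hb1, hb2⟩, ?_⟩
    rintro b' ⟨-, -, h3⟩
    exact (first_main_unique hM hD hb1 hb2 h3).symm

end Cfsg.Agent.S0920
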