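import Cfsg.Statements.S0923
import Cfsg.Agent.H5.Second

set_option autoImplicit false
open Cfsg

namespace Cfsg.Agent.S0923

open CfsgH5

/-- Brauer's Second Main Theorem, in terms of ordinary characters. Let x be a p-element of the finite group G with centralizer C, let χ lie in the block B of G and let b be a block of C that does not induce B (relative to a maximal ideal M of the algebraic integers containing p). Form the class function ϑ(c) = χ(x c) on C and its b-part (the sum over ψ ∈ b of the inner product of ϑ with ψ, times ψ). Then the b-part of ϑ vanishes at every p-regular element of C. (Equivalently, the generalized decomposition numbers of χ with respect to b are zero.) -/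
theorem result {G : Type*} [Group G] [Finite G] (p : ℕ) [Fact p.Prime] (M : Ideal Cfsg.AlgInt) (hM : Cfsg.IsPModular p M) (x : G) (hx : ∃ k : ℕ, orderOf x = p ^ k) (B : Set (Cfsg.IrrCharacter G)) (hB : Cfsg.IsPBlock M B) (χ : Cfsg.IrrCharacter G) (hχ : χ ∈ B) (b : Set (Cfsg.IrrCharacter (Subgroup.centralizer ({x} : Set G)))) (hb : Cfsg.IsPBlock M b) (hnot : ¬ Cfsg.IsInducedBlock M (Subgroup.centralizer ({x} : Set G)) b B) (y : Subgroup.centralizer ({x} : Set G)) (hy : ¬ p ∣ orderOf y) : Cfsg.blockPart b (fun c : Subgroup.centralizer ({x} : Set G) => (χ : G → ℂ) (x * (c : G))) y = 0 := by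
  haveI := IsPModular.isPrime hM
  haveI := Fintype.ofFinite (Subgroup.centralizer ({x} : Set G))
  obtain ⟨B', hB'⟩ := centralizer_induced hM hx hb
  have hχ' : χ ∉ B' := by
    intro h
    apply hnot
    rwa [IsPBlock.eq_of_mem hB hB'.2.1 hχ h]
  have hcomm : ∀ c : Subgroup.centralizer ({x} : Set G), Commute x (c : G) :=
    fun c => (Subgroup.mem_centralizer_singleton_iff.1 c.2).symm
  have hcf : IsClassFunction (Subgroup.centralizer ({x} : Set G)) (fun c : Subgroup.centralizer ({x} : Set G) => (χ : G → ℂ) (x * (c : G))) := by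
    intro g h
    show (χ : G → ℂ) (x * ((h * g * h⁻¹ : Subgroup.centralizer ({x} : Set G)) : G)) = (χ : G → ℂ) (x * (g : G))
    have h1 : x * ((h * g * h⁻¹ : Subgroup.centralizer ({x} : Set G)) : G) = (h : G) * (x * g) * (h : G)⁻¹ := by
      push_cast
      have := (hcomm h).eq
      calc x * ((h : G) * g * (h : G)⁻¹) = x * h * g * (h : G)⁻¹ := by group
        _ = (h : G) * (x * g) * (h : G)⁻¹ := by rw [this]; group
    rw [h1, CfsgH4.IsIrr.isClassFunction χ.2]
  rw [blockPart_eq b hcf]
  have hxC : x ∈ Subgroup.centralizer ({x} : Set G) := by rw [Subgroup.mem_centralizer_singleton_iff]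
  have hpart : IsPPart p (((⟨x, hxC⟩ : Subgroup.centralizer ({x} : Set G)) * y : Subgroup.centralizer ({x} : Set G)) : G) x :=
    ⟨(y : G), rfl, hcomm y, hx, by simpa using hy⟩
  have h2 := second_main hM hB' hpart le_rfl hχ'
  rw [← h2]
  refine Finset.sum_congr rfl fun k _ => ?_
  have e1 : x * (((k * y : Subgroup.centralizer ({x} : Set G))) : G) =
      (k : G) * (((⟨x, hxC⟩ : Subgroup.centralizer ({x} : Set G)) * y : Subgroup.centralizer ({x} : Set G)) : G) := by
    push_cast
    have := (hcomm k).eq
    calc x * ((k : G) * (y : G)) = x * k * y := by group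
      _ = (k : G) * (x * y) := by rw [this]; group
  show blockCoeff b k * (χ : G → ℂ) (x * (((k * y : Subgroup.centralizer ({x} : Set G))) : G)) = _
  rw [e1]

end Cfsg.Agent.S0923
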