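import Cfsg.Statements.S0926
import Cfsg.Agent.H5.Second2

set_option autoImplicit false
open Cfsg

namespace Cfsg.Agent.S0926

open CfsgH5

/-- Let B be a block of the finite group G with defect group D (relative to a maximal ideal M of the algebraic integers containing p), let χ ∈ B have height zero, and let x be a p-element. Then some conjugate of x lies in D if and only if χ does not vanish on the whole p-section of x (the elements whose p-part is conjugate to x). -/
theorem result {G : Type*} [Group G] [Finite G] (p : ℕ) [Fact p.Prime] (M : Ideal Cfsg.AlgInt) (hM : Cfsg.IsPModular p M) (B : Set (Cfsg.IrrCharacter G)) (hB : Cfsg.IsPBlock M B) (D : Subgroup G) (hD : Cfsg.IsDefectGroup p M B D) (χ : Cfsg.IrrCharacter G) (hχ : χ ∈ B) (h0 : Cfsg.blockHeight p B (χ : G → ℂ) = 0) (x : G) (hx : ∃ k : ℕ, orderOf x = p ^ k) : (∃ g : G, g * x * g⁻¹ ∈ D) ↔ ∃ u : G, (∃ z : G, Cfsg.IsPPart p u z ∧ IsConj x z) ∧ (χ : G → ℂ) u ≠ 0 := by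
  haveI := IsPModular.isPrime hM
  constructor
  · rintro ⟨g, hg⟩
    obtain ⟨y, hy, hyD⟩ := isDefectGroup_iff.1 hD
    have hxo : ∃ k, orderOf (g * x * g⁻¹) = p ^ k := by
      obtain ⟨k, hk⟩ := hx
      refine ⟨k, ?_⟩
      rw [← hk]
      exact orderOf_injective (MulAut.conj g).toMonoidHom (MulAut.conj g).injective x
    have hc : Commute (g * x * g⁻¹) y := Subgroup.mem_centralizer_singleton_iff.1 (hyD.1 hg)
    refine ⟨(g * x * g⁻¹) * y, ⟨g * x * g⁻¹, ⟨y, rfl, hc, hxo, defectClass_regular hM hB hy⟩, isConj_iff.2 ⟨g, rfl⟩⟩, ?_⟩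
    exact ne_zero_of_not_memLocalIdeal (height_zero_val_mul hM hB hy hχ h0 hc hxo)
  · rintro ⟨u, ⟨z, hz1, hz2⟩, hu⟩
    by_contra hcon
    apply hu
    refine char_vanish hM hB hχ hz1 fun E hE hzE => ?_
    obtain ⟨c, hc⟩ := defect_conj hM hB hD hE
    obtain ⟨d, hd⟩ := isConj_iff.1 hz2
    apply hcon
    refine ⟨c * d, ?_⟩
    rw [← hc]
    rw [mem_cj]
    rw [show c⁻¹ * (c * d * x * (c * d)⁻¹) * c = d * x * d⁻¹ by group, hd]
    exact hzE

end Cfsg.Agent.S0926
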