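import Cfsg.Statements.S0934
import Cfsg.Agent.H5.Cover2

set_option autoImplicit false
open Cfsg

namespace Cfsg.Agent.S0934

open CfsgH5

/-- Let H be a subgroup of the finite group G and fix a maximal ideal M of the algebraic integers containing the prime p. If the block b of H induces the block B of G and ξ ∈ b, then there is χ ∈ B whose restriction to H has nonzero inner product with ξ. -/
theorem result {G : Type*} [Group G] [Fintype G] (p : ℕ) [Fact p.Prime] (M : Ideal Cfsg.AlgInt) (hM : Cfsg.IsPModular p M) (H : Subgroup G) [Fintype H] (b : Set (Cfsg.IrrCharacter H)) (B : Set (Cfsg.IrrCharacter G)) (hind : Cfsg.IsInducedBlock M H b B) (ξ : Cfsg.IrrCharacter H) (hξ : ξ ∈ b) : ∃ χ ∈ B, Cfsg.classInner (fun h : H => (χ : G → ℂ) h) (ξ : H → ℂ) ≠ 0 := by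
  classical
  haveI := IsPModular.isPrime hM
  obtain ⟨χ₀, hχ₀⟩ := IsPBlock.nonempty hind.2.1
  have h1 := induced_om hind hξ hχ₀ (isCen_eSet B) (inS_eSet hind.2.1)
  rw [om_eSet, if_pos hχ₀] at h1
  have h2 := ne_zero_of_not_memLocalIdeal (not_memLocalIdeal_of_sub h1 not_memLocalIdeal_one)
  by_contra hcon
  push Not at hcon
  apply h2
  rw [om, ev_eq_sum]
  have h3 : ∑ h : H, (resA H (eSet B)).coeff h * (ξ : H → ℂ) h = 0 := by
    simp only [coeff_resA, coeff_eSet, blockCoeff_eq]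
    have e1 : ∀ h : H, (Nat.card G : ℂ)⁻¹ * (∑ χ : IrrCharacter G, if χ ∈ B then (χ : G → ℂ) 1 * (χ : G → ℂ) (h : G)⁻¹ else 0) * (ξ : H → ℂ) h =
        ∑ χ : IrrCharacter G, if χ ∈ B then (Nat.card G : ℂ)⁻¹ * (χ : G → ℂ) 1 * ((ξ : H → ℂ) h * (χ : G → ℂ) (h : G)⁻¹) else 0 := by
      intro h
      rw [Finset.mul_sum, Finset.sum_mul]
      refine Finset.sum_congr rfl fun χ _ => ?_
      split_ifs
      · ring
      · ring
    simp only [e1]
    rw [Finset.sum_comm]
    refine Finset.sum_eq_zero fun χ _ => ?_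
    by_cases hχ : χ ∈ B
    · simp only [if_pos hχ, ← Finset.mul_sum]
      have h4 := hcon χ hχ
      rw [CfsgH4.classInner_char_right (CfsgH4.IsIrr.isCharacter ξ.2)] at h4
      have h5 : ∑ h : H, (ξ : H → ℂ) h * (χ : G → ℂ) (h : G)⁻¹ = ∑ h : H, (χ : G → ℂ) h * (ξ : H → ℂ) h⁻¹ := by
        refine Fintype.sum_equiv (Equiv.inv H) _ _ fun h => ?_
        simp only [Equiv.inv_apply, Subgroup.coe_inv, inv_inv]
        ring
      rw [h5]
      rcases mul_eq_zero.1 h4 with h6 | h6
      · exact absurd h6 (inv_ne_zero (by exact_mod_cast Nat.card_pos.ne'))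
      · rw [h6, mul_zero]
    · simp [hχ]
  rw [h3, zero_div]

end Cfsg.Agent.S0934
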