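import Cfsg.Statements.S0935
import Cfsg.Agent.H5.Third

set_option autoImplicit false
open Cfsg

namespace Cfsg.Agent.S0935

open CfsgH5

/-- Let H be a subgroup of the finite group G and χ an irreducible character of G whose restriction to H is irreducible; fix a maximal ideal M of the algebraic integers containing the prime p and suppose χ and its restriction have height zero in their blocks B and b. If e is a block of H whose induced block is defined, then e induces B if and only if e = b. -/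
theorem result {G : Type*} [Group G] [Finite G] (p : ℕ) [Fact p.Prime] (M : Ideal Cfsg.AlgInt) (hM : Cfsg.IsPModular p M) (H : Subgroup G) (χ : Cfsg.IrrCharacter G) (hres : Cfsg.IsIrrCharacter H (fun h : H => (χ : G → ℂ) h)) (hχ0 : Cfsg.blockHeight p (Cfsg.blockOf M (χ : G → ℂ)) (χ : G → ℂ) = 0) (hψ0 : Cfsg.blockHeight p (Cfsg.blockOf M (fun h : H => (χ : G → ℂ) h)) (fun h : H => (χ : G → ℂ) h) = 0) (e : Set (Cfsg.IrrCharacter H)) (he : Cfsg.InducedBlockDefined M H e) : Cfsg.IsInducedBlock M H e (Cfsg.blockOf M (χ : G → ℂ)) ↔ e = Cfsg.blockOf M (fun h : H => (χ : G → ℂ) h) := by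
  haveI := IsPModular.isPrime hM
  haveI := Fintype.ofFinite H
  obtain ⟨ξ0, hξ0⟩ : ∃ ξ0 : IrrCharacter H, (ξ0 : H → ℂ) = fun h : H => (χ : G → ℂ) h := ⟨⟨_, hres⟩, rfl⟩
  rw [← hξ0] at hψ0 ⊢
  constructor
  · intro h
    obtain ⟨ξ, hξ, -, n, hn, hpn⟩ := exists_height_zero_constituent hM h (χ := χ) (mem_blockOf_self χ) hχ0
    have h1 : ξ = ξ0 := by
      by_contra hne
      have h2 := CfsgH4.classInner_irr' ξ0 ξ
      rw [if_neg (fun h3 => hne h3.symm)] at h2
      rw [← hξ0, h2] at hn
      have : n = 0 := by exact_mod_cast hn.symm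
      rw [this] at hpn
      exact hpn (dvd_zero p)
    rw [h1] at hξ
    exact IsPBlock.eq_blockOf h.1 hξ
  · rintro rfl
    obtain ⟨B, hB⟩ := he
    have h1 : χ ∈ B := mem_of_restrict hM hB (mem_blockOf_self ξ0) hψ0 hξ0
    rwa [← IsPBlock.eq_blockOf hB.2.1 h1]

end Cfsg.Agent.S0935
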