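import Cfsg.Statements.S0938
import Cfsg.Agent.H5.Cover2

set_option autoImplicit false
open Cfsg

namespace Cfsg.Agent.S0938

open CfsgH5

/-- Let B be a block of the finite group G relative to a maximal ideal M of the algebraic integers containing the prime p, and let χ ∈ B. Then the kernel of B (the set of g with ψ g = ψ 1 for all ψ ∈ B) is a normal subgroup of order prime to p contained in the kernel of χ, and it contains every normal subgroup of order prime to p on which χ takes the value χ(1); that is, it is O_p' of the kernel of χ. -/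
theorem result {G : Type*} [Group G] [Finite G] (p : ℕ) [Fact p.Prime] (M : Ideal Cfsg.AlgInt) (hM : Cfsg.IsPModular p M) (B : Set (Cfsg.IrrCharacter G)) (hB : Cfsg.IsPBlock M B) (χ : Cfsg.IrrCharacter G) (hχ : χ ∈ B) : ∃ K : Subgroup G, K.Normal ∧ (K : Set G) = Cfsg.blockKer B ∧ ¬ p ∣ Nat.card K ∧ (∀ g ∈ K, (χ : G → ℂ) g = (χ : G → ℂ) 1) ∧ ∀ N : Subgroup G, N.Normal → ¬ p ∣ Nat.card N → (∀ g ∈ N, (χ : G → ℂ) g = (χ : G → ℂ) 1) → N ≤ K := by
  classical
  haveI := IsPModular.isPrime hM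
  have hmul : ∀ g, (∀ ψ ∈ B, (ψ : G → ℂ) g = (ψ : G → ℂ) 1) → ∀ ψ ∈ B, ∀ x, (ψ : G → ℂ) (x * g) = (ψ : G → ℂ) x :=
    fun g hg ψ hψ x => CfsgH4.IsCharacter.mul_ker (CfsgH4.IsIrr.isCharacter ψ.2) (hg ψ hψ) x
  let K : Subgroup G :=
    { carrier := blockKer B
      one_mem' := fun ψ _ => rfl
      mul_mem' := fun {a b} ha hb ψ hψ => by rw [hmul b hb ψ hψ, ha ψ hψ]
      inv_mem' := fun {a} ha ψ hψ => by
        rw [CfsgH4.IsCharacter.inv_eq (CfsgH4.IsIrr.isCharacter ψ.2), ha ψ hψ, (IsIrr.one_eq ψ.2).1]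
        simp }
  have hKmem : ∀ g, g ∈ K ↔ ∀ ψ ∈ B, (ψ : G → ℂ) g = (ψ : G → ℂ) 1 := fun g => Iff.rfl
  have hKn : K.Normal := ⟨fun g hg x => by
    rw [hKmem] at hg ⊢
    intro ψ hψ
    rw [CfsgH4.IsIrr.isClassFunction ψ.2, hg ψ hψ]⟩
  refine ⟨K, hKn, rfl, ?_, fun g hg => (hKmem g).1 hg χ hχ, ?_⟩
  · intro hp
    obtain ⟨g, hg⟩ := exists_prime_orderOf_dvd_card' p hp
    have h1 : blockCoeff B (g : G) = 0 := by
      apply blockCoeff_singular hM (inS_eSet hB)
      rw [Subgroup.orderOf_coe, hg]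
    have h2 : blockCoeff B (g : G) = blockCoeff B 1 := by
      rw [blockCoeff_eq, blockCoeff_eq]
      congr 1
      refine Finset.sum_congr rfl fun ψ _ => ?_
      split_ifs with hψ
      · have h3 := (hKmem _).1 (K.inv_mem g.2) ψ hψ
        rw [h3, inv_one]
      · rfl
    rw [h2] at h1
    exact blockCoeff_one_ne_zero ⟨χ, hχ⟩ h1
  · intro N hN hpN hker n hn
    haveI := Fintype.ofFinite N
    rw [hKmem]
    intro ψ hψ
    exact ker_of_sameBlock hM hpN ((IsPBlock.mem_iff hB hχ).1 hψ) hker n hn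

end Cfsg.Agent.S0938
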