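import Cfsg.Statements.S0939
import Cfsg.Agent.H5.Cover2
import Cfsg.Agent.H2.Cores

set_option autoImplicit false
open Cfsg

namespace Cfsg.Agent.S0939

open CfsgH5

/-- Let G be a finite group with a normal p-complement (the largest normal subgroup O_p'(G) of order prime to p has p-power index). Then, relative to any maximal ideal M of the algebraic integers containing p, the principal block of G is the set of irreducible characters χ with χ n = χ 1 for every n ∈ O_p'(G). -/
theorem result {G : Type*} [Group G] [Finite G] (p : ℕ) [Fact p.Prime] (M : Ideal Cfsg.AlgInt) (hM : Cfsg.IsPModular p M) (hnc : ∃ k : ℕ, (Cfsg.pPrimeCore p G).index = p ^ k) : Cfsg.principalBlock M G = {χ : Cfsg.IrrCharacter G | ∀ n ∈ Cfsg.pPrimeCore p G, (χ : G → ℂ) n = (χ : G → ℂ) 1} := by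
  haveI := IsPModular.isPrime hM
  haveI : (pPrimeCore p G).Normal := inferInstance
  haveI := Fintype.ofFinite (pPrimeCore p G)
  have hp' : ¬ p ∣ Nat.card (pPrimeCore p G) := by
    have := CfsgH2.coprime_card_pPrimeCore (G := G) p
    exact (Nat.Prime.coprime_iff_not_dvd (Fact.out : p.Prime)).1 this.symm
  have hone : ∀ n ∈ pPrimeCore p G, ((irrOne G : IrrCharacter G) : G → ℂ) n = ((irrOne G : IrrCharacter G) : G → ℂ) 1 := fun n _ => rfl
  ext χ
  constructor
  · intro h
    have h1 : SameBlock M ((irrOne G : IrrCharacter G) : G → ℂ) (χ : G → ℂ) := h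
    exact ker_of_sameBlock hM hp' h1 hone
  · intro h
    have h1 := (ker_iff_under_one _ χ).1 h
    have h2 := (ker_iff_under_one _ (irrOne G)).1 hone
    exact sameBlock_of_over hM hnc h2 h1 (sameBlock_refl _)

end Cfsg.Agent.S0939
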