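import Cfsg.Statements.S0941
import Cfsg.Agent.H5.Cover3

set_option autoImplicit false
open Cfsg

namespace Cfsg.Agent.S0941

open CfsgH5

/-- Let P be a normal p-subgroup of the finite group G such that the index of C_G(P) is a power of p, and fix a maximal ideal M of the algebraic integers containing p. Then (i) two irreducible characters of G ⧸ P lie in the same block if and only if their inflations to G do, and (ii) every block of G contains the inflation of some irreducible character of G ⧸ P; so inflation induces a bijection between the blocks of G ⧸ P and the blocks of G. -/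
theorem result {G : Type*} [Group G] [Finite G] (p : ℕ) [Fact p.Prime] (M : Ideal Cfsg.AlgInt) (hM : Cfsg.IsPModular p M) (P : Subgroup G) [P.Normal] (hP : IsPGroup p P) (hC : ∃ k : ℕ, (Subgroup.centralizer (P : Set G)).index = p ^ k) : (∀ χ ψ : Cfsg.IrrCharacter (G ⧸ P), Cfsg.SameBlock M (χ : G ⧸ P → ℂ) (ψ : G ⧸ P → ℂ) ↔ Cfsg.SameBlock M ((χ : G ⧸ P → ℂ) ∘ QuotientGroup.mk) ((ψ : G ⧸ P → ℂ) ∘ QuotientGroup.mk)) ∧ ∀ B : Set (Cfsg.IrrCharacter G), Cfsg.IsPBlock M B → ∃ χ : Cfsg.IrrCharacter (G ⧸ P), ∃ θ ∈ B, (θ : G → ℂ) = (χ : G ⧸ P → ℂ) ∘ QuotientGroup.mk := by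
  haveI := IsPModular.isPrime hM
  refine ⟨fun χ ψ => ?_, fun B hB => ?_⟩
  · rw [sameBlock_infl_iff hM hP hC, inflI_coe, inflI_coe]
  · obtain ⟨θ, hθ, hk⟩ := exists_ker_char hM hP (IsPBlock.nonempty hB) (inS_eSet hB)
    obtain ⟨χ, hχ⟩ := exists_defl P hk
    exact ⟨χ, θ, hθ, by rw [hχ, inflI_coe]⟩

end Cfsg.Agent.S0941
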