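import Cfsg.Statements.S0943
import Cfsg.Agent.H5.Idem

set_option autoImplicit false
open Cfsg

namespace Cfsg.Agent.S0943

open CfsgH4 CfsgH5
theorem cs_sum {G : Type*} [Group G] [Fintype G] (w : G) : cs ℂ w =
    ∑ x : G, MonoidAlgebra.single x ((cs ℂ w).coeff x) := eq_sum_single _

theorem sum_cs {G : Type*} [Group G] [Fintype G] (w : G) (c : ℂ) :
    ∑ x : G, (cs ℂ w).coeff x * c = ((Subgroup.centralizer ({w} : Set G)).index : ℂ) * c := by
  have h1 := sum_ite_isConj (A := ℂ) w c
  rw [nsmul_eq_mul] at h1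
  rw [← h1]
  refine Finset.sum_congr rfl fun x _ => ?_
  rw [coeff_cs]
  split_ifs <;> simp


/-- Let χ be an irreducible character of the finite group G and u, v ∈ G. If χ (x * y) = χ (u * v) whenever x is conjugate to u and y is conjugate to v, then χ u * χ v = χ 1 * χ (u * v). (Multiply the class sums of u and v and apply the central character of χ.) -/
theorem result {G : Type*} [Group G] [Finite G] (χ : Cfsg.IrrCharacter G) (u v : G) (hc : ∀ x y : G, IsConj u x → IsConj v y → (χ : G → ℂ) (x * y) = (χ : G → ℂ) (u * v)) : (χ : G → ℂ) u * (χ : G → ℂ) v = (χ : G → ℂ) 1 * (χ : G → ℂ) (u * v) := by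
  haveI := Fintype.ofFinite G
  have h0 := IsIrr.one_ne_zero χ.2
  have hcf : ∀ x g, (χ : G → ℂ) (x * g * x⁻¹) = (χ : G → ℂ) g := fun x g => IsIrr.isClassFunction χ.2 g x
  have h1 := ev_cen_mul χ.2 (isCen_cs (R := ℂ) u) (cs ℂ v)
  have h2 : ev (χ : G → ℂ) (cs ℂ u * cs ℂ v) =
      ((Subgroup.centralizer ({u} : Set G)).index : ℂ) * (((Subgroup.centralizer ({v} : Set G)).index : ℂ) *
        (χ : G → ℂ) (u * v)) := by
    have e0 : cs ℂ u * cs ℂ v = ∑ x : G, ∑ y : G,
        MonoidAlgebra.single (x * y) ((cs ℂ u).coeff x * (cs ℂ v).coeff y) := by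
      conv_lhs => rw [cs_sum u, cs_sum v]
      rw [Finset.sum_mul]
      simp only [Finset.mul_sum, MonoidAlgebra.single_mul_single]
    rw [e0, map_sum]
    simp only [map_sum, ev_single]
    have e2 : ∀ x y : G, (cs ℂ u).coeff x * (cs ℂ v).coeff y * (χ : G → ℂ) (x * y)
        = (cs ℂ u).coeff x * ((cs ℂ v).coeff y * (χ : G → ℂ) (u * v)) := by
      intro x y
      rw [coeff_cs, coeff_cs]
      split_ifs with hx hy
      · rw [hc x y hx hy]; ring
      all_goals simp
    simp only [e2, ← Finset.mul_sum]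
    rw [sum_cs v, sum_cs u]
  rw [h2, ev_cs hcf, om_cs χ.2, centralChar] at h1
  have hu : ((Subgroup.centralizer ({u} : Set G)).index : ℂ) ≠ 0 := by
    exact_mod_cast Subgroup.index_ne_zero_of_finite
  have hv : ((Subgroup.centralizer ({v} : Set G)).index : ℂ) ≠ 0 := by
    exact_mod_cast Subgroup.index_ne_zero_of_finite
  field_simp at h1
  linear_combination -h1

end Cfsg.Agent.S0943
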