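import Cfsg.Statements.S0944
import Cfsg.Agent.H5.Invol

set_option autoImplicit false
open Cfsg

namespace Cfsg.Agent.S0944

open CfsgH5

/-- Let χ be an irreducible character of the finite group G and u an involution. Then χ u is a rational integer n with n ≡ χ 1 (mod 2). -/
theorem result {G : Type*} [Group G] [Finite G] (χ : Cfsg.IrrCharacter G) (u : G) (hu : orderOf u = 2) : ∃ n : ℤ, (χ : G → ℂ) u = (n : ℂ) ∧ (2 : ℤ) ∣ (Cfsg.charDegree (χ : G → ℂ) : ℤ) - n := by
  obtain ⟨n, m, hn, hm, hd, -⟩ := invol_val (CfsgH4.IsIrr.isCharacter χ.2) (u := u) (by rw [← hu]; exact pow_orderOf_eq_one u)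
  refine ⟨n, hn, ?_⟩
  have h1 := (IsIrr.one_eq χ.2).1
  rw [hm] at h1
  have h2 : m = Cfsg.charDegree (χ : G → ℂ) := by exact_mod_cast h1
  rw [← h2]; exact hd

end Cfsg.Agent.S0944
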