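import Cfsg.Statements.S0949
import Cfsg.Agent.H5.FrobL

set_option autoImplicit false
open Cfsg

namespace Cfsg.Agent.S0949

open CfsgH5

/-- Let the finite group G have a Sylow 2-subgroup P isomorphic to Z/2^m × Z/2^m with m ≥ 2, and suppose G has no nontrivial normal subgroup of odd order. Then P is normal in G, C_G(P) = P, and the index of P is 1 or 3. -/
theorem result {G : Type*} [Group G] [Finite G] (P : Sylow 2 G) (m : ℕ) (hm : 2 ≤ m) (e : (P : Subgroup G) ≃* Multiplicative (ZMod (2 ^ m) × ZMod (2 ^ m))) (hO : ∀ N : Subgroup G, N.Normal → Odd (Nat.card N) → N = ⊥) : (P : Subgroup G).Normal ∧ Subgroup.centralizer (P : Set G) = (P : Subgroup G) ∧ ((P : Subgroup G).index = 1 ∨ (P : Subgroup G).index = 3) := by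
  classical
  haveI := Fintype.ofFinite G
  haveI : Fact (Nat.Prime 2) := ⟨Nat.prime_two⟩
  have hPn : (P : Subgroup G).Normal := homo_normal _ rfl P m hm e hO
  have hab := homo_comm P e
  have hPC : (P : Subgroup G) ≤ Subgroup.centralizer ((P : Subgroup G) : Set G) := fun x hx =>
    Subgroup.mem_centralizer_iff.2 fun y hy => hab y hy x hx
  have hCP : Subgroup.centralizer ((P : Subgroup G) : Set G) = (P : Subgroup G) := by
    haveI : (Subgroup.centralizer ((P : Subgroup G) : Set G)).Normal := inferInstance
    have hnpc : CfsgH3.HasNPC 2 (Subgroup.centralizer ((P : Subgroup G) : Set G)) := by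
      apply CfsgH3.hasNPC_burnside (P.subtype hPC)
      intro x _
      rw [Subgroup.mem_centralizer_iff]
      intro y hy
      have hy' : (y : G) ∈ (P : Subgroup G) := by
        have h6 : y ∈ ((P.subtype hPC : Sylow 2 _) : Subgroup _) := hy
        rw [Sylow.coe_subtype, Subgroup.mem_subgroupOf] at h6
        exact h6
      exact Subtype.ext (Subgroup.mem_centralizer_iff.1 x.2 y hy')
    have hC2 := isPGroup_of_npc _ hnpc (core_bot_of hO (Subgroup.centralizer ((P : Subgroup G) : Set G)))
    exact P.3 hC2 hPC
  refine ⟨hPn, hCP, ?_⟩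
  have h1 := homo_index P (by omega) e
  have hN : Subgroup.normalizer ((P : Subgroup G) : Set G) = ⊤ := Subgroup.normalizer_eq_top_iff.2 hPn
  rw [hCP, hN, Subgroup.relIndex_top_right] at h1
  exact h1

end Cfsg.Agent.S0949
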