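import Cfsg.Statements.S0950
import Cfsg.Agent.H5.Q8
import Cfsg.Agent.H3.Fusion

set_option autoImplicit false
open Cfsg

namespace Cfsg.Agent.S0950

open CfsgH5

/-- Let S be a Sylow 2-subgroup of the finite group G that is isomorphic to the quaternion group of order 8, and suppose S has no normal complement in G. Then any two subgroups of order 4 of S are conjugate by an element of the normalizer of S. -/
theorem result {G : Type*} [Group G] [Finite G] (S : Sylow 2 G) (e : (S : Subgroup G) ≃* QuaternionGroup 2) (hnc : ∀ N : Subgroup G, N.Normal → ¬ Subgroup.IsComplement' N (S : Subgroup G)) (A B : Subgroup G) (hA : A ≤ S) (hB : B ≤ S) (hA4 : Nat.card A = 4) (hB4 : Nat.card B = 4) : ∃ n ∈ Subgroup.normalizer ((S : Subgroup G) : Set G), B = A.map (MulAut.conj n).toMonoidHom := by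
  obtain ⟨z, hQ⟩ := q8In_of_equiv e
  have hP : IsSyl 2 ⊤ (S : Subgroup G) := ⟨le_top, by rw [Subgroup.card_top]; exact S.card_eq_multiplicity⟩
  have hnpc : ¬ CfsgH3.HasNPC 2 G := by
    intro h
    obtain ⟨N, hN, hc⟩ := CfsgH3.HasNPC.exists_complement h S
    exact hnc N hN hc
  obtain ⟨x, hx, hxx, rfl⟩ := hQ.sub_four hA hA4
  obtain ⟨v, hv, hvv, rfl⟩ := hQ.sub_four hB hB4
  obtain ⟨n, hn, h⟩ := hQ.fusion hP hnpc hx hv hxx hvv
  refine ⟨n, hn, ?_⟩
  rw [MonoidHom.map_zpowers]
  show Subgroup.zpowers v = Subgroup.zpowers (n * x * n⁻¹)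
  rw [h]

end Cfsg.Agent.S0950
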