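import Cfsg.Statements.S0955
import Cfsg.Agent.H5.MinMax
import Cfsg.Agent.H2.Cores

set_option autoImplicit false
open Cfsg

namespace Cfsg.Agent.S0955

open CfsgH5

/-- Let D be a defect group of a block of the finite group G relative to a maximal ideal M of the algebraic integers containing the prime p. Then D is the largest normal p-subgroup of its own normalizer: O_p(N_G(D)) = D. -/
theorem result {G : Type*} [Group G] [Finite G] (p : ℕ) [Fact p.Prime] (M : Ideal Cfsg.AlgInt) (hM : Cfsg.IsPModular p M) (B : Set (Cfsg.IrrCharacter G)) (hB : Cfsg.IsPBlock M B) (D : Subgroup G) (hD : Cfsg.IsDefectGroup p M B D) : (Cfsg.pCore p (Subgroup.normalizer (D : Set G))).map (Subgroup.normalizer (D : Set G)).subtype = D := by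
  haveI := IsPModular.isPrime hM
  have hDp := IsDefectGroup.isPGroup hD
  obtain ⟨b, hb1, hb2⟩ := first_main_exists hM hDp hB hD
  haveI : (D.subgroupOf (Subgroup.normalizer (D : Set G))).Normal := Subgroup.normal_subgroupOf_of_le_normalizer le_rfl
  have hD' : IsPGroup p (D.subgroupOf (Subgroup.normalizer (D : Set G))) := IsPGroup.of_equiv hDp (Subgroup.subgroupOfEquivOfLe Subgroup.le_normalizer).symm
  have h1 : D.subgroupOf (Subgroup.normalizer (D : Set G)) ≤ pCore p (Subgroup.normalizer (D : Set G)) :=
    CfsgH2.le_pCore inferInstance hD'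
  have h2 : pCore p (Subgroup.normalizer (D : Set G)) ≤ D.subgroupOf (Subgroup.normalizer (D : Set G)) := by
    haveI : (pCore p (Subgroup.normalizer (D : Set G))).Normal := inferInstance
    exact normal_le_defect hM hb2.1 hb1 (CfsgH2.isPGroup_pCore p)
  rw [le_antisymm h2 h1, Subgroup.subgroupOf_map_subtype]
  exact inf_eq_left.2 Subgroup.le_normalizer

end Cfsg.Agent.S0955
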