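import Cfsg.Statements.S0956
import Cfsg.Agent.H5.Green

set_option autoImplicit false
open Cfsg

namespace Cfsg.Agent.S0956

open CfsgH5

/-- Let D be a defect group of a block of the finite group G (relative to a maximal ideal M of the algebraic integers containing the prime p) and P a Sylow p-subgroup containing D. Then there is an element x of order prime to p such that D is a Sylow p-subgroup of the centralizer of x and D = P ∩ x P x⁻¹. -/
theorem result {G : Type*} [Group G] [Finite G] (p : ℕ) [Fact p.Prime] (M : Ideal Cfsg.AlgInt) (hM : Cfsg.IsPModular p M) (B : Set (Cfsg.IrrCharacter G)) (hB : Cfsg.IsPBlock M B) (D : Subgroup G) (hD : Cfsg.IsDefectGroup p M B D) (P : Sylow p G) (hDP : D ≤ P) : ∃ x : G, ¬ p ∣ orderOf x ∧ (∃ S : Sylow p (Subgroup.centralizer ({x} : Set G)), (S : Subgroup (Subgroup.centralizer ({x} : Set G))).map (Subgroup.centralizer ({x} : Set G)).subtype = D) ∧ (P : Subgroup G) ⊓ (P : Subgroup G).map (MulAut.conj x).toMonoidHom = D := by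
  classical
  haveI := IsPModular.isPrime hM
  have hDp := IsDefectGroup.isPGroup hD
  obtain ⟨b, hbD, hind⟩ := first_main_exists hM hDp hB hD
  set N := Subgroup.normalizer (D : Set G) with hN
  haveI : Fintype N := Fintype.ofFinite N
  have hDN : D ≤ N := Subgroup.le_normalizer
  have hPp : IsPGroup p (P : Subgroup G) := P.isPGroup'
  obtain ⟨n0, hn0, hn0D⟩ := isDefectGroup_iff.1 hbD
  haveI hDn : (D.subgroupOf N).Normal := Subgroup.normal_in_normalizer
  have hcjD : ∀ c : N, cj c (D.subgroupOf N) = D.subgroupOf N := by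
    intro c
    ext k
    rw [mem_cj]
    constructor
    · intro h
      have := hDn.conj_mem _ h c
      have e : c * (c⁻¹ * k * c) * c⁻¹ = k := by group
      rwa [e] at this
    · intro h
      have := hDn.conj_mem _ h c⁻¹
      rwa [inv_inv] at this
  obtain ⟨P', hP'1, hP'⟩ := exists_isSyl_ge (p := p) (C := (⊤ : Subgroup N)) (Q := ((P : Subgroup G) ⊓ N).subgroupOf N)
    ((hPp.to_le inf_le_left).comap_subtype) le_top
  have hP'c : Nat.card P' = p ^ (Nat.card N).factorization p := by
    rw [hP'.2, Subgroup.card_top]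
  obtain ⟨y, hy1, hy2⟩ := green_aux hM hind.1 hP'c hn0
  obtain ⟨c, hc⟩ := isConj_iff.1 hy1
  have hyD : IsSyl p (Subgroup.centralizer ({y} : Set N)) (D.subgroupOf N) := by
    have := hn0D.cj c
    rwa [cj_centralizer_singleton, hc, hcjD] at this
  have hQ : P' ⊓ cj y⁻¹ P' = D.subgroupOf N := by
    obtain ⟨c', -, h⟩ := hyD.conj hy2
    rw [h, hcjD]
  have hyC : (y : G) ∈ Subgroup.centralizer (D : Set G) := by
    have h1 := isSyl_of_isSyl_normalizer hyD
    exact le_centralizer_singleton_iff.1 h1.1
  have hxC : ∀ k ∈ D, (y : G) * k * (y : G)⁻¹ = k := by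
    intro k hk
    have := (Subgroup.mem_centralizer_iff.1 hyC) k hk
    rw [← this]; group
  have hyreg := defectClass_regular hM hind.1 (CfsgH5.IsDefectClass.conj hn0 hy1)
  refine ⟨(y : G)⁻¹, ?_, ?_, ?_⟩
  · rw [orderOf_inv, Subgroup.orderOf_coe]
    exact hyreg
  · have h1 : Subgroup.centralizer ({(y : G)⁻¹} : Set G) = Subgroup.centralizer ({(y : G)} : Set G) := by
      ext k
      rw [Subgroup.mem_centralizer_singleton_iff, Subgroup.mem_centralizer_singleton_iff]
      constructor
      · intro h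
        have h2 : Commute k (y : G)⁻¹ := h
        have h3 := h2.inv_right
        rw [inv_inv] at h3
        exact h3
      · intro h
        have h2 : Commute k (y : G) := h
        exact h2.inv_right
    rw [h1]
    obtain ⟨S, hS⟩ := isSyl_iff.2 (isSyl_of_isSyl_normalizer hyD)
    exact ⟨S, hS.symm⟩
  · show (P : Subgroup G) ⊓ cj (y : G)⁻¹ (P : Subgroup G) = D
    symm
    have hDE : D ≤ (P : Subgroup G) ⊓ cj (y : G)⁻¹ (P : Subgroup G) := by
      refine le_inf hDP ?_
      intro k hk
      rw [mem_cj, inv_inv, hxC k hk]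
      exact hDP hk
    by_contra hne
    obtain ⟨e, he, heD, heN⟩ := exists_normalizer_gt (hPp.to_le inf_le_left) hDE hne
    apply heD
    have h1 : (⟨e, heN⟩ : N) ∈ P' ⊓ cj y⁻¹ P' := by
      refine ⟨hP'1 ?_, ?_⟩
      · rw [Subgroup.mem_subgroupOf]
        exact ⟨he.1, heN⟩
      · show (⟨e, heN⟩ : N) ∈ cj y⁻¹ P'
        rw [mem_cj, inv_inv]
        apply hP'1
        rw [Subgroup.mem_subgroupOf]
        refine ⟨?_, (y * ⟨e, heN⟩ * y⁻¹ : N).2⟩
        have h2 := mem_cj.1 he.2
        rw [inv_inv] at h2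
        exact h2
    rw [hQ] at h1
    exact h1

end Cfsg.Agent.S0956
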