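import Cfsg.Statements.S0957
import Cfsg.Agent.H5.Syl

set_option autoImplicit false
open Cfsg

namespace Cfsg.Agent.S0957

open CfsgH5
theorem orbit_dvd {P : Type*} [Group P] {p : ℕ} [Fact p.Prime] (hP : IsPGroup p P) {α : Type*} [Finite P] [Finite α]
    [MulAction P α] (d : ℕ) (h : ∀ a : α, Nat.card (MulAction.stabilizer P a) ∣ d) (hd : d ∣ Nat.card P) :
    Nat.card P / d ∣ Nat.card α := by
  classical
  haveI := Fintype.ofFinite α
  haveI := Fintype.ofFinite (Quotient (MulAction.orbitRel P α))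
  have h1 : Nat.card α = ∑ ω : Quotient (MulAction.orbitRel P α), Nat.card (MulAction.orbit P ω.out) := by
    rw [Nat.card_congr (MulAction.selfEquivSigmaOrbits P α), Nat.card_sigma]
  rw [h1]
  refine Finset.dvd_sum fun ω _ => ?_
  have h2 : Nat.card (MulAction.orbit P ω.out) * Nat.card (MulAction.stabilizer P ω.out) = Nat.card P := by
    haveI := Fintype.ofFinite P
    haveI := Fintype.ofFinite (MulAction.orbit P ω.out)
    haveI := Fintype.ofFinite (MulAction.stabilizer P ω.out)
    have h3 := MulAction.card_orbit_mul_card_stabilizer_eq_card_group P ω.out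
    rw [Nat.card_eq_fintype_card, Nat.card_eq_fintype_card, Nat.card_eq_fintype_card]
    exact h3
  obtain ⟨c, hc⟩ := h ω.out
  obtain ⟨e, he⟩ := hd
  have hd0 : 0 < d := by
    rcases Nat.eq_zero_or_pos d with h4 | h4
    · rw [h4, zero_mul] at he; exact absurd he Nat.card_pos.ne'
    · exact h4
  have hs0 : 0 < Nat.card (MulAction.stabilizer P ω.out) := Nat.card_pos
  rw [he, Nat.mul_div_cancel_left _ hd0]
  rw [he, hc] at h2
  refine ⟨c, ?_⟩
  apply Nat.eq_of_mul_eq_mul_right hs0
  rw [h2]; ring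


/-- Let P be a Sylow p-subgroup of the finite group G, let g, h ∈ G and let p ^ d be the order of a Sylow p-subgroup of the centralizer of g. Then the number of pairs (y, z) with y conjugate to g, z conjugate to h and z * y⁻¹ ∈ P is divisible by the order of P divided by p ^ d. -/
theorem result {G : Type*} [Group G] [Finite G] (p : ℕ) [Fact p.Prime] (P : Sylow p G) (g h : G) (S : Sylow p (Subgroup.centralizer ({g} : Set G))) : Nat.card P / Nat.card S ∣ Nat.card {yz : G × G // IsConj g yz.1 ∧ IsConj h yz.2 ∧ yz.2 * yz.1⁻¹ ∈ (P : Subgroup G)} := by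
  classical
  let X := {yz : G × G // IsConj g yz.1 ∧ IsConj h yz.2 ∧ yz.2 * yz.1⁻¹ ∈ (P : Subgroup G)}
  letI act : MulAction P X :=
    { smul := fun k x => ⟨((k : G) * x.1.1 * (k : G)⁻¹, (k : G) * x.1.2 * (k : G)⁻¹), by
        obtain ⟨h1, h2, h3⟩ := x.2
        refine ⟨h1.trans (isConj_iff.2 ⟨k, rfl⟩), h2.trans (isConj_iff.2 ⟨k, rfl⟩), ?_⟩
        have : (k : G) * x.1.2 * (k : G)⁻¹ * ((k : G) * x.1.1 * (k : G)⁻¹)⁻¹ = (k : G) * (x.1.2 * x.1.1⁻¹) * (k : G)⁻¹ := by group
        show (k : G) * x.1.2 * (k : G)⁻¹ * ((k : G) * x.1.1 * (k : G)⁻¹)⁻¹ ∈ (P : Subgroup G)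
        rw [this]
        exact Subgroup.mul_mem _ (Subgroup.mul_mem _ k.2 h3) (Subgroup.inv_mem _ k.2)⟩
      one_smul := fun x => by
        apply Subtype.ext
        show ((((1 : P) : G) * x.1.1 * ((1 : P) : G)⁻¹, ((1 : P) : G) * x.1.2 * ((1 : P) : G)⁻¹) : G × G) = x.1
        simp
      mul_smul := fun a b x => by
        apply Subtype.ext
        show (((((a * b : P) : G) * x.1.1 * ((a * b : P) : G)⁻¹), (((a * b : P) : G) * x.1.2 * ((a * b : P) : G)⁻¹)) : G × G) =
          ((a : G) * ((b : G) * x.1.1 * (b : G)⁻¹) * (a : G)⁻¹, (a : G) * ((b : G) * x.1.2 * (b : G)⁻¹) * (a : G)⁻¹)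
        ext
        · simp [mul_assoc]
        · simp [mul_assoc] }
  have hPp : IsPGroup p (P : Subgroup G) := P.isPGroup'
  have hS := S.card_eq_multiplicity
  have hPc := P.card_eq_multiplicity
  apply orbit_dvd (α := X) hPp (Nat.card S)
  · intro a
    obtain ⟨k, hk⟩ := IsPGroup.iff_card.1 (hPp.to_subgroup (MulAction.stabilizer P a))
    have hc : Nat.card (MulAction.stabilizer P a) ∣ Nat.card (Subgroup.centralizer ({g} : Set G)) := by
      obtain ⟨x, hx⟩ := isConj_iff.1 a.2.1
      rw [← card_cj x, cj_centralizer_singleton, hx, ← Subgroup.card_map_of_injective (K := MulAction.stabilizer P a) (f := (P : Subgroup G).subtype) Subtype.coe_injective]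
      apply Subgroup.card_dvd_of_le
      rintro _ ⟨t, ht, rfl⟩
      rw [Subgroup.mem_centralizer_singleton_iff]
      have h1 : t • a = a := ht
      have h2 := congrArg (fun b : X => b.1.1) h1
      have h3 : (t : G) * a.1.1 * (t : G)⁻¹ = a.1.1 := h2
      show (t : G) * a.1.1 = a.1.1 * (t : G)
      exact mul_inv_eq_iff_eq_mul.1 h3
    rw [hk] at hc ⊢
    rw [hS]
    apply pow_dvd_pow
    exact ((Fact.out : p.Prime).pow_dvd_iff_le_factorization Nat.card_pos.ne').1 hc
  · rw [hS, hPc]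
    apply pow_dvd_pow
    exact (Nat.factorization_le_iff_dvd Nat.card_pos.ne' Nat.card_pos.ne').2 (Subgroup.card_subgroup_dvd_card _) p

end Cfsg.Agent.S0957
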