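import Cfsg.Statements.S0958
import Cfsg.Agent.H5.MinMax

set_option autoImplicit false
open Cfsg

namespace Cfsg.Agent.S0958

open CfsgH5

/-- Let P be a p-subgroup of the finite group G and H a subgroup with P ⊔ C_G(P) ≤ H ≤ N_G(P); fix a maximal ideal M of the algebraic integers containing p. Then a block B of G is induced by some block of H if and only if some conjugate of P is contained in a defect group of B. -/
theorem result {G : Type*} [Group G] [Finite G] (p : ℕ) [Fact p.Prime] (M : Ideal Cfsg.AlgInt) (hM : Cfsg.IsPModular p M) (P H : Subgroup G) (hP : IsPGroup p P) (hPH : P ⊔ Subgroup.centralizer (P : Set G) ≤ H) (hHN : H ≤ Subgroup.normalizer (P : Set G)) (B : Set (Cfsg.IrrCharacter G)) (hB : Cfsg.IsPBlock M B) : (∃ b : Set (Cfsg.IrrCharacter H), Cfsg.IsInducedBlock M H b B) ↔ ∃ D : Subgroup G, Cfsg.IsDefectGroup p M B D ∧ ∃ x : G, P.map (MulAut.conj x).toMonoidHom ≤ D := by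
  haveI := IsPModular.isPrime hM
  have hPH' : P ≤ H := le_sup_left.trans hPH
  have hCH : Subgroup.centralizer (P : Set G) ≤ H := le_sup_right.trans hPH
  constructor
  · rintro ⟨b, hb⟩
    obtain ⟨D, hD⟩ := exists_defectGroup hM hb.1
    haveI : (P.subgroupOf H).Normal := Subgroup.normal_subgroupOf_of_le_normalizer hHN
    have hP' : IsPGroup p (P.subgroupOf H) := IsPGroup.of_equiv hP (Subgroup.subgroupOfEquivOfLe hPH').symm
    have h1 := normal_le_defect hM hb.1 hD hP'
    obtain ⟨E, hE, hE2⟩ := defect_map_le hM hb hD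
    refine ⟨E, hE, 1, ?_⟩
    have h2 : P.map (MulAut.conj (1 : G)).toMonoidHom = P := cj_one P
    rw [h2]
    refine le_trans ?_ hE2
    intro x hx
    exact ⟨⟨x, hPH' hx⟩, h1 (show (⟨x, hPH' hx⟩ : H) ∈ P.subgroupOf H from hx), rfl⟩
  · rintro ⟨D, hD, x, hx⟩
    obtain ⟨y, hy, hyD⟩ := isDefectGroup_iff.1 hD
    have h1 : x⁻¹ * y * x ∈ Subgroup.centralizer (P : Set G) := by
      rw [← mem_centralizer_conj]
      exact le_centralizer_singleton_iff.1 (hx.trans hyD.1)
    refine exists_inducing hM hP hPH' hCH hHN hB h1 ?_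
    rw [← blockCoeff_conj B (g := y) (isConj_iff.2 ⟨x⁻¹, by group⟩)]
    exact hy.2.1

end Cfsg.Agent.S0958
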