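import Cfsg.Statements.S0961
import Cfsg.Agent.H4.BrauerC

set_option autoImplicit false
open Cfsg

namespace Cfsg.Agent.S0961


/-- Let χ be an irreducible character of the finite group G and let p ^ a be the largest power of the prime p dividing the order of G. Then the function equal to p ^ a * χ x at elements x of order prime to p and to 0 elsewhere is a generalized character (a difference of characters). -/
theorem result {G : Type*} [Group G] [Finite G] (p : ℕ) [Fact p.Prime] (χ : Cfsg.IrrCharacter G) : Cfsg.IsGeneralizedCharacter G (fun x : G => if p ∣ orderOf x then 0 else ((p ^ (Nat.card G).factorization p : ℕ) : ℂ) * (χ : G → ℂ) x) := by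
  haveI := Fintype.ofFinite G
  have hp : p.Prime := Fact.out
  have h1 : ¬ p ^ ((Nat.card G).factorization p + 1) ∣ Nat.card G :=
    Nat.pow_succ_factorization_not_dvd Nat.card_pos.ne' hp
  have h2 := CfsgH4.isGen_mul (CfsgH4.pregFun_gen (G := G) hp h1) (CfsgH4.IsCharacter.isGen (CfsgH4.IsIrr.isCharacter χ.2))
  convert h2 using 1
  funext x
  rw [Pi.mul_apply]
  split_ifs with h
  · rw [CfsgH4.pregFun_apply_sing h, zero_mul]
  · rw [CfsgH4.pregFun_apply_reg h]; push_cast; rfl

end Cfsg.Agent.S0961
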