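import Cfsg.Statements.S0963
import Cfsg.Agent.H5.Cover2

set_option autoImplicit false
open Cfsg

namespace Cfsg.Agent.S0963

open CfsgH5

/-- Let N be a normal subgroup of the finite group G, χ an irreducible character of G and θ an irreducible character of N. Then θ occurs in the restriction of χ to N if and only if, for every n ∈ N, the central character of χ at n (class size in G times χ n over χ 1) equals the sum of θ m / θ 1 over the elements m of N conjugate in G to n. -/
theorem result {G : Type*} [Group G] [Fintype G] (N : Subgroup G) [N.Normal] [Fintype N] (χ : Cfsg.IrrCharacter G) (θ : Cfsg.IrrCharacter N) : Cfsg.classInner (fun n : N => (χ : G → ℂ) n) (θ : N → ℂ) ≠ 0 ↔ ∀ n : N, Cfsg.centralChar (χ : G → ℂ) (n : G) = Cfsg.inducedCentralChar N (θ : N → ℂ) (n : G) := by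
  classical
  have hfin : ∀ (inst : Fintype N), True := fun _ => trivial
  constructor
  · intro h n
    exact centralChar_over h n.2
  · intro h
    have hA := isStab_orbI θ
    have h1 : om (χ : G → ℂ) (embA N (eSet (orbI N θ))) = om (θ : N → ℂ) (resA N (embA N (eSet (orbI N θ)))) := by
      haveI := Fintype.ofFinite (ConjClasses G)
      have hc := isCen_embA_stab hA
      rw [om_sum_cs hc]
      have e1 : om (χ : G → ℂ) (embA N (eSet (orbI N θ))) = ∑ K : ConjClasses G, om (χ : G → ℂ) ((embA N (eSet (orbI N θ))).coeff K.out • cs ℂ K.out) := by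
        conv_lhs => rw [hc.eq_sum_cs, om_sum]
      rw [e1]
      refine Finset.sum_congr rfl fun K _ => ?_
      rw [om_smul]
      by_cases hK : K.out ∈ N
      · rw [om_cs χ.2, h ⟨K.out, hK⟩, inducedCentralChar_eq]
      · rw [coeff_embA_notMem N _ hK, zero_mul, zero_mul]
    rw [resA_embA, om_eSet, if_pos (self_mem_orbI θ)] at h1
    obtain ⟨ψ, hψ⟩ := exists_under (N := N) χ
    rw [om_stab hA hψ] at h1
    have h2 : ψ ∈ orbI N θ := by
      by_contra hc
      rw [if_neg hc] at h1
      exact zero_ne_one h1
    obtain ⟨x, rfl⟩ := h2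
    rwa [inner_cjI] at hψ

end Cfsg.Agent.S0963
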