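import Cfsg.Statements.S0965
import Cfsg.Agent.H5.Cover2

set_option autoImplicit false
open Cfsg

namespace Cfsg.Agent.S0965

open CfsgH5

/-- Let N be a normal subgroup of the finite group G and let B, b be blocks of G and of N relative to a maximal ideal M of the algebraic integers containing the prime p. Then some χ ∈ B has a constituent in b on restriction to N if and only if, for all χ ∈ B, θ ∈ b and n ∈ N, the central character of χ at n is congruent modulo the local ideal at M to the sum of θ m / θ 1 over the elements m ∈ N conjugate in G to n. -/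
theorem result {G : Type*} [Group G] [Fintype G] (p : ℕ) [Fact p.Prime] (M : Ideal Cfsg.AlgInt) (hM : Cfsg.IsPModular p M) (N : Subgroup G) [N.Normal] [Fintype N] (B : Set (Cfsg.IrrCharacter G)) (hB : Cfsg.IsPBlock M B) (b : Set (Cfsg.IrrCharacter N)) (hb : Cfsg.IsPBlock M b) : (∃ χ ∈ B, ∃ θ ∈ b, Cfsg.classInner (fun n : N => (χ : G → ℂ) n) (θ : N → ℂ) ≠ 0) ↔ ∀ χ ∈ B, ∀ θ ∈ b, ∀ n : N, Cfsg.MemLocalIdeal M (Cfsg.centralChar (χ : G → ℂ) (n : G) - Cfsg.inducedCentralChar N (θ : N → ℂ) (n : G)) := by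
  classical
  haveI := IsPModular.isPrime hM
  constructor
  · intro hc χ hχ θ hθ n
    obtain ⟨θ₁, hθ₁, h1⟩ := covers_exists hB hb hc hχ
    rw [centralChar_over h1 n.2, inducedCentralChar_eq, inducedCentralChar_eq]
    exact sameBlock_om θ₁.2 θ.2 ((IsPBlock.mem_iff hb hθ₁).1 hθ) (isCen_resA (isCen_cs _)) (inS_resA (inS_cs _))
  · intro h
    obtain ⟨χ, hχ⟩ := IsPBlock.nonempty hB
    obtain ⟨θ, hθ⟩ := IsPBlock.nonempty hb
    have hA := isStab_orbB b
    have hS : InS M (embA N (eSet (orbB N b))) := inS_embA N (inS_eSet_sat (isSat_orbB hb))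
    have h1 : MemLocalIdeal M (om (χ : G → ℂ) (embA N (eSet (orbB N b))) - om (θ : N → ℂ) (resA N (embA N (eSet (orbB N b))))) := by
      haveI := Fintype.ofFinite (ConjClasses G)
      have hc := isCen_embA_stab hA
      rw [om_sum_cs hc]
      have e1 : om (χ : G → ℂ) (embA N (eSet (orbB N b))) = ∑ K : ConjClasses G, om (χ : G → ℂ) ((embA N (eSet (orbB N b))).coeff K.out • cs ℂ K.out) := by
        conv_lhs => rw [hc.eq_sum_cs, om_sum]
      rw [e1, ← Finset.sum_sub_distrib]
      refine memLocalIdeal_sum _ _ fun K _ => ?_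
      rw [om_smul, ← mul_sub]
      by_cases hK : K.out ∈ N
      · apply MemLocalIdeal.mul_left (hS _)
        have := h χ hχ θ hθ ⟨K.out, hK⟩
        rwa [inducedCentralChar_eq, ← om_cs χ.2] at this
      · rw [coeff_embA_notMem N _ hK, zero_mul]; exact memLocalIdeal_zero
    rw [resA_embA, om_eSet, if_pos (subset_orbB hθ)] at h1
    obtain ⟨ψ, hψ⟩ := exists_under (N := N) χ
    rw [om_stab hA hψ] at h1
    have h2 : ψ ∈ orbB N b := by
      by_contra hc
      rw [if_neg hc, zero_sub] at h1
      have := MemLocalIdeal.neg h1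
      rw [neg_neg] at this
      exact not_memLocalIdeal_one this
    obtain ⟨x, hx⟩ := h2
    exact ⟨χ, hχ, _, hx, by rwa [inner_cjI]⟩

end Cfsg.Agent.S0965
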