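import Cfsg.Statements.S0969
import Cfsg.Agent.H5.CentP

set_option autoImplicit false
open Cfsg

namespace Cfsg.Agent.S0969

open CfsgH5

/-- Let D be a central p-subgroup of the finite group G and χ an irreducible character with the exponent of p in χ(1) equal to the exponent of p in the index of D; fix a maximal ideal M of the algebraic integers containing p. Then D is a defect group of the block of χ, and χ g = 0 whenever the p-part of g does not lie in D. -/
theorem result {G : Type*} [Group G] [Finite G] (p : ℕ) [Fact p.Prime] (M : Ideal Cfsg.AlgInt) (hM : Cfsg.IsPModular p M) (D : Subgroup G) (hD : IsPGroup p D) (hDZ : D ≤ Subgroup.center G) (χ : Cfsg.IrrCharacter G) (hdeg : (Cfsg.charDegree (χ : G → ℂ)).factorization p = D.index.factorization p) : Cfsg.IsDefectGroup p M (Cfsg.blockOf M (χ : G → ℂ)) D ∧ ∀ g x : G, Cfsg.IsPPart p g x → x ∉ D → (χ : G → ℂ) g = 0 := by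
  haveI := Fintype.ofFinite G
  haveI := IsPModular.isPrime hM
  obtain ⟨κ, hκ⟩ := CfsgH5.exists_pexp p G
  have hdeg' : (charDegree (χ : G → ℂ)).factorization p + (Nat.card D).factorization p = (Nat.card G).factorization p := by
    rw [hdeg]; exact CfsgH5.index_factorization D
  obtain ⟨h1, h2⟩ := CfsgH5.cent_main hM hκ hD hDZ (CfsgH5.isPBlock_blockOf χ) (CfsgH5.mem_blockOf_self χ) hdeg'
  refine ⟨h1, fun g x hx hxD => ?_⟩
  obtain ⟨lam, hlam⟩ := (h2 χ).1 (CfsgH5.mem_blockOf_self χ)
  rw [hlam]
  apply CfsgH5.tw_of_notMem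
  rwa [← (hκ g x).1 hx]

end Cfsg.Agent.S0969
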