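import Cfsg.Statements.S0971
import Cfsg.Agent.H5.Cover2

set_option autoImplicit false
open Cfsg

namespace Cfsg.Agent.S0971

open CfsgH5

/-- Let Q be a normal p-subgroup of the finite group G, let N = Q ⊔ C_G(Q) (a normal subgroup) and let b be a block of N relative to a maximal ideal M of the algebraic integers containing p. Then b induces some block of G, and every block B of G containing a character whose restriction to N has a constituent in b is induced by b. -/
theorem result {G : Type*} [Group G] [Fintype G] (p : ℕ) [Fact p.Prime] (M : Ideal Cfsg.AlgInt) (hM : Cfsg.IsPModular p M) (Q : Subgroup G) [Q.Normal] (hQ : IsPGroup p Q) [Fintype ↥(Q ⊔ Subgroup.centralizer (Q : Set G))] (b : Set (Cfsg.IrrCharacter ↥(Q ⊔ Subgroup.centralizer (Q : Set G)))) (hb : Cfsg.IsPBlock M b) : Cfsg.InducedBlockDefined M (Q ⊔ Subgroup.centralizer (Q : Set G)) b ∧ ∀ B : Set (Cfsg.IrrCharacter G), Cfsg.IsPBlock M B → (∃ χ ∈ B, ∃ θ ∈ b, Cfsg.classInner (fun n : ↥(Q ⊔ Subgroup.centralizer (Q : Set G)) => (χ : G → ℂ)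 n) (θ : ↥(Q ⊔ Subgroup.centralizer (Q : Set G)) → ℂ) ≠ 0) → Cfsg.IsInducedBlock M (Q ⊔ Subgroup.centralizer (Q : Set G)) b B := by
  classical
  haveI := IsPModular.isPrime hM
  have hnorm : Subgroup.normalizer (Q : Set G) = ⊤ := Subgroup.normalizer_eq_top_iff.2 inferInstance
  haveI hCn : (Subgroup.centralizer (Q : Set G)).Normal := Subgroup.normal_centralizer (H := Q)
  haveI hNn : (Q ⊔ Subgroup.centralizer (Q : Set G)).Normal := inferInstance
  have hHN : Q ⊔ Subgroup.centralizer (Q : Set G) ≤ Subgroup.normalizer (Q : Set G) := by rw [hnorm]; exact le_top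
  refine ⟨inducedBlockDefined hM hQ le_sup_left le_sup_right hHN hb, fun B hB hc => ?_⟩
  obtain ⟨χ, hχ⟩ := IsPBlock.nonempty hB
  obtain ⟨θ, hθ, h1⟩ := covers_exists hB hb hc hχ
  refine isInducedBlock_of hb hB hθ hχ fun g => ?_
  rw [← inducedCentralChar_eq, om_cs χ.2]
  by_cases hg : g ∈ Q ⊔ Subgroup.centralizer (Q : Set G)
  · rw [centralChar_over h1 hg, sub_self]; exact memLocalIdeal_zero
  · have h2 : inducedCentralChar (Q ⊔ Subgroup.centralizer (Q : Set G)) (θ : _ → ℂ) g = 0 := by
      rw [inducedCentralChar_eq]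
      have : resA (Q ⊔ Subgroup.centralizer (Q : Set G)) (cs ℂ g) = 0 := by
        apply algExt
        intro h
        rw [coeff_resA, coeff_cs, if_neg]
        · rfl
        · intro hc2
          apply hg
          obtain ⟨c, hc3⟩ := isConj_iff.1 hc2
          have := hNn.conj_mem _ h.2 c⁻¹
          rw [← hc3] at this
          rwa [show c⁻¹ * (c * g * c⁻¹) * c⁻¹⁻¹ = g by group] at this
      rw [this, om_zero]
    rw [h2, zero_sub]
    apply MemLocalIdeal.neg
    apply centralChar_mem_of_notMem hM hQ _ χ.2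
    intro h3
    exact hg ((le_sup_right : Subgroup.centralizer (Q : Set G) ≤ _) h3)

end Cfsg.Agent.S0971
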