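import Cfsg.Statements.S0973
import Cfsg.Agent.H5.ExtFM

set_option autoImplicit false
open Cfsg

namespace Cfsg.Agent.S0973

open CfsgH5

/-- Let B be a block of the finite group G with defect group P (relative to a maximal ideal M of the algebraic integers containing p), and let L = P ⊔ C_G(P). Then (i) some block b of L with defect group P (viewed in L) induces B, and (ii) if b and b' are blocks of L both inducing B, there is n ∈ N_G(P) carrying b to b': for every θ ∈ b there is θ' ∈ b' with θ' x = θ (n x n⁻¹) for all x ∈ L. -/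
theorem result {G : Type*} [Group G] [Finite G] (p : ℕ) [Fact p.Prime] (M : Ideal Cfsg.AlgInt) (hM : Cfsg.IsPModular p M) (B : Set (Cfsg.IrrCharacter G)) (hB : Cfsg.IsPBlock M B) (P : Subgroup G) (hP : Cfsg.IsDefectGroup p M B P) : (∃ b : Set (Cfsg.IrrCharacter ↥(P ⊔ Subgroup.centralizer (P : Set G))), Cfsg.IsDefectGroup p M b (P.subgroupOf (P ⊔ Subgroup.centralizer (P : Set G))) ∧ Cfsg.IsInducedBlock M (P ⊔ Subgroup.centralizer (P : Set G)) b B) ∧ ∀ b b' : Set (Cfsg.IrrCharacter ↥(P ⊔ Subgroup.centralizer (P : Set G))), Cfsg.IsInducedBlock M (P ⊔ Subgroup.centralizer (P : Set G)) b B → Cfsg.IsInducedBlock M (P ⊔ Subgroup.centralizer (P : Set G)) b' B → ∃ n ∈ Subgroup.normalizer (P : Set G), ∀ θ ∈ b, ∃ θ' ∈ b', ∀ x : ↥(P ⊔ Subgroup.centralizer (P : Set G)), ∀ hx : n * (x : G) * n⁻¹ ∈ P ⊔ Subgroup.centralizer (P : Set G), (θ' : ↥(P ⊔ Subgroup.centralizer (P : Set G)) → ℂ) x = (θ : ↥(P ⊔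 Subgroup.centralizer (P : Set G)) → ℂ) ⟨n * (x : G) * n⁻¹, hx⟩ := by
  haveI := IsPModular.isPrime hM
  refine ⟨CfsgH5.extFM_exists hM hB hP, fun b b' h h' => ?_⟩
  obtain ⟨n, hn, he⟩ := CfsgH5.extFM_unique hM hB hP h h'
  refine ⟨n⁻¹, Subgroup.inv_mem _ hn, fun θ hθ => ?_⟩
  have hcjL : P ⊔ CfsgH4.cz P = CfsgH5.cj n (P ⊔ CfsgH4.cz P) := (CfsgH4.cj_eq_of_mem_normalizer (CfsgH5.nz_le_nz_sup P hn)).symm
  refine ⟨CfsgH4.irrE (CfsgH4.cjEquiv n hcjL) θ, ?_, fun x hx => ?_⟩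
  · rw [he, CfsgH4.cjSet_eq n hcjL]
    exact ⟨θ, hθ, rfl⟩
  · rw [CfsgH4.irrE_apply]
    have h1 : (CfsgH4.cjEquiv n hcjL).symm x = ⟨n⁻¹ * (x : G) * n⁻¹⁻¹, hx⟩ := by
      apply Subtype.ext
      show n⁻¹ * (x : G) * n = n⁻¹ * (x : G) * n⁻¹⁻¹
      rw [inv_inv]
    rw [h1]

end Cfsg.Agent.S0973
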