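import Mathlib
import Cfsg.Statements.S0985

set_option autoImplicit false
open Cfsg

namespace Cfsg.Agent.S0985

theorem modEq_of_orbits {P X : Type*} [Group P] [Finite P] [MulAction P X] [Finite X] (x0 : X) (m : ℕ)
    (hx0 : ∀ g : P, g • x0 = x0) (h : ∀ x, x ≠ x0 → m ∣ Nat.card (MulAction.orbit P x)) : Nat.card X ≡ 1 [MOD m] := by
  classical
  haveI := Fintype.ofFinite X
  haveI := Fintype.ofFinite (MulAction.orbitRel.Quotient P X)
  rw [Nat.card_congr (MulAction.selfEquivSigmaOrbits P X), Nat.card_sigma]
  set ω0 : MulAction.orbitRel.Quotient P X := Quotient.mk'' x0 with hω0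
  rw [← Finset.add_sum_erase _ _ (Finset.mem_univ ω0)]
  have h1 : m ∣ ∑ x ∈ Finset.univ.erase ω0, Nat.card ↥(MulAction.orbit P (Quotient.out x)) := by
    apply Finset.dvd_sum
    intro ω hω
    apply h
    intro h2
    apply Finset.ne_of_mem_erase hω
    rw [hω0, ← h2]
    exact (Quotient.out_eq' ω).symm
  have h3 : Nat.card ↥(MulAction.orbit P (Quotient.out ω0)) = 1 := by
    have h4 : (Quotient.out ω0 : X) ∈ MulAction.orbit P x0 := by
      rw [← MulAction.orbitRel_apply]
      exact Quotient.exact' (Quotient.out_eq' ω0)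
    rw [MulAction.orbit_eq_iff.2 h4]
    have h5 : MulAction.orbit P x0 = {x0} := by
      ext y
      constructor
      · rintro ⟨g, rfl⟩; exact hx0 g
      · rintro rfl; exact MulAction.mem_orbit_self _
    rw [h5]; simp
  rw [h3]
  exact (Nat.modEq_zero_iff_dvd.2 h1).add_left 1

/-- If the number of Sylow p-subgroups of a finite group is not congruent to 1 modulo p^k, then there are two distinct Sylow p-subgroups P and R such that the index of P ∩ R in P is at most p^(k-1). -/
theorem result {G : Type*} [Group G] [Finite G] (p k : ℕ) [Fact p.Prime] (h : ¬ Nat.card (Sylow p G) ≡ 1 [MOD p ^ k]) : ∃ P R : Sylow p G, P ≠ R ∧ ((R : Subgroup G).subgroupOf (P : Subgroup G)).index ≤ p ^ (k - 1) := by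
  classical
  by_contra hcon
  push Not at hcon
  apply h
  obtain ⟨P⟩ : Nonempty (Sylow p G) := inferInstance
  apply modEq_of_orbits (P := P) P
  · intro g
    change (g : G) • P = P
    rw [Sylow.smul_eq_iff_mem_normalizer]
    exact Subgroup.le_normalizer g.2
  · intro R hR
    have h1 := hcon P R (Ne.symm hR)
    have hstab : MulAction.stabilizer (P : Subgroup G) R = (R : Subgroup G).subgroupOf (P : Subgroup G) := by
      ext x
      rw [MulAction.mem_stabilizer_iff, Subgroup.mem_subgroupOf]
      change (x : G) • R = R ↔ _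
      rw [Sylow.smul_eq_iff_mem_normalizer]
      constructor
      · intro hx
        have h2 : (x : G) ∈ (P : Subgroup G) ⊓ Subgroup.normalizer R := ⟨x.2, hx⟩
        rw [P.isPGroup'.inf_normalizer_sylow R] at h2
        exact h2.2
      · intro hx; exact Subgroup.le_normalizer hx
    have h3 : Nat.card (MulAction.orbit (P : Subgroup G) R) = ((R : Subgroup G).subgroupOf (P : Subgroup G)).index := by
      rw [← hstab, MulAction.index_stabilizer]; rfl
    rw [h3]
    obtain ⟨n, hn⟩ := IsPGroup.iff_card.1 P.isPGroup'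
    have h4 : ((R : Subgroup G).subgroupOf (P : Subgroup G)).index ∣ p ^ n := by
      rw [← hn]; exact Subgroup.index_dvd_card _
    obtain ⟨j, -, hj⟩ := (Nat.dvd_prime_pow Fact.out).1 h4
    rw [hj] at h1 ⊢
    have h5 : k - 1 < j := (Nat.pow_lt_pow_iff_right (Fact.out : p.Prime).one_lt).1 h1
    exact pow_dvd_pow p (by omega)

end Cfsg.Agent.S0985
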