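import Mathlib
import Cfsg.Agent.H7.Syl
import Cfsg.Statements.S0986

set_option autoImplicit false
open Cfsg

namespace Cfsg.Agent.S0986

/-- Let P and Q be distinct Sylow p-subgroups of a finite group G chosen so that the order of P ∩ Q is as large as possible among intersections of two distinct Sylow p-subgroups, and let N be the normalizer of P ∩ Q. Then N has more than one Sylow p-subgroup, any two distinct Sylow p-subgroups of N intersect exactly in P ∩ Q, and each Sylow p-subgroup of N lies in exactly one Sylow p-subgroup of G. -/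
theorem result {G : Type*} [Group G] [Finite G] (p : ℕ) [Fact p.Prime] (P Q : Sylow p G) (hPQ : P ≠ Q) (hmax : ∀ P' Q' : Sylow p G, P' ≠ Q' → Nat.card ↥((P' : Subgroup G) ⊓ (Q' : Subgroup G)) ≤ Nat.card ↥((P : Subgroup G) ⊓ (Q : Subgroup G))) : 1 < Nat.card (Sylow p ↥(Subgroup.normalizer (((P : Subgroup G) ⊓ (Q : Subgroup G) : Subgroup G) : Set G))) ∧ (∀ S T : Sylow p ↥(Subgroup.normalizer (((P : Subgroup G) ⊓ (Q : Subgroup G) : Subgroup G) : Set G)), S ≠ T → (S : Subgroup _) ⊓ (T : Subgroup _) = ((P : Subgroup G) ⊓ (Q : Subgroup G)).subgroupOf (Subgroup.normalizer (((P : Subgroup G) ⊓ (Q : Subgroup G) : Subgroup G) : Set G))) ∧ ∀ S : Sylow p ↥(Subgroup.normalizer (((P : Subgroup G) ⊓ (Q : Subgroup G) : Subgroup G) : Set G)), ∃! T : Sylow p G, (S : Subgroup _).map (Subgroup.normalizer (((P : Subgroup G) ⊓ (Q : Subgroup G) : Subgroup G) : Set G)).subtype ≤ (T : Subgroup G) := by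
  classical
  set D : Subgroup G := (P : Subgroup G) ⊓ (Q : Subgroup G) with hD
  set N := Subgroup.normalizer (D : Set G) with hN
  have hDp : IsPGroup p D := P.isPGroup'.to_le inf_le_left
  have hPne : (P : Subgroup G) ≠ (Q : Subgroup G) := fun h => hPQ (Sylow.ext h)
  have hDP : D < P := by
    refine lt_of_le_of_ne inf_le_left ?_
    intro h
    have h1 : (P : Subgroup G) ≤ Q := inf_eq_left.1 h
    exact hPne (P.3 Q.isPGroup' h1).symm
  have hDQ : D < Q := by
    refine lt_of_le_of_ne inf_le_right ?_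
    intro h
    have h1 : (Q : Subgroup G) ≤ P := inf_eq_right.1 h
    exact hPne (Q.3 P.isPGroup' h1)
  have hPN := CfsgH7.lt_inf_normalizer P.isPGroup' hDP
  have hQN := CfsgH7.lt_inf_normalizer Q.isPGroup' hDQ
  rw [← hN] at hPN hQN
  have hlt : ∀ A B : Subgroup G, A < B → Nat.card A < Nat.card B := by
    intro A B h
    by_contra hc
    push Not at hc
    exact h.ne (Subgroup.eq_of_le_of_card_ge h.le hc)
  -- a subgroup of two Sylow groups of order > |D|
  have key : ∀ (A : Subgroup G) (T₁ T₂ : Sylow p G), Nat.card D < Nat.card A → A ≤ T₁ → A ≤ T₂ → T₁ = T₂ := by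
    intro A T₁ T₂ hA h1 h2
    by_contra hne
    have h3 := hmax T₁ T₂ hne
    have h4 := Subgroup.card_le_of_le (le_inf h1 h2)
    omega
  have hext : ∀ A : Subgroup G, IsPGroup p A → ∃ T : Sylow p G, A ≤ T := fun A hA => hA.exists_le_sylow
  -- Sylow subgroups of N
  have hbig : ∀ S : Sylow p N, Nat.card D < Nat.card ((S : Subgroup N).map N.subtype) := by
    intro S
    have h1 := hlt _ _ hPN
    have h2 : Nat.card ↥((P : Subgroup G) ⊓ N) ≤ Nat.card ((S : Subgroup N).map N.subtype) := by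
      obtain ⟨T, hT, hTs⟩ := CfsgH7.exists_isSyl_ge (P.isPGroup'.to_le inf_le_left : IsPGroup p ↥((P : Subgroup G) ⊓ N)) (inf_le_right : (P : Subgroup G) ⊓ N ≤ N)
      rw [(CfsgH7.isSyl_map_subtype S).card_eq hTs]
      exact Subgroup.card_le_of_le hT
    omega
  have hSp : ∀ S : Sylow p N, IsPGroup p ((S : Subgroup N).map N.subtype) := fun S => S.isPGroup'.map _
  have huniq : ∀ S : Sylow p N, ∃! T : Sylow p G, (S : Subgroup N).map N.subtype ≤ (T : Subgroup G) := by
    intro S
    obtain ⟨T, hT⟩ := hext _ (hSp S)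
    exact ⟨T, hT, fun T' hT' => key _ _ _ (hbig S) hT' hT⟩
  refine ⟨?_, ?_, huniq⟩
  · by_contra hle
    have h0 : Nat.card (Sylow p N) ≠ 0 := Nat.card_pos.ne'
    have h1 : Nat.card (Sylow p N) = 1 := by omega
    haveI : Subsingleton (Sylow p N) := (Nat.card_eq_one_iff_unique.1 h1).1
    obtain ⟨S⟩ : Nonempty (Sylow p N) := inferInstance
    have hsub : ∀ A : Subgroup G, A ≤ N → IsPGroup p A → A ≤ (S : Subgroup N).map N.subtype := by
      intro A hAN hA
      obtain ⟨S', hS'⟩ := (hA.of_equiv (Subgroup.subgroupOfEquivOfLe hAN).symm : IsPGroup p (A.subgroupOf N)).exists_le_sylow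
      rw [Subsingleton.elim S' S] at hS'
      intro a ha
      exact ⟨⟨a, hAN ha⟩, hS' ha, rfl⟩
    obtain ⟨T, hT, -⟩ := huniq S
    have h2 := hsub _ inf_le_right (P.isPGroup'.to_le inf_le_left : IsPGroup p ↥((P : Subgroup G) ⊓ N))
    have h3 := hsub _ inf_le_right (Q.isPGroup'.to_le inf_le_left : IsPGroup p ↥((Q : Subgroup G) ⊓ N))
    have h4 := key _ T P (hlt _ _ hPN) (h2.trans hT) inf_le_left
    have h5 := key _ T Q (hlt _ _ hQN) (h3.trans hT) inf_le_left
    exact hPQ (h4.symm.trans h5)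
  · intro S T hST
    obtain ⟨S₁, hS₁, -⟩ := huniq S
    obtain ⟨T₁, hT₁, -⟩ := huniq T
    have hne : S₁ ≠ T₁ := by
      intro h
      subst h
      apply hST
      have h1 : IsPGroup p ((S₁ : Subgroup G).subgroupOf N) :=
        S₁.isPGroup'.comap_of_injective _ (Subgroup.subtype_injective _)
      have h2 : (S : Subgroup N) ≤ (S₁ : Subgroup G).subgroupOf N := by
        rw [Subgroup.subgroupOf, ← Subgroup.map_le_iff_le_comap]; exact hS₁
      have h3 : (T : Subgroup N) ≤ (S₁ : Subgroup G).subgroupOf N := by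
        rw [Subgroup.subgroupOf, ← Subgroup.map_le_iff_le_comap]; exact hT₁
      apply Sylow.ext
      rw [← S.3 h1 h2, ← T.3 h1 h3]
    have hDN : D ≤ N := Subgroup.le_normalizer
    have hDS : ∀ S : Sylow p N, D.subgroupOf N ≤ S := by
      intro S
      haveI : (D.subgroupOf N).Normal := Subgroup.normal_in_normalizer
      have h1 : IsPGroup p (D.subgroupOf N) := hDp.comap_of_injective _ (Subgroup.subtype_injective _)
      obtain ⟨S', hS'⟩ := h1.exists_le_sylow
      obtain ⟨g, hg⟩ := MulAction.exists_smul_eq N S' S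
      rw [← hg]
      intro x hx
      rw [Sylow.coe_subgroup_smul, Subgroup.mem_pointwise_smul_iff_inv_smul_mem]
      apply hS'
      have := (inferInstance : (D.subgroupOf N).Normal).conj_mem x hx g⁻¹
      rw [inv_inv] at this
      simpa [MulAut.smul_def] using this
    apply le_antisymm
    · have h1 := hmax S₁ T₁ hne
      have h2 : D ≤ (S₁ : Subgroup G) ⊓ T₁ := by
        refine le_inf ?_ ?_
        · intro x hx
          exact hS₁ ⟨⟨x, hDN hx⟩, hDS S hx, rfl⟩
        · intro x hx
          exact hT₁ ⟨⟨x, hDN hx⟩, hDS T hx, rfl⟩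
      have h3 := Subgroup.eq_of_le_of_card_ge h2 h1
      intro x hx
      rw [Subgroup.mem_subgroupOf, h3]
      exact ⟨hS₁ ⟨x, hx.1, rfl⟩, hT₁ ⟨x, hx.2, rfl⟩⟩
    · exact le_inf (hDS S) (hDS T)

end Cfsg.Agent.S0986
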