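import Mathlib
import Cfsg.Agent.H3.Simp
import Cfsg.Statements.S0987

set_option autoImplicit false
open Cfsg

namespace Cfsg.Agent.S0987

/-- If a finite group has order pqr for primes p < q < r, then its Sylow r-subgroups are normal. -/
theorem result {G : Type*} [Group G] [Finite G] (p q r : ℕ) (hp : p.Prime) (hq : q.Prime) [Fact r.Prime] (hpq : p < q) (hqr : q < r) (hG : Nat.card G = p * q * r) (R : Sylow r G) : (R : Subgroup G).Normal := by
  haveI : Fact p.Prime := ⟨hp⟩
  have hr : r.Prime := Fact.out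
  -- normal p-complement
  have hpr : p < r := hpq.trans hqr
  have hnd : ¬ p ∣ q * r := by
    intro h
    rcases hp.dvd_mul.1 h with h | h
    · exact hpq.ne ((Nat.prime_dvd_prime_iff_eq hp hq).1 h)
    · exact hpr.ne ((Nat.prime_dvd_prime_iff_eq hp hr).1 h)
  have hG1 : Nat.card G = p ^ 1 * (q * r) := by rw [hG, pow_one, mul_assoc]
  obtain ⟨P⟩ : Nonempty (Sylow p G) := inferInstance
  have hPc : Nat.card P = p := by rw [CfsgH3.Simp.card_syl hG1 hnd P, pow_one]
  have hmin : (Nat.card G).minFac = p := by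
    apply le_antisymm
    · exact Nat.minFac_le_of_dvd hp.two_le (by rw [hG1, pow_one]; exact Dvd.intro _ rfl)
    · have hs : (Nat.card G).minFac.Prime := Nat.minFac_prime (by
        intro h1
        rw [hG] at h1
        exact hp.one_lt.ne' (Nat.eq_one_of_mul_eq_one_right (Nat.eq_one_of_mul_eq_one_right h1)))
      have hsd := Nat.minFac_dvd (Nat.card G)
      nth_rewrite 2 [hG] at hsd
      rcases hs.dvd_mul.1 hsd with h | h
      · rcases hs.dvd_mul.1 h with h | h
        · exact ((Nat.prime_dvd_prime_iff_eq hs hp).1 h).ge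
        · rw [(Nat.prime_dvd_prime_iff_eq hs hq).1 h]; exact hpq.le
      · rw [(Nat.prime_dvd_prime_iff_eq hs hr).1 h]; exact hpr.le
  have hnpc : CfsgH3.HasNPC p G := by
    apply CfsgH3.hasNPC_burnside P
    exact IsCyclic.normalizer_le_centralizer hmin (isCyclic_of_prime_card hPc)
  obtain ⟨N, hN, hNc, k, hk⟩ := hnpc
  have hcard := Subgroup.card_mul_index N
  rw [hk, hG1] at hcard
  have hNcard : Nat.card N = q * r := by
    have h1 : Nat.card N ∣ q * r := by
      have : Nat.card N ∣ p ^ 1 * (q * r) := by rw [← hcard]; exact Dvd.intro _ rfl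
      exact Nat.Coprime.dvd_of_dvd_mul_left (hNc.pow_right 1) this
    have h2 : q * r ∣ Nat.card N := by
      have : q * r ∣ Nat.card N * p ^ k := by rw [hcard]; exact Dvd.intro_left _ rfl
      exact Nat.Coprime.dvd_of_dvd_mul_right (Nat.Coprime.pow_right _ ((hp.coprime_iff_not_dvd.2 hnd).symm)) this
    exact Nat.dvd_antisymm h1 h2
  -- R ≤ N
  have hRN : (R : Subgroup G) ≤ N := by
    intro x hx
    obtain ⟨j, hj⟩ := R.isPGroup' ⟨x, hx⟩
    have hj' : x ^ r ^ j = 1 := by simpa using congrArg Subtype.val hj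
    have h1 : orderOf (x : G ⧸ N) ∣ r ^ j := by
      apply orderOf_dvd_of_pow_eq_one
      rw [← QuotientGroup.mk_pow, hj']; rfl
    have h2 : orderOf (x : G ⧸ N) ∣ p ^ k := by
      rw [← hk]; exact orderOf_dvd_natCard _
    have h3 : orderOf (x : G ⧸ N) = 1 :=
      Nat.eq_one_of_dvd_coprimes (Nat.Coprime.pow _ _ ((Nat.coprime_primes hr hp).2 hpr.ne')) h1 h2
    exact (QuotientGroup.eq_one_iff x).1 (orderOf_eq_one_iff.1 h3)
  have hrq : ¬ r ∣ q := fun h => hqr.ne ((Nat.prime_dvd_prime_iff_eq hr hq).1 h).symm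
  have h1 : Nat.card (Sylow r N) ∣ q := CfsgH3.Simp.syl_dvd (a := 1) (by rw [hNcard, pow_one, mul_comm]) hrq
  have h2 : Nat.card (Sylow r N) % r = 1 := CfsgH3.Simp.syl_mod
  have h3 : Nat.card (Sylow r N) = 1 := by
    have h4 := Nat.le_of_dvd hq.pos h1
    rwa [Nat.mod_eq_of_lt (by omega)] at h2
  haveI : Subsingleton (Sylow r N) := (Nat.card_eq_one_iff_unique.1 h3).1
  have h4 : ((R.subtype hRN : Sylow r N) : Subgroup N).Normal := Sylow.normal_of_subsingleton _
  haveI h5 : ((R.subtype hRN : Sylow r N) : Subgroup N).Characteristic := Sylow.characteristic_of_normal _ h4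
  have h6 : (((R.subtype hRN : Sylow r N) : Subgroup N).map N.subtype).Normal := ConjAct.normal_of_characteristic_of_normal
  have h7 : ((R.subtype hRN : Sylow r N) : Subgroup N).map N.subtype = R := by
    rw [Sylow.coe_subtype]
    exact Subgroup.map_subgroupOf_eq_of_le hRN
  rw [h7] at h6
  exact h6

end Cfsg.Agent.S0987
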