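import Mathlib
import Cfsg.Statements.S0990

set_option autoImplicit false
open Cfsg

namespace Cfsg.Agent.S0990

theorem le_alt {α : Type*} [Fintype α] [DecidableEq α] {p : ℕ} [Fact p.Prime] (hp : p ≠ 2) (P : Sylow p (Equiv.Perm α)) :
    (P : Subgroup (Equiv.Perm α)) ≤ alternatingGroup α := by
  intro g hg
  rw [Equiv.Perm.mem_alternatingGroup]
  obtain ⟨k, hk⟩ := P.isPGroup' ⟨g, hg⟩
  have hk' : g ^ p ^ k = 1 := by simpa using congrArg Subtype.val hk
  have h1 : (Equiv.Perm.sign g) ^ p ^ k = 1 := by rw [← map_pow, hk', map_one]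
  have hodd : Odd (p ^ k) := ((Fact.out : p.Prime).odd_of_ne_two hp).pow
  rcases Int.units_eq_one_or (Equiv.Perm.sign g) with h | h
  · exact h
  · rw [h, hodd.neg_one_pow] at h1
    exact absurd h1 (by decide)

theorem main {α : Type*} [Fintype α] [DecidableEq α] (hα : 2 ≤ Fintype.card α) {p : ℕ} [Fact p.Prime] (hp : p ≠ 2) (P : Sylow p (Equiv.Perm α)) : 2 * Nat.card ↥(Subgroup.normalizer ((((P : Subgroup (Equiv.Perm α)).subgroupOf (alternatingGroup α) : Subgroup ↥(alternatingGroup α)) : Set ↥(alternatingGroup α)))) = Nat.card ↥(Subgroup.normalizer ((P : Subgroup (Equiv.Perm α)) : Set (Equiv.Perm α))) := by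
  have hle := le_alt hp P
  haveI : Nontrivial α := Fintype.one_lt_card_iff_nontrivial.1 (by omega)
  set A := alternatingGroup α with hA
  set N := Subgroup.normalizer ((P : Subgroup (Equiv.Perm α)) : Set (Equiv.Perm α)) with hN
  have h1 : Subgroup.normalizer ((((P : Subgroup (Equiv.Perm α)).subgroupOf A : Subgroup ↥A) : Set ↥A)) = N.subgroupOf A := by
    rw [hN]
    exact (Subgroup.subgroupOf_normalizer_eq hle).symm
  have h2 : N ⊔ A = ⊤ := by
    have h3 := Sylow.normalizer_sup_eq_top (P.subtype hle : Sylow p A)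
    have h4 : ((P.subtype hle : Sylow p A) : Subgroup A).map A.subtype = P := by
      rw [Sylow.coe_subtype]
      exact Subgroup.map_subgroupOf_eq_of_le hle
    rw [h4] at h3
    exact h3
  have h3 : A.relIndex N = 2 := by
    rw [← Subgroup.relIndex_sup_left, sup_comm, h2, Subgroup.relIndex_top_right]
    exact alternatingGroup.index_eq_two
  rw [h1]
  have h4 : Nat.card (N.subgroupOf A) = Nat.card (A.subgroupOf N) := by
    exact Nat.card_congr ⟨fun x => ⟨⟨x.1.1, x.2⟩, x.1.2⟩, fun x => ⟨⟨x.1.1, x.2⟩, x.1.2⟩, fun _ => rfl, fun _ => rfl⟩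
  have h5 := Subgroup.card_mul_index (A.subgroupOf N)
  have h6 : (A.subgroupOf N).index = 2 := h3
  rw [h6] at h5
  rw [h4, mul_comm]; exact h5

/-- Let p be an odd prime and P a Sylow p-subgroup of the symmetric group on a finite set with at least two elements. Then P is contained in the alternating group, and twice the order of the normalizer of P inside the alternating group equals the order of the normalizer of P in the symmetric group. -/
theorem result {α : Type*} [Fintype α] [DecidableEq α] (hα : 2 ≤ Fintype.card α) (p : ℕ) [Fact p.Prime] (hp : p ≠ 2) (P : Sylow p (Equiv.Perm α)) : (P : Subgroup (Equiv.Perm α)) ≤ alternatingGroup α ∧ 2 * Nat.card ↥(Subgroup.normalizer ((((P : Subgroup (Equiv.Perm α)).subgroupOf (alternatingGroup α) : Subgroup ↥(alternatingGroup α)) : Set ↥(alternatingGroup α)))) = Nat.card ↥(Subgroup.normalizer ((P : Subgroup (Equiv.Perm α)) : Set (Equiv.Perm α))) := by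
  exact ⟨le_alt hp P, main hα hp P⟩

end Cfsg.Agent.S0990
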