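import Mathlib
import Cfsg.Agent.H3.Simp
import Cfsg.Agent.H3.SmallAct
import Cfsg.Statements.S0992

set_option autoImplicit false
open Cfsg

namespace Cfsg.Agent.S0992

theorem aux (r : ℕ) (h : r ∣ 6) (h2 : ¬ 2 ∣ r) (h1 : r ≠ 1) : r = 3 := by
  have := Nat.le_of_dvd (by norm_num) h
  interval_cases r <;> omega

/-- Let G be a non-abelian finite simple group of even order not divisible by 8, and T a Sylow 2-subgroup. Then T is a Klein four-group and the centralizer of T has index 3 in the normalizer of T. -/
theorem result {G : Type*} [Group G] [Finite G] [IsSimpleGroup G] (hG : ¬ IsMulCommutative G) (h2 : Even (Nat.card G)) (h8 : ¬ 8 ∣ Nat.card G) (T : Sylow 2 G) : IsKleinFour ↥(T : Subgroup G) ∧ (Subgroup.centralizer ((T : Subgroup G) : Set G)).relIndex (Subgroup.normalizer ((T : Subgroup G) : Set G)) = 3 := by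
  classical
  have hd : 2 ∣ Nat.card G := h2.two_dvd
  obtain ⟨n, hn⟩ := IsPGroup.iff_card.1 T.isPGroup'
  have hTd : Nat.card T ∣ Nat.card G := Subgroup.card_subgroup_dvd_card _
  have hn2 : n ≤ 2 := by
    by_contra hc
    apply h8
    have : (8 : ℕ) ∣ 2 ^ n := by
      have := pow_dvd_pow 2 (show 3 ≤ n by omega)
      simpa using this
    exact this.trans (hn ▸ hTd)
  have hcyc : ¬ IsCyclic T := by
    intro hc
    apply CfsgH3.Simp.not_npc hG hd
    apply CfsgH3.hasNPC_burnside T
    exact IsCyclic.normalizer_le_centralizer ((Nat.minFac_eq_two_iff _).2 hd) hc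
  have hn' : n = 2 := by
    rcases (by omega : n = 0 ∨ n = 1 ∨ n = 2) with h | h | h
    · exfalso; apply hcyc
      subst h
      rw [pow_zero] at hn
      haveI : Subsingleton T := (Nat.card_eq_one_iff_unique.1 hn).1
      infer_instance
    · exfalso; apply hcyc
      subst h
      rw [pow_one] at hn
      exact isCyclic_of_prime_card hn
    · exact h
  subst hn'
  have h4 : Nat.card T = 4 := by rw [hn]; norm_num
  have hK : IsKleinFour (T : Subgroup G) := by
    refine ⟨h4, ?_⟩
    apply Nat.dvd_antisymm
    · apply Monoid.exponent_dvd_of_forall_pow_eq_one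
      intro x
      have h5 : orderOf x ∣ 4 := by rw [← h4]; exact orderOf_dvd_natCard x
      have h6 : orderOf x ≠ 4 := by
        intro h
        exact hcyc (isCyclic_of_orderOf_eq_card x (h.trans h4.symm))
      have h7 : orderOf x ∣ 2 := by
        have h8 : orderOf x ≤ 4 := Nat.le_of_dvd (by norm_num) h5
        interval_cases h9 : orderOf x <;> simp_all
      exact orderOf_dvd_iff_pow_eq_one.1 h7
    · obtain ⟨x, hx⟩ := exists_prime_orderOf_dvd_card' (G := T) 2 (by rw [h4]; norm_num)
      have h10 := Monoid.order_dvd_exponent x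
      rwa [hx] at h10
  refine ⟨hK, ?_⟩
  have key := Subgroup.card_dvd_of_injective _ (QuotientGroup.kerLift_injective (T : Subgroup G).normalizerMonoidHom)
  rw [Subgroup.normalizerMonoidHom_ker, ← Subgroup.index, ← Subgroup.relIndex] at key
  have h6 := key.trans (CfsgH3.card_mulAut_klein (T : Subgroup G) hK)
  have hTC : (T : Subgroup G) ≤ Subgroup.centralizer ((T : Subgroup G) : Set G) := by
    intro a ha
    rw [Subgroup.mem_centralizer_iff]
    intro b hb
    haveI := hK.isMulCommutative
    have := mul_comm' (⟨b, hb⟩ : (T : Subgroup G)) ⟨a, ha⟩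
    exact congrArg Subtype.val this
  have hodd : ¬ 2 ∣ (Subgroup.centralizer ((T : Subgroup G) : Set G)).relIndex (Subgroup.normalizer ((T : Subgroup G) : Set G)) := by
    intro hc
    apply T.not_dvd_index
    refine hc.trans ?_
    have h8 := Subgroup.relIndex_mul_index (Subgroup.le_normalizer : (T : Subgroup G) ≤ Subgroup.normalizer ((T : Subgroup G) : Set G))
    rw [← h8]
    exact (Subgroup.relIndex_dvd_of_le_left _ hTC).trans (Dvd.intro _ rfl)
  have hne1 : (Subgroup.centralizer ((T : Subgroup G) : Set G)).relIndex (Subgroup.normalizer ((T : Subgroup G) : Set G)) ≠ 1 := by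
    intro h1
    rw [Subgroup.relIndex_eq_one] at h1
    exact CfsgH3.Simp.not_npc hG hd (CfsgH3.hasNPC_burnside T h1)
  exact aux _ h6 hodd hne1

end Cfsg.Agent.S0992
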