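import Mathlib
import Cfsg.Agent.H3.Simp
import Cfsg.Statements.S0995

set_option autoImplicit false
open Cfsg

namespace Cfsg.Agent.S0995

/-- Let G be a finite perfect group containing an element z of prime order p whose centralizer is the cyclic group it generates. Let t be the number of conjugacy classes of elements of order p. Then t divides p - 1, the number of Sylow p-subgroups has the form 1 + n * p, and |G| * t = (p - 1) * p * (1 + n * p). -/
theorem result {G : Type*} [Group G] [Finite G] (hperf : commutator G = ⊤) (p : ℕ) [Fact p.Prime] (z : G) (hz : orderOf z = p) (hC : Subgroup.centralizer ({z} : Set G) = Subgroup.zpowers z) : ∃ n t : ℕ, t = Nat.card {c : ConjClasses G // ∃ g : G, ConjClasses.mk g = c ∧ orderOf g = p} ∧ t ∣ p - 1 ∧ Nat.card (Sylow p G) = 1 + n * p ∧ Nat.card G * t = (p - 1) * p * (1 + n * p) := by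
  classical
  obtain ⟨P, hP⟩ := (IsPGroup.of_card (n := 1) (by rw [Nat.card_zpowers, hz, pow_one]) : IsPGroup p (Subgroup.zpowers z)).exists_le_sylow
  -- ⟨z⟩ is Sylow
  have hPz : (P : Subgroup G) = Subgroup.zpowers z := by
    have hnt : Nontrivial P := by
      rw [Subgroup.nontrivial_iff_exists_ne_one]
      exact ⟨z, hP (Subgroup.mem_zpowers z), fun h => by rw [h, orderOf_one] at hz; exact (Fact.out : p.Prime).one_lt.ne hz⟩
    have h1 : Subgroup.zpowers z ≤ (P : Subgroup G) := hP
    -- centre of P lies in C(z) = ⟨z⟩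
    have h2 : Nontrivial (Subgroup.center P) := P.isPGroup'.center_nontrivial
    obtain ⟨c, hc, hc1⟩ := (Subgroup.nontrivial_iff_exists_ne_one _).1 h2
    have h3 : (c : G) ∈ Subgroup.zpowers z := by
      rw [← hC, Subgroup.mem_centralizer_singleton_iff]
      have := Subgroup.mem_center_iff.1 hc ⟨z, hP (Subgroup.mem_zpowers z)⟩
      exact (congrArg Subtype.val this).symm
    have h4 : Subgroup.zpowers (c : G) = Subgroup.zpowers z := by
      apply Subgroup.eq_of_le_of_card_ge (Subgroup.zpowers_le.2 h3)
      rw [Nat.card_zpowers, Nat.card_zpowers, hz]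
      have h5 : orderOf (c : G) ∣ p :=
        (Subgroup.orderOf_dvd_natCard _ h3).trans (by rw [Nat.card_zpowers, hz])
      rcases (Nat.dvd_prime Fact.out).1 h5 with h6 | h6
      · exact absurd (Subtype.ext (orderOf_eq_one_iff.1 h6)) hc1
      · exact h6.ge
    apply le_antisymm _ h1
    intro x hx
    rw [← hC, Subgroup.mem_centralizer_singleton_iff]
    have h6 : z ∈ Subgroup.zpowers (c : G) := by rw [h4]; exact Subgroup.mem_zpowers z
    obtain ⟨n, hn⟩ := Subgroup.mem_zpowers_iff.1 h6
    have h7 : Commute x (c : G) := congrArg Subtype.val (Subgroup.mem_center_iff.1 hc ⟨x, hx⟩)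
    rw [← hn]
    exact (h7.zpow_right n).eq
  have hPc : Nat.card P = p := by
    have h := congrArg (fun H : Subgroup G => Nat.card H) hPz
    rw [show Nat.card P = Nat.card (Subgroup.zpowers z) from h, Nat.card_zpowers, hz]
  -- centralizers of elements of order p
  have hcent : ∀ g : G, orderOf g = p → Nat.card (Subgroup.centralizer ({g} : Set G)) = p := by
    intro g hg
    obtain ⟨Q, hQ⟩ := (IsPGroup.of_card (n := 1) (by rw [Nat.card_zpowers, hg, pow_one]) : IsPGroup p (Subgroup.zpowers g)).exists_le_sylow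
    obtain ⟨x, hx⟩ := MulAction.exists_smul_eq G P Q
    have h1 : g ∈ (Q : Subgroup G) := hQ (Subgroup.mem_zpowers g)
    rw [← hx, Sylow.coe_subgroup_smul, Subgroup.mem_pointwise_smul_iff_inv_smul_mem] at h1
    have h2 : x⁻¹ * g * x ∈ Subgroup.zpowers z := by
      rw [← hPz]
      simpa [MulAut.smul_def] using h1
    set g' := x⁻¹ * g * x with hg'
    have hog : orderOf g' = p := by
      have e : g' = MulAut.conj x⁻¹ g := by simp [hg']
      rw [e, MulEquiv.orderOf_eq, hg]
    have h3 : Subgroup.zpowers g' = Subgroup.zpowers z := by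
      apply Subgroup.eq_of_le_of_card_ge (Subgroup.zpowers_le.2 h2)
      rw [Nat.card_zpowers, Nat.card_zpowers, hz, hog]
    have h4 : Subgroup.centralizer ({g'} : Set G) = Subgroup.zpowers z := by
      rw [← hC]
      ext y
      rw [Subgroup.mem_centralizer_singleton_iff, Subgroup.mem_centralizer_singleton_iff]
      constructor
      · intro h
        have h5 : z ∈ Subgroup.zpowers g' := by rw [h3]; exact Subgroup.mem_zpowers z
        obtain ⟨n, hn⟩ := Subgroup.mem_zpowers_iff.1 h5
        rw [← hn]
        exact ((show Commute y g' from h).zpow_right n).eq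
      · intro h
        obtain ⟨n, hn⟩ := Subgroup.mem_zpowers_iff.1 h2
        rw [← hn]
        exact ((show Commute y z from h).zpow_right n).eq
    have h5 : Subgroup.centralizer ({g} : Set G) = CfsgH7.cj x (Subgroup.centralizer ({g'} : Set G)) := by
      ext y
      rw [CfsgH7.mem_cj, Subgroup.mem_centralizer_singleton_iff, Subgroup.mem_centralizer_singleton_iff, hg']
      constructor
      · intro h
        calc x⁻¹ * y * x * (x⁻¹ * g * x) = x⁻¹ * (y * g) * x := by group
          _ = x⁻¹ * (g * y) * x := by rw [h]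
          _ = _ := by group
      · intro h
        calc y * g = x * (x⁻¹ * y * x * (x⁻¹ * g * x)) * x⁻¹ := by group
          _ = x * (x⁻¹ * g * x * (x⁻¹ * y * x)) * x⁻¹ := by rw [h]
          _ = _ := by group
    rw [h5, CfsgH7.card_cj, h4, Nat.card_zpowers, hz]
  set t := Nat.card {c : ConjClasses G // ∃ g : G, ConjClasses.mk g = c ∧ orderOf g = p} with ht
  have hord : ∀ g h : G, IsConj g h → orderOf g = orderOf h := by
    intro g h hgh
    obtain ⟨c, hc⟩ := isConj_iff.1 hgh
    rw [← hc]
    exact (MulEquiv.orderOf_eq (MulAut.conj c) g).symm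
  have hclass : Nat.card {g : G // orderOf g = p} * p = t * Nat.card G := by
    let e : {g : G // orderOf g = p} ≃ Σ c : {c : ConjClasses G // ∃ g : G, ConjClasses.mk g = c ∧ orderOf g = p}, {g : G // ConjClasses.mk g = c.1} :=
      { toFun := fun g => ⟨⟨ConjClasses.mk g.1, g.1, rfl, g.2⟩, ⟨g.1, rfl⟩⟩
        invFun := fun x => ⟨x.2.1, by
          obtain ⟨⟨c, g, hg, ho⟩, ⟨y, hy⟩⟩ := x
          have h1 : IsConj g y := ConjClasses.mk_eq_mk_iff_isConj.1 (hg.trans hy.symm)
          exact (hord _ _ h1).symm.trans ho⟩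
        left_inv := fun g => rfl
        right_inv := by
          rintro ⟨⟨c, hcc⟩, ⟨y, hy⟩⟩
          obtain rfl : ConjClasses.mk y = c := hy
          rfl }
    haveI := Fintype.ofFinite {c : ConjClasses G // ∃ g : G, ConjClasses.mk g = c ∧ orderOf g = p}
    rw [Nat.card_congr e, Nat.card_sigma, Finset.sum_mul]
    have h5 : ∀ c : {c : ConjClasses G // ∃ g : G, ConjClasses.mk g = c ∧ orderOf g = p}, Nat.card {g : G // ConjClasses.mk g = c.1} * p = Nat.card G := by
      rintro ⟨c, g, rfl, ho⟩
      have h7 := CfsgH3.Simp.card_class_mul' g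
      rw [hcent g ho] at h7
      exact h7
    rw [Finset.sum_congr rfl (fun c _ => h5 c), Finset.sum_const, smul_eq_mul, Finset.card_univ, ht, ← Nat.card_eq_fintype_card]
  rw [CfsgH3.Simp.card_orderOf P hPc] at hclass
  have hnorm := CfsgH3.Simp.card_norm P
  have hmod : Nat.card (Sylow p G) ≡ 1 [MOD p] := card_sylow_modEq_one p G
  have hspos : 0 < Nat.card (Sylow p G) := Nat.card_pos
  obtain ⟨n, hn⟩ := (Nat.modEq_iff_dvd' hspos).1 hmod.symm
  have hn' : Nat.card (Sylow p G) = 1 + n * p := by rw [mul_comm]; omega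
  refine ⟨n, t, rfl, ?_, hn', ?_⟩
  · have hPN : p ∣ Nat.card (Subgroup.normalizer ((P : Subgroup G) : Set G)) := by
      have := Subgroup.card_dvd_of_le (Subgroup.le_normalizer : (P : Subgroup G) ≤ _)
      exact hPc.symm.dvd.trans this
    obtain ⟨e, he⟩ := hPN
    refine ⟨e, ?_⟩
    have h1 : Nat.card (Sylow p G) * p * (p - 1) = Nat.card (Sylow p G) * p * (t * e) := by
      calc Nat.card (Sylow p G) * p * (p - 1) = Nat.card (Sylow p G) * (p - 1) * p := by ring
        _ = t * Nat.card G := hclass
        _ = t * (Nat.card (Sylow p G) * (p * e)) := by rw [← hnorm, he]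
        _ = _ := by ring
    exact Nat.eq_of_mul_eq_mul_left (Nat.mul_pos hspos (Fact.out : p.Prime).pos) h1
  · rw [mul_comm, ← hclass, ← hn']; ring

end Cfsg.Agent.S0995
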