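import Mathlib
import Cfsg.Agent.H3.S168
import Cfsg.Statements.S1006

set_option autoImplicit false
open Cfsg

namespace Cfsg.Agent.S1006

/-- In a simple group of order 168 there are 56 elements of order 3, all conjugate; 42 elements of order 4, all conjugate; and 48 elements of order 7 falling into two conjugacy classes of size 24, an element of order 7 not being conjugate to its inverse. -/
theorem result {G : Type*} [Group G] [Finite G] [IsSimpleGroup G] (h : Nat.card G = 168) : Nat.card {g : G // orderOf g = 3} = 56 ∧ (∀ s t : G, orderOf s = 3 → orderOf t = 3 → IsConj s t) ∧ Nat.card {g : G // orderOf g = 4} = 42 ∧ (∀ s t : G, orderOf s = 4 → orderOf t = 4 → IsConj s t) ∧ Nat.card {g : G // orderOf g = 7} = 48 ∧ ∀ x : G, orderOf x = 7 → Nat.card {g : G // IsConj x g} = 24 ∧ ¬ IsConj x x⁻¹ := by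
  haveI : Fact (Nat.Prime 3) := ⟨by norm_num⟩
  haveI : Fact (Nat.Prime 7) := ⟨by norm_num⟩
  refine ⟨CfsgH3.K168.e3 h, ?_, CfsgH3.K168.e4 h, ?_, CfsgH3.K168.e7 h, ?_⟩
  · intro s t hs ht
    have h1 := CfsgH3.Simp.card_class_mul' s
    rw [CfsgH3.K168.cent3 h hs, Nat.card_zpowers, hs, h] at h1
    exact CfsgH3.K168.class_all h hs (by rw [CfsgH3.K168.e3 h]; omega) ht
  · intro s t hs ht
    obtain ⟨T, hT⟩ := CfsgH3.K168.mem_syl h (g := s) (by rw [hs]; norm_num)
    have h2 := CfsgH3.K168.T_of_order4 h T hT hs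
    -- C(s) ≤ C(s^2) = T, C(s) ≠ T
    have h3 : Subgroup.centralizer ({s} : Set G) ≤ T := by
      rw [← h2]
      intro y hy
      rw [Subgroup.mem_centralizer_singleton_iff] at hy ⊢
      exact ((show Commute y s from hy).pow_right 2).eq
    have h4 : Nat.card (Subgroup.centralizer ({s} : Set G)) ∣ 8 := by
      rw [← CfsgH3.K168.c2 h T]; exact Subgroup.card_dvd_of_le h3
    have h5 : Nat.card (Subgroup.centralizer ({s} : Set G)) ≠ 8 := by
      intro h6
      have h7 : Subgroup.centralizer ({s} : Set G) = T := Subgroup.eq_of_le_of_card_ge h3 (by rw [h6, CfsgH3.K168.c2 h T])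
      have h8 : ∀ t ∈ (T : Subgroup G), t * s = s * t := by
        intro t ht
        rw [← h7, Subgroup.mem_centralizer_singleton_iff] at ht
        exact ht
      have h9 := (CfsgH3.K168.cent_central h T hT (fun h10 => by rw [h10, orderOf_one] at hs; omega) h8).2
      omega
    have h6 : 4 ∣ Nat.card (Subgroup.centralizer ({s} : Set G)) := by
      have h7 : s ∈ Subgroup.centralizer ({s} : Set G) := by rw [Subgroup.mem_centralizer_singleton_iff]
      have h8 := Subgroup.orderOf_dvd_natCard _ h7
      rwa [hs] at h8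
    have h7 : Nat.card (Subgroup.centralizer ({s} : Set G)) = 4 := by
      have h8 := Nat.le_of_dvd (by norm_num) h4
      interval_cases Nat.card (Subgroup.centralizer ({s} : Set G)) <;> omega
    have h1 := CfsgH3.Simp.card_class_mul' s
    rw [h7, h] at h1
    exact CfsgH3.K168.class_all h hs (by rw [CfsgH3.K168.e4 h]; omega) ht
  · intro x hx
    constructor
    · have h1 := CfsgH3.Simp.card_class_mul' x
      rw [CfsgH3.K168.cent7 h hx, Nat.card_zpowers, hx, h] at h1
      have h2 : Nat.card {g : G // IsConj x g} = Nat.card {g : G // ConjClasses.mk g = ConjClasses.mk x} := by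
        apply Nat.card_congr
        exact Equiv.subtypeEquivRight fun g => by
          rw [ConjClasses.mk_eq_mk_iff_isConj]; exact isConj_comm
      rw [h2]; omega
    · intro hconj
      obtain ⟨g, hg⟩ := isConj_iff.1 hconj
      have h1 : IsPGroup 7 (Subgroup.zpowers x) := IsPGroup.of_card (n := 1) (by rw [Nat.card_zpowers, hx, pow_one])
      obtain ⟨P, hP⟩ := h1.exists_le_sylow
      have h2 : Subgroup.zpowers x = (P : Subgroup G) := by
        apply Subgroup.eq_of_le_of_card_ge hP
        rw [Nat.card_zpowers, hx]; exact (CfsgH3.K168.c7 h P).le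
      have h3 := CfsgH3.Simp.card_norm P
      rw [CfsgH3.K168.n7 h, h] at h3
      have h4 : g ∈ Subgroup.normalizer ((P : Subgroup G) : Set G) := by
        rw [← h2, CfsgH7.mem_normalizer_iff_cj]
        apply Subgroup.eq_of_le_of_card_ge _ (CfsgH7.card_cj ..).ge
        intro z hz
        rw [CfsgH7.mem_cj] at hz
        obtain ⟨n, hn⟩ := Subgroup.mem_zpowers_iff.1 hz
        have h5 : z = g * x ^ n * g⁻¹ := by rw [hn]; group
        rw [h5, ← conj_zpow, hg]
        exact Subgroup.zpow_mem _ (Subgroup.inv_mem _ (Subgroup.mem_zpowers x)) _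
      have h5 : g ^ 21 = 1 := by
        have h6 := Subgroup.orderOf_dvd_natCard _ h4
        have h7 : Nat.card (Subgroup.normalizer ((P : Subgroup G) : Set G)) = 21 := by omega
        rw [h7] at h6
        exact orderOf_dvd_iff_pow_eq_one.1 h6
      have h6 : ∀ n : ℕ, g ^ (2 * n) * x * (g ^ (2 * n))⁻¹ = x := by
        intro n
        induction n with
        | zero => simp
        | succ n ih =>
          calc g ^ (2 * (n + 1)) * x * (g ^ (2 * (n + 1)))⁻¹ = g * (g * (g ^ (2 * n) * x * (g ^ (2 * n))⁻¹) * g⁻¹) * g⁻¹ := by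
                rw [show 2 * (n + 1) = 1 + (1 + 2 * n) by ring, pow_add, pow_add]; group
            _ = g * (g * x * g⁻¹) * g⁻¹ := by rw [ih]
            _ = g * x⁻¹ * g⁻¹ := by rw [hg]
            _ = (g * x * g⁻¹)⁻¹ := by group
            _ = x := by rw [hg, inv_inv]
      have h7 : g ^ 21 * x * (g ^ 21)⁻¹ = x⁻¹ := by
        calc g ^ 21 * x * (g ^ 21)⁻¹ = g * (g ^ (2 * 10) * x * (g ^ (2 * 10))⁻¹) * g⁻¹ := by group
          _ = x⁻¹ := by rw [h6 10, hg]
      rw [h5, one_mul, inv_one, mul_one] at h7
      have h8 : x ^ 2 = 1 := by rw [pow_two]; nth_rewrite 1 [h7]; exact inv_mul_cancel x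
      have h9 := orderOf_dvd_of_pow_eq_one h8
      rw [hx] at h9; omega

end Cfsg.Agent.S1006
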