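import Mathlib
import Cfsg.Agent.H3.SylNum2
import Cfsg.Statements.S4303

set_option autoImplicit false
universe u
open Cfsg

namespace Cfsg.Agent.S4303

open Subgroup CfsgH3

theorem card_quot_lt {G : Type u} [Group G] [Finite G] {N : Subgroup G} (hN : N ≠ ⊥) : Nat.card (G ⧸ N) < Nat.card G := by
  rw [← Subgroup.card_mul_index N]
  have h1 : Nat.card (G ⧸ N) = N.index := rfl
  rw [h1]
  apply lt_mul_of_one_lt_left
  · exact Nat.pos_of_ne_zero Subgroup.FiniteIndex.index_ne_zero
  · rw [Finite.one_lt_card_iff_nontrivial, Subgroup.nontrivial_iff_ne_bot]; exact hN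

theorem card_sub_lt {G : Type u} [Group G] [Finite G] {N : Subgroup G} (hN : N ≠ ⊤) : Nat.card N < Nat.card G := by
  rcases (Subgroup.card_le_card_group N).lt_or_eq with h | h
  · exact h
  · exact absurd ((Subgroup.card_eq_iff_eq_top N).1 h) hN

def Good (p : ℕ) (m : ℕ) : Prop := (IsPrimePow m ∧ m % p = 1) ∨
  ∃ (S : Type u) (_ : Group S) (_ : Finite S), IsSimpleGroup S ∧ m = Nat.card (Sylow p S)

theorem main {p : ℕ} [hp : Fact p.Prime] (n : ℕ) : ∀ {G : Type u} [Group G] [Finite G], Nat.card G ≤ n → 
    ∃ l : List ℕ, l.prod = Nat.card (Sylow p G) ∧ ∀ m ∈ l, Good.{u} p m := by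
  induction n with
  | zero =>
    intro G _ _ hc
    exact absurd hc (by have : 0 < Nat.card G := Nat.card_pos; omega)
  | succ n ih =>
    intro G _ _ hcard
    by_cases hnt : Nontrivial G
    swap
    · rw [not_nontrivial_iff_subsingleton] at hnt
      have h1 : Nat.card (Sylow p G) = 1 := by
        have h2 := card_sylow_index (default : Sylow p G)
        rw [h2]
        have h3 : normalizer (((default : Sylow p G) : Subgroup G) : Set G) = ⊤ := Subsingleton.elim _ _
        rw [h3, Subgroup.index_top]
      exact ⟨[], by rw [h1]; rfl, by simp⟩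
    by_cases hs : ∃ K : Subgroup G, K.Normal ∧ K ≠ ⊥ ∧ K ≠ ⊤
    swap
    · push Not at hs
      have hsim : IsSimpleGroup G := ⟨fun K hK => by
        by_cases h : K = ⊥
        · exact Or.inl h
        · exact Or.inr (hs K hK h)⟩
      exact ⟨[Nat.card (Sylow p G)], by simp, by
        intro m hm
        rw [List.mem_singleton] at hm
        exact Or.inr ⟨G, inferInstance, inferInstance, hsim, hm⟩⟩
    obtain ⟨K, hK, hKb, hKt⟩ := hs
    obtain ⟨l1, hl1, hl1'⟩ := ih (G := G ⧸ K) (by have := card_quot_lt hKb; omega)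
    have h1 := card_sylow_quot_mul K (default : Sylow p G)
    obtain ⟨X, hX⟩ : ∃ X, X = ((default : Sylow p G) : Subgroup G) ⊔ K := ⟨_, rfl⟩
    rw [← hX] at h1
    have happ : ∀ {l2 : List ℕ}, l2.prod = Nat.card (Sylow p X) → (∀ m ∈ l2, Good.{u} p m) → 
        ∃ l : List ℕ, l.prod = Nat.card (Sylow p G) ∧ ∀ m ∈ l, Good.{u} p m := by
      intro l2 h2 h3
      refine ⟨l1 ++ l2, by rw [List.prod_append, hl1, h2, h1], ?_⟩
      intro m hm
      rcases List.mem_append.1 hm with h | h
      · exact hl1' m h
      · exact h3 m h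
    by_cases hXt : X = ⊤
    swap
    · obtain ⟨l2, h2, h3⟩ := ih (G := X) (by have := card_sub_lt hXt; omega)
      exact happ h2 h3
    by_cases hpK : p ∣ Nat.card K
    · obtain ⟨N, hN⟩ : ∃ N, N = (((default : Sylow p G) : Subgroup G) ⊔ K) ⊓ 
        normalizer (((((default : Sylow p G) : Subgroup G) ⊓ K : Subgroup G)) : Set G) := ⟨_, rfl⟩
      have h2 := card_sylow_sup_mul K (default : Sylow p G) hN
      rw [← hX] at h2
      obtain ⟨l2, hl2, hl2'⟩ := ih (G := K) (by have := card_sub_lt hKt; omega)
      obtain ⟨P0, hP0⟩ : ∃ P0, P0 = (((default : Sylow p G) : Subgroup G) ⊓ K).subgroupOf N := ⟨_, rfl⟩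
      have hP0p : IsPGroup p P0 := by
        rw [hP0]
        have : IsPGroup p ↥(((default : Sylow p G) : Subgroup G) ⊓ K) := (default : Sylow p G).2.to_le inf_le_left
        exact this.comap_of_injective N.subtype N.subtype_injective
      have hP0n : P0.Normal := by
        rw [hP0]
        apply Subgroup.normal_subgroupOf_of_le_normalizer
        rw [hN]; exact inf_le_right
      have hle : ((default : Sylow p G) : Subgroup G) ⊓ K ≤ N := by
        rw [hN]
        exact le_inf (inf_le_left.trans le_sup_left) le_normalizer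
      have hP0b : P0 ≠ ⊥ := by
        intro h
        rw [hP0, Subgroup.subgroupOf_eq_bot] at h
        have h3 : ((default : Sylow p G) : Subgroup G) ⊓ K = ⊥ := (disjoint_of_le_iff_left_eq_bot hle).1 h
        apply inf_sylow_normal K (default : Sylow p G)
        rw [h3, Subgroup.relIndex_bot_left]
        exact hpK
      obtain ⟨l3, hl3, hl3'⟩ := ih (G := N ⧸ P0) (by
        have := card_quot_lt hP0b
        have := Subgroup.card_le_card_group N
        omega)
      rw [card_sylow_quot_pgroup P0 hP0p] at hl3
      apply happ (l2 := l2 ++ l3)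
      · rw [List.prod_append, hl2, hl3, h2]
      · intro m hm
        rcases List.mem_append.1 hm with h | h
        · exact hl2' m h
        · exact hl3' m h
    · obtain ⟨c, hc⟩ : ∃ c, c = Nat.card (Sylow p G) := ⟨_, rfl⟩
      have hc0 : c ≠ 0 := by rw [hc]; exact Nat.card_pos.ne'
      refine ⟨c.primeFactors.toList.map (fun ℓ => ℓ ^ c.factorization ℓ), ?_, ?_⟩
      · rw [← hc]
        conv_rhs => rw [← Nat.prod_factorization_pow_eq_self hc0]
        rw [Finsupp.prod, Nat.support_factorization, Finset.prod_map_toList]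
      · intro m hm
        left
        rw [List.mem_map] at hm
        obtain ⟨ℓ, hℓ, rfl⟩ := hm
        rw [Finset.mem_toList] at hℓ
        have hℓp := Nat.prime_of_mem_primeFactors hℓ
        have hℓd := Nat.dvd_of_mem_primeFactors hℓ
        constructor
        · exact hℓp.isPrimePow.pow (hℓp.factorization_pos_of_dvd hc0 hℓd).ne'
        · have h2 : ℓ ^ c.factorization ℓ ≡ 1 [MOD p] := by
            rw [hc]
            exact ell_part hℓp K (default : Sylow p G) (by rw [← hX, hXt]) hpK
          have h3 : ℓ ^ c.factorization ℓ % p = 1 % p := h2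
          rw [h3, Nat.mod_eq_of_lt hp.out.one_lt]

/-- For a finite group `G` and a prime `p`, the number of Sylow `p`-subgroups of `G` is a product of natural numbers each of which is either a prime power congruent to 1 modulo `p` or the number of Sylow `p`-subgroups of some finite simple group. -/
theorem result {G : Type u} [Group G] [Finite G]
    (p : ℕ) [Fact p.Prime] :
    ∃ l : List ℕ, l.prod = Nat.card (Sylow p G) ∧
      ∀ m ∈ l, (IsPrimePow m ∧ m % p = 1) ∨
        ∃ (S : Type u) (_ : Group S) (_ : Finite S), IsSimpleGroup S ∧ m = Nat.card (Sylow p S) := by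
  exact main _ le_rfl

end Cfsg.Agent.S4303
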