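import Cfsg.Statements.S1010
import Cfsg.Agent.H5.SmS17
import Cfsg.Agent.S4303

set_option autoImplicit false
open Cfsg

namespace Cfsg.Agent.S1010

open CfsgH5
theorem not_pp : ¬ IsPrimePow 21 := by
  rw [isPrimePow_nat_iff]
  rintro ⟨p, k, hp, hk, h⟩
  have h3 : 3 ∣ p ^ k := by rw [h]; norm_num
  have h7 : 7 ∣ p ^ k := by rw [h]; norm_num
  have h3' := (Nat.prime_dvd_prime_iff_eq (by norm_num) hp).1 (Nat.Prime.dvd_of_dvd_pow (by norm_num) h3)
  have h7' := (Nat.prime_dvd_prime_iff_eq (by norm_num) hp).1 (Nat.Prime.dvd_of_dvd_pow (by norm_num) h7)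
  omega

theorem one_or : ∀ m ∈ Finset.range 22, m ∣ 21 → m % 5 = 1 → m = 1 ∨ m = 21 := by decide


/-- No finite group has exactly twenty-one Sylow 5-subgroups. -/
theorem result {G : Type*} [Group G] [Finite G] : Nat.card (Sylow 5 G) ≠ 21 := by
  intro hcard
  haveI : Fact (Nat.Prime 5) := ⟨by norm_num⟩
  obtain ⟨l, hl, hl'⟩ := Cfsg.Agent.S4303.main (p := 5) (G := G) (Nat.card G) le_rfl
  rw [hcard] at hl
  have hmem : ∀ m ∈ l, m = 1 ∨ m = 21 := by
    intro m hm
    have h1 : m ∣ 21 := by rw [← hl]; exact List.dvd_prod hm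
    apply one_or m (by rw [Finset.mem_range]; have := Nat.le_of_dvd (by norm_num) h1; omega) h1
    rcases hl' m hm with h2 | ⟨S, _, _, hS, h2⟩
    · exact h2.2
    · rw [h2]
      exact CfsgH3.Simp.syl_mod
  have h21 : 21 ∈ l := by
    by_contra h
    have h1 : ∀ m ∈ l, m = 1 := fun m hm => (hmem m hm).resolve_right (fun h2 => h (h2 ▸ hm))
    rw [List.prod_eq_one h1] at hl
    omega
  rcases hl' 21 h21 with h2 | ⟨S, _, _, hS, h2⟩
  · exact not_pp h2.1
  · haveI := hS
    exact s21_simple h2.symm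

end Cfsg.Agent.S1010
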