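import Mathlib
import Cfsg.Agent.H3.Simp
import Cfsg.Statements.S1012

set_option autoImplicit false
open Cfsg

namespace Cfsg.Agent.S1012

/-- A group of order 24 containing no element of order 6 is isomorphic to the symmetric group of degree 4. -/
theorem result {G : Type*} [Group G] [Finite G] (h : Nat.card G = 24) (h6 : ∀ g : G, orderOf g ≠ 6) : Nonempty (G ≃* Equiv.Perm (Fin 4)) := by
  classical
  haveI : Fact (Nat.Prime 3) := ⟨by norm_num⟩
  have hG1 : Nat.card G = 3 ^ 1 * 8 := by rw [h]; norm_num
  have h1 := CfsgH3.Simp.syl_dvd hG1 (by norm_num)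
  have h2 := CfsgH3.Simp.syl_mod (G := G) (p := 3)
  obtain ⟨P⟩ : Nonempty (Sylow 3 G) := inferInstance
  have hPc : Nat.card P = 3 := by rw [CfsgH3.Simp.card_syl hG1 (by norm_num) P, pow_one]
  have hn := CfsgH3.Simp.card_norm P
  set N := Subgroup.normalizer ((P : Subgroup G) : Set G) with hN
  set C := Subgroup.centralizer ((P : Subgroup G) : Set G) with hC
  -- C has odd order
  have hCodd : ¬ 2 ∣ Nat.card C := by
    intro hd
    obtain ⟨t, ht⟩ := exists_prime_orderOf_dvd_card' (G := C) 2 hd
    obtain ⟨u, hu⟩ := exists_prime_orderOf_dvd_card' (G := (P : Subgroup G)) 3 (by rw [hPc])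
    have hcomm : Commute (t : G) (u : G) := ((Subgroup.mem_centralizer_iff.1 t.2) u u.2).symm
    have ho := hcomm.orderOf_mul_eq_mul_orderOf_of_coprime (by rw [Subgroup.orderOf_coe, Subgroup.orderOf_coe, ht, hu]; norm_num)
    rw [Subgroup.orderOf_coe, Subgroup.orderOf_coe, ht, hu] at ho
    exact h6 _ ho
  have hPC : (P : Subgroup G) ≤ C := CfsgH3.Simp.le_cent_of_card P hPc
  have hCd : Nat.card C ∣ 24 := by rw [← h]; exact Subgroup.card_subgroup_dvd_card _
  have hPd : 3 ∣ Nat.card C := by
    have := Subgroup.card_dvd_of_le hPC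
    exact hPc.symm.dvd.trans this
  have hC3 : Nat.card C = 3 := by
    have h5 := Nat.le_of_dvd (by norm_num) hCd
    interval_cases Nat.card C <;> omega
  have hCN : C ≤ N := by
    intro x hx
    rw [hN, Subgroup.mem_normalizer_iff]
    intro y
    have hc := Subgroup.mem_centralizer_iff.1 hx
    constructor
    · intro hy
      rw [← hc y hy, mul_inv_cancel_right]; exact hy
    · intro hy
      have h5 := hc _ hy
      have h7 : y = x * y * x⁻¹ := by
        have h8 : x * (x * y * x⁻¹) = x * (y) := by
          rw [← h5]; group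
        exact (mul_left_cancel h8).symm
      rw [h7]; exact hy
  have hrel := CfsgH3.Simp.relIndex_dvd P hPc
  have hCN' : Nat.card C * C.relIndex N = Nat.card N := by
    have h0 := Subgroup.relIndex_mul_relIndex ⊥ C N bot_le hCN
    rwa [Subgroup.relIndex_bot_left, Subgroup.relIndex_bot_left] at h0
  rw [hC3] at hCN'
  have hr2 : C.relIndex N ≤ 2 := Nat.le_of_dvd (by norm_num) hrel
  have hr0 : C.relIndex N ≠ 0 := by
    intro h0
    rw [h0, mul_zero] at hCN'
    exact Nat.card_pos.ne hCN'
  rw [h] at hn
  have hNs : Nat.card N = 6 ∧ Nat.card (Sylow 3 G) = 4 := by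
    have h5 := Nat.le_of_dvd (by norm_num) h1
    have h7 : C.relIndex N = 1 ∨ C.relIndex N = 2 := by omega
    rcases h7 with h7 | h7
    · rw [h7] at hCN'
      rw [← hCN'] at hn
      omega
    · rw [h7] at hCN'
      rw [← hCN'] at hn ⊢
      omega
  obtain ⟨hN6, hs4⟩ := hNs
  have hidx : N.index = 4 := by
    have h5 := Subgroup.index_mul_card N
    rw [hN6, h] at h5
    omega
  -- the kernel
  have hcore : N.normalCore = ⊥ := by
    set K := N.normalCore with hK
    have hKN : K ≤ N := N.normalCore_le
    haveI : K.Normal := inferInstance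
    have h5 : Nat.card K ∣ 6 := by rw [← hN6]; exact Subgroup.card_dvd_of_le hKN
    have h3K : ¬ 3 ∣ Nat.card K := by
      intro hd
      -- every Sylow 3-subgroup lies in K, hence in N, where P is the only one
      obtain ⟨u, hu⟩ := exists_prime_orderOf_dvd_card' (G := K) 3 hd
      have h7 : IsPGroup 3 (Subgroup.zpowers (u : G)) := IsPGroup.of_card (n := 1) (by rw [Nat.card_zpowers, Subgroup.orderOf_coe, hu, pow_one])
      obtain ⟨Q, hQ⟩ := h7.exists_le_sylow
      have hQc : Nat.card Q = 3 := by rw [CfsgH3.Simp.card_syl hG1 (by norm_num) Q, pow_one]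
      have hQu : Subgroup.zpowers (u : G) = (Q : Subgroup G) := by
        apply Subgroup.eq_of_le_of_card_ge hQ
        rw [Nat.card_zpowers, Subgroup.orderOf_coe, hu]; exact hQc.le
      have hQK : (Q : Subgroup G) ≤ K := by rw [← hQu, Subgroup.zpowers_le]; exact u.2
      have hall : ∀ R : Sylow 3 G, (R : Subgroup G) ≤ K := by
        intro R
        obtain ⟨g, hg⟩ := MulAction.exists_smul_eq G Q R
        rw [← hg]
        intro y hy
        rw [Sylow.coe_subgroup_smul, Subgroup.mem_pointwise_smul_iff_inv_smul_mem] at hy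
        have h8 := (inferInstance : K.Normal).conj_mem _ (hQK hy) g
        simpa [MulAut.smul_def, mul_assoc] using h8
      have hone : ∀ R : Sylow 3 G, R = P := by
        intro R
        have h8 : (R : Subgroup G) ≤ N := (hall R).trans hKN
        have h9 := R.isPGroup'.inf_normalizer_sylow P
        have h10 : (R : Subgroup G) ≤ P := by
          intro y hy
          have h11 : y ∈ (R : Subgroup G) ⊓ Subgroup.normalizer P := ⟨hy, h8 hy⟩
          rw [h9] at h11
          exact h11.2
        exact Sylow.ext (R.3 P.isPGroup' h10).symm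
      have h12 : Nat.card (Sylow 3 G) = 1 := Nat.card_eq_one_iff_unique.2 ⟨⟨fun a b => (hone a).trans (hone b).symm⟩, ⟨P⟩⟩
      omega
    have hK2 : Nat.card K = 1 ∨ Nat.card K = 2 := by
      have h7 := Nat.le_of_dvd (by norm_num) h5
      interval_cases Nat.card K <;> omega
    rcases hK2 with h7 | h7
    · exact Subgroup.card_eq_one.1 h7
    · exfalso
      -- K is central
      obtain ⟨z, hz⟩ := exists_prime_orderOf_dvd_card' (G := K) 2 (by rw [h7])
      have hKz : Subgroup.zpowers z = ⊤ := by
        apply Subgroup.eq_top_of_card_eq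
        rw [Nat.card_zpowers, hz, h7]
      apply hCodd
      have hzC : (z : G) ∈ C := by
        rw [hC, Subgroup.mem_centralizer_iff]
        intro y hy
        have h8 : y * z * y⁻¹ ∈ K := (inferInstance : K.Normal).conj_mem _ z.2 y
        have h9 : (⟨y * z * y⁻¹, h8⟩ : K) ∈ Subgroup.zpowers z := by rw [hKz]; trivial
        obtain ⟨n, hn⟩ := Subgroup.mem_zpowers_iff.1 h9
        have h10 : y * (z : G) * y⁻¹ = (z : G) ^ n := by
          have := congrArg Subtype.val hn
          rw [Subgroup.coe_zpow] at this
          exact this.symm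
        have hz2 : (z : G) ^ (2 : ℤ) = 1 := by
          have h11 := pow_orderOf_eq_one z
          rw [hz] at h11
          have h12 := congrArg Subtype.val h11
          rw [Subgroup.coe_pow] at h12
          exact_mod_cast h12
        rcases Int.even_or_odd' n with ⟨m, hm | hm⟩
        · exfalso
          rw [hm, zpow_mul, hz2, one_zpow] at h10
          have h11 : (z : G) = 1 := by
            calc (z : G) = y⁻¹ * (y * z * y⁻¹) * y := by group
              _ = 1 := by rw [h10]; group
          have h12 : orderOf (z : G) = 2 := by rw [Subgroup.orderOf_coe]; exact hz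
          rw [h11, orderOf_one] at h12
          omega
        · rw [hm, zpow_add, zpow_mul, hz2, one_zpow, one_mul, zpow_one] at h10
          exact mul_inv_eq_iff_eq_mul.1 h10
      have h8 : orderOf (⟨z, hzC⟩ : C) = 2 := by rw [Subgroup.orderOf_mk, Subgroup.orderOf_coe]; exact hz
      rw [← h8]; exact orderOf_dvd_natCard _
  have hcard4 : Nat.card (G ⧸ N) = 4 := hidx
  let e : G ⧸ N ≃ Fin 4 := Finite.equivFinOfCardEq hcard4
  let f : G →* Equiv.Perm (Fin 4) := e.permCongrHom.toMonoidHom.comp (MulAction.toPermHom G (G ⧸ N))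
  have hinj : Function.Injective f := by
    apply e.permCongrHom.injective.comp
    apply (MonoidHom.ker_eq_bot_iff _).1
    rw [← Subgroup.normalCore_eq_ker]; exact hcore
  have hbij : Function.Bijective f := by
    rw [Nat.bijective_iff_injective_and_card]
    refine ⟨hinj, ?_⟩
    rw [h, Nat.card_perm, Nat.card_fin]; rfl
  exact ⟨MulEquiv.ofBijective f hbij⟩

end Cfsg.Agent.S1012
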