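import Mathlib
import Cfsg.Agent.H3.Simp
import Cfsg.Agent.S0989
import Cfsg.Agent.S0990
import Cfsg.Statements.S1014

set_option autoImplicit false
open Cfsg

namespace Cfsg.Agent.S1014

/-- No finite simple group has order 1104 = 2^4 * 3 * 23. -/
theorem result {G : Type*} [Group G] [Finite G] [IsSimpleGroup G] : Nat.card G ≠ 1104 := by
  classical
  intro h
  have hG : ¬ IsMulCommutative G := CfsgH3.Simp.not_comm_of_card (by rw [h]; norm_num)
  haveI : Fact (Nat.Prime 23) := ⟨by norm_num⟩
  have hG1 : Nat.card G = 23 ^ 1 * 48 := by rw [h]; norm_num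
  have h1 := CfsgH3.Simp.syl_dvd hG1 (by norm_num)
  have h2 := CfsgH3.Simp.syl_mod (G := G) (p := 23)
  have h3 := CfsgH3.Simp.syl_ne_one (p := 23) hG (by rw [h]; norm_num)
  have h4 : Nat.card (Sylow 23 G) = 24 := by
    have h5 := Nat.le_of_dvd (by norm_num) h1
    interval_cases Nat.card (Sylow 23 G) <;> omega
  obtain ⟨P⟩ : Nonempty (Sylow 23 G) := inferInstance
  have hPc : Nat.card P = 23 := by rw [CfsgH3.Simp.card_syl hG1 (by norm_num) P, pow_one]
  have h6 := CfsgH3.Simp.card_norm P
  rw [h4, h] at h6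
  set N := Subgroup.normalizer ((P : Subgroup G) : Set G) with hN
  have hNc : Nat.card N = 46 := by omega
  have hidx : N.index = 24 := by
    have := Subgroup.index_mul_card N
    rw [hNc, h] at this; omega
  have hNt : N ≠ ⊤ := by
    intro h7; rw [h7, Subgroup.index_top] at hidx; omega
  obtain ⟨f, hf⟩ : ∃ f : G →* ↥(alternatingGroup (Fin 24)), Function.Injective f := by
    have := CfsgH3.Simp.embed_alt hG N hNt
    rwa [hidx] at this
  have hinj : Function.Injective (alternatingGroup (Fin 24)).subtype := Subgroup.subtype_injective _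
  set P' := ((P : Subgroup G).map f).map (alternatingGroup (Fin 24)).subtype with hP'
  have hP'c : Nat.card P' = 23 := by
    rw [hP', Subgroup.card_map_of_injective hinj, Subgroup.card_map_of_injective hf, hPc]
  have hP'p : IsPGroup 23 P' := IsPGroup.of_card (n := 1) (by rw [hP'c, pow_one])
  obtain ⟨Q, hQ⟩ := hP'p.exists_le_sylow
  obtain ⟨hQc, hQn⟩ := Cfsg.Agent.S0989.main (α := Fin 24) (p := 23) (Or.inr (by simp)) Q
  have hPQ : P' = (Q : Subgroup (Equiv.Perm (Fin 24))) := by
    apply Subgroup.eq_of_le_of_card_ge hQ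
    rw [hP'c]; exact hQc.le
  have h7 := Cfsg.Agent.S0990.main (α := Fin 24) (by simp) (p := 23) (by norm_num) Q
  rw [hQn, ← hPQ] at h7
  have h8 : P'.subgroupOf (alternatingGroup (Fin 24)) = (P : Subgroup G).map f := by
    rw [hP', Subgroup.subgroupOf]
    exact Subgroup.comap_map_eq_self_of_injective hinj _
  rw [h8] at h7
  have h9 : N.map f ≤ Subgroup.normalizer (((P : Subgroup G).map f : Subgroup ↥(alternatingGroup (Fin 24))) : Set ↥(alternatingGroup (Fin 24))) := Subgroup.le_normalizer_map f
  have h10 := Subgroup.card_dvd_of_le h9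
  rw [Subgroup.card_map_of_injective hf, hNc] at h10
  have h11 : Nat.card ↥(Subgroup.normalizer (((P : Subgroup G).map f : Subgroup ↥(alternatingGroup (Fin 24))) : Set ↥(alternatingGroup (Fin 24)))) = 253 := by omega
  rw [h11] at h10
  omega

end Cfsg.Agent.S1014
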