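import Mathlib
import Cfsg.Agent.H3.Simp
import Cfsg.Agent.S0985
import Cfsg.Statements.S1015

set_option autoImplicit false
open Cfsg

namespace Cfsg.Agent.S1015

/-- No finite simple group has order 1200 = 2^4 * 3 * 5^2. -/
theorem result {G : Type*} [Group G] [Finite G] [IsSimpleGroup G] : Nat.card G ≠ 1200 := by
  classical
  intro h
  have hG : ¬ IsMulCommutative G := CfsgH3.Simp.not_comm_of_card (by rw [h]; norm_num)
  haveI : Fact (Nat.Prime 5) := ⟨by norm_num⟩
  have hG1 : Nat.card G = 5 ^ 2 * 48 := by rw [h]; norm_num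
  have h1 := CfsgH3.Simp.syl_dvd hG1 (by norm_num)
  have h2 := CfsgH3.Simp.syl_mod (G := G) (p := 5)
  have h3 := CfsgH3.Simp.syl_ne_one (p := 5) hG (by rw [h]; norm_num)
  have hidx : ∀ M : Subgroup G, M ≠ ⊤ → 10 ≤ M.index := by
    intro M hM
    by_contra hc
    have h4 := CfsgH3.Simp.two_card_dvd_factorial hG M hM
    rw [h] at h4
    have h5 : M.index < 10 := by omega
    have h6 : M.index ≠ 0 := Subgroup.index_ne_zero_of_finite
    interval_cases M.index <;> revert h4 <;> decide
  have h4 : Nat.card (Sylow 5 G) = 16 := by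
    obtain ⟨P⟩ : Nonempty (Sylow 5 G) := inferInstance
    have h5 := Nat.le_of_dvd (by norm_num) h1
    have h6 : 10 ≤ Nat.card (Sylow 5 G) := by
      rw [P.card_eq_index_normalizer]
      apply hidx
      intro h7
      apply h3
      rw [P.card_eq_index_normalizer]
      exact Subgroup.index_eq_one.2 h7
    interval_cases Nat.card (Sylow 5 G) <;> omega
  obtain ⟨P, R, hPR, hle⟩ := Cfsg.Agent.S0985.result (G := G) 5 2 (by rw [h4]; decide)
  have hPc : ∀ Q : Sylow 5 G, Nat.card Q = 25 := fun Q => by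
    rw [CfsgH3.Simp.card_syl hG1 (by norm_num) Q]; norm_num
  set D : Subgroup G := (P : Subgroup G) ⊓ (R : Subgroup G) with hD
  have hDne : D ≠ ⊥ := by
    intro hb
    have h5 := Subgroup.index_mul_card ((R : Subgroup G).subgroupOf (P : Subgroup G))
    have h6 : (R : Subgroup G).subgroupOf (P : Subgroup G) = ⊥ := by
      rw [Subgroup.subgroupOf_eq_bot, disjoint_iff, inf_comm]; exact hb
    rw [h6, Subgroup.card_bot, mul_one] at h5
    rw [h6, h5] at hle
    have := hPc P
    have h7 : Nat.card P ≤ 5 ^ (2 - 1) := hle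
    rw [this] at h7
    norm_num at h7
  have hcomm : ∀ Q : Sylow 5 G, IsMulCommutative (Q : Subgroup G) := fun Q =>
    IsPGroup.isMulCommutative_of_card_eq_prime_sq (p := 5) (by rw [hPc Q]; norm_num)
  have hPM : ∀ Q : Sylow 5 G, D ≤ Q → (Q : Subgroup G) ≤ Subgroup.centralizer (D : Set G) := by
    intro Q hQ a ha
    rw [Subgroup.mem_centralizer_iff]
    intro b hb
    haveI := hcomm Q
    have := mul_comm' (⟨b, hQ hb⟩ : (Q : Subgroup G)) ⟨a, ha⟩
    exact congrArg Subtype.val this
  set M := Subgroup.centralizer (D : Set G) with hM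
  have hP := hPM P inf_le_left
  have hR := hPM R inf_le_right
  have hMt : M ≠ ⊤ := by
    intro h5
    have h6 : D ≤ Subgroup.center G := by
      intro x hx
      rw [Subgroup.mem_center_iff]
      intro y
      have hy : y ∈ M := by rw [h5]; trivial
      exact ((Subgroup.mem_centralizer_iff.1 hy) x hx).symm
    rcases (inferInstance : (Subgroup.center G).Normal).eq_bot_or_eq_top with h7 | h7
    · exact hDne (le_bot_iff.1 (h7 ▸ h6))
    · apply hG
      refine ⟨⟨fun a b => ?_⟩⟩
      have : a ∈ Subgroup.center G := by rw [h7]; trivial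
      exact ((Subgroup.mem_center_iff.1 this) b).symm
  have h5 := hidx M hMt
  have h6 := Subgroup.index_mul_card M
  rw [h] at h6
  have h7 : 25 ∣ Nat.card M := by
    have := Subgroup.card_dvd_of_le hP
    rw [hM]
    exact (hPc P).symm.dvd.trans this
  obtain ⟨k, hk⟩ := h7
  have h8 : M.index * k = 48 := by
    rw [hk] at h6
    have : 25 * (M.index * k) = 25 * 48 := by rw [← mul_assoc, mul_comm 25 M.index, mul_assoc]; omega
    omega
  have h9 : k < 5 := by
    by_contra hc
    push Not at hc
    have : 10 * 5 ≤ M.index * k := Nat.mul_le_mul h5 hc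
    omega
  have hk0 : k ≠ 0 := by rintro rfl; omega
  have h10 : Nat.card (Sylow 5 M) ∣ k := by
    apply CfsgH3.Simp.syl_dvd (a := 2) (by rw [hk]; norm_num)
    intro h11
    have := Nat.le_of_dvd (Nat.pos_of_ne_zero hk0) h11
    omega
  have h11 := CfsgH3.Simp.syl_mod (G := M) (p := 5)
  have h12 : Nat.card (Sylow 5 M) = 1 := by
    have h13 := Nat.le_of_dvd (Nat.pos_of_ne_zero hk0) h10
    rwa [Nat.mod_eq_of_lt (by omega)] at h11
  haveI : Subsingleton (Sylow 5 M) := (Nat.card_eq_one_iff_unique.1 h12).1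
  apply hPR
  have h13 : (P.subtype hP : Sylow 5 M) = R.subtype hR := Subsingleton.elim _ _
  have h14 := congrArg (fun S : Sylow 5 M => (S : Subgroup M).map M.subtype) h13
  simp only [Sylow.coe_subtype] at h14
  rw [Subgroup.map_subgroupOf_eq_of_le hP, Subgroup.map_subgroupOf_eq_of_le hR] at h14
  exact Sylow.ext h14

end Cfsg.Agent.S1015
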