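import Mathlib
import Cfsg.Agent.H3.Simp
import Cfsg.Statements.S1018

set_option autoImplicit false
open Cfsg

namespace Cfsg.Agent.S1018

/-- Let P be a Sylow p-subgroup of order p of a finite group G, and consider the action of G on the left cosets of the normalizer N of P. Then every element of order p fixes exactly one coset, and an element of N that does not centralize P fixes at most as many cosets as there are orbits of P. -/
theorem result {G : Type*} [Group G] [Finite G] (p : ℕ) [Fact p.Prime] (P : Sylow p G) (hP : Nat.card ↥(P : Subgroup G) = p) : (∀ y : G, orderOf y = p → Nat.card (MulAction.fixedBy (G ⧸ Subgroup.normalizer ((P : Subgroup G) : Set G)) y) = 1) ∧ ∀ x : G, x ∈ Subgroup.normalizer ((P : Subgroup G) : Set G) → x ∉ Subgroup.centralizer ((P : Subgroup G) : Set G) → Nat.card (MulAction.fixedBy (G ⧸ Subgroup.normalizer ((P : Subgroup G) : Set G)) x) ≤ Nat.card (MulAction.orbitRel.Quotient ↥(P : Subgroup G) (G ⧸ Subgroup.normalizer ((P : Subgroup G) : Set G))) := by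
  classical
  set N := Subgroup.normalizer ((P : Subgroup G) : Set G) with hN
  have hfix : ∀ (x g : G), x • (g : G ⧸ N) = (g : G ⧸ N) ↔ g⁻¹ * x * g ∈ N := by
    intro x g
    rw [MulAction.Quotient.smul_coe, eq_comm, QuotientGroup.eq, smul_eq_mul, mul_assoc]
  have hordN : ∀ y : G, orderOf y = p → y ∈ N → y ∈ (P : Subgroup G) := by
    intro y hy hyN
    have h1 : IsPGroup p (Subgroup.zpowers y) := IsPGroup.of_card (n := 1) (by rw [Nat.card_zpowers, hy, pow_one])
    have h2 := h1.inf_normalizer_sylow P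
    have h3 : y ∈ Subgroup.zpowers y ⊓ Subgroup.normalizer P := ⟨Subgroup.mem_zpowers y, hyN⟩
    rw [h2] at h3
    exact h3.2
  refine ⟨?_, ?_⟩
  · intro y hy
    rw [Nat.card_eq_one_iff_unique]
    have hconj : ∀ g : G, orderOf (g⁻¹ * y * g) = p := by
      intro g
      have e : g⁻¹ * y * g = MulAut.conj g⁻¹ y := by simp
      rw [e, MulEquiv.orderOf_eq, hy]
    constructor
    · refine ⟨?_⟩
      rintro ⟨a, ha⟩ ⟨b, hb⟩
      obtain ⟨g, rfl⟩ := QuotientGroup.mk_surjective a
      obtain ⟨k, rfl⟩ := QuotientGroup.mk_surjective b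
      have ha' := hordN _ (hconj g) ((hfix y g).1 ha)
      have hb' := hordN _ (hconj k) ((hfix y k).1 hb)
      apply Subtype.ext
      change (g : G ⧸ N) = (k : G ⧸ N)
      rw [QuotientGroup.eq, hN, CfsgH7.mem_normalizer_iff_cj]
      have hA : Subgroup.zpowers y = CfsgH7.cj g (P : Subgroup G) := by
        apply Subgroup.eq_of_le_of_card_ge
        · rw [Subgroup.zpowers_le, CfsgH7.mem_cj]; exact ha'
        · rw [CfsgH7.card_cj, Nat.card_zpowers, hy]; exact hP.le
      have hB : Subgroup.zpowers y = CfsgH7.cj k (P : Subgroup G) := by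
        apply Subgroup.eq_of_le_of_card_ge
        · rw [Subgroup.zpowers_le, CfsgH7.mem_cj]; exact hb'
        · rw [CfsgH7.card_cj, Nat.card_zpowers, hy]; exact hP.le
      rw [CfsgH7.cj_mul, ← hB, hA, ← CfsgH7.cj_mul, inv_mul_cancel, CfsgH7.cj_one]
    · have h1 : IsPGroup p (Subgroup.zpowers y) := IsPGroup.of_card (n := 1) (by rw [Nat.card_zpowers, hy, pow_one])
      obtain ⟨Q, hQ⟩ := h1.exists_le_sylow
      obtain ⟨g, hg⟩ := MulAction.exists_smul_eq G P Q
      refine ⟨⟨(g : G ⧸ N), (hfix y g).2 ?_⟩⟩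
      apply Subgroup.le_normalizer
      have h2 : y ∈ (Q : Subgroup G) := hQ (Subgroup.mem_zpowers y)
      rw [← hg, Sylow.coe_subgroup_smul, Subgroup.mem_pointwise_smul_iff_inv_smul_mem] at h2
      simpa [MulAut.smul_def] using h2
  · intro x hxN hxC
    have hcyc : ∀ v ∈ (P : Subgroup G), v ≠ 1 → Subgroup.zpowers v = P := by
      intro v hv hv1
      apply Subgroup.eq_of_le_of_card_ge (Subgroup.zpowers_le.2 hv)
      rw [Nat.card_zpowers]
      have h1 : orderOf v ∣ p := by
        have := (Subgroup.orderOf_dvd_natCard _ hv).trans (hP.dvd)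
        exact this
      rcases (Nat.dvd_prime Fact.out).1 h1 with h | h
      · exact absurd (orderOf_eq_one_iff.1 h) hv1
      · rw [h]; exact hP.le
    apply Nat.card_le_card_of_injective (fun a : MulAction.fixedBy (G ⧸ N) x => (Quotient.mk'' a.1 : MulAction.orbitRel.Quotient ↥(P : Subgroup G) (G ⧸ N)))
    rintro ⟨a, ha⟩ ⟨b, hb⟩ hab
    apply Subtype.ext
    change a = b
    have h1 : a ∈ MulAction.orbit (P : Subgroup G) b := by
      rw [← MulAction.orbitRel_apply]; exact Quotient.exact' hab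
    obtain ⟨⟨u, hu⟩, hua⟩ := h1
    have hua' : u • b = a := hua
    by_cases hu1 : u = 1
    · rw [← hua', hu1, one_smul]
    -- x u x⁻¹ ≠ u
    have hxu : x * u * x⁻¹ ≠ u := by
      intro h
      apply hxC
      rw [Subgroup.mem_centralizer_iff]
      intro w hw
      have h2 : w ∈ Subgroup.zpowers u := by rw [hcyc u hu hu1]; exact hw
      obtain ⟨n, rfl⟩ := Subgroup.mem_zpowers_iff.1 h2
      have h3 : Commute x u := mul_inv_eq_iff_eq_mul.1 h
      exact (h3.zpow_right n).symm.eq
    have hb' : x • b = b := hb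
    have ha' : x • a = a := ha
    have h2 : (u⁻¹ * (x * u * x⁻¹)) • b = b := by
      have h3 : (x * u * x⁻¹) • b = u • b := by
        calc (x * u * x⁻¹) • b = x • u • x⁻¹ • b := by rw [mul_smul, mul_smul]
          _ = x • u • b := by rw [inv_smul_eq_iff.2 hb'.symm]
          _ = x • a := by rw [hua']
          _ = u • b := by rw [ha', hua']
      rw [mul_smul, h3, inv_smul_smul]
    have h4 : u⁻¹ * (x * u * x⁻¹) ∈ (P : Subgroup G) :=
      (P : Subgroup G).mul_mem ((P : Subgroup G).inv_mem hu) ((Subgroup.mem_normalizer_iff.1 hxN u).1 hu)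
    have h5 : u⁻¹ * (x * u * x⁻¹) ≠ 1 := fun h => hxu (inv_mul_eq_one.1 h).symm
    have h6 : u ∈ Subgroup.zpowers (u⁻¹ * (x * u * x⁻¹)) := by rw [hcyc _ h4 h5]; exact hu
    have h7 : Subgroup.zpowers (u⁻¹ * (x * u * x⁻¹)) ≤ MulAction.stabilizer G b := Subgroup.zpowers_le.2 h2
    have h8 : u • b = b := h7 h6
    rw [← hua', h8]

end Cfsg.Agent.S1018
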