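import Cfsg.Statements.S1019
import Mathlib

set_option autoImplicit false
open Cfsg

namespace Cfsg.Agent.S1019

theorem card_fiber {α β : Type*} [Finite α] [Finite β] (f : α → β) (n : ℕ) (h : ∀ b, Nat.card {a // f a = b} = n) :
    Nat.card α = Nat.card β * n := by
  classical
  haveI := Fintype.ofFinite α
  haveI := Fintype.ofFinite β
  have := Nat.card_congr (Equiv.sigmaFiberEquiv f)
  rw [← this, Nat.card_sigma, Finset.sum_congr rfl (fun b _ => h b)]
  simp

/-- Let H be a subgroup of a finite group G and x an element of H. In the action of G on the left cosets of H, the number of cosets fixed by x, multiplied by the size of the conjugacy class of x, equals the index of H multiplied by the number of conjugates of x that lie in H. -/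
theorem result {G : Type*} [Group G] [Finite G] (H : Subgroup G) (x : G) (hx : x ∈ H) : Nat.card (MulAction.fixedBy (G ⧸ H) x) * Nat.card {g : G // IsConj x g} = H.index * Nat.card {g : G // IsConj x g ∧ g ∈ H} := by
  classical
  have h1 : Nat.card {g : G // g⁻¹ * x * g ∈ H} = Nat.card (MulAction.fixedBy (G ⧸ H) x) * Nat.card H := by
    refine card_fiber (fun g => (⟨(g.1 : G ⧸ H), ?_⟩ : MulAction.fixedBy (G ⧸ H) x)) _ ?_
    · have := g.2
      rw [MulAction.mem_fixedBy]
      change ((x * g.1 : G) : G ⧸ H) = _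
      rw [eq_comm, QuotientGroup.eq]
      simpa [mul_assoc] using this
    · rintro ⟨b, hb⟩
      obtain ⟨g, rfl⟩ := QuotientGroup.mk_surjective b
      have hg : g⁻¹ * x * g ∈ H := by
        rw [MulAction.mem_fixedBy] at hb
        change ((x * g : G) : G ⧸ H) = _ at hb
        rw [eq_comm, QuotientGroup.eq] at hb
        simpa [mul_assoc] using hb
      refine Nat.card_congr ⟨fun a => ⟨g⁻¹ * a.1.1, ?_⟩, fun h => ⟨⟨g * h.1, ?_⟩, ?_⟩, ?_, ?_⟩
      · have := congrArg Subtype.val a.2
        simp only at this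
        rw [eq_comm, QuotientGroup.eq] at this
        exact this
      · have : (g * h.1)⁻¹ * x * (g * h.1) = h.1⁻¹ * (g⁻¹ * x * g) * h.1 := by group
        rw [this]
        exact H.mul_mem (H.mul_mem (H.inv_mem h.2) hg) h.2
      · simp
      · intro a; ext; simp
      · intro a; ext; simp
  have h2 : Nat.card {g : G // g⁻¹ * x * g ∈ H} = Nat.card {g : G // IsConj x g ∧ g ∈ H} * Nat.card (Subgroup.centralizer ({x} : Set G)) := by
    refine card_fiber (fun g => (⟨g.1⁻¹ * x * g.1, ?_, g.2⟩ : {g : G // IsConj x g ∧ g ∈ H})) _ ?_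
    · exact isConj_iff.2 ⟨g.1⁻¹, by simp⟩
    · rintro ⟨b, hb, hbH⟩
      obtain ⟨c, rfl⟩ := isConj_iff.1 hb
      refine Nat.card_congr ⟨fun a => ⟨a.1.1 * c, ?_⟩, fun h => ⟨⟨h.1 * c⁻¹, ?_⟩, ?_⟩, ?_, ?_⟩
      · have := congrArg Subtype.val a.2
        simp only at this
        rw [Subgroup.mem_centralizer_singleton_iff]
        have h3 : x * a.1.1 = a.1.1 * (c * x * c⁻¹) := (inv_mul_eq_iff_eq_mul.1 (by rw [← mul_assoc]; exact this))
        calc a.1.1 * c * x = (a.1.1 * (c * x * c⁻¹)) * c := by group
          _ = x * a.1.1 * c := by rw [h3]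
          _ = _ := by group
      · have hh := (Subgroup.mem_centralizer_singleton_iff.1 h.2)
        have : (h.1 * c⁻¹)⁻¹ * x * (h.1 * c⁻¹) = c * (h.1⁻¹ * (x * h.1)) * c⁻¹ := by group
        rw [this, ← hh]
        simpa [mul_assoc] using hbH
      · have hh := (Subgroup.mem_centralizer_singleton_iff.1 h.2)
        ext
        have : (h.1 * c⁻¹)⁻¹ * x * (h.1 * c⁻¹) = c * (h.1⁻¹ * (x * h.1)) * c⁻¹ := by group
        simp only
        rw [this, ← hh]
        simp [mul_assoc]
      · intro a; ext; simp
      · intro a; ext; simp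
  have h3 : Nat.card G = Nat.card {g : G // IsConj x g} * Nat.card (Subgroup.centralizer ({x} : Set G)) := by
    refine card_fiber (fun g => (⟨g⁻¹ * x * g, ?_⟩ : {g : G // IsConj x g})) _ ?_
    · exact isConj_iff.2 ⟨g⁻¹, by simp⟩
    · rintro ⟨b, hb⟩
      obtain ⟨c, rfl⟩ := isConj_iff.1 hb
      refine Nat.card_congr ⟨fun a => ⟨a.1 * c, ?_⟩, fun h => ⟨h.1 * c⁻¹, ?_⟩, ?_, ?_⟩
      · have := congrArg Subtype.val a.2
        simp only at this
        rw [Subgroup.mem_centralizer_singleton_iff]
        have h3 : x * a.1 = a.1 * (c * x * c⁻¹) := (inv_mul_eq_iff_eq_mul.1 (by rw [← mul_assoc]; exact this))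
        calc a.1 * c * x = (a.1 * (c * x * c⁻¹)) * c := by group
          _ = x * a.1 * c := by rw [h3]
          _ = _ := by group
      · have hh := (Subgroup.mem_centralizer_singleton_iff.1 h.2)
        ext
        have : (h.1 * c⁻¹)⁻¹ * x * (h.1 * c⁻¹) = c * (h.1⁻¹ * (x * h.1)) * c⁻¹ := by group
        simp only
        rw [this, ← hh]
        simp [mul_assoc]
      · intro a; ext; simp
      · intro a; ext; simp
  have h4 : Nat.card G = H.index * Nat.card H := by rw [mul_comm]; exact (Subgroup.card_mul_index H).symm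
  have hH : 0 < Nat.card H := Nat.card_pos
  have hC : 0 < Nat.card (Subgroup.centralizer ({x} : Set G)) := Nat.card_pos
  have key : (Nat.card (MulAction.fixedBy (G ⧸ H) x) * Nat.card {g : G // IsConj x g}) * (Nat.card H * Nat.card (Subgroup.centralizer ({x} : Set G))) = (H.index * Nat.card {g : G // IsConj x g ∧ g ∈ H}) * (Nat.card H * Nat.card (Subgroup.centralizer ({x} : Set G))) := by
    calc _ = (Nat.card (MulAction.fixedBy (G ⧸ H) x) * Nat.card H) * (Nat.card {g : G // IsConj x g} * Nat.card (Subgroup.centralizer ({x} : Set G))) := by ring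
      _ = (Nat.card {g : G // IsConj x g ∧ g ∈ H} * Nat.card (Subgroup.centralizer ({x} : Set G))) * (H.index * Nat.card H) := by rw [← h1, ← h3, ← h2, ← h4]
      _ = _ := by ring
  exact Nat.eq_of_mul_eq_mul_right (Nat.mul_pos hH hC) key

end Cfsg.Agent.S1019
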