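import Cfsg.Statements.S1024
import Cfsg.Agent.H6.ChS1

set_option autoImplicit false
open Cfsg

namespace Cfsg.Agent.S1024

/-- `x_r(0) = 1`, and `x_r(t) = 1` forces `t = 0`: the map `t ↦ x_r(t)` is injective. -/
theorem result {F : Type*} [Field F] (D : Cfsg.Lie.ChevalleyDatum) (hD : D ∈ [Cfsg.Lie.chevG2, Cfsg.Lie.chevB2, Cfsg.Lie.chevD4, Cfsg.Lie.chevF4, Cfsg.Lie.chevE6, Cfsg.Lie.chevE7, Cfsg.Lie.chevE8]) (r : ℕ) (hr : r < D.nroots) (t : F) :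
    D.x F r t = 1 ↔ t = 0 := by
  obtain ⟨g⟩ := CfsgH6.Chv.good_all hD
  rw [CfsgH6.Chv.x_eq D F hr]
  constructor
  · intro h
    obtain ⟨i, hi, hc⟩ := g.cor_ne F hr
    have h1 := CfsgH6.Chv.xv_neg D (g.neg_lt hr) (g.neg_ne hr) t
    rw [h, Matrix.one_mulVec] at h1
    have h2 := congrFun h1 (Sum.inl ⟨i, hi⟩)
    simp only [Pi.add_apply, Pi.sub_apply, Pi.smul_apply, smul_eq_mul, CfsgH6.Chv.hh_inl] at h2
    simp only [CfsgH6.Chv.ev, zero_add, mul_zero, sub_zero] at h2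
    rcases mul_eq_zero.1 h2.symm with h3 | h3
    · exact h3
    · exact absurd h3 hc
  · rintro rfl
    exact g.xR_zero hr

end Cfsg.Agent.S1024
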