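import Cfsg.Statements.S1025
import Cfsg.Agent.H6.ChS1

set_option autoImplicit false
open Cfsg

namespace Cfsg.Agent.S1025

/-- Chevalley's commutator formula: for roots `s ≠ ±r`, `x_s(u) x_r(t) = x_r(t) x_s(u) · ∏_{i,j>0} x_{ir+js}(C_{ijrs} (-t)^i u^j)`, the product (in order of increasing `i + j`) and the constants being those of `commWord`. -/
theorem result {F : Type*} [Field F] (D : Cfsg.Lie.ChevalleyDatum) (hD : D ∈ [Cfsg.Lie.chevG2, Cfsg.Lie.chevB2, Cfsg.Lie.chevD4, Cfsg.Lie.chevF4, Cfsg.Lie.chevE6, Cfsg.Lie.chevE7, Cfsg.Lie.chevE8]) (r s : ℕ) (hr : r < D.nroots) (hs : s < D.nroots)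
    (hrs : s ≠ r) (hneg : s ≠ D.neg r) (t u : F) :
    D.x F s u * D.x F r t = D.x F r t * D.x F s u * D.wordMat F (D.commWord F r s t u) := by
  obtain ⟨g⟩ := CfsgH6.Chv.good_all hD
  rw [g.wordMat_eq, g.x_eq_xg, g.x_eq_xg, ← Units.val_mul, ← Units.val_mul, ← Units.val_mul, g.xg_comm hr hs hrs hneg t u]
  unfold Cfsg.Lie.ChevalleyDatum.commWord
  rw [List.map_map]
  rfl

end Cfsg.Agent.S1025
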