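import Cfsg.Statements.S1026
import Cfsg.Agent.H6.ChR7

set_option autoImplicit false
open Cfsg

namespace Cfsg.Agent.S1026

/-- Every element of `U` has a unique expression `∏_{r ∈ Φ⁺} x_r(t_r)`, the product over the positive roots in increasing index order (the coefficient family `t`, supported on the positive roots, exists and is unique); and conversely every such ordered product is the matrix of an element of `U`. -/
theorem result {F : Type*} [Field F] (D : Cfsg.Lie.ChevalleyDatum) (hD : D ∈ [Cfsg.Lie.chevG2, Cfsg.Lie.chevB2, Cfsg.Lie.chevD4, Cfsg.Lie.chevF4, Cfsg.Lie.chevE6, Cfsg.Lie.chevE7, Cfsg.Lie.chevE8]) :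
    (∀ g : GL D.Idx F, g ∈ D.posUnipotent F →
      ∃! t : ℕ → F, (∀ r, ¬ D.IsPosRoot r → t r = 0) ∧
        (g : Matrix D.Idx D.Idx F) = D.wordMat F (D.posRoots.map fun r => (r, t r))) ∧
    (∀ t : ℕ → F, ∃ g : GL D.Idx F, g ∈ D.posUnipotent F ∧
      (g : Matrix D.Idx D.Idx F) = D.wordMat F (D.posRoots.map fun r => (r, t r))) := by
  obtain ⟨g'⟩ := CfsgH6.Chv.good_all hD
  rw [g'.posU_eq]
  have hw : ∀ t : ℕ → F, D.wordMat F (D.posRoots.map fun r => (r, t r)) = ((g'.ordP t (List.range' g'.N g'.N) : GL D.Idx F) : Matrix D.Idx D.Idx F) := by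
    intro t
    rw [g'.wordMat_eq, g'.posRoots_eq, List.map_map]
    rfl
  refine ⟨?_, ?_⟩
  · intro x hx
    obtain ⟨t, rfl⟩ := g'.U_exists hx
    refine ⟨fun r => if r < D.nroots ∧ g'.N ≤ r then t r else 0, ⟨?_, ?_⟩, ?_⟩
    · intro r hr
      rw [g'.isPosRoot_iff] at hr
      exact if_neg hr
    · rw [hw]
      congr 1
      apply g'.ordP_congr
      intro r hr
      have := List.mem_range'_1.1 hr
      have := g'.hN
      rw [if_pos (by omega)]
    · rintro t' ⟨h1, h2⟩
      rw [hw] at h2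
      have h3 := Units.ext h2
      ext r
      by_cases hr : r < D.nroots ∧ g'.N ≤ r
      · rw [if_pos hr]
        exact (g'.U_inj h3 hr.2 hr.1).symm
      · rw [if_neg hr]
        exact h1 r (by rwa [g'.isPosRoot_iff])
  · intro t
    exact ⟨g'.ordP t (List.range' g'.N g'.N), g'.U_mem t, (hw t).symm⟩

end Cfsg.Agent.S1026
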