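import Cfsg.Statements.S1034
import Cfsg.Agent.H6.ChS2

set_option autoImplicit false
open Cfsg

namespace Cfsg.Agent.S1034

/-- Every element of `H` is a product `h_{p_1}(c_1) ⋯ h_{p_l}(c_l)` over the fundamental roots, with non-zero `c_i`. -/
theorem result {F : Type*} [Field F] (D : Cfsg.Lie.ChevalleyDatum) (hD : D ∈ [Cfsg.Lie.chevG2, Cfsg.Lie.chevB2, Cfsg.Lie.chevD4, Cfsg.Lie.chevF4, Cfsg.Lie.chevE6, Cfsg.Lie.chevE7, Cfsg.Lie.chevE8]) (g : GL D.Idx F) (hg : g ∈ D.diagonalSubgroup F) :
    ∃ c : ℕ → F, (∀ i < D.rank, c i ≠ 0) ∧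
      (g : Matrix D.Idx D.Idx F) = D.wordMat F ((List.range D.rank).flatMap fun i => D.hWord (D.simple i) (c i)) := by
  obtain ⟨g'⟩ := CfsgH6.Chv.good_all hD
  rw [g'.diag_eq] at hg
  obtain ⟨c, rfl⟩ := hg
  refine ⟨fun i => (c i : F), fun i _ => (c i).ne_zero, ?_⟩
  rw [g'.hc_eq_prod, g'.wordMat_eq]
  congr 1
  have key : ∀ L : List ℕ, (∀ i ∈ L, i < D.rank) → (L.map fun i => g'.hD (D.simple i) (c i)).prod =
      ((L.flatMap fun i => D.hWord (D.simple i) (c i : F)).map fun q => g'.xg q.1 q.2).prod := by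
    intro L
    induction L with
    | nil => intro _; simp
    | cons i L ih =>
      intro hL
      rw [List.map_cons, List.prod_cons, List.flatMap_cons, List.map_append, List.prod_append, ih (fun j hj => hL j (by simp [hj]))]
      congr 1
      have hi := g'.simple_lt i (hL i (by simp))
      apply Units.ext
      rw [← g'.wordMat_eq]
      have := g'.hMat_eq hi (c i).ne_zero
      unfold Cfsg.Lie.ChevalleyDatum.hMat at this
      rw [this]
      congr 2
      ext; rfl
  exact key _ (fun i hi => List.mem_range.1 hi)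

end Cfsg.Agent.S1034
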