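import Cfsg.Statements.S1037
import Cfsg.Agent.H6.ChS2

set_option autoImplicit false
open Cfsg

namespace Cfsg.Agent.S1037

/-- `UH ∩ V = 1` and `UH ∩ VH = H`. -/
theorem result {F : Type*} [Field F] (D : Cfsg.Lie.ChevalleyDatum) (hD : D ∈ [Cfsg.Lie.chevG2, Cfsg.Lie.chevB2, Cfsg.Lie.chevD4, Cfsg.Lie.chevF4, Cfsg.Lie.chevE6, Cfsg.Lie.chevE7, Cfsg.Lie.chevE8]) :
    D.borelSubgroup F ⊓ D.negUnipotent F = ⊥ ∧
      D.borelSubgroup F ⊓ (D.negUnipotent F ⊔ D.diagonalSubgroup F) = D.diagonalSubgroup F := by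
  obtain ⟨g⟩ := CfsgH6.Chv.good_all hD
  rw [g.diag_eq, g.borel_eq, g.negU_eq]
  refine ⟨g.BB_inf_VV, ?_⟩
  apply le_antisymm
  · rintro x ⟨h1, h2⟩
    have h3 : x ∈ g.XS F (fun r => r < g.N) ⊔ g.HH F := h2
    rw [← g.XH_eq_sup] at h3
    exact g.BB_inf_VH h1 h3
  · intro x hx
    exact ⟨g.HH_le_BB hx, Subgroup.mem_sup_right hx⟩

end Cfsg.Agent.S1037
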