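import Cfsg.Statements.S1039
import Cfsg.Agent.H6.ChW2

set_option autoImplicit false
open Cfsg

namespace Cfsg.Agent.S1039

theorem aux {F : Type*} [Field F] {D : Cfsg.Lie.ChevalleyDatum} (g : CfsgH6.Chv.Good D) {n : ℕ} {M : CoxeterMatrix (Fin n)}
    (hM : CfsgH6.Chv.CoxOK D n M) :
    ∃ φ : ↥(D.monomialSubgroup F) →* M.Group, Function.Surjective φ ∧
      φ.ker = (D.diagonalSubgroup F).subgroupOf (D.monomialSubgroup F) ∧
      ∀ (i : Fin n) (x : ↥(D.monomialSubgroup F)),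
        ((x : GL D.Idx F) : Matrix D.Idx D.Idx F) = D.nMat F (D.simple i) 1 → φ x = M.simple i := by
  rw [g.mono_eq, g.diag_eq]
  obtain ⟨φ, h1, h2, h3⟩ := CfsgH6.Chv.exists_NCox g hM F
  refine ⟨φ, h1, h2, fun i x hx => h3 i x ?_⟩
  rw [g.nMat_eq, ← g.nn_eq_ng] at hx
  exact Units.ext hx

/-- `N/H ≅ W`: there is a surjective homomorphism from `N` onto the Coxeter group of the type (Mathlib's Coxeter matrix G₂, B₂, F₄, E₆, E₇, E₈, nodes numbered as the fundamental roots) with kernel `H`, mapping each `n_{p_i}` to the `i`-th simple reflection. -/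
theorem result {F : Type*} [Field F]
    (p : Cfsg.Lie.ChevalleyDatum × (Σ n : ℕ, CoxeterMatrix (Fin n)))
    (hp : p ∈ [(Cfsg.Lie.chevG2, ⟨2, CoxeterMatrix.G₂⟩), (Cfsg.Lie.chevB2, ⟨2, CoxeterMatrix.B 2⟩), (Cfsg.Lie.chevD4, ⟨4, Cfsg.Lie.coxeterD4⟩), (Cfsg.Lie.chevF4, ⟨4, CoxeterMatrix.F₄⟩),
      (Cfsg.Lie.chevE6, ⟨6, CoxeterMatrix.E₆⟩), (Cfsg.Lie.chevE7, ⟨7, CoxeterMatrix.E₇⟩), (Cfsg.Lie.chevE8, ⟨8, CoxeterMatrix.E₈⟩)]) :
    ∃ φ : ↥(p.1.monomialSubgroup F) →* p.2.2.Group, Function.Surjective φ ∧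
      φ.ker = (p.1.diagonalSubgroup F).subgroupOf (p.1.monomialSubgroup F) ∧
      ∀ (i : Fin p.2.1) (g : ↥(p.1.monomialSubgroup F)),
        ((g : GL p.1.Idx F) : Matrix p.1.Idx p.1.Idx F) = p.1.nMat F (p.1.simple i) 1 → φ g = p.2.2.simple i := by
  simp only [List.mem_cons, List.mem_nil_iff, or_false] at hp
  rcases hp with rfl | rfl | rfl | rfl | rfl | rfl | rfl
  · obtain ⟨g⟩ := CfsgH6.Chv.good_all (D := Cfsg.Lie.chevG2) (by simp)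
    exact aux g CfsgH6.Chv.coxG2
  · obtain ⟨g⟩ := CfsgH6.Chv.good_all (D := Cfsg.Lie.chevB2) (by simp)
    exact aux g CfsgH6.Chv.coxB2
  · obtain ⟨g⟩ := CfsgH6.Chv.good_all (D := Cfsg.Lie.chevD4) (by simp)
    exact aux g CfsgH6.Chv.coxD4
  · obtain ⟨g⟩ := CfsgH6.Chv.good_all (D := Cfsg.Lie.chevF4) (by simp)
    exact aux g CfsgH6.Chv.coxF4
  · obtain ⟨g⟩ := CfsgH6.Chv.good_all (D := Cfsg.Lie.chevE6) (by simp)
    exact aux g CfsgH6.Chv.coxE6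
  · obtain ⟨g⟩ := CfsgH6.Chv.good_all (D := Cfsg.Lie.chevE7) (by simp)
    exact aux g CfsgH6.Chv.coxE7
  · obtain ⟨g⟩ := CfsgH6.Chv.good_all (D := Cfsg.Lie.chevE8) (by simp)
    exact aux g CfsgH6.Chv.coxE8

end Cfsg.Agent.S1039
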