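import Cfsg.Statements.S1040
import Cfsg.Agent.H6.ChS2

set_option autoImplicit false
open Cfsg

namespace Cfsg.Agent.S1040

/-- `U ∩ N = 1` and `B ∩ N = UH ∩ N = H`. -/
theorem result {F : Type*} [Field F] (D : Cfsg.Lie.ChevalleyDatum) (hD : D ∈ [Cfsg.Lie.chevG2, Cfsg.Lie.chevB2, Cfsg.Lie.chevD4, Cfsg.Lie.chevF4, Cfsg.Lie.chevE6, Cfsg.Lie.chevE7, Cfsg.Lie.chevE8]) :
    D.posUnipotent F ⊓ D.monomialSubgroup F = ⊥ ∧ D.borelSubgroup F ⊓ D.monomialSubgroup F = D.diagonalSubgroup F := by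
  obtain ⟨g⟩ := CfsgH6.Chv.good_all hD
  rw [g.diag_eq, g.mono_eq, g.borel_eq, g.posU_eq]
  refine ⟨?_, ?_⟩
  · rw [eq_bot_iff]
    rintro x ⟨h1, h2⟩
    rw [← g.UU_inf_HH]
    exact ⟨h1, g.BB_inf_NN (g.UU_le_BB h1) h2⟩
  · apply le_antisymm
    · rintro x ⟨h1, h2⟩; exact g.BB_inf_NN h1 h2
    · intro x hx; exact ⟨g.HH_le_BB hx, g.HH_le_NN hx⟩

end Cfsg.Agent.S1040
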