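import Cfsg.Statements.S1044
import Cfsg.Agent.H6.ChS2

set_option autoImplicit false
open Cfsg

namespace Cfsg.Agent.S1044

/-- For a fundamental root `p` the set `B ∪ B n_p B` is (the carrier of) a subgroup of the general linear group. -/
theorem result {F : Type*} [Field F] (D : Cfsg.Lie.ChevalleyDatum) (hD : D ∈ [Cfsg.Lie.chevG2, Cfsg.Lie.chevB2, Cfsg.Lie.chevD4, Cfsg.Lie.chevF4, Cfsg.Lie.chevE6, Cfsg.Lie.chevE7, Cfsg.Lie.chevE8]) (i : ℕ) (hi : i < D.rank) (n : GL D.Idx F)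
    (hn : (n : Matrix D.Idx D.Idx F) = D.nMat F (D.simple i) 1) :
    ∃ P : Subgroup (GL D.Idx F), (P : Set (GL D.Idx F)) =
      (D.borelSubgroup F : Set (GL D.Idx F)) ∪ DoubleCoset.doubleCoset n (D.borelSubgroup F : Set (GL D.Idx F)) (D.borelSubgroup F) := by
  obtain ⟨g⟩ := CfsgH6.Chv.good_all hD
  rw [g.nMat_eq, ← g.nn_eq_ng] at hn
  have hn' : n = g.nn i := Units.ext hn
  subst hn'
  rw [g.borel_eq]
  have hinv : (g.nn i : GL D.Idx F)⁻¹ ∈ DoubleCoset.doubleCoset (g.nn i) (g.BB F : Set (GL D.Idx F)) (g.BB F) := by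
    rw [DoubleCoset.mem_doubleCoset]
    exact ⟨_, g.HH_le_BB (g.hD_mem (D.simple i) (-1)), 1, Subgroup.one_mem _, by rw [mul_one]; exact g.nn_inv_eq hi⟩
  have key : ∀ b ∈ g.BB F, g.nn i * b * g.nn i ∈ (g.BB F : Set (GL D.Idx F)) ∪ DoubleCoset.doubleCoset (g.nn i) (g.BB F : Set (GL D.Idx F)) (g.BB F) := by
    intro b hb
    obtain ⟨b1, h1, b2, h2, h3 | h3⟩ := g.bn3 hi (g.nn_mem hi) hb
    · left
      rw [h3, g.nn_sq hi]
      exact Subgroup.mul_mem _ (Subgroup.mul_mem _ h1 (g.HH_le_BB (g.hD_mem _ _))) h2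
    · right
      rw [h3, DoubleCoset.mem_doubleCoset]
      exact ⟨b1, h1, b2, h2, rfl⟩
  refine ⟨{ carrier := (g.BB F : Set (GL D.Idx F)) ∪ DoubleCoset.doubleCoset (g.nn i) (g.BB F : Set (GL D.Idx F)) (g.BB F)
            one_mem' := Or.inl (Subgroup.one_mem _)
            mul_mem' := ?_
            inv_mem' := ?_ }, rfl⟩
  · rintro x y (hx | hx) (hy | hy)
    · exact Or.inl (Subgroup.mul_mem _ hx hy)
    · rw [DoubleCoset.mem_doubleCoset] at hy
      obtain ⟨b1, h1, b2, h2, rfl⟩ := hy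
      right
      rw [DoubleCoset.mem_doubleCoset]
      exact ⟨x * b1, Subgroup.mul_mem _ hx h1, b2, h2, by group⟩
    · rw [DoubleCoset.mem_doubleCoset] at hx
      obtain ⟨b1, h1, b2, h2, rfl⟩ := hx
      right
      rw [DoubleCoset.mem_doubleCoset]
      exact ⟨b1, h1, b2 * y, Subgroup.mul_mem _ h2 hy, by group⟩
    · rw [DoubleCoset.mem_doubleCoset] at hx hy
      obtain ⟨b1, h1, b2, h2, rfl⟩ := hx
      obtain ⟨b3, h3, b4, h4, rfl⟩ := hy
      have e : b1 * g.nn i * b2 * (b3 * g.nn i * b4) = b1 * (g.nn i * (b2 * b3) * g.nn i) * b4 := by group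
      rw [e]
      rcases key (b2 * b3) (Subgroup.mul_mem _ h2 h3) with h | h
      · exact Or.inl (Subgroup.mul_mem _ (Subgroup.mul_mem _ h1 h) h4)
      · rw [DoubleCoset.mem_doubleCoset] at h
        obtain ⟨c1, k1, c2, k2, h5⟩ := h
        right
        rw [DoubleCoset.mem_doubleCoset, h5]
        exact ⟨b1 * c1, Subgroup.mul_mem _ h1 k1, c2 * b4, Subgroup.mul_mem _ k2 h4, by group⟩
  · rintro x (hx | hx)
    · exact Or.inl (Subgroup.inv_mem _ hx)
    · rw [DoubleCoset.mem_doubleCoset] at hx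
      obtain ⟨b1, h1, b2, h2, rfl⟩ := hx
      rw [DoubleCoset.mem_doubleCoset] at hinv
      obtain ⟨c1, k1, c2, k2, h5⟩ := hinv
      right
      rw [DoubleCoset.mem_doubleCoset]
      refine ⟨b2⁻¹ * c1, Subgroup.mul_mem _ (Subgroup.inv_mem _ h2) k1, c2 * b1⁻¹, Subgroup.mul_mem _ k2 (Subgroup.inv_mem _ h1), ?_⟩
      have e : (b1 * g.nn i * b2)⁻¹ = b2⁻¹ * (g.nn i)⁻¹ * b1⁻¹ := by group
      rw [e, h5]; group

end Cfsg.Agent.S1044
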