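import Cfsg.Statements.S1045
import Cfsg.Agent.H6.ChR7

set_option autoImplicit false
open Cfsg

namespace Cfsg.Agent.S1045

/-- For a fundamental root `p`, the subgroup `U_p` generated by the `X_s`, `s` positive and `s ≠ p`, is normalised by `X_p` and `X_{-p}`, and `U = U_p ⊔ X_p`. -/
theorem result {F : Type*} [Field F] (D : Cfsg.Lie.ChevalleyDatum) (hD : D ∈ [Cfsg.Lie.chevG2, Cfsg.Lie.chevB2, Cfsg.Lie.chevD4, Cfsg.Lie.chevF4, Cfsg.Lie.chevE6, Cfsg.Lie.chevE7, Cfsg.Lie.chevE8]) (i : ℕ) (hi : i < D.rank) :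
    D.rootSubgroup F (D.simple i) ⊔ D.rootSubgroup F (D.neg (D.simple i)) ≤
        Subgroup.normalizer (Subgroup.closure {g : GL D.Idx F | ∃ (s : ℕ) (t : F), D.IsPosRoot s ∧ s ≠ D.simple i ∧
          (g : Matrix D.Idx D.Idx F) = D.x F s t} : Set (GL D.Idx F)) ∧
      Subgroup.closure {g : GL D.Idx F | ∃ (s : ℕ) (t : F), D.IsPosRoot s ∧ s ≠ D.simple i ∧
          (g : Matrix D.Idx D.Idx F) = D.x F s t} ⊔ D.rootSubgroup F (D.simple i) = D.posUnipotent F := by
  obtain ⟨g⟩ := CfsgH6.Chv.good_all hD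
  have hps := g.simple_lt i hi
  have hUP : Subgroup.closure {x : GL D.Idx F | ∃ (s : ℕ) (t : F), D.IsPosRoot s ∧ s ≠ D.simple i ∧
          (x : Matrix D.Idx D.Idx F) = D.x F s t} = g.UP F i := by
    unfold CfsgH6.Chv.Good.UP CfsgH6.Chv.Good.XS
    congr 1
    ext x
    constructor
    · rintro ⟨r, t, h1, h2, h3⟩
      rw [g.isPosRoot_iff] at h1
      exact ⟨r, t, ⟨h1.2, h2⟩, h1.1, (g.eq_xg_iff r t x).1 h3⟩
    · rintro ⟨r, t, ⟨h1, h2⟩, h3, h4⟩
      exact ⟨r, t, (g.isPosRoot_iff r).2 ⟨h3, h1⟩, h2, (g.eq_xg_iff r t x).2 h4⟩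
  rw [hUP, g.posU_eq]
  have hX : ∀ t : F, g.xg (D.simple i) t ∈ Subgroup.normalizer (g.UP F i : Set (GL D.Idx F)) := by
    intro t
    rw [Subgroup.mem_normalizer_iff]
    intro y
    constructor
    · intro hy; exact g.conj_XS' hps (g.up_ok' hi) t y hy
    · intro hy
      have := g.conj_XS hps (g.up_ok' hi) t _ hy
      have h2 : (g.xg (D.simple i) t)⁻¹ * (g.xg (D.simple i) t * y * (g.xg (D.simple i) t)⁻¹) * g.xg (D.simple i) t = y := by group
      rwa [h2] at this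
  have hn : (g.nn i : GL D.Idx F) ∈ Subgroup.normalizer (g.UP F i : Set (GL D.Idx F)) := by
    rw [Subgroup.mem_normalizer_iff]
    intro y
    constructor
    · intro hy; exact g.nn_conj_UP hi y hy
    · intro hy
      have h1 := g.nn_conj_UP hi _ hy
      have h2 : g.nn i * (g.nn i * y * (g.nn i)⁻¹) * (g.nn i)⁻¹ = (g.nn i * g.nn i) * y * (g.nn i * g.nn i)⁻¹ := by group
      rw [h2, g.nn_sq hi] at h1
      have h3 := g.HH_conj_XS' (g.hD_mem (D.simple i) (-1)) _ h1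
      have h4 : (g.hD (D.simple i) (-1 : Fˣ))⁻¹ * (g.hD (D.simple i) (-1) * y * (g.hD (D.simple i) (-1))⁻¹) * g.hD (D.simple i) (-1) = y := by group
      rwa [h4] at h3
  refine ⟨?_, ?_⟩
  · apply sup_le
    · intro x hx
      obtain ⟨t, rfl⟩ := (g.mem_root hps x).1 hx
      exact hX t
    · intro x hx
      obtain ⟨t, rfl⟩ := (g.mem_root (g.neg_lt hps) x).1 hx
      have h1 := g.nn_x (F := F) hi hps (((g.e i (D.simple i) : ℤ) : F) * t)
      rw [← mul_assoc, g.e_sq hi hps, one_mul, g.w_simple i hi] at h1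
      rw [← h1]
      exact Subgroup.mul_mem _ (Subgroup.mul_mem _ hn (hX _)) (Subgroup.inv_mem _ hn)
  · apply le_antisymm
    · apply sup_le (g.UP_le_UU i)
      intro x hx
      obtain ⟨t, rfl⟩ := (g.mem_root hps x).1 hx
      exact g.xg_mem_UU (g.N_le_simple hi) t
    · intro x hx
      obtain ⟨y, a, hy, rfl⟩ := g.UU_split hi hx
      exact Subgroup.mul_mem _ (Subgroup.mem_sup_left hy) (Subgroup.mem_sup_right ((g.mem_root hps _).2 ⟨a, rfl⟩))

end Cfsg.Agent.S1045
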