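import Cfsg.Statements.S1046
import Cfsg.Agent.H6.ChR9

set_option autoImplicit false
open Cfsg

namespace Cfsg.Agent.S1046

/-- Two elements of `H` conjugate in the Chevalley group are conjugate by an element of `N`. -/
theorem result {F : Type*} [Field F] (D : Cfsg.Lie.ChevalleyDatum) (hD : D ∈ [Cfsg.Lie.chevG2, Cfsg.Lie.chevB2, Cfsg.Lie.chevD4, Cfsg.Lie.chevF4, Cfsg.Lie.chevE6, Cfsg.Lie.chevE7, Cfsg.Lie.chevE8]) (h₁ h₂ g : GL D.Idx F) (h1 : h₁ ∈ D.diagonalSubgroup F) (h2 : h₂ ∈ D.diagonalSubgroup F)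
    (hg : g ∈ D.group F) (hc : g * h₁ * g⁻¹ = h₂) :
    ∃ n ∈ D.monomialSubgroup F, n * h₁ * n⁻¹ = h₂ := by
  obtain ⟨G⟩ := CfsgH6.Chv.good_all hD
  rw [G.diag_eq] at h1 h2
  rw [G.group_eq] at hg
  rw [G.mono_eq]
  obtain ⟨b, hb, L, hL, u, hu, he⟩ := G.bruhat hg
  obtain ⟨v, hv, k, hk, rfl⟩ := hb
  have hU : G.XS F (G.Sneg L) ≤ G.BB F := (G.XS_mono (fun _ _ h => h.1)).trans G.UU_le_BB
  refine ⟨k * G.nl F L, ⟨L, hL, k, hk, rfl⟩, ?_⟩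
  -- g h₁ = h₂ g
  have e0 : g * h₁ = h₂ * g := by rw [← hc]; group
  have hN : (k * G.nl F L) * h₁ * (k * G.nl F L)⁻¹ ∈ G.HH F := G.NN_HH ⟨L, hL, k, hk, rfl⟩ h1
  have e1 : (v * ((k * G.nl F L) * h₁ * (k * G.nl F L)⁻¹)) * (k * G.nl F L) * (h₁⁻¹ * u * h₁) =
      ((h₂ * v * h₂⁻¹) * h₂) * (k * G.nl F L) * u := by
    have : (v * ((k * G.nl F L) * h₁ * (k * G.nl F L)⁻¹)) * (k * G.nl F L) * (h₁⁻¹ * u * h₁) = g * h₁ := by rw [he]; group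
    rw [this, e0, he]; group
  have h3 := G.bruhat_unique hL hk (Subgroup.mul_mem _ (G.UU_le_BB hv) (G.HH_le_BB hN))
    (Subgroup.mul_mem _ (G.UU_le_BB (G.HH_conj_XS h2 _ hv)) (G.HH_le_BB h2)) (G.HH_conj_XS' h1 _ hu) hu e1
  -- compare in U ⋊ H
  have h4 : (h₂ * v * h₂⁻¹)⁻¹ * v = h₂ * ((k * G.nl F L) * h₁ * (k * G.nl F L)⁻¹)⁻¹ := by
    have h5 := h3.1
    have h6 : v = (h₂ * v * h₂⁻¹) * h₂ * ((k * G.nl F L) * h₁ * (k * G.nl F L)⁻¹)⁻¹ := by rw [← h5]; group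
    calc (h₂ * v * h₂⁻¹)⁻¹ * v = (h₂ * v * h₂⁻¹)⁻¹ * ((h₂ * v * h₂⁻¹) * h₂ * ((k * G.nl F L) * h₁ * (k * G.nl F L)⁻¹)⁻¹) := by rw [← h6]
      _ = _ := by group
  have h7 : h₂ * ((k * G.nl F L) * h₁ * (k * G.nl F L)⁻¹)⁻¹ ∈ G.UU F ⊓ G.HH F := by
    refine ⟨?_, Subgroup.mul_mem _ h2 (Subgroup.inv_mem _ hN)⟩
    rw [← h4]
    exact Subgroup.mul_mem _ (Subgroup.inv_mem _ (G.HH_conj_XS h2 _ hv)) hv
  rw [G.UU_inf_HH, Subgroup.mem_bot] at h7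
  exact (mul_inv_eq_one.1 h7).symm

end Cfsg.Agent.S1046
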