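import Cfsg.Statements.S1047
import Cfsg.Agent.H6.ChJ1

set_option autoImplicit false
open Cfsg

namespace Cfsg.Agent.S1047

/-- `P_J = ⟨H, X_r : r ∈ Φ⁺ ∪ Φ_J⟩`. -/
theorem result {F : Type*} [Field F] (D : Cfsg.Lie.ChevalleyDatum) (hD : D ∈ [Cfsg.Lie.chevG2, Cfsg.Lie.chevB2, Cfsg.Lie.chevD4, Cfsg.Lie.chevF4, Cfsg.Lie.chevE6, Cfsg.Lie.chevE7, Cfsg.Lie.chevE8]) (J : Set ℕ) :
    D.parabolicSubgroup F J = D.diagonalSubgroup F ⊔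
      Subgroup.closure {g : GL D.Idx F | ∃ (r : ℕ) (t : F), (D.IsPosRoot r ∨ D.InRootSub J r) ∧ (g : Matrix D.Idx D.Idx F) = D.x F r t} := by
  obtain ⟨g⟩ := CfsgH6.Chv.good_all hD
  rw [g.parab_eq, g.diag_eq]
  unfold CfsgH6.Chv.Good.PJ CfsgH6.Chv.Good.XS
  congr 2
  ext x
  constructor
  · rintro ⟨r, t, h1, h2, h3⟩
    refine ⟨r, t, ?_, (g.eq_xg_iff r t x).2 h3⟩
    rcases h1 with h1 | h1
    · left; exact (g.isPosRoot_iff r).2 ⟨h2, h1⟩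
    · right; exact g.inRootSub_iff.2 ⟨h2, h1⟩
  · rintro ⟨r, t, h1, h2⟩
    rcases h1 with h1 | h1
    · rw [g.isPosRoot_iff] at h1
      exact ⟨r, t, Or.inl h1.2, h1.1, (g.eq_xg_iff r t x).1 h2⟩
    · rw [g.inRootSub_iff] at h1
      exact ⟨r, t, Or.inr h1.2, h1.1, (g.eq_xg_iff r t x).1 h2⟩

end Cfsg.Agent.S1047
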