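import Cfsg.Statements.S1051
import Cfsg.Agent.H6.ChR9

set_option autoImplicit false
open Cfsg

namespace Cfsg.Agent.S1051

/-- `⋂_g g B g⁻¹ = 1`: the normal core of `B` in the Chevalley group is trivial. -/
theorem result {F : Type*} [Field F] (D : Cfsg.Lie.ChevalleyDatum) (hD : D ∈ [Cfsg.Lie.chevG2, Cfsg.Lie.chevB2, Cfsg.Lie.chevD4, Cfsg.Lie.chevF4, Cfsg.Lie.chevE6, Cfsg.Lie.chevE7, Cfsg.Lie.chevE8]) : ((D.borelSubgroup F).subgroupOf (D.group F)).normalCore = ⊥ := by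
  obtain ⟨g⟩ := CfsgH6.Chv.good_all hD
  rw [g.borel_eq, g.group_eq, eq_bot_iff]
  intro x hx
  rw [Subgroup.mem_bot]
  apply Subtype.ext
  apply g.core_BB
  intro y hy
  have h := (Subgroup.normalCore_le ((g.BB F).subgroupOf (g.GG F)))
    (Subgroup.Normal.conj_mem inferInstance x hx ⟨y, hy⟩)
  exact h

end Cfsg.Agent.S1051
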