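import Cfsg.Statements.S1052
import Cfsg.Agent.H6.ChP1

set_option autoImplicit false
open Cfsg

namespace Cfsg.Agent.S1052

/-- `G = G'` for every type G₂, B₂, D₄, F₄, E₆, E₇, E₈ over every field, except G₂ and B₂ over the field with two elements. -/
theorem result {F : Type*} [Field F] (D : Cfsg.Lie.ChevalleyDatum) (hD : D ∈ [Cfsg.Lie.chevG2, Cfsg.Lie.chevB2, Cfsg.Lie.chevD4, Cfsg.Lie.chevF4, Cfsg.Lie.chevE6, Cfsg.Lie.chevE7, Cfsg.Lie.chevE8]) (h2 : D = Cfsg.Lie.chevG2 ∨ D = Cfsg.Lie.chevB2 → ∃ a : F, a ≠ 0 ∧ a ≠ 1) :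
    commutator ↥(D.group F) = ⊤ := by
  obtain ⟨g⟩ := CfsgH6.Chv.good_all hD
  rw [g.group_eq]
  apply g.CG_top
  by_cases h : D ∈ [Cfsg.Lie.chevD4, Cfsg.Lie.chevF4, Cfsg.Lie.chevE6, Cfsg.Lie.chevE7, Cfsg.Lie.chevE8]
  · exact CfsgH6.Chv.CG_big g h F
  · have h3 : D = Cfsg.Lie.chevG2 ∨ D = Cfsg.Lie.chevB2 := by
      simp only [List.mem_cons, List.mem_nil_iff, or_false] at h hD
      tauto
    have h4 := h2 h3
    rcases h3 with rfl | rfl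
    · exact CfsgH6.Chv.CG_G2 g F h4
    · exact CfsgH6.Chv.CG_B2 g F h4

end Cfsg.Agent.S1052
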