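import Cfsg.Statements.S1053
import Cfsg.Agent.H6.ChR9

set_option autoImplicit false
open Cfsg

namespace Cfsg.Agent.S1053

/-- There is `n₀ ∈ N` with `n₀ U n₀⁻¹ = V` (a representative of the longest element of the Weyl group). -/
theorem result {F : Type*} [Field F] (D : Cfsg.Lie.ChevalleyDatum) (hD : D ∈ [Cfsg.Lie.chevG2, Cfsg.Lie.chevB2, Cfsg.Lie.chevD4, Cfsg.Lie.chevF4, Cfsg.Lie.chevE6, Cfsg.Lie.chevE7, Cfsg.Lie.chevE8]) :
    ∃ n ∈ D.monomialSubgroup F, (D.posUnipotent F).map (MulAut.conj n).toMonoidHom = D.negUnipotent F := by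
  obtain ⟨g⟩ := CfsgH6.Chv.good_all hD
  rw [g.mono_eq, g.posU_eq, g.negU_eq]
  obtain ⟨L, hL, hw⟩ := g.exists_w0
  refine ⟨g.nl F L, g.nl_mem hL, le_antisymm ?_ ?_⟩
  · rintro _ ⟨y, hy, rfl⟩
    exact g.conj_map_XS hL hw y hy
  · intro y hy
    refine ⟨(g.nl F L)⁻¹ * y * g.nl F L, g.conj_map_XS' (S := fun r => g.N ≤ r) hL (fun r hr h => g.w0_neg hL hw hr h) y hy, ?_⟩
    simp only [MulEquiv.coe_toMonoidHom, MulAut.conj_apply]
    group

end Cfsg.Agent.S1053
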