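import Cfsg.Statements.S1060
import Cfsg.Agent.H6.ChO6
import Cfsg.Agent.H6.ChOTB2

set_option autoImplicit false
open Cfsg

namespace Cfsg.Agent.S1060

/-- `gcd(2, q-1) · |B₂(q)| = q⁴ (q² - 1)(q⁴ - 1)`. -/
theorem result {F : Type*} [Field F] [Fintype F] {q : ℕ} (hq : Fintype.card F = q) : Nat.gcd 2 (q - 1) * Nat.card ↥(Cfsg.Lie.chevB2.group F) = q ^ 4 * (q ^ 2 - 1) * (q ^ 4 - 1) := by
  obtain ⟨g⟩ := CfsgH6.Chv.good_all (D := Cfsg.Lie.chevB2) (by simp)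
  subst hq
  rw [g.group_eq]
  have h1 := CfsgH6.Chv.card_HH (F := F) (Cfsg.Lie.chevB2, Nat.gcd 2 (Fintype.card F - 1)) (by simp) g
  have h2 := CfsgH6.Chv.ord_GG g (F := F) CfsgH6.Chv.ordB2 h1 (N := 4) (by decide +kernel)
  rw [h2]
  simp only [List.map_cons, List.map_nil, List.prod_cons, List.prod_nil, mul_one]
  ring

end Cfsg.Agent.S1060
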