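import Cfsg.Statements.S1062
import Cfsg.Agent.H6.ChO6
import Cfsg.Agent.H6.ChOTF4

set_option autoImplicit false
open Cfsg

namespace Cfsg.Agent.S1062

/-- `|F₄(q)| = q²⁴ (q² - 1)(q⁶ - 1)(q⁸ - 1)(q¹² - 1)`. -/
theorem result {F : Type*} [Field F] [Fintype F] {q : ℕ} (hq : Fintype.card F = q) : Nat.card ↥(Cfsg.Lie.chevF4.group F) = q ^ 24 * (q ^ 2 - 1) * (q ^ 6 - 1) * (q ^ 8 - 1) * (q ^ 12 - 1) := by
  obtain ⟨g⟩ := CfsgH6.Chv.good_all (D := Cfsg.Lie.chevF4) (by simp)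
  subst hq
  rw [g.group_eq]
  have h1 := CfsgH6.Chv.card_HH (F := F) (Cfsg.Lie.chevF4, 1) (by simp) g
  have h2 := CfsgH6.Chv.ord_GG g (F := F) CfsgH6.Chv.ordF4 h1 (N := 24) (by decide +kernel)
  rw [one_mul] at h2
  rw [h2]
  simp only [List.map_cons, List.map_nil, List.prod_cons, List.prod_nil, mul_one]
  ring

end Cfsg.Agent.S1062
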