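import Cfsg.Statements.S1078
import Cfsg.Agent.H6.ChN6

set_option autoImplicit false
open Cfsg

namespace Cfsg.Agent.S1078

/-- For G₂, F₄, E₈ the presented group has trivial centre (the universal and adjoint groups coincide). -/
theorem result {K : Type*} [Field K] (D : Cfsg.Lie.ChevalleyDatum) (hD : D ∈ [Cfsg.Lie.chevG2, Cfsg.Lie.chevF4, Cfsg.Lie.chevE8]) :
    Subgroup.center (D.SteinbergGroup K) = ⊥ := by
  have hD' : D ∈ [Cfsg.Lie.chevG2, Cfsg.Lie.chevB2, Cfsg.Lie.chevD4, Cfsg.Lie.chevF4, Cfsg.Lie.chevE6, Cfsg.Lie.chevE7, Cfsg.Lie.chevE8] := by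
    simp only [List.mem_cons, List.mem_nil_iff, or_false] at hD ⊢
    tauto
  have hcm := CfsgH6.Chv.cm_all hD'
  obtain ⟨g⟩ := CfsgH6.Chv.good_all hD'
  rw [← (CfsgH6.Chv.steSG (K := K) g).ker_eq_center hcm]
  apply (CfsgH6.Chv.steSG (K := K) g).ker_triv hcm (CfsgH6.Chv.ste_R3 g)
  simp only [List.mem_cons, List.mem_nil_iff, or_false] at hD
  rcases hD with rfl | rfl | rfl
  · exact CfsgH6.Chv.lat_triv CfsgH6.Chv.latG2
  · exact CfsgH6.Chv.lat_triv CfsgH6.Chv.latF4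
  · exact CfsgH6.Chv.lat_triv CfsgH6.Chv.latE8

end Cfsg.Agent.S1078
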