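import Cfsg.Statements.S1081
import Cfsg.Agent.H6.ChX4

set_option autoImplicit false
open Cfsg

namespace Cfsg.Agent.S1081

/-- Graph automorphisms: for E₆ with ρ = (p₁ p₆)(p₃ p₅) and for D₄ with ρ the 3-cycle on the outer nodes there is a group automorphism sending `x_p(t) ↦ x_{ρ(p)}(t)` and `x_{-p}(t) ↦ x_{-ρ(p)}(t)` for every fundamental root `p`. -/
theorem result {F : Type*} [Field F] (p : Cfsg.Lie.ChevalleyDatum × List ℕ)
    (hp : p ∈ [(Cfsg.Lie.chevE6, [5, 1, 4, 3, 2, 0]), (Cfsg.Lie.chevD4, [2, 1, 3, 0]), (Cfsg.Lie.chevD4, [3, 1, 0, 2])]) :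
    ∃ α : ↥(p.1.group F) ≃* ↥(p.1.group F), ∀ (g : ↥(p.1.group F)) (i : ℕ) (t : F), i < p.1.rank →
      (((g : GL p.1.Idx F) : Matrix p.1.Idx p.1.Idx F) = p.1.x F (p.1.simple i) t →
        ((α g : GL p.1.Idx F) : Matrix p.1.Idx p.1.Idx F) = p.1.x F (p.1.simple (p.2.getD i 0)) t) ∧
      (((g : GL p.1.Idx F) : Matrix p.1.Idx p.1.Idx F) = p.1.x F (p.1.neg (p.1.simple i)) t →
        ((α g : GL p.1.Idx F) : Matrix p.1.Idx p.1.Idx F) = p.1.x F (p.1.neg (p.1.simple (p.2.getD i 0))) t) := by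
  simp only [List.mem_cons, List.mem_nil_iff, or_false] at hp
  rcases hp with rfl | rfl | rfl
  · obtain ⟨α, h⟩ := CfsgH6.Chv.graph_stmt (F := F) CfsgH6.Chv.goodE6 (Or.inl rfl) CfsgH6.Chv.grE6_P CfsgH6.Chv.cmE6 (Or.inl rfl)
      (Or.inl (CfsgH6.Chv.simple_big _ (by simp) F).1)
    refine ⟨α, fun x i t hi => ?_⟩
    have h1 := h x i t hi
    have h2 : CfsgH6.Chv.grE6.ell (Cfsg.Lie.chevE6.simple i) = 1 := rfl
    rw [h2, pow_one] at h1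
    exact h1
  · obtain ⟨α, h⟩ := CfsgH6.Chv.graph_stmt (F := F) CfsgH6.Chv.goodD4 (Or.inl rfl) CfsgH6.Chv.grD4_P CfsgH6.Chv.cmD4 (Or.inl rfl)
      (Or.inl (CfsgH6.Chv.simple_big _ (by simp) F).1)
    refine ⟨α, fun x i t hi => ?_⟩
    have h1 := h x i t hi
    have h2 : CfsgH6.Chv.grD4.ell (Cfsg.Lie.chevD4.simple i) = 1 := rfl
    rw [h2, pow_one] at h1
    exact h1
  · obtain ⟨α, h⟩ := CfsgH6.Chv.graph_stmt (F := F) CfsgH6.Chv.goodD4 (Or.inl rfl) CfsgH6.Chv.grD4'_P CfsgH6.Chv.cmD4 (Or.inl rfl)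
      (Or.inl (CfsgH6.Chv.simple_big _ (by simp) F).1)
    refine ⟨α, fun x i t hi => ?_⟩
    have h1 := h x i t hi
    have h2 : CfsgH6.Chv.grD4'.ell (Cfsg.Lie.chevD4.simple i) = 1 := rfl
    rw [h2, pow_one] at h1
    exact h1

end Cfsg.Agent.S1081
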