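import Cfsg.Statements.S1092
import Cfsg.Agent.H6.ChW4
import Cfsg.Agent.H6.ChH

set_option autoImplicit false
open Cfsg

namespace Cfsg.Agent.S1092

/-- `|W(B₂)| = 8`, `|W(G₂)| = 12`, `|W(D₄)| = 192`, `|W(F₄)| = 1152` for the groups presented by the Coxeter matrices (the product of the degrees of the basic invariants). -/
theorem result (p : (Σ n : ℕ, CoxeterMatrix (Fin n)) × ℕ)
    (hp : p ∈ [(⟨2, CoxeterMatrix.B 2⟩, 8), (⟨2, CoxeterMatrix.G₂⟩, 12), (⟨4, Cfsg.Lie.coxeterD4⟩, 192), (⟨4, CoxeterMatrix.F₄⟩, 1152)]) :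
    Nat.card p.1.2.Group = p.2 := by
  simp only [List.mem_cons, List.mem_nil_iff, or_false] at hp
  rcases hp with rfl | rfl | rfl | rfl
  · obtain ⟨g⟩ := CfsgH6.Chv.good_all (D := Cfsg.Lie.chevB2) (by simp)
    exact CfsgH6.Chv.card_cox g CfsgH6.Chv.coxB2 CfsgH6.Chv.ordB2 CfsgH6.Chv.hvB2
  · obtain ⟨g⟩ := CfsgH6.Chv.good_all (D := Cfsg.Lie.chevG2) (by simp)
    exact CfsgH6.Chv.card_cox g CfsgH6.Chv.coxG2 CfsgH6.Chv.ordG2 CfsgH6.Chv.hvG2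
  · obtain ⟨g⟩ := CfsgH6.Chv.good_all (D := Cfsg.Lie.chevD4) (by simp)
    exact CfsgH6.Chv.card_cox g CfsgH6.Chv.coxD4 CfsgH6.Chv.ordD4 CfsgH6.Chv.hvD4
  · obtain ⟨g⟩ := CfsgH6.Chv.good_all (D := Cfsg.Lie.chevF4) (by simp)
    exact CfsgH6.Chv.card_cox g CfsgH6.Chv.coxF4 CfsgH6.Chv.ordF4 CfsgH6.Chv.hvF4

end Cfsg.Agent.S1092
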