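import Cfsg.Statements.S1098
import Cfsg.Agent.H6.ChX4

set_option autoImplicit false
open Cfsg

namespace Cfsg.Agent.S1098

/-- Graph automorphisms in characteristic 2 (K perfect): for B₂ (a short, b long) `x_a(t) ↦ x_b(t²)`, `x_b(t) ↦ x_a(t)`, and for F₄ (p₁, p₂ short, p₃, p₄ long) `x_{p₁}(t) ↦ x_{p₄}(t²)`, `x_{p₂}(t) ↦ x_{p₃}(t²)`, `x_{p₃}(t) ↦ x_{p₂}(t)`, `x_{p₄}(t) ↦ x_{p₁}(t)`, likewise on the negatives, extend to an automorphism of the group. -/
theorem result {K : Type*} [Field K] [CharP K 2] (hperf : ∀ x : K, ∃ y : K, y ^ 2 = x)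
    (p : Cfsg.Lie.ChevalleyDatum × List (ℕ × ℕ))
    (hp : p ∈ [(Cfsg.Lie.chevB2, [(1, 2), (0, 1)]), (Cfsg.Lie.chevF4, [(3, 2), (2, 2), (1, 1), (0, 1)])]) :
    ∃ α : ↥(p.1.group K) ≃* ↥(p.1.group K), ∀ (g : ↥(p.1.group K)) (i : ℕ) (t : K), i < p.1.rank →
      (((g : GL p.1.Idx K) : Matrix p.1.Idx p.1.Idx K) = p.1.x K (p.1.simple i) t →
        ((α g : GL p.1.Idx K) : Matrix p.1.Idx p.1.Idx K) = p.1.x K (p.1.simple (p.2.getD i (0, 1)).1) (t ^ (p.2.getD i (0, 1)).2)) ∧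
      (((g : GL p.1.Idx K) : Matrix p.1.Idx p.1.Idx K) = p.1.x K (p.1.neg (p.1.simple i)) t →
        ((α g : GL p.1.Idx K) : Matrix p.1.Idx p.1.Idx K) = p.1.x K (p.1.neg (p.1.simple (p.2.getD i (0, 1)).1)) (t ^ (p.2.getD i (0, 1)).2)) := by
  simp only [List.mem_cons, List.mem_nil_iff, or_false] at hp
  have hGF : CfsgH6.Chv.GrF K 2 := Or.inr ⟨Nat.prime_two, inferInstance⟩
  rcases hp with rfl | rfl
  · have hs : IsSimpleGroup ↥(CfsgH6.Chv.goodB2.GG K) ∨ Finite K := by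
      by_cases hF : ∃ a : K, a ≠ 0 ∧ a ≠ 1
      · exact Or.inl (CfsgH6.Chv.simple_B2 _ K hF).1
      · right
        push Not at hF
        have hsub : (Set.univ : Set K) ⊆ {0, 1} := by
          intro x _
          by_cases hx : x = 0
          · left; exact hx
          · right; exact hF x hx
        exact Set.finite_univ_iff.1 ((Set.toFinite ({0, 1} : Set K)).subset hsub)
    obtain ⟨α, h⟩ := CfsgH6.Chv.graph_stmt (F := K) CfsgH6.Chv.goodB2 hGF CfsgH6.Chv.grB2_P CfsgH6.Chv.cmB2 (Or.inr hperf) hs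
    refine ⟨α, fun x i t hi => ?_⟩
    have h1 := h x i t hi
    have hi' : i < 2 := hi
    interval_cases i
    · exact h1
    · exact h1
  · obtain ⟨α, h⟩ := CfsgH6.Chv.graph_stmt (F := K) CfsgH6.Chv.goodF4 hGF CfsgH6.Chv.grF4_P CfsgH6.Chv.cmF4 (Or.inr hperf)
      (Or.inl (CfsgH6.Chv.simple_big _ (by simp) K).1)
    refine ⟨α, fun x i t hi => ?_⟩
    have h1 := h x i t hi
    have hi' : i < 4 := hi
    interval_cases i
    · exact h1
    · exact h1
    · exact h1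
    · exact h1

end Cfsg.Agent.S1098
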