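import Cfsg.Statements.S1099
import Cfsg.Agent.H6.ChX4

set_option autoImplicit false
open Cfsg

namespace Cfsg.Agent.S1099

/-- Graph automorphism of G₂ in characteristic 3 (K perfect): `x_a(t) ↦ x_b(t³)`, `x_b(t) ↦ x_a(t)`, `x_{-a}(t) ↦ x_{-b}(t³)`, `x_{-b}(t) ↦ x_{-a}(t)` extend to an automorphism of the group. -/
theorem result {K : Type*} [Field K] [CharP K 3] (hperf : ∀ x : K, ∃ y : K, y ^ 3 = x) :
    ∃ α : ↥(Cfsg.Lie.chevG2.group K) ≃* ↥(Cfsg.Lie.chevG2.group K), ∀ (g : ↥(Cfsg.Lie.chevG2.group K)) (t : K),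
      (((g : GL Cfsg.Lie.chevG2.Idx K) : Matrix _ _ K) = Cfsg.Lie.chevG2.x K Cfsg.Lie.g2a t →
        ((α g : GL Cfsg.Lie.chevG2.Idx K) : Matrix _ _ K) = Cfsg.Lie.chevG2.x K Cfsg.Lie.g2b (t ^ 3)) ∧
      (((g : GL Cfsg.Lie.chevG2.Idx K) : Matrix _ _ K) = Cfsg.Lie.chevG2.x K Cfsg.Lie.g2b t →
        ((α g : GL Cfsg.Lie.chevG2.Idx K) : Matrix _ _ K) = Cfsg.Lie.chevG2.x K Cfsg.Lie.g2a t) ∧
      (((g : GL Cfsg.Lie.chevG2.Idx K) : Matrix _ _ K) = Cfsg.Lie.chevG2.x K Cfsg.Lie.g2ma t →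
        ((α g : GL Cfsg.Lie.chevG2.Idx K) : Matrix _ _ K) = Cfsg.Lie.chevG2.x K Cfsg.Lie.g2mb (t ^ 3)) ∧
      (((g : GL Cfsg.Lie.chevG2.Idx K) : Matrix _ _ K) = Cfsg.Lie.chevG2.x K Cfsg.Lie.g2mb t →
        ((α g : GL Cfsg.Lie.chevG2.Idx K) : Matrix _ _ K) = Cfsg.Lie.chevG2.x K Cfsg.Lie.g2ma t) := by
  have hGF : CfsgH6.Chv.GrF K 3 := Or.inr ⟨Nat.prime_three, inferInstance⟩
  have hF : ∃ a : K, a ≠ 0 ∧ a ≠ 1 := by
    have h3 : (3 : K) = 0 := by exact_mod_cast CharP.cast_eq_zero K 3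
    refine ⟨2, ?_, ?_⟩
    · intro h
      have : (1 : K) = 0 := by linear_combination h3 - h
      exact one_ne_zero this
    · intro h
      have : (1 : K) = 0 := by linear_combination h
      exact one_ne_zero this
  obtain ⟨α, h⟩ := CfsgH6.Chv.graph_stmt (F := K) CfsgH6.Chv.goodG2 hGF CfsgH6.Chv.grG2_P CfsgH6.Chv.cmG2 (Or.inr hperf)
    (Or.inl (CfsgH6.Chv.simple_G2 _ K hF).1)
  refine ⟨α, fun x t => ?_⟩
  have h0 := h x 0 t (by decide)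
  have h1 := h x 1 t (by decide)
  have e1 : CfsgH6.Chv.grG2.ell (Cfsg.Lie.chevG2.simple 1) = 1 := rfl
  rw [e1, pow_one] at h1
  exact ⟨h0.1, h1.1, h0.2, h1.2⟩

end Cfsg.Agent.S1099
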