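import Cfsg.Statements.S1100
import Cfsg.Agent.H6.ChR9

set_option autoImplicit false
open Cfsg

namespace Cfsg.Agent.S1100

theorem aux {F : Type*} [Field F] {D : Cfsg.Lie.ChevalleyDatum} (g : CfsgH6.Chv.Good D) {L : List ℕ} (hL : ∀ i ∈ L, i < D.rank)
    {h : GL D.Idx F} (hh : h ∈ g.HH F) :
    Subgroup.closure {x : GL D.Idx F | ∃ (r : ℕ) (t : F), D.IsPosRoot r ∧
            (D.rootSubgroup F r).map (MulAut.conj (h * g.nl F L)).toMonoidHom ≤ D.negUnipotent F ∧ (x : Matrix D.Idx D.Idx F) = D.x F r t} =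
      g.XS F (g.Sneg L) := by
  have key : ∀ r < D.nroots, g.N ≤ r → ((D.rootSubgroup F r).map (MulAut.conj (h * g.nl F L)).toMonoidHom ≤ D.negUnipotent F ↔ g.wl L r < g.N) := by
    intro r hr hp
    obtain ⟨c, hc⟩ := g.NN_x hL hh rfl hr
    rw [g.negU_eq]
    constructor
    · intro h1
      by_contra hne
      have h2 : g.xg (g.wl L r) ((c : F) * 1) ∈ g.VV F := by
        apply h1
        refine ⟨g.xg r 1, (g.mem_root hr _).2 ⟨1, rfl⟩, ?_⟩
        simp only [MulEquiv.coe_toMonoidHom, MulAut.conj_apply]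
        exact hc 1
      have h3 := g.UU_inf_VV (g.xg_mem_UU (by omega) _) h2
      have h4 := g.xg_eq_one (g.wl_lt hL hr) h3
      rw [mul_one] at h4
      exact c.ne_zero h4
    · rintro h1 _ ⟨y, hy, rfl⟩
      obtain ⟨t, rfl⟩ := (g.mem_root hr _).1 hy
      simp only [MulEquiv.coe_toMonoidHom, MulAut.conj_apply]
      rw [hc t]
      exact g.xg_mem_VV h1 _
  unfold CfsgH6.Chv.Good.XS
  congr 1
  ext x
  constructor
  · rintro ⟨r, t, h1, h2, h3⟩
    rw [g.isPosRoot_iff] at h1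
    exact ⟨r, t, ⟨h1.2, (key r h1.1 h1.2).1 h2⟩, h1.1, (g.eq_xg_iff r t x).1 h3⟩
  · rintro ⟨r, t, ⟨h1, h2⟩, h3, h4⟩
    exact ⟨r, t, (g.isPosRoot_iff r).2 ⟨h3, h1⟩, (key r h3 h1).2 h2, (g.eq_xg_iff r t x).2 h4⟩

/-- Canonical form `g = b n_w u` (`b ∈ B`, `u ∈ U_w⁻ = ⟨X_r : r > 0, n_w X_r n_w⁻¹ ≤ V⟩`): such a decomposition exists for every element of the group; the coset `n_w H` is determined by `g`; and for a fixed representative `n_w` the factors `b`, `u` are unique. -/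
theorem result {F : Type*} [Field F] (D : Cfsg.Lie.ChevalleyDatum) (hD : D ∈ [Cfsg.Lie.chevG2, Cfsg.Lie.chevB2, Cfsg.Lie.chevD4, Cfsg.Lie.chevF4, Cfsg.Lie.chevE6, Cfsg.Lie.chevE7, Cfsg.Lie.chevE8]) :
    (∀ g ∈ D.group F, ∃ b ∈ D.borelSubgroup F, ∃ n ∈ D.monomialSubgroup F,
      ∃ u ∈ Subgroup.closure {x : GL D.Idx F | ∃ (r : ℕ) (t : F), D.IsPosRoot r ∧
            (D.rootSubgroup F r).map (MulAut.conj n).toMonoidHom ≤ D.negUnipotent F ∧ (x : Matrix D.Idx D.Idx F) = D.x F r t},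
        g = b * n * u) ∧
    (∀ (b b' n n' u u' : GL D.Idx F), b ∈ D.borelSubgroup F → b' ∈ D.borelSubgroup F →
      n ∈ D.monomialSubgroup F → n' ∈ D.monomialSubgroup F →
      u ∈ Subgroup.closure {x : GL D.Idx F | ∃ (r : ℕ) (t : F), D.IsPosRoot r ∧
            (D.rootSubgroup F r).map (MulAut.conj n).toMonoidHom ≤ D.negUnipotent F ∧ (x : Matrix D.Idx D.Idx F) = D.x F r t} →
      u' ∈ Subgroup.closure {x : GL D.Idx F | ∃ (r : ℕ) (t : F), D.IsPosRoot r ∧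
            (D.rootSubgroup F r).map (MulAut.conj n').toMonoidHom ≤ D.negUnipotent F ∧ (x : Matrix D.Idx D.Idx F) = D.x F r t} →
      b * n * u = b' * n' * u' → n⁻¹ * n' ∈ D.diagonalSubgroup F ∧ (n = n' → b = b' ∧ u = u')) := by
  obtain ⟨g⟩ := CfsgH6.Chv.good_all hD
  refine ⟨?_, ?_⟩
  · intro x hx
    rw [g.group_eq] at hx
    obtain ⟨b, hb, L, hL, u, hu, he⟩ := g.bruhat hx
    refine ⟨b, by rwa [g.borel_eq], 1 * g.nl F L, ?_, u, ?_, by rw [one_mul]; exact he⟩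
    · rw [g.mono_eq, one_mul]; exact g.nl_mem hL
    · rw [aux g hL (Subgroup.one_mem _)]; exact hu
  · intro b b' n n' u u' hb hb' hn hn' hu hu' h
    rw [g.borel_eq] at hb hb'
    rw [g.mono_eq] at hn hn'
    rw [g.diag_eq]
    obtain ⟨L, hL, k, hk, rfl⟩ := hn
    obtain ⟨L', hL', k', hk', rfl⟩ := hn'
    rw [aux g hL hk] at hu
    rw [aux g hL' hk'] at hu'
    have h1 : ∀ L, g.XS F (g.Sneg L) ≤ g.BB F := fun L => (g.XS_mono (fun _ _ h => h.1)).trans g.UU_le_BB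
    refine ⟨g.bruhat_unique_coset hb hb' ⟨L, hL, k, hk, rfl⟩ ⟨L', hL', k', hk', rfl⟩ (h1 L hu) (h1 L' hu') h, ?_⟩
    intro he
    have h2 : g.XS F (g.Sneg L) = g.XS F (g.Sneg L') := by
      rw [← aux g hL hk, ← aux g hL' hk', he]
    rw [← he] at h
    rw [← h2] at hu'
    exact g.bruhat_unique hL hk hb hb' hu hu' h

end Cfsg.Agent.S1100
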