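import Cfsg.Statements.S1112
import Cfsg.Agent.H6.TwF4b

set_option autoImplicit false
open Cfsg

namespace Cfsg.Agent.S1112

/-- ²F₄(2^(2m+1)) (m ≥ 1) equals its derived subgroup. -/
theorem result {K : Type*} [Field K] [Fintype K] {m : ℕ} (hK : Fintype.card K = 2 ^ (2 * m + 1)) (hm : 1 ≤ m) : commutator ↥(Cfsg.Lie.twistedF4 K (2 ^ m)) = ⊤ := by
  haveI : CharP K 2 := charP_of_card_eq_prime_pow hK
  rw [CfsgH6.Chv.twistedF4_eq hK]
  exact CfsgH6.Chv.perfF4 hm hK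

end Cfsg.Agent.S1112
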