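import Cfsg.Statements.S1118
import Cfsg.Agent.H9.R1c

set_option autoImplicit false
open Cfsg

namespace Cfsg.Agent.S1118

open MulAction CfsgH9.R1

/-- In the rank-one set-up (`G` finite and doubly transitive on `Ω`, `t` an involution moving `a`, `Q` normal in `G_a` with `G_a = Q D`, `Q ⊓ D = 1` for the two-point stabiliser `D = G_a ⊓ G_{t • a}`, `|Q|` even, `|D|` odd), the normaliser of a subset of `Q` containing a non-identity element lies in `G_a`; consequently `N_G(Q) = N_G(G_a) = G_a`. -/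
theorem result {G Ω : Type*} [Group G] [Finite G] [MulAction G Ω] {a : Ω} {t : G} {Q : Subgroup G}
    (hS : Cfsg.IsRankOneSetup G Ω a t Q) :
    (∀ X : Set G, X ⊆ (Q : Set G) → (∃ x ∈ X, x ≠ 1) → Subgroup.normalizer X ≤ MulAction.stabilizer G a) ∧
      Subgroup.normalizer (Q : Set G) = MulAction.stabilizer G a ∧
      Subgroup.normalizer (MulAction.stabilizer G a : Set G) = MulAction.stabilizer G a := by
  have h1 : ∀ X : Set G, X ⊆ (Q : Set G) → (∃ x ∈ X, x ≠ 1) → Subgroup.normalizer X ≤ MulAction.stabilizer G a := by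
    rintro X hX ⟨x, hx, hx1⟩ g hg
    have h2 : g⁻¹ * x * g ∈ X := by
      have h9 : ∀ n, n ∈ X ↔ g⁻¹ * n * g⁻¹⁻¹ ∈ X := (Subgroup.normalizer X).inv_mem hg
      have := (h9 x).1 hx
      rwa [inv_inv] at this
    have h3 : (g⁻¹ * x * g) • a = a := hS.le (hX h2)
    have h4 : x • g • a = g • a := by
      rw [mul_smul, mul_smul, inv_smul_eq_iff] at h3
      exact h3
    exact fix_only hS (hX hx) hx1 h4
  obtain ⟨s, hs, hs1, -⟩ := exists_inv hS
  refine ⟨h1, le_antisymm (h1 Q le_rfl ⟨s, hs, hs1⟩) ?_, le_antisymm ?_ Subgroup.le_normalizer⟩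
  · intro h hh
    rw [Subgroup.mem_normalizer_iff]
    intro x
    refine ⟨fun hx => hS.conj_mem h hh x hx, fun hx => ?_⟩
    have := conj_mem' hS hh hx
    have e : h⁻¹ * (h * x * h⁻¹) * h = x := by group
    rwa [e] at this
  · intro g hg
    have h2 : g⁻¹ * s * g ∈ stabilizer G a := by
      have := (Subgroup.mem_normalizer_iff.1 ((Subgroup.normalizer _).inv_mem hg) s).1 (hS.le hs)
      rwa [inv_inv] at this
    have h3 : (g⁻¹ * s * g) • a = a := h2
    have h4 : s • g • a = g • a := by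
      rw [mul_smul, mul_smul, inv_smul_eq_iff] at h3
      exact h3
    exact fix_only hS hs hs1 h4

end Cfsg.Agent.S1118
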