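import Cfsg.Statements.S1119
import Cfsg.Agent.H9.R1c

set_option autoImplicit false
open Cfsg

namespace Cfsg.Agent.S1119

open MulAction CfsgH9.R1

/-- In the rank-one set-up (`G` finite and doubly transitive on `Ω`, `t` an involution moving `a`, `Q` normal in `G_a` with `G_a = Q D`, `Q ⊓ D = 1` for the two-point stabiliser `D = G_a ⊓ G_{t • a}`, `|Q|` even, `|D|` odd): `Q` acts regularly on `Ω` minus `a`; hence `|Ω| = |Q| + 1`, `|G| = |Q| |D| (|Q| + 1)`, some Sylow 2-subgroup of `G` lies in `Q`, and each `g ∉ G_a` is uniquely `x t y` with `x ∈ G_a`, `y ∈ Q` (canonical form). -/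
theorem result {G Ω : Type*} [Group G] [Finite G] [MulAction G Ω] {a : Ω} {t : G} {Q : Subgroup G}
    (hS : Cfsg.IsRankOneSetup G Ω a t Q) :
    (∀ b c : Ω, b ≠ a → c ≠ a → ∃! x : Q, (x : G) • b = c) ∧
      Nat.card Ω = Nat.card Q + 1 ∧
      Nat.card G = Nat.card Q * Nat.card ↥(MulAction.stabilizer G a ⊓ MulAction.stabilizer G (t • a)) * (Nat.card Q + 1) ∧
      (∃ P : Sylow 2 G, (P : Subgroup G) ≤ Q) ∧
      ∀ g : G, g ∉ MulAction.stabilizer G a → ∃! p : G × G, p.1 ∈ MulAction.stabilizer G a ∧ p.2 ∈ Q ∧ g = p.1 * t * p.2 := by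
  have hodd1 : Nat.card G = Nat.card Q * (Nat.card (DD a t) * (Nat.card Q + 1)) := by rw [card_G hS]; ring
  refine ⟨?_, card_Ω hS, card_G hS, ?_, ?_⟩
  · intro b c hb hc
    obtain ⟨q, hq, rfl⟩ := q_trans hS hb
    obtain ⟨r, hr, rfl⟩ := q_trans hS hc
    refine ⟨⟨r * q⁻¹, Q.mul_mem hr (Q.inv_mem hq)⟩, ?_, ?_⟩
    · dsimp only
      rw [mul_smul, inv_smul_smul]
    · rintro ⟨x, hx⟩ h
      dsimp only at h
      apply Subtype.ext
      exact q_unique hS hx (Q.mul_mem hr (Q.inv_mem hq)) hb (by rw [h, mul_smul, inv_smul_smul])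
  · obtain ⟨P⟩ : Nonempty (Sylow 2 Q) := inferInstance
    haveI : Fact (Nat.Prime 2) := ⟨Nat.prime_two⟩
    let P' : Subgroup G := (P : Subgroup Q).map Q.subtype
    have hcard : Nat.card P' = 2 ^ (Nat.card G).factorization 2 := by
      have h1 : Nat.card P' = Nat.card P := Nat.card_congr (Subgroup.equivMapOfInjective _ _ Q.subtype_injective).symm.toEquiv
      rw [h1, P.card_eq_multiplicity, hodd1]
      have hodd : Odd (Nat.card (DD a t) * (Nat.card Q + 1)) := hS.odd_card.mul hS.even_card.add_one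
      have hne : Nat.card (DD a t) * (Nat.card Q + 1) ≠ 0 := by
        intro h; rw [h] at hodd; exact absurd hodd (by decide)
      rw [Nat.factorization_mul Nat.card_pos.ne' hne, Finsupp.add_apply,
        Nat.factorization_eq_zero_of_not_dvd (n := Nat.card (DD a t) * (Nat.card Q + 1)) hodd.not_two_dvd_nat, add_zero]
    exact ⟨Sylow.ofCard P' hcard, Subgroup.map_subtype_le _⟩
  · intro g hg
    obtain ⟨q, hq, d, hd, y, hy, h⟩ := canon hS hg
    refine ⟨(q * d, y), ⟨(stabilizer G a).mul_mem (hS.le hq) hd.1, hy, h⟩, ?_⟩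
    rintro ⟨x, y'⟩ ⟨hx, hy', h'⟩
    obtain ⟨q', hq', d', hd', hxx⟩ := decomp hS hx
    dsimp only at hxx hy' h'
    subst hxx
    obtain ⟨h1, h2, h3⟩ := canon_unique hS hq hd hy hq' hd' hy' (h.symm.trans h')
    rw [h1, h2, h3]

end Cfsg.Agent.S1119
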