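import Cfsg.Statements.S1120
import Cfsg.Agent.H9.R1e

set_option autoImplicit false
open Cfsg

namespace Cfsg.Agent.S1120

open MulAction CfsgH9.R1

/-- In the rank-one set-up (`G` finite and doubly transitive on `Ω`, `t` an involution moving `a`, `Q` normal in `G_a` with `G_a = Q D`, `Q ⊓ D = 1` for the two-point stabiliser `D = G_a ⊓ G_{t • a}`, `|Q|` even, `|D|` odd), if `G` has 2-rank at least 2 then `O_{2'}(G)` equals the normal core of `G_a`. -/
theorem result {G Ω : Type*} [Group G] [Finite G] [MulAction G Ω] {a : Ω} {t : G} {Q : Subgroup G}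
    (hS : Cfsg.IsRankOneSetup G Ω a t Q)
    (h2 : ∃ x y : G, x ≠ 1 ∧ y ≠ 1 ∧ x ≠ y ∧ x * x = 1 ∧ y * y = 1 ∧ x * y = y * x) :
    Cfsg.pPrimeCore 2 G = (MulAction.stabilizer G a).normalCore := by
  haveI := pretrans hS
  apply le_antisymm
  · obtain ⟨x, y, hx1, hy1, hne, hx2, hy2, hxy⟩ := h2
    obtain ⟨c, hc1, hc2⟩ := common_fix hS hx1 hx2 hxy
    have hle : Cfsg.pPrimeCore 2 G ≤ stabilizer G c := by
      set A := Subgroup.closure ({x, y} : Set G) with hA
      have hAx : x ∈ A := Subgroup.subset_closure (by simp)
      have hAy : y ∈ A := Subgroup.subset_closure (by simp)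
      have hgc : ∀ g ∈ A, g • c = c := by
        have : A ≤ stabilizer G c := by
          rw [hA, Subgroup.closure_le]
          rintro g (rfl | rfl)
          · exact hc1
          · exact hc2
        exact this
      have hcomm : ∀ g ∈ A, ∀ h ∈ A, g * h = h * g := by
        have h1 : A ≤ Subgroup.centralizer ({x, y} : Set G) := by
          rw [hA, Subgroup.closure_le]
          rintro g (rfl | rfl)
          · rintro h (rfl | rfl)
            · rfl
            · exact hxy.symm
          · rintro h (rfl | rfl)
            · exact hxy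
            · rfl
        intro g hg
        have h2 : A ≤ Subgroup.centralizer {g} := by
          rw [hA, Subgroup.closure_le]
          intro h hh k hk
          have hkg : k = g := hk
          rw [hkg]
          exact ((Subgroup.mem_centralizer_iff.1 (h1 hg)) h hh).symm
        intro h hh
        exact (Subgroup.mem_centralizer_iff.1 (h2 hh)) g rfl
      have hsq : ∀ g ∈ A, g * g = 1 := by
        intro g hg
        induction hg using Subgroup.closure_induction with
        | mem u hu =>
          rcases hu with rfl | rfl
          · exact hx2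
          · exact hy2
        | one => exact mul_one 1
        | mul u v hu hv hu' hv' =>
          have : u * v * (u * v) = u * (v * u) * v := by group
          rw [this, ← hcomm u hu v hv]
          have : u * (u * v) * v = (u * u) * (v * v) := by group
          rw [this, hu', hv', one_mul]
        | inv u _ hu =>
          rw [← mul_inv_rev, hu, inv_one]
      refine CfsgH2.coprime_gen_hyperplane (p := 2) Nat.prime_two (A := A) (K := Cfsg.pPrimeCore 2 G) (fun g hg => by rw [sq]; exact hsq g hg)
        hcomm ?_ (CfsgH2.coprime_card_pPrimeCore 2) ?_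
      · haveI : (Cfsg.pPrimeCore 2 G).Normal := inferInstance
        rw [Subgroup.normalizer_eq_top]
        exact le_top
      · intro B hBA hB
        have hB0 : B ≠ ⊥ := by
          rintro rfl
          rw [Subgroup.relIndex_bot_left] at hB
          haveI := Fintype.ofFinite A
          have h3 : 2 < Fintype.card A := by
            rw [Fintype.two_lt_card_iff]
            exact ⟨1, ⟨x, hAx⟩, ⟨y, hAy⟩, fun h => hx1 (congrArg Subtype.val h).symm, fun h => hy1 (congrArg Subtype.val h).symm,
              fun h => hne (congrArg Subtype.val h)⟩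
          rw [Nat.card_eq_fintype_card] at hB
          omega
        obtain ⟨⟨b, hb⟩, hb1⟩ := Subgroup.ne_bot_iff_exists_ne_one.1 hB0
        have hb1' : b ≠ 1 := fun h => hb1 (Subtype.ext h)
        rintro g ⟨-, hg⟩
        have h3 : b * g = g * b := Subgroup.mem_centralizer_iff.1 hg b hb
        apply fix_unique hS hb1' (hsq b (hBA hb)) _ (hgc b (hBA hb))
        rw [← mul_smul, h3, mul_smul, hgc b (hBA hb)]
    rw [Subgroup.normal_le_normalCore]
    obtain ⟨g, hg⟩ := MulAction.exists_smul_eq G c a
    intro z hz
    have h3 : g⁻¹ * z * g ∈ Cfsg.pPrimeCore 2 G := by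
      have := (inferInstance : (Cfsg.pPrimeCore 2 G).Normal).conj_mem z hz g⁻¹
      rwa [inv_inv] at this
    have h4 : (g⁻¹ * z * g) • c = c := hle h3
    rw [mul_smul, hg, mul_smul, inv_smul_eq_iff, hg] at h4
    exact h4
  · apply CfsgH2.le_pPrimeCore (Subgroup.normalCore_normal _)
    have hle : (stabilizer G a).normalCore ≤ DD a t := by
      intro g hg
      refine ⟨Subgroup.normalCore_le _ hg, ?_⟩
      have h1 := (Subgroup.normalCore_normal (stabilizer G a)).conj_mem g hg t⁻¹
      have h2 := Subgroup.normalCore_le _ h1
      have h3 : (t⁻¹ * g * t⁻¹⁻¹) • a = a := h2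
      rw [inv_inv, mul_smul, mul_smul, inv_smul_eq_iff] at h3
      exact h3
    have h1 := Subgroup.card_dvd_of_le hle
    exact Nat.Coprime.coprime_dvd_left h1 ((Nat.coprime_two_right).2 hS.odd_card)

end Cfsg.Agent.S1120
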