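import Cfsg.Statements.S1124
import Cfsg.Agent.H9.R1c

set_option autoImplicit false
open scoped Pointwise
open Cfsg

namespace Cfsg.Agent.S1124

open CfsgH9.R1

/-- Let `t` be an element of order 2 of a finite group normalising a subgroup `X` of odd order, `Y = C_X(t)` and `Z` the set of elements of `X` inverted by `t`. Then `(y, z) ↦ y z` is a bijection `Y × Z → X`, so `|X| = |Y| |Z|`, and the subgroup generated by `Z` is normal in `X`. -/
theorem result {M : Type*} [Group M] [Finite M]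
    (t : M) (ht : orderOf t = 2) (X : Subgroup M) (hodd : Odd (Nat.card X))
    (hnorm : ∀ x ∈ X, t * x * t⁻¹ ∈ X) :
    (∀ x ∈ X, ∃! p : M × M, p.1 ∈ X ⊓ Subgroup.centralizer {t} ∧ p.2 ∈ Cfsg.invertedBy X t ∧ x = p.1 * p.2) ∧
      Nat.card X = Nat.card ↥(X ⊓ Subgroup.centralizer {t}) * Nat.card (Cfsg.invertedBy X t) ∧
      ∀ x ∈ X, MulAut.conj x • Subgroup.closure (Cfsg.invertedBy X t) = Subgroup.closure (Cfsg.invertedBy X t) := by
  have ht2 : t * t = 1 := by rw [← sq, ← ht, pow_orderOf_eq_one]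
  have hti : t⁻¹ = t := inv_eq_of_mul_eq_one_left ht2
  set n := (Nat.card X + 1) / 2 with hn
  have hcen : ∀ x : M, x ∈ Subgroup.centralizer {t} ↔ t * x * t = x := by
    intro x
    rw [Subgroup.mem_centralizer_iff]
    constructor
    · intro h
      have := h t rfl
      rw [this, mul_assoc, ht2, mul_one]
    · intro h y hy
      have hyt : y = t := hy
      rw [hyt]
      nth_rewrite 2 [← h]
      rw [mul_assoc (t * x), ht2, mul_one]
  have hinv : ∀ x : M, x ∈ Cfsg.invertedBy X t ↔ x ∈ X ∧ t * x * t = x⁻¹ := by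
    intro x
    change x ∈ X ∧ t * x * t⁻¹ = x⁻¹ ↔ _
    rw [hti]
  have hnorm' : ∀ x ∈ X, t * x * t ∈ X := by
    intro x hx
    have := hnorm x hx
    rwa [hti] at this
  have hmul : ∀ x y : M, t * (x * y) * t = (t * x * t) * (t * y * t) := by
    intro x y
    have : (t * x * t) * (t * y * t) = t * x * (t * t) * y * t := by group
    rw [this, ht2]; group
  have hinv' : ∀ x : M, t * x⁻¹ * t = (t * x * t)⁻¹ := by
    intro x
    have : (t * x * t)⁻¹ = t⁻¹ * x⁻¹ * t⁻¹ := by group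
    rw [this, hti]
  have htt : ∀ x : M, t * (t * x * t) * t = x := by
    intro x
    have : t * (t * x * t) * t = (t * t) * x * (t * t) := by group
    rw [this, ht2]; group
  have hpow : ∀ (x : M) (k : ℕ), t * x ^ k * t = (t * x * t) ^ k := by
    intro x k
    induction k with
    | zero => rw [pow_zero, pow_zero, mul_one, ht2]
    | succ k ih => rw [pow_succ, hmul, ih, pow_succ]
  -- existence
  have hex : ∀ x ∈ X, ∃ y ∈ X ⊓ Subgroup.centralizer {t}, ∃ z ∈ Cfsg.invertedBy X t, x = y * z := by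
    intro x hx
    set w := (t * x * t)⁻¹ * x with hw
    have hwX : w ∈ X := X.mul_mem (X.inv_mem (hnorm' x hx)) hx
    have hwi : t * w * t = w⁻¹ := by
      rw [hw, hmul, hinv', htt]; group
    set z := w ^ n with hz
    have hzX : z ∈ X := X.pow_mem hwX _
    have hzz : z * z = w := odd_sq hodd hwX
    have hzi : t * z * t = z⁻¹ := by rw [hz, hpow, hwi, inv_pow]
    refine ⟨x * z⁻¹, ⟨X.mul_mem hx (X.inv_mem hzX), (hcen _).2 ?_⟩, z, (hinv z).2 ⟨hzX, hzi⟩, by group⟩
    rw [hmul, hinv', hzi, inv_inv]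
    have e1 : t * x * t * z = t * x * t * (z * z) * z⁻¹ := by group
    rw [e1, hzz, hw]; group
  have huniq : ∀ y y' z z' : M, y ∈ X ⊓ Subgroup.centralizer {t} → y' ∈ X ⊓ Subgroup.centralizer {t} → z ∈ Cfsg.invertedBy X t →
      z' ∈ Cfsg.invertedBy X t → y * z = y' * z' → y = y' ∧ z = z' := by
    intro y y' z z' hy hy' hz hz' h
    have key : ∀ y z : M, y ∈ X ⊓ Subgroup.centralizer {t} → z ∈ Cfsg.invertedBy X t → (t * (y * z) * t)⁻¹ * (y * z) = z * z := by
      intro y z hy hz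
      rw [hmul, (hcen y).1 hy.2, ((hinv z).1 hz).2]; group
    have h1 : z * z = z' * z' := by rw [← key y z hy hz, h, key y' z' hy' hz']
    have h2 := odd_sq_inj hodd ((hinv z).1 hz).1 ((hinv z').1 hz').1 h1
    subst h2
    exact ⟨mul_right_cancel h, rfl⟩
  refine ⟨?_, ?_, ?_⟩
  · intro x hx
    obtain ⟨y, hy, z, hz, h⟩ := hex x hx
    refine ⟨(y, z), ⟨hy, hz, h⟩, ?_⟩
    rintro ⟨y', z'⟩ ⟨hy', hz', h'⟩
    obtain ⟨h1, h2⟩ := huniq y' y z' z hy' hy hz' hz (h'.symm.trans h)
    exact Prod.ext h1 h2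
  · rw [← Nat.card_prod]
    symm
    refine Nat.card_congr (Equiv.ofBijective (fun p => ⟨p.1 * p.2, X.mul_mem p.1.2.1 p.2.2.1⟩) ⟨?_, ?_⟩)
    · rintro ⟨⟨y, hy⟩, ⟨z, hz⟩⟩ ⟨⟨y', hy'⟩, ⟨z', hz'⟩⟩ h
      obtain ⟨h1, h2⟩ := huniq y y' z z' hy hy' hz hz' (congrArg Subtype.val h)
      subst h1; subst h2; rfl
    · rintro ⟨x, hx⟩
      obtain ⟨y, hy, z, hz, h⟩ := hex x hx
      exact ⟨(⟨y, hy⟩, ⟨z, hz⟩), Subtype.ext h.symm⟩
  · -- normality of the closure
    set C := Subgroup.closure (Cfsg.invertedBy X t) with hC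
    have hle : ∀ x ∈ X, ∀ c ∈ C, x * c * x⁻¹ ∈ C := by
      intro x hx
      obtain ⟨y, hy, z, hz, rfl⟩ := hex x hx
      have hzC : z ∈ C := Subgroup.subset_closure hz
      have hyC : ∀ c ∈ C, y * c * y⁻¹ ∈ C := by
        intro c hc
        induction hc using Subgroup.closure_induction with
        | mem u hu =>
          apply Subgroup.subset_closure
          rw [hinv] at hu ⊢
          refine ⟨X.mul_mem (X.mul_mem hy.1 hu.1) (X.inv_mem hy.1), ?_⟩
          rw [hmul, hmul, hinv', (hcen y).1 hy.2, hu.2]; group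
        | one => simp [C.one_mem]
        | mul u v _ _ hu hv =>
          have : y * (u * v) * y⁻¹ = (y * u * y⁻¹) * (y * v * y⁻¹) := by group
          rw [this]; exact C.mul_mem hu hv
        | inv u _ hu =>
          have : y * u⁻¹ * y⁻¹ = (y * u * y⁻¹)⁻¹ := by group
          rw [this]; exact C.inv_mem hu
      intro c hc
      have : y * z * c * (y * z)⁻¹ = y * (z * c * z⁻¹) * y⁻¹ := by group
      rw [this]
      exact hyC _ (C.mul_mem (C.mul_mem hzC hc) (C.inv_mem hzC))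
    intro x hx
    apply le_antisymm
    · rintro _ ⟨c, hc, rfl⟩
      exact hle x hx c hc
    · intro c hc
      refine ⟨x⁻¹ * c * x, ?_, ?_⟩
      · have := hle x⁻¹ (X.inv_mem hx) c hc
        rwa [inv_inv] at this
      · change x * (x⁻¹ * c * x) * x⁻¹ = c
        group

end Cfsg.Agent.S1124
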