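import Cfsg.Statements.S1125
import Cfsg.Agent.H9.R1d

set_option autoImplicit false
open Cfsg

namespace Cfsg.Agent.S1125

open MulAction CfsgH9.R1

/-- In the rank-one set-up (`G` finite and doubly transitive on `Ω`, `t` an involution moving `a`, `Q` normal in `G_a` with `G_a = Q D`, `Q ⊓ D = 1` for the two-point stabiliser `D = G_a ⊓ G_{t • a}`, `|Q|` even, `|D|` odd), let `X ⊆ D` fix at least three points of `Ω`. Then `C_G(X)` is doubly transitive on the fixed-point set of `X`, `|C_Q(X)|` is even, and `C_{G_a}(X) = C_Q(X) C_D(X)`. -/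
theorem result {G Ω : Type*} [Group G] [Finite G] [MulAction G Ω] {a : Ω} {t : G} {Q : Subgroup G}
    (hS : Cfsg.IsRankOneSetup G Ω a t Q)
    (X : Set G) (hX : X ⊆ ((MulAction.stabilizer G a ⊓ MulAction.stabilizer G (t • a)) : Set G))
    (h3 : ∃ b c d : Ω, b ≠ c ∧ b ≠ d ∧ c ≠ d ∧ ∀ x ∈ X, x • b = b ∧ x • c = c ∧ x • d = d) :
    (∀ b₁ b₂ c₁ c₂ : Ω, (∀ x ∈ X, x • b₁ = b₁ ∧ x • b₂ = b₂ ∧ x • c₁ = c₁ ∧ x • c₂ = c₂) →
        b₁ ≠ b₂ → c₁ ≠ c₂ → ∃ g ∈ Subgroup.centralizer X, g • b₁ = c₁ ∧ g • b₂ = c₂) ∧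
      Even (Nat.card ↥(Subgroup.centralizer X ⊓ Q)) ∧
      (Subgroup.centralizer X ⊓ Q) ⊔ (Subgroup.centralizer X ⊓ (MulAction.stabilizer G a ⊓ MulAction.stabilizer G (t • a))) = Subgroup.centralizer X ⊓ MulAction.stabilizer G a := by
  have hfix : ∀ {c d e f : Ω}, True := fun {_ _ _ _} => trivial
  have h3' : Three X Ω := h3
  refine ⟨?_, ?_, ?_⟩
  · intro b₁ b₂ c₁ c₂ h hb hc
    exact cent_two_trans hS hX h3' (fun x hx => (h x hx).1) (fun x hx => (h x hx).2.1) hb
      (fun x hx => (h x hx).2.2.1) (fun x hx => (h x hx).2.2.2) hc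
  · obtain ⟨u, hu, hu2, h1, h2⟩ := exists_swap hS hX h3'
    have hu1 : u ≠ 1 := by
      rintro rfl
      rw [one_smul] at h1
      exact ba hS h1.symm
    obtain ⟨c, hc⟩ := exists_fix hS hu1 hu2
    have hcX : ∀ x ∈ X, x • c = c := by
      intro x hx
      apply fix_unique hS hu1 hu2 _ hc
      rw [← mul_smul, ← mem_cent.1 hu x hx, mul_smul, hc]
    obtain ⟨g, hg, hga⟩ := cent_trans hS hX h3' hcX
    have hz : g⁻¹ * u * g ∈ Subgroup.centralizer X :=
      (Subgroup.centralizer X).mul_mem ((Subgroup.centralizer X).mul_mem ((Subgroup.centralizer X).inv_mem hg) hu) hg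
    have hz2 : (g⁻¹ * u * g) * (g⁻¹ * u * g) = 1 := by
      have : (g⁻¹ * u * g) * (g⁻¹ * u * g) = g⁻¹ * (u * u) * g := by group
      rw [this, hu2]; group
    have hza : (g⁻¹ * u * g) • a = a := by
      rw [mul_smul, mul_smul, hga, hc, ← hga, inv_smul_smul]
    have hz1 : g⁻¹ * u * g ≠ 1 := by
      intro h
      apply hu1
      have : u = g * (g⁻¹ * u * g) * g⁻¹ := by group
      rw [this, h]; group
    have hzQ := inv_mem_Q hS hza hz2
    have ho : orderOf (⟨g⁻¹ * u * g, hz, hzQ⟩ : ↥(Subgroup.centralizer X ⊓ Q)) = 2 := by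
      apply orderOf_eq_prime
      · exact Subtype.ext (by rw [sq]; exact hz2)
      · intro h; exact hz1 (congrArg Subtype.val h)
    have := orderOf_dvd_natCard (⟨g⁻¹ * u * g, hz, hzQ⟩ : ↥(Subgroup.centralizer X ⊓ Q))
    rw [ho] at this
    exact even_iff_two_dvd.2 this
  · apply le_antisymm
    · exact sup_le (fun x hx => ⟨hx.1, hS.le hx.2⟩) (fun x hx => ⟨hx.1, hx.2.1⟩)
    · rintro h ⟨hh, hha⟩
      have hca : h • (t • a) ≠ a := by
        intro h'
        have h1 : h • a = a := hha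
        exact ba hS (MulAction.injective h (h'.trans h1.symm))
      obtain ⟨q, hq, hqc, h1⟩ := cq hS hX (fix_cent hh (fixD hS hX).2) hca
      have h2 : q⁻¹ * h ∈ Subgroup.centralizer X ⊓ (stabilizer G a ⊓ stabilizer G (t • a)) := by
        refine ⟨(Subgroup.centralizer X).mul_mem ((Subgroup.centralizer X).inv_mem hqc) hh, ?_, ?_⟩
        · exact (stabilizer G a).mul_mem ((stabilizer G a).inv_mem (hS.le hq)) hha
        · change (q⁻¹ * h) • t • a = t • a
          rw [mul_smul, ← h1, inv_smul_smul]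
      have h4 : h = q * (q⁻¹ * h) := by group
      rw [h4]
      exact Subgroup.mul_mem_sup ⟨hqc, hq⟩ h2

end Cfsg.Agent.S1125
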