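import Cfsg.Statements.S1127
import Cfsg.Agent.H9.R1c

set_option autoImplicit false
open Cfsg

namespace Cfsg.Agent.S1127

open MulAction CfsgH9.R1

/-- In the rank-one set-up (`G` finite and doubly transitive on `Ω`, `t` an involution moving `a`, `Q` normal in `G_a` with `G_a = Q D`, `Q ⊓ D = 1` for the two-point stabiliser `D = G_a ⊓ G_{t • a}`, `|Q|` even, `|D|` odd): if `s` is an involution of `G_a` and `r ∈ Q` satisfy `t s t = r⁻¹ t r`, then `C_D(t) = C_D(s)`; moreover `C_D(t) ⊓ C_D(K) = C_D(I ∩ G_a)`, where `K` is the set of elements of `D` inverted by `t` and `I ∩ G_a` the set of involutions of `G_a`. -/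
theorem result {G Ω : Type*} [Group G] [Finite G] [MulAction G Ω] {a : Ω} {t : G} {Q : Subgroup G}
    (hS : Cfsg.IsRankOneSetup G Ω a t Q) :
    (∀ s r : G, s ∈ Cfsg.involutionsIn (MulAction.stabilizer G a : Set G) → r ∈ Q → t * s * t = r⁻¹ * t * r →
        (MulAction.stabilizer G a ⊓ MulAction.stabilizer G (t • a)) ⊓ Subgroup.centralizer {t} = (MulAction.stabilizer G a ⊓ MulAction.stabilizer G (t • a)) ⊓ Subgroup.centralizer {s}) ∧
      (MulAction.stabilizer G a ⊓ MulAction.stabilizer G (t • a)) ⊓ Subgroup.centralizer {t} ⊓ Subgroup.centralizer (Cfsg.invertedBy (MulAction.stabilizer G a ⊓ MulAction.stabilizer G (t • a)) t) =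
        (MulAction.stabilizer G a ⊓ MulAction.stabilizer G (t • a)) ⊓ Subgroup.centralizer (Cfsg.involutionsIn (MulAction.stabilizer G a : Set G)) := by
  have hcen : ∀ (c x : G), c ∈ Subgroup.centralizer {x} ↔ c * x = x * c := by
    intro c x
    rw [Subgroup.mem_centralizer_iff]
    constructor
    · intro h; exact (h x rfl).symm
    · rintro h _ rfl; exact h.symm
  refine ⟨?_, ?_⟩
  · intro s r hs hr h
    ext c
    rw [Subgroup.mem_inf, Subgroup.mem_inf (p := stabilizer G a ⊓ stabilizer G (t • a)), hcen, hcen]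
    constructor
    · rintro ⟨hc, h1⟩; exact ⟨hc, (special_comm hS hs hr h hc).1 h1⟩
    · rintro ⟨hc, h1⟩; exact ⟨hc, (special_comm hS hs hr h hc).2 h1⟩
  · obtain ⟨s1, hs1⟩ := exists_Inv hS
    obtain ⟨k0, hk0, r, hr, h⟩ := exists_special' hS hs1
    have hs0 := conj_Inv hs1 hk0.1.1
    set s0 := k0 * s1 * k0⁻¹ with hs0d
    ext c
    constructor
    · rintro ⟨⟨hc, hct⟩, hcK⟩
      refine ⟨hc, ?_⟩
      have hct' := (hcen c t).1 hct
      have h1 := (special_comm hS hs0 hr h hc).1 hct'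
      rintro s hs
      obtain ⟨k, hk, rfl⟩ := KK_conj_surj hS hs0 hs
      have h2 : k * c = c * k := hcK k hk
      have h3 : c * k⁻¹ = k⁻¹ * c := by
        rw [eq_inv_mul_iff_mul_eq, ← mul_assoc, h2]; group
      calc k⁻¹ * s0 * k * c = k⁻¹ * s0 * (k * c) := by group
        _ = k⁻¹ * (s0 * c) * k := by rw [h2]; group
        _ = k⁻¹ * (c * s0) * k := by rw [h1]
        _ = (k⁻¹ * c) * s0 * k := by group
        _ = (c * k⁻¹) * s0 * k := by rw [h3]
        _ = _ := by group
    · rintro ⟨hc, hcI⟩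
      have h1 : c * s0 = s0 * c := (hcI s0 hs0).symm
      have h2 := (special_comm hS hs0 hr h hc).2 h1
      refine ⟨⟨hc, (hcen c t).2 h2⟩, ?_⟩
      rintro k hk
      have h3 : (k⁻¹ * s0 * k) * c = c * (k⁻¹ * s0 * k) := hcI _ (conj_Inv' hs0 hk.1.1)
      have hkD : k * c * k⁻¹ ∈ DD a t := (DD a t).mul_mem ((DD a t).mul_mem hk.1 hc) ((DD a t).inv_mem hk.1)
      have h4 : (k * c * k⁻¹) * s0 = s0 * (k * c * k⁻¹) := by
        have e1 : (k * c * k⁻¹) * s0 = k * (c * (k⁻¹ * s0 * k)) * k⁻¹ := by group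
        rw [e1, ← h3]; group
      have h5 := (special_comm hS hs0 hr h hkD).2 h4
      -- t k c k⁻¹ t = k⁻¹ c k
      have h6 : k⁻¹ * c * k = k * c * k⁻¹ := by
        have e1 : t * (k * c * k⁻¹) * t = k * c * k⁻¹ := by rw [← h5, mul_assoc, hS.mul_self, mul_one]
        have f1 := tkt hS hk
        have f2 : k⁻¹ * t = t * k := f1.symm
        have e2 : t * (k * c * k⁻¹) * t = k⁻¹ * c * k := by
          calc t * (k * c * k⁻¹) * t = (t * k) * c * (k⁻¹ * t) := by group
            _ = (k⁻¹ * t) * c * (t * k) := by rw [f1]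
            _ = k⁻¹ * (t * c * t) * k := by group
            _ = k⁻¹ * (c * t * t) * k := by rw [h2]
            _ = _ := by rw [mul_assoc c, hS.mul_self, mul_one]
        rw [← e2, e1]
      have h7 : c * (k * k) = (k * k) * c := by
        have : c * (k * k) = k * (k⁻¹ * c * k) * k := by group
        rw [this, h6]; group
      have h8 := odd_comm hS.odd_card hk.1 h7
      exact h8.symm

end Cfsg.Agent.S1127
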