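import Cfsg.Statements.S1134
import Cfsg.Agent.H9.R1d
import Cfsg.Agent.S1124

set_option autoImplicit false
open Cfsg

namespace Cfsg.Agent.S1134

open MulAction CfsgH9.R1

/-- In the rank-one set-up (`G` finite and doubly transitive on `Ω`, `t` an involution moving `a`, `Q` normal in `G_a` with `G_a = Q D`, `Q ⊓ D = 1` for the two-point stabiliser `D = G_a ⊓ G_{t • a}`, `|Q|` even, `|D|` odd), with the action faithful and `G` containing two distinct commuting involutions, with `V = C_D(t)`: subsets of `V` conjugate in `G` are conjugate in `V`. -/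
theorem result {G Ω : Type*} [Group G] [Finite G] [MulAction G Ω] [FaithfulSMul G Ω] {a : Ω} {t : G} {Q : Subgroup G}
    (hS : Cfsg.IsRankOneSetup G Ω a t Q)
    (h2 : ∃ x y : G, x ≠ 1 ∧ y ≠ 1 ∧ x ≠ y ∧ x * x = 1 ∧ y * y = 1 ∧ x * y = y * x)
    (X : Set G) (hX : X ⊆ (((MulAction.stabilizer G a ⊓ MulAction.stabilizer G (t • a)) ⊓ Subgroup.centralizer {t} : Subgroup G) : Set G)) (g : G)
    (hY : (fun x => g * x * g⁻¹) '' X ⊆ (((MulAction.stabilizer G a ⊓ MulAction.stabilizer G (t • a)) ⊓ Subgroup.centralizer {t} : Subgroup G) : Set G)) :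
    ∃ v ∈ (MulAction.stabilizer G a ⊓ MulAction.stabilizer G (t • a)) ⊓ Subgroup.centralizer {t}, (fun x => v * x * v⁻¹) '' X = (fun x => g * x * g⁻¹) '' X := by
  have hcen : ∀ (c x : G), c ∈ Subgroup.centralizer {x} ↔ c * x = x * c := by
    intro c x
    rw [Subgroup.mem_centralizer_iff]
    constructor
    · intro h; exact (h x rfl).symm
    · intro h y hy
      have hyx : y = x := hy
      rw [hyx]; exact h.symm
  obtain ⟨s1, hs1⟩ := exists_Inv hS
  obtain ⟨k0, hk0, r, hr, h⟩ := exists_special' hS hs1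
  have hs0 := conj_Inv hs1 hk0.1.1
  set s := k0 * s1 * k0⁻¹ with hsd
  have hsQ := Inv_mem_Q hS hs0
  have hthree : ∀ X : Set G, X ⊆ (((stabilizer G a ⊓ stabilizer G (t • a)) ⊓ Subgroup.centralizer {t} : Subgroup G) : Set G) → Three X Ω := by
    intro X hX
    refine ⟨a, t • a, s • t • a, (ba hS).symm, ?_, ?_, ?_⟩
    · intro h'
      have : s⁻¹ • a = t • a := by rw [inv_smul_eq_iff]; exact h'
      rw [qa hS (Q.inv_mem hsQ)] at this
      exact ba hS this.symm
    · intro h'; exact hs0.2.1 (q_fix hS hsQ h'.symm)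
    · intro x hx
      have hxD := (hX hx).1
      have hxs : x * s = s * x := (special_comm hS hs0 hr h hxD).1 ((hcen x t).1 (hX hx).2)
      refine ⟨hxD.1, hxD.2, ?_⟩
      rw [← mul_smul, hxs, mul_smul, show x • t • a = t • a from hxD.2]
  set Y := (fun x => g * x * g⁻¹) '' X with hYd
  have hYD : Y ⊆ (DD a t : Set G) := fun y hy => (hY hy).1
  have hXD : X ⊆ (DD a t : Set G) := fun y hy => (hX hy).1
  have hga : ∀ y ∈ Y, y • g • a = g • a := by
    rintro _ ⟨x, hx, rfl⟩
    dsimp only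
    rw [mul_smul, inv_smul_smul, mul_smul, (hXD hx).1]
  have hgb : ∀ y ∈ Y, y • g • t • a = g • t • a := by
    rintro _ ⟨x, hx, rfl⟩
    dsimp only
    rw [mul_smul, inv_smul_smul, mul_smul, (hXD hx).2]
  obtain ⟨c, hc, hc1, hc2⟩ := cent_two_trans hS hYD (hthree Y hY) hga hgb (fun h' => (ba hS).symm (MulAction.injective g h'))
    (fixD hS hYD).1 (fixD hS hYD).2 (ba hS).symm
  set g1 := c * g with hg1
  have hg1D : g1 ∈ DD a t := ⟨by
    change (c * g) • a = a
    rw [mul_smul, hc1], by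
    change (c * g) • t • a = t • a
    rw [mul_smul, hc2]⟩
  have hconj : ∀ x ∈ X, g1 * x * g1⁻¹ = g * x * g⁻¹ := by
    intro x hx
    have h1 := mem_cent.1 hc (g * x * g⁻¹) ⟨x, hx, rfl⟩
    have e1 : g1 * x * g1⁻¹ = c * (g * x * g⁻¹) * c⁻¹ := by rw [hg1]; group
    rw [e1, ← h1]; group
  have ht2 : orderOf t = 2 := orderOf_eq_prime (by rw [sq]; exact hS.mul_self) hS.ne_one
  obtain ⟨h1, -, -⟩ := Cfsg.Agent.S1124.result t ht2 (DD a t) hS.odd_card (by
    intro x hx
    rw [tinv hS]; exact conj_t hS hx)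
  obtain ⟨⟨v, k⟩, ⟨hv, hk, hvk⟩, -⟩ := h1 g1 hg1D
  dsimp only at hv hk hvk
  refine ⟨v, hv, ?_⟩
  -- k centralises X
  have hkc : ∀ x ∈ X, k * x = x * k := by
    intro x hx
    have hxD := (hX hx).1
    have hxt : x * t = t * x := (hcen x t).1 (hX hx).2
    have hvt : v * t = t * v := (hcen v t).1 hv.2
    have h4 : g * x * g⁻¹ * t = t * (g * x * g⁻¹) := (hcen _ t).1 (hY ⟨x, hx, rfl⟩).2
    rw [← hconj x hx, hvk] at h4
    have h5 : (k * x * k⁻¹) * t = t * (k * x * k⁻¹) := by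
      have hvt' : v⁻¹ * t = t * v⁻¹ := by
        rw [inv_mul_eq_iff_eq_mul, ← mul_assoc, hvt]; group
      have e1 : (k * x * k⁻¹) * t = v⁻¹ * (v * k * x * (v * k)⁻¹) * (v * t) := by group
      rw [e1, hvt]
      have e2 : v⁻¹ * (v * k * x * (v * k)⁻¹) * (t * v) = v⁻¹ * ((v * k * x * (v * k)⁻¹) * t) * v := by group
      rw [e2, h4]
      have e3 : v⁻¹ * (t * (v * k * x * (v * k)⁻¹)) * v = (v⁻¹ * t) * (v * k * x * (v * k)⁻¹) * v := by group
      rw [e3, hvt']; group
    have f1 := tkt hS hk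
    have f2 : k⁻¹ * t = t * k := f1.symm
    have h6 : k⁻¹ * x * k = k * x * k⁻¹ := by
      have e1 : t * (k * x * k⁻¹) * t = k * x * k⁻¹ := by rw [← h5, mul_assoc, hS.mul_self, mul_one]
      have e2 : t * (k * x * k⁻¹) * t = k⁻¹ * x * k := by
        calc t * (k * x * k⁻¹) * t = (t * k) * x * (k⁻¹ * t) := by group
          _ = (k⁻¹ * t) * x * (t * k) := by rw [f1]
          _ = k⁻¹ * (t * x * t) * k := by group
          _ = k⁻¹ * (x * t * t) * k := by rw [hxt]
          _ = _ := by rw [mul_assoc x, hS.mul_self, mul_one]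
      rw [← e2, e1]
    have h7 : x * (k * k) = (k * k) * x := by
      have : x * (k * k) = k * (k⁻¹ * x * k) * k := by group
      rw [this, h6]; group
    exact (odd_comm hS.odd_card hk.1 h7).symm
  apply Set.image_congr
  intro x hx
  rw [← hconj x hx, hvk]
  have e1 : v * k * x * (v * k)⁻¹ = v * (k * x) * k⁻¹ * v⁻¹ := by group
  rw [e1, hkc x hx]; group

end Cfsg.Agent.S1134
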