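import Cfsg.Statements.S1135
import Cfsg.Agent.H9.R1e

set_option autoImplicit false
open Cfsg

namespace Cfsg.Agent.S1135

open MulAction CfsgH9.R1

/-- In the rank-one set-up (`G` finite and doubly transitive on `Ω`, `t` an involution moving `a`, `Q` normal in `G_a` with `G_a = Q D`, `Q ⊓ D = 1` for the two-point stabiliser `D = G_a ⊓ G_{t • a}`, `|Q|` even, `|D|` odd), with the action faithful and `G` containing two distinct commuting involutions: if `x = u v` with `u, v` involutions and `x² ≠ 1`, then `x` is conjugate to `u' t` for some involution `u'` of `G_a`, and `|C_G(x)|` is odd. -/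
theorem result {G Ω : Type*} [Group G] [Finite G] [MulAction G Ω] [FaithfulSMul G Ω] {a : Ω} {t : G} {Q : Subgroup G}
    (hS : Cfsg.IsRankOneSetup G Ω a t Q)
    (h2 : ∃ x y : G, x ≠ 1 ∧ y ≠ 1 ∧ x ≠ y ∧ x * x = 1 ∧ y * y = 1 ∧ x * y = y * x)
    (u v : G) (hu1 : u ≠ 1) (hu2 : u * u = 1) (hv1 : v ≠ 1) (hv2 : v * v = 1) (hx : (u * v) * (u * v) ≠ 1) :
    (∃ g : G, ∃ u' ∈ Cfsg.involutionsIn (MulAction.stabilizer G a : Set G), g * (u * v) * g⁻¹ = u' * t) ∧
      Odd (Nat.card ↥(Subgroup.centralizer {u * v})) := by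
  haveI := pretrans hS
  have hmain : ∃ g : G, ∃ u' ∈ Inv G a, g * (u * v) * g⁻¹ = u' * t := by
    obtain ⟨g0, hg0⟩ := conj_inv hS hv1 hv2 hS.ne_one hS.mul_self
    set u1 := g0 * u * g0⁻¹ with hu1d
    have hu11 : u1 ≠ 1 := by
      intro h
      apply hu1
      have : u = g0⁻¹ * u1 * g0 := by rw [hu1d]; group
      rw [this, h]; group
    have hu12 : u1 * u1 = 1 := by
      have : u1 * u1 = g0 * (u * u) * g0⁻¹ := by rw [hu1d]; group
      rw [this, hu2]; group
    have huv : g0 * (u * v) * g0⁻¹ = u1 * t := by rw [← hg0, hu1d]; group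
    obtain ⟨c, hc⟩ := exists_fix hS hS.ne_one hS.mul_self
    obtain ⟨d, hd⟩ := exists_fix hS hu11 hu12
    have hca : c ≠ a := by rintro rfl; exact ba hS hc
    obtain ⟨g, hg⟩ := MulAction.exists_smul_eq G c a
    have key : ∀ z : G, z • c = c → z ≠ 1 → z * z = 1 → g * z * g⁻¹ ∈ Inv G a := by
      intro z h1 h3 h4
      refine ⟨?_, ?_, ?_⟩
      · change (g * z * g⁻¹) • a = a
        rw [mul_smul, ← hg, inv_smul_smul, mul_smul, h1]
      · intro h
        apply h3
        have : z = g⁻¹ * (g * z * g⁻¹) * g := by group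
        rw [this, h]; group
      · have : g * z * g⁻¹ * (g * z * g⁻¹) = g * (z * z) * g⁻¹ := by group
        rw [this, h4]; group
    have hdc : d ≠ c := by
      rintro rfl
      apply hx
      have h5 := Inv_central hS h2 (key u1 hd hu11 hu12) _ (Inv_mem_Q hS (key t hc hS.ne_one hS.mul_self))
      have h6 : u1 * t = t * u1 := by
        have e1 : g * u1 * g⁻¹ * (g * t * g⁻¹) = g * (u1 * t) * g⁻¹ := by group
        have e2 : g * t * g⁻¹ * (g * u1 * g⁻¹) = g * (t * u1) * g⁻¹ := by group
        rw [e1, e2] at h5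
        exact mul_left_cancel (mul_right_cancel h5)
      have h7 : (u1 * t) * (u1 * t) = 1 := by
        have : (u1 * t) * (u1 * t) = u1 * (t * u1) * t := by group
        rw [this, ← h6]
        have : u1 * (u1 * t) * t = (u1 * u1) * (t * t) := by group
        rw [this, hu12, hS.mul_self, one_mul]
      rw [← huv] at h7
      have : u * v * (u * v) = g0⁻¹ * (g0 * (u * v) * g0⁻¹ * (g0 * (u * v) * g0⁻¹)) * g0 := by group
      rw [this, h7]; group
    -- move d to a by an element centralising t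
    have htc := Inv_central hS h2 (key t hc hS.ne_one hS.mul_self)
    have hgd : g • d ≠ a := by
      intro h; apply hdc
      exact MulAction.injective g (h.trans hg.symm)
    have hga : g • a ≠ a := by
      intro h; apply hca
      exact MulAction.injective g (hg.trans h.symm)
    obtain ⟨q1, hq1, h1⟩ := q_trans hS hgd
    obtain ⟨q2, hq2, h3⟩ := q_trans hS hga
    have hq : q2 * q1⁻¹ ∈ Q := Q.mul_mem hq2 (Q.inv_mem hq1)
    have hqm : (q2 * q1⁻¹) • g • d = g • a := by rw [mul_smul, ← h1, inv_smul_smul, h3]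
    set h := g⁻¹ * (q2 * q1⁻¹) * g with hh
    have hht : h * t = t * h := by
      have h5 := htc _ hq
      have e1 : h * t = g⁻¹ * ((q2 * q1⁻¹) * (g * t * g⁻¹)) * g := by rw [hh]; group
      rw [e1, ← h5, hh]; group
    have hhd : h • d = a := by
      rw [hh, mul_smul, mul_smul, hqm, inv_smul_smul]
    have hha : h⁻¹ • a = d := by rw [inv_smul_eq_iff, hhd]
    refine ⟨h * g0, h * u1 * h⁻¹, ⟨?_, ?_, ?_⟩, ?_⟩
    · change (h * u1 * h⁻¹) • a = a
      rw [mul_smul, hha, mul_smul, hd, hhd]
    · intro h'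
      apply hu11
      have : u1 = h⁻¹ * (h * u1 * h⁻¹) * h := by group
      rw [this, h']; group
    · have : h * u1 * h⁻¹ * (h * u1 * h⁻¹) = h * (u1 * u1) * h⁻¹ := by group
      rw [this, hu12]; group
    · have e1 : h * g0 * (u * v) * (h * g0)⁻¹ = h * (g0 * (u * v) * g0⁻¹) * h⁻¹ := by group
      rw [e1, huv]
      have e2 : h * (u1 * t) * h⁻¹ = h * u1 * h⁻¹ * ((h * t) * h⁻¹) := by group
      rw [e2, hht]; group
  refine ⟨hmain, ?_⟩
  obtain ⟨g, u', hu', he⟩ := hmain
  -- transfer
  have hcard : Nat.card ↥(Subgroup.centralizer {u * v}) = Nat.card ↥(Subgroup.centralizer {u' * t}) := by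
    apply Nat.card_congr
    refine (MulAut.conj g).toEquiv.subtypeEquiv ?_
    intro z
    rw [Subgroup.mem_centralizer_iff, Subgroup.mem_centralizer_iff]
    change (∀ h ∈ ({u * v} : Set G), h * z = z * h) ↔ (∀ h ∈ ({u' * t} : Set G), h * (g * z * g⁻¹) = (g * z * g⁻¹) * h)
    simp only [Set.mem_singleton_iff, forall_eq]
    rw [← he]
    have e1 : g * (u * v) * g⁻¹ * (g * z * g⁻¹) = g * ((u * v) * z) * g⁻¹ := by group
    have e2 : g * z * g⁻¹ * (g * (u * v) * g⁻¹) = g * (z * (u * v)) * g⁻¹ := by group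
    rw [e1, e2]
    constructor
    · intro h; rw [h]
    · intro h; exact mul_left_cancel (mul_right_cancel h)
  rw [hcard]
  by_contra hodd
  rw [Nat.not_odd_iff_even] at hodd
  obtain ⟨w, hw, hw1, hw2, hwu⟩ := exists_comm_inv _ hodd (u := u') hu'.2.2 (by
    intro x hx
    rw [Subgroup.mem_centralizer_iff] at hx ⊢
    intro y hy
    have hy' : y = u' * t := hy
    have h1 := hx (u' * t) rfl
    rw [hy']
    have hinv : (u' * t)⁻¹ = t * u' := by rw [mul_inv_rev, tinv hS, inv_eq_of_mul_eq_one_left hu'.2.2]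
    have h3 : (t * u') * x = x * (t * u') := by
      rw [← hinv, inv_mul_eq_iff_eq_mul, ← mul_assoc, h1]; group
    have e1 : u' * t * (u' * x * u') = u' * ((t * u') * x) * u' := by group
    have e2 : u' * x * u' * (u' * t) = u' * x * (u' * u') * t := by group
    rw [e1, e2, h3, hu'.2.2]
    have e3 : u' * (x * (t * u')) * u' = u' * x * t * (u' * u') := by group
    rw [e3, hu'.2.2]; group)
  have hwa : w • a = a := comm_fix hS (Inv_mem_Q hS hu') hu'.2.1 hwu.symm
  have h1 : (u' * t) * w = w * (u' * t) := (Subgroup.mem_centralizer_iff.1 hw) (u' * t) rfl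
  have h3 : (u' * t) • a = a := comm_fix hS (inv_mem_Q hS hwa hw2) hw1 h1
  have h4 : t • a = a := by
    have h5 : u' • t • a = a := by rw [← mul_smul]; exact h3
    have h6 : u' • u' • t • a = u' • a := by rw [h5]
    rw [← mul_smul u' u', hu'.2.2, one_smul, show u' • a = a from hu'.1] at h6
    exact h6
  exact ba hS h4

end Cfsg.Agent.S1135
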