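import Cfsg.Statements.S1150
import Cfsg.Agent.H6.TwG2b

set_option autoImplicit false
open Cfsg

namespace Cfsg.Agent.S1150

/-- In the small Ree group ²G₂(q), q = 3^(2m+1), realised as G¹ inside the Chevalley group G₂ over the field with q elements (θ the 3^m-th power map), with H¹ = G¹ ∩ H and U¹ = G¹ ∩ U the intersections with the ambient diagonal and positive unipotent subgroups: `H¹` is cyclic. -/
theorem result {K : Type*} [Field K] [Fintype K] {m : ℕ} (hK : Fintype.card K = 3 ^ (2 * m + 1)) :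
    IsCyclic ↥(Cfsg.Lie.chevG2.diagonalSubgroup K ⊓ Cfsg.Lie.twistedG2 K (3 ^ m)) := by
  haveI : CharP K 3 := charP_of_card_eq_prime_pow hK
  rw [CfsgH6.Chv.twistedG2_eq hK, CfsgH6.Chv.goodG2.diag_eq]
  obtain ⟨e, _⟩ := CfsgH6.Chv.exists_torG2 hK
  exact isCyclic_of_surjective e e.surjective

end Cfsg.Agent.S1150
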