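import Mathlib
import Cfsg.Agent.H3.Iso
import Cfsg.Statements.S1176

set_option autoImplicit false
open Cfsg

namespace Cfsg.Agent.S1176

/-- Let x₀ be an involution of the finite group G and D its conjugacy class. Assume (a) for each x ∈ D the subgroup W(x) generated by the members of D commuting with x is a 2-group of nilpotency class at most 2, and (b) the product of two distinct commuting members of D again lies in D. Then for all x, y ∈ D, if xy has even order greater than 2, its order is 4. -/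
theorem result {G : Type*} [Group G] [Finite G] (x₀ : G) (hx₀ : orderOf x₀ = 2) (ha : ∀ x : G, IsConj x₀ x → IsPGroup 2 ↥(Subgroup.closure {y : G | IsConj x₀ y ∧ Commute y x}) ∧ ⁅⁅Subgroup.closure {y : G | IsConj x₀ y ∧ Commute y x}, Subgroup.closure {y : G | IsConj x₀ y ∧ Commute y x}⁆, Subgroup.closure {y : G | IsConj x₀ y ∧ Commute y x}⁆ = ⊥) (hb : ∀ x y : G, IsConj x₀ x → IsConj x₀ y → x ≠ y → Commute x y → IsConj x₀ (x * y)) (x y : G) (hx : IsConj x₀ x) (hy : IsConj x₀ y) (heven : Even (orderOf (x * y))) (hgt : 2 < orderOf (x * y)) : orderOf (x * y) = 4 := by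
  have hx2 : ∀ x : G, IsConj x₀ x → x * x = 1 := by
    intro x hx
    obtain ⟨g, rfl⟩ := isConj_iff.1 hx
    exact CfsgH3.conj_sq (CfsgH3.sq_of_iso hx₀) g
  have hx0 := hx2 x hx
  have hy0 := hx2 y hy
  have hxi : x⁻¹ = x := inv_eq_of_mul_eq_one_right hx0
  have hyi : y⁻¹ = y := inv_eq_of_mul_eq_one_right hy0
  obtain ⟨m, hm⟩ := heven
  rw [← two_mul] at hm
  set ρ := x * y with hρ
  set t := ρ ^ m with ht
  have ht2 : t * t = 1 := by rw [ht, ← pow_add, ← two_mul, ← hm, pow_orderOf_eq_one]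
  have hti : t⁻¹ = t := inv_eq_of_mul_eq_one_right ht2
  have htne : t ≠ 1 := by
    intro h
    have := orderOf_dvd_of_pow_eq_one h
    rw [hm] at this
    have := Nat.le_of_dvd (by omega) this
    omega
  have htx : Commute t x := by
    have h1 := CfsgH3.inv_pow_conj (CfsgH3.xy_conj hx0 hy0) m
    rw [← hρ, ← ht, hti] at h1
    have : t * x = x * t := by
      calc t * x = (x * t * x⁻¹) * x := by rw [h1]
        _ = x * t := by group
    exact this
  have htρ : Commute t ρ := (Commute.refl ρ).pow_left m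
  have hty : Commute t y := by
    have : y = x * ρ := by rw [hρ, ← mul_assoc, hx0, one_mul]
    rw [this]; exact htx.mul_right htρ
  have htxD : IsConj x₀ (t * x) := by
    rcases CfsgH3.dih_even hx0 hy0 hm with ⟨g, -, hg⟩ | ⟨g, -, hg⟩
    · exact hx.trans (isConj_iff.2 ⟨g, hg⟩)
    · exact hy.trans (isConj_iff.2 ⟨g, hg⟩)
  have htD : IsConj x₀ t := by
    have h1 := hb x (t * x) hx htxD (by
      intro h
      exact htne (right_eq_mul.1 h)) ((htx.symm.mul_right (Commute.refl x)))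
    have h2 : x * (t * x) = t := by rw [← mul_assoc, ← htx.eq, mul_assoc, hx0, mul_one]
    rwa [h2] at h1
  obtain ⟨hW1, hW2⟩ := ha t htD
  set W := Subgroup.closure {y : G | IsConj x₀ y ∧ Commute y t} with hW
  have hxW : x ∈ W := Subgroup.subset_closure ⟨hx, htx.symm⟩
  have hyW : y ∈ W := Subgroup.subset_closure ⟨hy, hty.symm⟩
  have hρW : ρ ∈ W := mul_mem hxW hyW
  -- (xy)^2 = [x,y]
  have hcomm : x * y * x⁻¹ * y⁻¹ = ρ ^ 2 := by rw [hxi, hyi, hρ, pow_two]; group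
  have h1 : ρ ^ 2 ∈ ⁅W, W⁆ := by
    rw [← hcomm]; exact Subgroup.commutator_mem_commutator hxW hyW
  have h2 : ρ ^ 2 * x * (ρ ^ 2)⁻¹ * x⁻¹ ∈ ⁅⁅W, W⁆, W⁆ := Subgroup.commutator_mem_commutator h1 hxW
  rw [hW2, Subgroup.mem_bot] at h2
  have h3 : x * ρ ^ 2 * x⁻¹ = (ρ ^ 2)⁻¹ := CfsgH3.inv_pow_conj (CfsgH3.xy_conj hx0 hy0) 2
  have h4 : ρ ^ 4 = 1 := by
    have h5 : ρ ^ 2 = x * ρ ^ 2 * x⁻¹ := by
      have h6 : ρ ^ 2 * x = x * ρ ^ 2 := by
        calc ρ ^ 2 * x = (ρ ^ 2 * x * (ρ ^ 2)⁻¹ * x⁻¹) * (x * ρ ^ 2) := by group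
          _ = x * ρ ^ 2 := by rw [h2, one_mul]
      rw [← h6]; group
    rw [h3] at h5
    calc ρ ^ 4 = ρ ^ 2 * ρ ^ 2 := by rw [← pow_add]
      _ = (ρ ^ 2)⁻¹ * ρ ^ 2 := by rw [← h5]
      _ = 1 := by group
  have h5 := orderOf_dvd_of_pow_eq_one h4
  have h6 : orderOf ρ ≤ 4 := Nat.le_of_dvd (by norm_num) h5
  have h7 : orderOf ρ ≠ 3 := by
    intro h; rw [h] at h5; omega
  omega

end Cfsg.Agent.S1176
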