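import Mathlib
import Cfsg.Agent.H3.Iso
import Cfsg.Statements.S1177

set_option autoImplicit false
open Cfsg

namespace Cfsg.Agent.S1177

/-- Let A be a nontrivial elementary abelian 2-subgroup of a finite group G which is a T.I. set (each conjugate of A meets A trivially or equals A) and which does not commute elementwise with any conjugate of A other than A itself. Then for every a ∈ A, a ≠ 1, every conjugate of A contained in C_G(a) is equal to A (A is weakly closed in C_G(a)). -/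
theorem result {G : Type*} [Group G] [Finite G] (A : Subgroup G) (hA : Cfsg.IsElementaryAbelian 2 A) (hA1 : A ≠ ⊥) (hTI : ∀ g : G, A.map (MulAut.conj g).toMonoidHom ⊓ A = ⊥ ∨ A.map (MulAut.conj g).toMonoidHom = A) (hb : ∀ g : G, (∀ a ∈ A, ∀ b ∈ A.map (MulAut.conj g).toMonoidHom, a * b = b * a) → A.map (MulAut.conj g).toMonoidHom = A) (a : G) (ha : a ∈ A) (ha1 : a ≠ 1) (g : G) (hg : A.map (MulAut.conj g).toMonoidHom ≤ Subgroup.centralizer ({a} : Set G)) : A.map (MulAut.conj g).toMonoidHom = A := by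
  classical
  haveI : Fact (Nat.Prime 2) := ⟨Nat.prime_two⟩
  have hAsq : ∀ x ∈ A, x * x = 1 := by
    intro x hx
    have := hA.2 x hx
    rwa [pow_two] at this
  have hAcomm : ∀ x ∈ A, ∀ y ∈ A, x * y = y * x := by
    intro x hx y hy
    have := hA.1.is_comm.comm (⟨x, hx⟩ : A) ⟨y, hy⟩
    exact congrArg Subtype.val this
  set B := A.map (MulAut.conj g).toMonoidHom with hB
  have hBsq : ∀ x ∈ B, x * x = 1 := by
    rintro _ ⟨x, hx, rfl⟩
    show (g * x * g⁻¹) * (g * x * g⁻¹) = 1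
    exact CfsgH3.conj_sq (hAsq x hx) g
  have hBcomm : ∀ x ∈ B, ∀ y ∈ B, x * y = y * x := by
    rintro _ ⟨x, hx, rfl⟩ _ ⟨y, hy, rfl⟩
    show (g * x * g⁻¹) * (g * y * g⁻¹) = (g * y * g⁻¹) * (g * x * g⁻¹)
    calc (g * x * g⁻¹) * (g * y * g⁻¹) = g * (x * y) * g⁻¹ := by group
      _ = g * (y * x) * g⁻¹ := by rw [hAcomm x hx y hy]
      _ = _ := by group
  -- T.I. for B
  by_contra hne
  have hABbot : B ⊓ A = ⊥ := (hTI g).resolve_right hne
  -- B normalizes A
  have hBA : ∀ b ∈ B, A.map (MulAut.conj b).toMonoidHom = A := by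
    intro b hb
    rcases hTI b with h | h
    · exfalso
      have h1 : a ∈ A.map (MulAut.conj b).toMonoidHom ⊓ A := by
        refine Subgroup.mem_inf.2 ⟨⟨a, ha, ?_⟩, ha⟩
        show b * a * b⁻¹ = a
        have := hg hb
        rw [Subgroup.mem_centralizer_singleton_iff] at this
        rw [this]; group
      rw [h, Subgroup.mem_bot] at h1
      exact ha1 h1
    · exact h
  have hBA' : ∀ b ∈ B, ∀ x ∈ A, b * x * b⁻¹ ∈ A := by
    intro b hb x hx
    rw [← hBA b hb]
    exact ⟨x, hx, rfl⟩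
  -- if c ∈ A commutes with some nontrivial b ∈ B then c normalizes B and hence centralizes B
  have hcent : ∀ c ∈ A, (∃ b ∈ B, b ≠ 1 ∧ b * c = c * b) → ∀ b ∈ B, b * c = c * b := by
    rintro c hc ⟨b, hb, hb1, hbc⟩
    have hcB : B.map (MulAut.conj c).toMonoidHom = B := by
      -- conjugate back by g
      have h0 : B.map (MulAut.conj c).toMonoidHom = (A.map (MulAut.conj (g⁻¹ * c * g)).toMonoidHom).map (MulAut.conj g).toMonoidHom := by
        rw [hB, ← CfsgH2.map_conj_mul, ← CfsgH2.map_conj_mul]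
        congr 3; group
      rcases hTI (g⁻¹ * c * g) with h | h
      · exfalso
        have h1 : g⁻¹ * b * g ∈ A.map (MulAut.conj (g⁻¹ * c * g)).toMonoidHom ⊓ A := by
          obtain ⟨y, hy, hyb⟩ := hb
          have hyb' : g * y * g⁻¹ = b := hyb
          have hy' : g⁻¹ * b * g = y := by rw [← hyb']; group
          rw [hy']
          refine Subgroup.mem_inf.2 ⟨⟨y, hy, ?_⟩, hy⟩
          show (g⁻¹ * c * g) * y * (g⁻¹ * c * g)⁻¹ = y
          have : (g⁻¹ * c * g) * y * (g⁻¹ * c * g)⁻¹ = g⁻¹ * (c * (g * y * g⁻¹) * c⁻¹) * g := by group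
          rw [this, hyb', ← hbc]
          rw [← hy']; group
        rw [h, Subgroup.mem_bot] at h1
        apply hb1
        calc b = g * (g⁻¹ * b * g) * g⁻¹ := by group
          _ = 1 := by rw [h1]; group
      · rw [h0, h]
    intro b' hb'
    have h1 : c * b' * c⁻¹ ∈ B := by rw [← hcB]; exact ⟨b', hb', rfl⟩
    have h2 : b'⁻¹ * (c * b' * c⁻¹) ∈ B := mul_mem (inv_mem hb') h1
    have h3 : b'⁻¹ * (c * b' * c⁻¹) ∈ A := by
      have h4 : b'⁻¹ * (c * b' * c⁻¹) = (b'⁻¹ * c * b'⁻¹⁻¹) * c⁻¹ := by group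
      rw [h4]; exact mul_mem (hBA' _ (inv_mem hb') c hc) (inv_mem hc)
    have h4 : b'⁻¹ * (c * b' * c⁻¹) ∈ B ⊓ A := Subgroup.mem_inf.2 ⟨h2, h3⟩
    rw [hABbot, Subgroup.mem_bot] at h4
    calc b' * c = b' * (b'⁻¹ * (c * b' * c⁻¹)) * c := by rw [h4]; group
      _ = c * b' := by group
  -- commutators [b,c]
  set A0 : Subgroup G := A ⊓ Subgroup.centralizer (B : Set G) with hA0
  have hA0A : A0 ≤ A := inf_le_left
  have hmemA0 : ∀ c, c ∈ A → (∀ b ∈ B, b * c = c * b) → c ∈ A0 := by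
    intro c hc h
    exact Subgroup.mem_inf.2 ⟨hc, Subgroup.mem_centralizer_iff.2 (fun b hb => h b hb)⟩
  have hcomm : ∀ b ∈ B, ∀ c ∈ A, b * c * b⁻¹ * c⁻¹ ∈ A0 := by
    intro b hb c hc
    have hd : b * c * b⁻¹ * c⁻¹ ∈ A := mul_mem (hBA' b hb c hc) (inv_mem hc)
    apply hmemA0 _ hd
    by_cases hb1 : b = 1
    · intro b' _; rw [hb1]; group
    · apply hcent _ hd
      refine ⟨b, hb, hb1, ?_⟩
      have hbi : b⁻¹ = b := inv_eq_of_mul_eq_one_right (hBsq b hb)
      set d := b * c * b⁻¹ * c⁻¹ with hdd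
      have h1 : b * d * b⁻¹ = d⁻¹ := by
        rw [hdd]
        calc b * (b * c * b⁻¹ * c⁻¹) * b⁻¹ = (b * b) * c * (b⁻¹ * c⁻¹ * b⁻¹) := by group
          _ = c * (b * c⁻¹ * b⁻¹) := by rw [hBsq b hb]; nth_rw 1 [hbi]; group
          _ = (b * c * b⁻¹ * c⁻¹)⁻¹ := by group
      have h2 : d⁻¹ = d := inv_eq_of_mul_eq_one_right (hAsq d hd)
      rw [h2] at h1
      calc b * d = (b * d * b⁻¹) * b := by group
        _ = d * b := by rw [h1]
  have hAB : Nat.card A = Nat.card B := by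
    rw [hB]
    exact Nat.card_congr (A.equivMapOfInjective _ (MulAut.conj g).injective).toEquiv
  -- some c ∈ A does not centralize B
  have hex : ∃ c ∈ A, c ∉ A0 := by
    by_contra hno
    push Not at hno
    apply hne
    apply hb
    intro x hx y hy
    have := (Subgroup.mem_inf.1 (hno x hx)).2
    exact (Subgroup.mem_centralizer_iff.1 this y hy).symm
  obtain ⟨c, hc, hcA0⟩ := hex
  have hinj : Function.Injective (fun b : B => (⟨b.1 * c * b.1⁻¹ * c⁻¹, hcomm b.1 b.2 c hc⟩ : A0)) := by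
    rintro ⟨b, hb⟩ ⟨b', hb'⟩ h
    have h1 : b * c * b⁻¹ * c⁻¹ = b' * c * b'⁻¹ * c⁻¹ := congrArg Subtype.val h
    have h2 : b * c * b⁻¹ = b' * c * b'⁻¹ := mul_right_cancel h1
    apply Subtype.ext
    show b = b'
    by_contra hbb
    apply hcA0
    apply hmemA0 c hc
    apply hcent c hc
    refine ⟨b'⁻¹ * b, mul_mem (inv_mem hb') hb, ?_, ?_⟩
    · intro h3; apply hbb
      calc b = b' * (b'⁻¹ * b) := by group
        _ = b' := by rw [h3, mul_one]
    · calc b'⁻¹ * b * c = b'⁻¹ * (b * c * b⁻¹) * b := by group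
        _ = b'⁻¹ * (b' * c * b'⁻¹) * b := by rw [h2]
        _ = c * (b'⁻¹ * b) := by group
  have hle : Nat.card B ≤ Nat.card A0 := Nat.card_le_card_of_injective _ hinj
  have hlt : Nat.card A0 < Nat.card A := by
    apply CfsgH1.card_lt_card_of_lt
    refine lt_of_le_of_ne hA0A ?_
    intro h
    apply hcA0; rw [h]; exact hc
  omega

end Cfsg.Agent.S1177
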