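import Mathlib
import Cfsg.Agent.H3.Iso
import Cfsg.Agent.H3.Cores2
import Cfsg.Statements.S1178

set_option autoImplicit false
open Cfsg

namespace Cfsg.Agent.S1178

/-- Let A be a subgroup of a Sylow 2-subgroup S of the finite group G which is weakly closed in S. If a conjugate g A g⁻¹ commutes elementwise with A, then g A g⁻¹ = A. -/
theorem result {G : Type*} [Group G] [Finite G] (S : Sylow 2 G) (A : Subgroup G) (hW : Cfsg.IsWeaklyClosed A (S : Subgroup G)) (g : G) (hc : ∀ a ∈ A, ∀ b ∈ A.map (MulAut.conj g).toMonoidHom, a * b = b * a) : A.map (MulAut.conj g).toMonoidHom = A := by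
  obtain ⟨hAS, hw⟩ := hW
  have hA : IsPGroup 2 A := S.isPGroup'.to_le hAS
  set B := A.map (MulAut.conj g).toMonoidHom with hB
  have hBp : IsPGroup 2 B := hA.map _
  -- A ⊔ B is a 2-group
  have hAB : IsPGroup 2 (A ⊔ B : Subgroup G) := by
    apply CfsgH1.isPGroup_sup hA hBp
    intro b hb
    rw [Subgroup.mem_normalizer_iff]
    intro a
    constructor
    · intro ha
      have h1 := hc a ha b hb
      have h2 : b * a * b⁻¹ = a := by rw [← h1]; group
      rw [h2]; exact ha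
    · intro ha
      have h1 := hc _ ha b hb
      have h2 : a = b * a * b⁻¹ := by
        have : b * a * b⁻¹ * b = b * (b * a * b⁻¹) := h1
        have h3 : b * a = b * (b * a * b⁻¹) := by rw [← this]; group
        exact mul_left_cancel h3
      rw [h2]; exact ha
  obtain ⟨T, hT⟩ := hAB.exists_le_sylow
  obtain ⟨x, hx⟩ := MulAction.exists_smul_eq G S T
  have hx' : (T : Subgroup G) = (S : Subgroup G).map (MulAut.conj x).toMonoidHom := by
    rw [← hx]; rfl
  have h1 : A.map (MulAut.conj x⁻¹).toMonoidHom ≤ S := by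
    have h2 : A ≤ (S : Subgroup G).map (MulAut.conj x).toMonoidHom := hx' ▸ (le_sup_left.trans hT)
    rintro _ ⟨a, ha, rfl⟩
    obtain ⟨s, hs, hsa⟩ := h2 ha
    have h3 : x * s * x⁻¹ = a := hsa
    have h4 : x⁻¹ * a * x⁻¹⁻¹ = s := by rw [← h3]; group
    show x⁻¹ * a * x⁻¹⁻¹ ∈ (S : Subgroup G)
    rw [h4]; exact hs
  have h2 : A.map (MulAut.conj (x⁻¹ * g)).toMonoidHom ≤ S := by
    have h2 : B ≤ (S : Subgroup G).map (MulAut.conj x).toMonoidHom := hx' ▸ (le_sup_right.trans hT)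
    rintro _ ⟨a, ha, rfl⟩
    obtain ⟨s, hs, hsa⟩ := h2 (⟨a, ha, rfl⟩ : (g * a * g⁻¹) ∈ B)
    have h3 : x * s * x⁻¹ = g * a * g⁻¹ := hsa
    have h4 : x⁻¹ * g * a * (x⁻¹ * g)⁻¹ = s := by
      calc x⁻¹ * g * a * (x⁻¹ * g)⁻¹ = x⁻¹ * (g * a * g⁻¹) * x := by group
        _ = s := by rw [← h3]; group
    show x⁻¹ * g * a * (x⁻¹ * g)⁻¹ ∈ (S : Subgroup G)
    rw [h4]; exact hs
  have e1 := hw _ h1
  have e2 := hw _ h2
  rw [CfsgH2.map_conj_mul] at e2
  rw [← hB] at e2
  have e3 : B = A := Subgroup.map_injective (MulAut.conj x⁻¹).injective (e2.trans e1.symm)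
  exact e3

end Cfsg.Agent.S1178
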