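import Mathlib
import Cfsg.Agent.H3.Iso
import Cfsg.Statements.S1181

set_option autoImplicit false
open Cfsg

namespace Cfsg.Agent.S1181

theorem zmem_of_comm {G : Type*} [Group G] [Finite G] (z : G) (hz : Cfsg.IsIsolatedInvolution z) (N : Subgroup G) [N.Normal] 
    (g : G) (hc : Commute (QuotientGroup.mk z : G ⧸ N) (QuotientGroup.mk (g * z * g⁻¹) : G ⧸ N)) : z * (g * z * g⁻¹) ∈ N := by
  have hz2 : z * z = 1 := CfsgH3.sq_of_iso hz.1
  have h1 := CfsgH3.iso_odd hz g
  have h2 : (QuotientGroup.mk (z * (g * z * g⁻¹)) : G ⧸ N) ^ 2 = 1 := by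
    rw [QuotientGroup.mk_mul, hc.mul_pow, ← QuotientGroup.mk_pow, ← QuotientGroup.mk_pow, pow_two, pow_two, hz2, CfsgH3.conj_sq hz2 g]
    simp
  have h3 : (QuotientGroup.mk (z * (g * z * g⁻¹)) : G ⧸ N) ^ (orderOf (z * (g * z * g⁻¹))) = 1 := by
    rw [← QuotientGroup.mk_pow, pow_orderOf_eq_one]; simp
  have h4 : orderOf (QuotientGroup.mk (z * (g * z * g⁻¹)) : G ⧸ N) = 1 := by
    have h5 := orderOf_dvd_of_pow_eq_one h2
    have h6 := orderOf_dvd_of_pow_eq_one h3
    have h7 := Nat.dvd_gcd h5 h6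
    have h8 : Nat.gcd 2 (orderOf (z * (g * z * g⁻¹))) = 1 := Nat.coprime_two_left.mpr h1
    rw [h8] at h7
    exact Nat.dvd_one.mp h7
  rw [orderOf_eq_one_iff] at h4
  exact (QuotientGroup.eq_one_iff _).1 h4

/-- Let z be an isolated involution of the finite group G and N a normal subgroup with z ∉ N. Then the centralizer of zN in G/N is the image of C_G(z), and zN is an isolated involution of G/N. -/
theorem result {G : Type*} [Group G] [Finite G] (z : G) (hz : Cfsg.IsIsolatedInvolution z) (N : Subgroup G) [N.Normal] (hzN : z ∉ N) : Subgroup.centralizer ({(QuotientGroup.mk z : G ⧸ N)} : Set (G ⧸ N)) = (Subgroup.centralizer ({z} : Set G)).map (QuotientGroup.mk' N) ∧ Cfsg.IsIsolatedInvolution (QuotientGroup.mk z : G ⧸ N) := by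
  have hz2 : z * z = 1 := CfsgH3.sq_of_iso hz.1
  have hzi : z⁻¹ = z := CfsgH3.iso_inv hz.1
  constructor
  · apply le_antisymm
    · intro x hx
      obtain ⟨g, rfl⟩ := QuotientGroup.mk_surjective x
      rw [Subgroup.mem_centralizer_singleton_iff] at hx
      have h1 : z * (g * z * g⁻¹) ∈ N := by
        apply zmem_of_comm z hz N g
        have h2 : (QuotientGroup.mk (g * z * g⁻¹) : G ⧸ N) = QuotientGroup.mk z := by
          rw [QuotientGroup.mk_mul, QuotientGroup.mk_mul, QuotientGroup.mk_inv]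
          rw [mul_inv_eq_iff_eq_mul]
          exact hx
        rw [h2]
      obtain ⟨u, hu, h⟩ := CfsgH3.iso_conj_mem hz g
      have huN : u ∈ N := by
        have : Subgroup.zpowers (z * (g * z * g⁻¹)) ≤ N := by rwa [Subgroup.zpowers_le]
        exact this hu
      refine ⟨u⁻¹ * g, ?_, ?_⟩
      · rw [SetLike.mem_coe, Subgroup.mem_centralizer_singleton_iff]
        have h3 : u⁻¹ * (g * z * g⁻¹) * u = z := by rw [← h]; group
        calc u⁻¹ * g * z = (u⁻¹ * (g * z * g⁻¹) * u) * (u⁻¹ * g) := by group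
          _ = z * (u⁻¹ * g) := by rw [h3]
      · show (QuotientGroup.mk (u⁻¹ * g) : G ⧸ N) = QuotientGroup.mk g
        rw [QuotientGroup.mk_mul, (QuotientGroup.eq_one_iff _).2 (inv_mem huN), one_mul]
    · rintro _ ⟨c, hc, rfl⟩
      rw [SetLike.mem_coe, Subgroup.mem_centralizer_singleton_iff] at hc
      rw [Subgroup.mem_centralizer_singleton_iff]
      show (QuotientGroup.mk c : G ⧸ N) * QuotientGroup.mk z = QuotientGroup.mk z * QuotientGroup.mk c
      rw [← QuotientGroup.mk_mul, hc, QuotientGroup.mk_mul]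
  · constructor
    · apply orderOf_eq_prime
      · rw [← QuotientGroup.mk_pow, pow_two, hz2]; simp
      · intro h
        exact hzN ((QuotientGroup.eq_one_iff _).1 h)
    · intro x hx
      obtain ⟨g, rfl⟩ := QuotientGroup.mk_surjective x
      have h1 : z * (g * z * g⁻¹) ∈ N := zmem_of_comm z hz N g hx
      have h2 := (QuotientGroup.eq_one_iff _).2 h1
      rw [QuotientGroup.mk_mul, mul_eq_one_iff_eq_inv] at h2
      have h3 : (QuotientGroup.mk (g * z * g⁻¹) : G ⧸ N) = (QuotientGroup.mk z : G ⧸ N) := by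
        rw [h2, ← QuotientGroup.mk_inv]
        congr 1
        rw [mul_inv_rev, mul_inv_rev, hzi]; group
      exact h3

end Cfsg.Agent.S1181
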