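import Mathlib
import Cfsg.Agent.H3.Iso
import Cfsg.Statements.S1182

set_option autoImplicit false
open Cfsg

namespace Cfsg.Agent.S1182

/-- Let z be an isolated involution of the finite group G and H a subgroup normalized by z. If x, y ∈ H both commute with z and y = h x h⁻¹ for some h ∈ H, then y = c x c⁻¹ for some c ∈ H commuting with z. -/
theorem result {G : Type*} [Group G] [Finite G] (z : G) (hz : Cfsg.IsIsolatedInvolution z) (H : Subgroup G) (hzH : z ∈ Subgroup.normalizer (H : Set G)) (x y : G) (hx : x ∈ H) (hy : y ∈ H) (hxz : Commute x z) (hyz : Commute y z) (h : G) (hh : h ∈ H) (hconj : h * x * h⁻¹ = y) : ∃ c ∈ H, Commute c z ∧ c * x * c⁻¹ = y := by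
  have hz2 : z * z = 1 := CfsgH3.sq_of_iso hz.1
  have hzi : z⁻¹ = z := CfsgH3.iso_inv hz.1
  obtain ⟨u, hu, hz'⟩ := CfsgH3.iso_conj_mem hz h⁻¹
  have h1 : z * (h⁻¹ * z * h⁻¹⁻¹) ∈ H ⊓ Subgroup.centralizer {x} := by
    refine Subgroup.mem_inf.2 ⟨?_, ?_⟩
    · have h2 : z * (h⁻¹ * z * h⁻¹⁻¹) = (z * h⁻¹ * z⁻¹) * h := by rw [hzi]; group
      rw [h2]
      exact mul_mem ((Subgroup.mem_normalizer_iff.1 hzH _).1 (inv_mem hh)) hh
    · apply mul_mem
      · rw [Subgroup.mem_centralizer_singleton_iff]; exact hxz.eq.symm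
      · rw [Subgroup.mem_centralizer_singleton_iff]
        have h3 : x = h⁻¹ * y * h := by rw [← hconj]; group
        rw [h3]
        calc h⁻¹ * z * h⁻¹⁻¹ * (h⁻¹ * y * h) = h⁻¹ * (z * y) * h := by group
          _ = h⁻¹ * (y * z) * h := by rw [hyz.eq]
          _ = _ := by group
  have hu' : u ∈ H ⊓ Subgroup.centralizer {x} := by
    have : Subgroup.zpowers (z * (h⁻¹ * z * h⁻¹⁻¹)) ≤ H ⊓ Subgroup.centralizer {x} := by rwa [Subgroup.zpowers_le]
    exact this hu
  obtain ⟨huH, hux⟩ := Subgroup.mem_inf.1 hu'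
  rw [Subgroup.mem_centralizer_singleton_iff] at hux
  refine ⟨h * u, mul_mem hh huH, ?_, ?_⟩
  · have h4 : (h * u) * z * (h * u)⁻¹ = z := by
      calc (h * u) * z * (h * u)⁻¹ = h * (u * z * u⁻¹) * h⁻¹ := by group
        _ = z := by rw [hz']; group
    have : (h * u) * z = z * (h * u) := by
      calc (h * u) * z = ((h * u) * z * (h * u)⁻¹) * (h * u) := by group
        _ = _ := by rw [h4]
    exact this
  · calc (h * u) * x * (h * u)⁻¹ = h * (u * x * u⁻¹) * h⁻¹ := by group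
      _ = h * x * h⁻¹ := by rw [hux]; group
      _ = y := hconj

end Cfsg.Agent.S1182
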