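import Mathlib
import Cfsg.Agent.H3.Iso
import Cfsg.Agent.H2.Cores
import Cfsg.Statements.S1183

set_option autoImplicit false
open Cfsg

namespace Cfsg.Agent.S1183

theorem odd_mem {G : Type*} [Group G] [Finite G] {x : G} (hx : Odd (orderOf x)) : x ∈ Cfsg.pResidual 2 G :=
  Subgroup.subset_closure (Nat.coprime_two_right.mpr hx)

/-- `O(G)C = G` -/
theorem decomp {G : Type*} [Group G] [Finite G] (z : G) (hz : Cfsg.IsIsolatedInvolution z) (g : G) : 
    ∃ u ∈ Cfsg.pPrimeCore 2 G, ∃ c ∈ Subgroup.centralizer ({z} : Set G), g = u * c := by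
  obtain ⟨u, hu, h⟩ := CfsgH3.iso_conj_mem hz g
  refine ⟨u, ?_, u⁻¹ * g, ?_, by group⟩
  · have : Subgroup.zpowers (z * (g * z * g⁻¹)) ≤ Cfsg.pPrimeCore 2 G := by
      rw [Subgroup.zpowers_le]
      exact CfsgH5.zstar_odd (CfsgH3.iso_oddC hz) g
    exact this hu
  · rw [Subgroup.mem_centralizer_singleton_iff]
    have h3 : u⁻¹ * (g * z * g⁻¹) * u = z := by rw [← h]; group
    calc u⁻¹ * g * z = (u⁻¹ * (g * z * g⁻¹) * u) * (u⁻¹ * g) := by group
      _ = z * (u⁻¹ * g) := by rw [h3]

/-- Let z be an isolated involution of the finite group G and C = C_G(z). Then the subgroup of G generated by its elements of odd order is all of G if and only if the subgroup of C generated by its elements of odd order is all of C. -/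
theorem result {G : Type*} [Group G] [Finite G] (z : G) (hz : Cfsg.IsIsolatedInvolution z) : Cfsg.pResidual 2 G = ⊤ ↔ Cfsg.pResidual 2 ↥(Subgroup.centralizer ({z} : Set G)) = ⊤ := by
  set C := Subgroup.centralizer ({z} : Set G) with hC
  constructor
  · intro hG
    -- R = O²(C) in G
    rw [eq_top_iff]
    rintro ⟨c, hc⟩ -
    set R : Subgroup G := (Cfsg.pResidual 2 C).map C.subtype with hR
    have hRC : R ≤ C := Subgroup.map_subtype_le _
    have hRn : ∀ c ∈ C, ∀ r ∈ R, c * r * c⁻¹ ∈ R := by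
      rintro c hc _ ⟨r, hr, rfl⟩
      have hn : (Cfsg.pResidual 2 C).Normal := by
        unfold Cfsg.pResidual
        constructor
        intro n hn g
        induction hn using Subgroup.closure_induction with
        | mem x hx =>
          apply Subgroup.subset_closure
          show Nat.Coprime (orderOf (g * x * g⁻¹)) 2
          have := MulEquiv.orderOf_eq (MulAut.conj g) x
          rw [MulAut.conj_apply] at this
          rw [this]; exact hx
        | one => simp
        | mul x y _ _ hx hy =>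
          have : g * (x * y) * g⁻¹ = (g * x * g⁻¹) * (g * y * g⁻¹) := by group
          rw [this]; exact mul_mem hx hy
        | inv x _ hx =>
          have : g * x⁻¹ * g⁻¹ = (g * x * g⁻¹)⁻¹ := by group
          rw [this]; exact inv_mem hx
      exact ⟨(⟨c, hc⟩ : C) * r * (⟨c, hc⟩ : C)⁻¹, hn.conj_mem _ hr _, rfl⟩
    -- C/R : squares: every element of C has 2-power power in R
    have hpow : ∀ c ∈ C, ∃ k : ℕ, c ^ (2 ^ k) ∈ R := by
      intro c hc
      refine ⟨(orderOf c).factorization 2, ?_⟩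
      have h1 : Odd (orderOf (⟨c, hc⟩ ^ (2 ^ ((orderOf c).factorization 2)) : C)) := by
        rw [orderOf_pow, Subgroup.orderOf_mk]
        have h2 : 2 ^ (orderOf c).factorization 2 ∣ orderOf c := Nat.ordProj_dvd _ _
        rw [Nat.gcd_eq_right h2]
        have h3 := Nat.coprime_ordCompl Nat.prime_two (orderOf_pos c).ne'
        exact Nat.coprime_two_left.mp h3
      exact ⟨_, odd_mem h1, rfl⟩
    have hoddR : ∀ c ∈ C, ∀ n : ℕ, Odd n → c ^ n ∈ R → c ∈ R := by
      intro c hc n hn hcn
      obtain ⟨k, hk⟩ := hpow c hc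
      have hcop : Nat.Coprime n (2 ^ k) := (Nat.coprime_two_right.mpr hn).pow_right k
      have h1 : orderOf (c) ∣ orderOf c := dvd_rfl
      have h2 : (Nat.gcdA n (2 ^ k) * n + Nat.gcdB n (2^k) * (2 ^ k : ℕ) : ℤ) = 1 := by
        have := Nat.gcd_eq_gcd_ab n (2 ^ k)
        rw [hcop] at this
        push_cast at this ⊢
        linarith
      have h3 : c = (c ^ n) ^ (Nat.gcdA n (2 ^ k)) * (c ^ (2 ^ k)) ^ (Nat.gcdB n (2 ^ k)) := by
        rw [← zpow_natCast, ← zpow_natCast, ← zpow_mul, ← zpow_mul, ← zpow_add]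
        rw [mul_comm (n : ℤ), mul_comm ((2 ^ k : ℕ) : ℤ), h2, zpow_one]
      rw [h3]
      exact mul_mem (zpow_mem hcn _) (zpow_mem hk _)
    -- the subgroup O(G) R
    set N : Subgroup G := Cfsg.pPrimeCore 2 G ⊔ R with hN
    have hmemN : ∀ x, x ∈ N ↔ ∃ u ∈ Cfsg.pPrimeCore 2 G, ∃ r ∈ R, u * r = x := by
      intro x
      rw [hN, Subgroup.mem_sup_of_normal_left]
    have hOR : ∀ u ∈ Cfsg.pPrimeCore 2 G, u ∈ C → u ∈ R := by
      intro u hu huC
      refine ⟨⟨u, huC⟩, odd_mem ?_, rfl⟩
      rw [Subgroup.orderOf_mk]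
      have h1 := CfsgH2.coprime_card_pPrimeCore (G := G) 2
      have h2 : orderOf u ∣ Nat.card (Cfsg.pPrimeCore 2 G) := by
        have := orderOf_dvd_natCard (⟨u, hu⟩ : Cfsg.pPrimeCore 2 G)
        rwa [Subgroup.orderOf_mk] at this
      exact Nat.coprime_two_right.mp (Nat.Coprime.coprime_dvd_left h2 h1)
    have hNtop : N = ⊤ := by
      rw [eq_top_iff, ← hG]
      unfold Cfsg.pResidual
      rw [Subgroup.closure_le]
      intro g hg
      have hgodd : Odd (orderOf g) := Nat.coprime_two_right.mp hg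
      obtain ⟨u, hu, c, hc, rfl⟩ := decomp z hz g
      rw [SetLike.mem_coe]
      refine mul_mem (le_sup_left (a := Cfsg.pPrimeCore 2 G) hu) (le_sup_right (a := Cfsg.pPrimeCore 2 G) (b := R) ?_)
      apply hoddR c hc _ hgodd
      apply hOR _ _ (pow_mem hc _)
      have h1 : (QuotientGroup.mk (u * c) : G ⧸ Cfsg.pPrimeCore 2 G) ^ (orderOf (u * c)) = 1 := by
        rw [← QuotientGroup.mk_pow, pow_orderOf_eq_one]; rfl
      rw [QuotientGroup.mk_mul, (QuotientGroup.eq_one_iff _).2 hu, one_mul, ← QuotientGroup.mk_pow] at h1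
      exact (QuotientGroup.eq_one_iff _).1 h1
    have hcN : c ∈ N := hNtop ▸ Subgroup.mem_top c
    obtain ⟨u, hu, r, hr, hur⟩ := (hmemN c).1 hcN
    have huC : u ∈ C := by
      have : u = c * r⁻¹ := by rw [← hur]; group
      rw [this]; exact mul_mem hc (inv_mem (hRC hr))
    have hcR : c ∈ R := by rw [← hur]; exact mul_mem (hOR u hu huC) hr
    obtain ⟨⟨c', hc'⟩, h1, h2⟩ := hcR
    have h3 : c' = c := h2
    subst h3
    exact h1
  · intro hCt
    rw [eq_top_iff]
    intro g _
    obtain ⟨u, hu, c, hc, rfl⟩ := decomp z hz g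
    apply mul_mem
    · apply odd_mem
      have h1 := CfsgH2.coprime_card_pPrimeCore (G := G) 2
      have h2 : orderOf u ∣ Nat.card (Cfsg.pPrimeCore 2 G) := by
        have := orderOf_dvd_natCard (⟨u, hu⟩ : Cfsg.pPrimeCore 2 G)
        rwa [Subgroup.orderOf_mk] at this
      exact Nat.coprime_two_right.mp (Nat.Coprime.coprime_dvd_left h2 h1)
    · have h1 : (⟨c, hc⟩ : C) ∈ Cfsg.pResidual 2 C := by rw [hCt]; trivial
      have h2 : (Cfsg.pResidual 2 C).map C.subtype ≤ Cfsg.pResidual 2 G := by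
        unfold Cfsg.pResidual
        rw [MonoidHom.map_closure, Subgroup.closure_le]
        rintro _ ⟨x, hx, rfl⟩
        apply Subgroup.subset_closure
        show Nat.Coprime (orderOf ((x : G))) 2
        rw [Subgroup.orderOf_coe]; exact hx
      exact h2 ⟨_, h1, rfl⟩

end Cfsg.Agent.S1183
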