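import Mathlib
import Cfsg.Agent.H3.Iso
import Cfsg.Statements.S1184

set_option autoImplicit false
open Cfsg

namespace Cfsg.Agent.S1184

/-- Let z be an isolated involution of the finite group G. If s and t are distinct conjugates of z, then st does not commute with z. -/
theorem result {G : Type*} [Group G] [Finite G] (z : G) (hz : Cfsg.IsIsolatedInvolution z) (g h : G) (hne : g * z * g⁻¹ ≠ h * z * h⁻¹) : ¬ Commute (g * z * g⁻¹ * (h * z * h⁻¹)) z := by
  intro hc
  have hz2 : z * z = 1 := CfsgH3.sq_of_iso hz.1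
  have hs2 := CfsgH3.conj_sq hz2 g
  have ht2 := CfsgH3.conj_sq hz2 h
  -- k inverted by s and by z
  obtain ⟨u, hu, huz⟩ := CfsgH3.iso_conj_mem hz g
  set s := g * z * g⁻¹ with hs
  set t := h * z * h⁻¹ with ht
  have hsi : s⁻¹ = s := inv_eq_of_mul_eq_one_right hs2
  have hzi : z⁻¹ = z := inv_eq_of_mul_eq_one_right hz2
  set k := s * t with hk
  have hks : s * k * s⁻¹ = k⁻¹ := CfsgH3.xy_conj hs2 ht2
  -- order of k is odd
  have hko : Odd (orderOf k) := by
    have h1 := CfsgH3.iso_odd hz (g⁻¹ * h)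
    have h2 : g * (z * (g⁻¹ * h * z * (g⁻¹ * h)⁻¹)) * g⁻¹ = k := by rw [hk, hs, ht]; group
    have h3 : orderOf (g * (z * (g⁻¹ * h * z * (g⁻¹ * h)⁻¹)) * g⁻¹) = orderOf (z * (g⁻¹ * h * z * (g⁻¹ * h)⁻¹)) := by
      have := MulEquiv.orderOf_eq (MulAut.conj g) (z * (g⁻¹ * h * z * (g⁻¹ * h)⁻¹))
      simpa using this
    rw [← h2, h3]; exact h1
  -- w = z * s inverts k, has odd order
  have hw : (z * s) * k * (z * s)⁻¹ = k⁻¹ := by
    have h1 : z * k⁻¹ * z⁻¹ = k⁻¹ := by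
      have := hc.inv_left.eq
      rw [this.symm]; group
    calc (z * s) * k * (z * s)⁻¹ = z * (s * k * s⁻¹) * z⁻¹ := by group
      _ = k⁻¹ := by rw [hks, h1]
  have hwo : Odd (orderOf (z * s)) := CfsgH3.iso_odd hz g
  obtain ⟨m, hm⟩ := hwo
  have hpow : ∀ n : ℕ, (z * s) ^ (2 * n) * k * ((z * s) ^ (2 * n))⁻¹ = k := by
    generalize z * s = w at hw
    intro n
    induction n with
    | zero => simp
    | succ n ih =>
      have h1 : w * k⁻¹ * w⁻¹ = k := by
        have h2 : w * k⁻¹ * w⁻¹ = (w * k * w⁻¹)⁻¹ := by group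
        rw [h2, hw, inv_inv]
      calc w ^ (2 * (n + 1)) * k * (w ^ (2 * (n + 1)))⁻¹ 
          = w * (w * (w ^ (2 * n) * k * (w ^ (2 * n))⁻¹) * w⁻¹) * w⁻¹ := by
            rw [show 2 * (n + 1) = 1 + 1 + 2 * n by ring, pow_add, pow_add, pow_one]; group
        _ = k := by rw [ih, hw, h1]
  have h5 : k = k⁻¹ := by
    have h6 := hpow m
    have h7 : (z * s) ^ (2 * m) = (z * s)⁻¹ := by
      rw [eq_inv_iff_mul_eq_one, ← pow_succ, ← hm, pow_orderOf_eq_one]
    rw [h7, inv_inv] at h6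
    calc k = (z * s) * ((z * s)⁻¹ * k * (z * s)) * (z * s)⁻¹ := by group
      _ = (z * s) * k * (z * s)⁻¹ := by rw [h6]
      _ = k⁻¹ := hw
  have h8 : k ^ 2 = 1 := by rw [pow_two]; nth_rw 2 [h5]; group
  have h9 : orderOf k ∣ 2 := orderOf_dvd_of_pow_eq_one h8
  have h10 : orderOf k = 1 := by
    rcases (Nat.dvd_prime Nat.prime_two).1 h9 with h | h
    · exact h
    · rw [h] at hko; exact absurd hko (by decide)
  rw [orderOf_eq_one_iff] at h10
  apply hne
  have h11 : s * t = 1 := h10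
  rw [mul_eq_one_iff_eq_inv] at h11
  rw [h11]
  exact inv_eq_of_mul_eq_one_right ht2

end Cfsg.Agent.S1184
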