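import Mathlib
import Cfsg.Agent.H3.Iso
import Cfsg.Statements.S1185

set_option autoImplicit false
open Cfsg

namespace Cfsg.Agent.S1185

/-- Let z be an isolated involution of the finite group G with centralizer C. Then for every g ∈ G there is exactly one element k in the coset gC that has odd order and is inverted by z. -/
theorem result {G : Type*} [Group G] [Finite G] (z : G) (hz : Cfsg.IsIsolatedInvolution z) (g : G) : ∃! k : G, (Odd (orderOf k) ∧ z * k * z⁻¹ = k⁻¹) ∧ g⁻¹ * k ∈ Subgroup.centralizer ({z} : Set G) := by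
  have hz2 : z * z = 1 := CfsgH3.sq_of_iso hz.1
  have hzi : z⁻¹ = z := CfsgH3.iso_inv hz.1
  have hodd := CfsgH3.iso_odd hz g
  obtain ⟨u, hu, hz'⟩ := CfsgH3.iso_conj_mem hz g
  refine ⟨u, ⟨⟨?_, ?_⟩, ?_⟩, ?_⟩
  · have h1 := orderOf_dvd_of_mem_zpowers hu
    exact Odd.of_dvd_nat hodd h1
  · obtain ⟨k, rfl⟩ := hu
    have h1 := CfsgH3.xy_conj hz2 (CfsgH3.conj_sq hz2 g)
    have h2 : z * (z * (g * z * g⁻¹)) ^ k * z⁻¹ = (z * (z * (g * z * g⁻¹)) * z⁻¹) ^ k := by rw [conj_zpow]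
    show z * (z * (g * z * g⁻¹)) ^ k * z⁻¹ = ((z * (g * z * g⁻¹)) ^ k)⁻¹
    rw [h2, h1, inv_zpow]
  · rw [Subgroup.mem_centralizer_singleton_iff]
    calc g⁻¹ * u * z = g⁻¹ * (u * z * u⁻¹) * u := by group
      _ = z * (g⁻¹ * u) := by rw [hz']; group
  · rintro k ⟨⟨hk1, hk2⟩, hk3⟩
    have key : ∀ k : G, z * k * z⁻¹ = k⁻¹ → g⁻¹ * k ∈ Subgroup.centralizer ({z} : Set G) → k ^ 2 = g * z * g⁻¹ * z := by
      intro k h1 h2
      rw [Subgroup.mem_centralizer_singleton_iff] at h2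
      have h3 : k * z * k⁻¹ = g * z * g⁻¹ := by
        calc k * z * k⁻¹ = g * (g⁻¹ * k * z) * k⁻¹ := by group
          _ = g * (z * (g⁻¹ * k)) * k⁻¹ := by rw [h2]
          _ = _ := by group
      rw [← h3]
      have h4 : z * k⁻¹ * z⁻¹ = k := by
        have h5 : z * k⁻¹ * z⁻¹ = (z * k * z⁻¹)⁻¹ := by group
        rw [h5, h1, inv_inv]
      calc k ^ 2 = k * (z * k⁻¹ * z⁻¹) := by rw [h4, pow_two]
        _ = k * z * k⁻¹ * z := by rw [hzi]; group
    have hu1 : Odd (orderOf u) := Odd.of_dvd_nat hodd (orderOf_dvd_of_mem_zpowers hu)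
    have hu2 : z * u * z⁻¹ = u⁻¹ := by
      obtain ⟨k, rfl⟩ := hu
      have h1 := CfsgH3.xy_conj hz2 (CfsgH3.conj_sq hz2 g)
      have h2 : z * (z * (g * z * g⁻¹)) ^ k * z⁻¹ = (z * (z * (g * z * g⁻¹)) * z⁻¹) ^ k := by rw [conj_zpow]
      show z * (z * (g * z * g⁻¹)) ^ k * z⁻¹ = ((z * (g * z * g⁻¹)) ^ k)⁻¹
      rw [h2, h1, inv_zpow]
    have hu3 : g⁻¹ * u ∈ Subgroup.centralizer ({z} : Set G) := by
      rw [Subgroup.mem_centralizer_singleton_iff]
      calc g⁻¹ * u * z = g⁻¹ * (u * z * u⁻¹) * u := by group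
        _ = z * (g⁻¹ * u) := by rw [hz']; group
    have e1 := key k hk2 hk3
    have e2 := key u hu2 hu3
    have e3 : k ^ 2 = u ^ 2 := by rw [e1, e2]
    obtain ⟨m, hm⟩ := hk1.mul hu1
    have e4 : k ^ (orderOf k * orderOf u) = 1 := by rw [pow_mul, pow_orderOf_eq_one, one_pow]
    have e5 : u ^ (orderOf k * orderOf u) = 1 := by rw [mul_comm, pow_mul, pow_orderOf_eq_one, one_pow]
    rw [hm] at e4 e5
    have e6 : (k ^ 2) ^ (m + 1) = k := by
      rw [← pow_mul, show 2 * (m + 1) = (2 * m + 1) + 1 by ring, pow_succ, e4, one_mul]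
    have e7 : (u ^ 2) ^ (m + 1) = u := by
      rw [← pow_mul, show 2 * (m + 1) = (2 * m + 1) + 1 by ring, pow_succ, e5, one_mul]
    rw [← e6, e3, e7]

end Cfsg.Agent.S1185
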