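import Mathlib
import Cfsg.Agent.H3.Iso
import Cfsg.Agent.H2.Cores
import Cfsg.Statements.S1186

set_option autoImplicit false
open Cfsg

namespace Cfsg.Agent.S1186

/-- square root of an element of odd order -/
noncomputable def rt {G : Type*} [Group G] (x : G) : G := x ^ ((orderOf x + 1) / 2)

theorem rt_sq {G : Type*} [Group G] {x : G} (hx : Odd (orderOf x)) : rt x * rt x = x := by
  unfold rt
  obtain ⟨m, hm⟩ := hx
  rw [← pow_add, hm, show (2 * m + 1 + 1) / 2 = m + 1 by omega, show m + 1 + (m + 1) = (2 * m + 1) + 1 by ring, ← hm, pow_succ,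
    pow_orderOf_eq_one, one_mul]

theorem rt_conj {G : Type*} [Group G] (g x : G) : rt (g * x * g⁻¹) = g * rt x * g⁻¹ := by
  unfold rt
  have := MulEquiv.orderOf_eq (MulAut.conj g) x
  rw [MulAut.conj_apply] at this
  rw [this, conj_pow]

theorem rt_inv {G : Type*} [Group G] (x : G) : rt (x⁻¹) = (rt x)⁻¹ := by
  unfold rt
  rw [orderOf_inv, inv_pow]

theorem rt_uniq {G : Type*} [Group G] [Finite G] {x y : G} (hy : Odd (orderOf y)) (h : y * y = x) : y = rt x := by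
  have h1 : orderOf x = orderOf y := by
    rw [← h, ← pow_two, orderOf_pow, Nat.Coprime.gcd_eq_one (Nat.coprime_two_right.mpr hy), Nat.div_one]
  unfold rt
  rw [h1, ← h, ← pow_two]
  obtain ⟨m, hm⟩ := hy
  rw [hm, show (2 * m + 1 + 1) / 2 = m + 1 by omega, ← pow_mul, show 2 * (m + 1) = (2 * m + 1) + 1 by ring, ← hm, pow_succ,
    pow_orderOf_eq_one, one_mul]

theorem rt_mem {G : Type*} [Group G] {O : Subgroup G} {x : G} (hx : x ∈ O) : rt x ∈ O := pow_mem hx _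

theorem card_K {G : Type*} [Group G] [Finite G] (z s : G) (O : Subgroup G) [hOn : O.Normal] (hO : ∀ x ∈ O, Odd (orderOf x))
    (hK : ∀ k : G, Odd (orderOf k) → z * k * z⁻¹ = k⁻¹ → k ∈ O) (hs2 : s * s = 1) (hsz : s * z = z * s) :
    Nat.card {k : G // Odd (orderOf k) ∧ z * k * z⁻¹ = k⁻¹} = 
      Nat.card ({k : G // Odd (orderOf k) ∧ z * k * z⁻¹ = k⁻¹ ∧ Commute k (s * z)} × {k : G // Odd (orderOf k) ∧ z * k * z⁻¹ = k⁻¹ ∧ Commute k s}) := by
  symm
  -- facts on C_K(sz)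
  have hb : ∀ b : G, z * b * z⁻¹ = b⁻¹ → Commute b (s * z) → s * b * s⁻¹ = b⁻¹ := by
    intro b h1 h2
    have h3 : (s * z) * b * (s * z)⁻¹ = b := by rw [← h2.eq]; group
    have h4 : s * b⁻¹ * s⁻¹ = b := by
      rw [← h1]
      calc s * (z * b * z⁻¹) * s⁻¹ = (s * z) * b * (s * z)⁻¹ := by group
        _ = b := h3
    calc s * b * s⁻¹ = (s * b⁻¹ * s⁻¹)⁻¹ := by group
      _ = b⁻¹ := by rw [h4]
  have ha : ∀ a : G, Commute a s → s * a * s⁻¹ = a := by
    intro a h1; rw [← h1.eq]; group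
  have hsO : ∀ x ∈ O, s * x * s⁻¹ ∈ O := fun x hx => hOn.conj_mem _ hx _
  have hsi : s⁻¹ = s := inv_eq_of_mul_eq_one_right hs2
  refine Nat.card_congr (Equiv.ofBijective (fun p => ⟨p.2.1 * p.1.1 * p.2.1, ?_, ?_⟩) ⟨?_, ?_⟩)
  · obtain ⟨⟨b, hb1, hb2, hb3⟩, ⟨a, ha1, ha2, ha3⟩⟩ := p
    exact hO _ (mul_mem (mul_mem (hK a ha1 ha2) (hK b hb1 hb2)) (hK a ha1 ha2))
  · obtain ⟨⟨b, hb1, hb2, hb3⟩, ⟨a, ha1, ha2, ha3⟩⟩ := p
    show z * (a * b * a) * z⁻¹ = (a * b * a)⁻¹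
    calc z * (a * b * a) * z⁻¹ = (z * a * z⁻¹) * (z * b * z⁻¹) * (z * a * z⁻¹) := by group
      _ = (a * b * a)⁻¹ := by rw [ha2, hb2]; group
  · rintro ⟨⟨b, hb1, hb2, hb3⟩, ⟨a, ha1, ha2, ha3⟩⟩ ⟨⟨b', hb1', hb2', hb3'⟩, ⟨a', ha1', ha2', ha3'⟩⟩ h
    have h1 : a * b * a = a' * b' * a' := congrArg Subtype.val h
    have key : ∀ a b : G, Odd (orderOf a) → z * a * z⁻¹ = a⁻¹ → Commute a s → Odd (orderOf b) → z * b * z⁻¹ = b⁻¹ → Commute b (s * z) → 
        a = rt (rt ((a * b * a) * (s * (a * b * a) * s⁻¹)⁻¹) * (s * (a * b * a) * s⁻¹)) := by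
      intro a b ha1 ha2 ha3 hb1 hb2 hb3
      have haO := hK a ha1 ha2
      have hbO := hK b hb1 hb2
      have e1 : s * (a * b * a) * s⁻¹ = a * b⁻¹ * a := by
        calc s * (a * b * a) * s⁻¹ = (s * a * s⁻¹) * (s * b * s⁻¹) * (s * a * s⁻¹) := by group
          _ = _ := by rw [ha a ha3, hb b hb2 hb3]
      rw [e1]
      have e2 : a * a * (a * b⁻¹ * a)⁻¹ = rt ((a * b * a) * (a * b⁻¹ * a)⁻¹) := by
        apply rt_uniq
        · exact hO _ (mul_mem (mul_mem haO haO) (inv_mem (mul_mem (mul_mem haO (inv_mem hbO)) haO)))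
        · group
      rw [← e2]
      apply rt_uniq ha1
      group
    have e3 := key a b ha1 ha2 ha3 hb1 hb2 hb3
    have e4 := key a' b' ha1' ha2' ha3' hb1' hb2' hb3'
    rw [h1, ← e4] at e3
    subst e3
    have e5 : b = b' := by
      have := mul_right_cancel h1
      exact mul_left_cancel this
    subst e5
    rfl
  · rintro ⟨k, hk1, hk2⟩
    have hkO := hK k hk1 hk2
    set k' := s * k * s⁻¹ with hk'
    have hk'O : k' ∈ O := hsO k hkO
    have hzk' : z * k' * z⁻¹ = k'⁻¹ := by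
      have hz' : z * s = s * z := hsz.symm
      calc z * (s * k * s⁻¹) * z⁻¹ = (z * s) * k * (z * s)⁻¹ := by group
        _ = (s * z) * k * (s * z)⁻¹ := by rw [hz']
        _ = s * (z * k * z⁻¹) * s⁻¹ := by group
        _ = (s * k * s⁻¹)⁻¹ := by rw [hk2]; group
    have hsk' : s * k' * s⁻¹ = k := by
      rw [hk']
      calc s * (s * k * s⁻¹) * s⁻¹ = (s * s) * k * (s * s)⁻¹ := by group
        _ = k := by rw [hs2]; group
    have hkkO : k * k'⁻¹ ∈ O := mul_mem hkO (inv_mem hk'O)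
    set r := rt (k * k'⁻¹) with hr
    have hrO : r ∈ O := rt_mem hkkO
    have hr2 : r * r = k * k'⁻¹ := rt_sq (hO _ hkkO)
    set A := r * k' with hA
    have hAO : A ∈ O := mul_mem hrO hk'O
    have hAk : A * k'⁻¹ * A = k := by
      rw [hA]
      calc r * k' * k'⁻¹ * (r * k') = (r * r) * k' := by group
        _ = k := by rw [hr2]; group
    have hsr : s * r * s⁻¹ = r⁻¹ := by
      rw [hr, ← rt_conj, ← rt_inv]
      congr 1
      calc s * (k * k'⁻¹) * s⁻¹ = (s * k * s⁻¹) * (s * k' * s⁻¹)⁻¹ := by group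
        _ = k' * k⁻¹ := by rw [hsk']
        _ = (k * k'⁻¹)⁻¹ := by group
    have hzr : z * r * z⁻¹ = k'⁻¹ * r⁻¹ * k' := by
      have e1 : k'⁻¹ * r⁻¹ * k' = k'⁻¹ * r⁻¹ * k'⁻¹⁻¹ := by group
      rw [e1, hr, ← rt_conj, ← rt_inv, ← rt_conj]
      congr 1
      calc z * (k * k'⁻¹) * z⁻¹ = (z * k * z⁻¹) * (z * k' * z⁻¹)⁻¹ := by group
        _ = k⁻¹ * k' := by rw [hzk', hk2]; group
        _ = _ := by group
    have hsA : s * A * s⁻¹ = A := by
      calc s * (r * k') * s⁻¹ = (s * r * s⁻¹) * (s * k' * s⁻¹) := by group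
        _ = r⁻¹ * k := by rw [hsr, hsk']
        _ = r⁻¹ * (r * r * k') := by rw [hr2]; group
        _ = r * k' := by group
    have hzA : z * A * z⁻¹ = A⁻¹ := by
      calc z * (r * k') * z⁻¹ = (z * r * z⁻¹) * (z * k' * z⁻¹) := by group
        _ = (r * k')⁻¹ := by rw [hzr, hzk']; group
    set a := rt A with ha'
    have haO : a ∈ O := rt_mem hAO
    have ha2 : a * a = A := rt_sq (hO _ hAO)
    have hsa : s * a * s⁻¹ = a := by rw [ha', ← rt_conj, hsA]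
    have hza : z * a * z⁻¹ = a⁻¹ := by rw [ha', ← rt_conj, hzA, rt_inv]
    set b := a⁻¹ * k * a⁻¹ with hb'
    have hbO : b ∈ O := mul_mem (mul_mem (inv_mem haO) hkO) (inv_mem haO)
    have hzb : z * b * z⁻¹ = b⁻¹ := by
      calc z * (a⁻¹ * k * a⁻¹) * z⁻¹ = (z * a * z⁻¹)⁻¹ * (z * k * z⁻¹) * (z * a * z⁻¹)⁻¹ := by group
        _ = (a⁻¹ * k * a⁻¹)⁻¹ := by rw [hza, hk2]; group
    have hsb : s * b * s⁻¹ = b⁻¹ := by
      have e1 : k' = A * k⁻¹ * A := by
        have e2 : A * k⁻¹ * A = A * (A * k'⁻¹ * A)⁻¹ * A := by rw [hAk]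
        rw [e2]; group
      calc s * (a⁻¹ * k * a⁻¹) * s⁻¹ = (s * a * s⁻¹)⁻¹ * (s * k * s⁻¹) * (s * a * s⁻¹)⁻¹ := by group
        _ = a⁻¹ * k' * a⁻¹ := by rw [hsa]
        _ = a⁻¹ * (a * a * k⁻¹ * (a * a)) * a⁻¹ := by rw [e1, ha2]
        _ = (a⁻¹ * k * a⁻¹)⁻¹ := by group
    have hbc : Commute b (s * z) := by
      have e1 : (s * z) * b * (s * z)⁻¹ = b := by
        calc (s * z) * b * (s * z)⁻¹ = s * (z * b * z⁻¹) * s⁻¹ := by group
          _ = (s * b * s⁻¹)⁻¹ := by rw [hzb]; group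
          _ = b := by rw [hsb, inv_inv]
      have e2 : b * (s * z) = (s * z) * b := by
        calc b * (s * z) = ((s * z) * b * (s * z)⁻¹) * (s * z) := by rw [e1]
          _ = _ := by group
      exact e2
    have hac : Commute a s := by
      have e2 : a * s = s * a := by
        calc a * s = (s * a * s⁻¹) * s := by rw [hsa]
          _ = _ := by group
      exact e2
    refine ⟨⟨⟨b, hO _ hbO, hzb, hbc⟩, ⟨a, hO _ haO, hza, hac⟩⟩, ?_⟩
    apply Subtype.ext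
    show a * b * a = k
    rw [hb']; group

/-- Let z be an isolated involution of the finite group G, C = C_G(z), K the set of elements of odd order inverted by z, and s an involution of C. Then |G| = |C| · |C_K(sz)| · |C_K(s)|. -/
theorem result {G : Type*} [Group G] [Finite G] (z : G) (hz : Cfsg.IsIsolatedInvolution z) (s : G) (hs : orderOf s = 2) (hsz : Commute s z) : Nat.card G = Nat.card (Subgroup.centralizer ({z} : Set G)) * Nat.card {k : G // Odd (orderOf k) ∧ z * k * z⁻¹ = k⁻¹ ∧ Commute k (s * z)} * Nat.card {k : G // Odd (orderOf k) ∧ z * k * z⁻¹ = k⁻¹ ∧ Commute k s} := by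
  have hz2 : z * z = 1 := CfsgH3.sq_of_iso hz.1
  have hzi : z⁻¹ = z := CfsgH3.iso_inv hz.1
  have hs2 : s * s = 1 := CfsgH3.sq_of_iso hs
  have hOodd : ∀ x ∈ Cfsg.pPrimeCore 2 G, Odd (orderOf x) := by
    intro x hx
    have h1 := CfsgH2.coprime_card_pPrimeCore (G := G) 2
    have h2 : orderOf x ∣ Nat.card (Cfsg.pPrimeCore 2 G) := by
      have := orderOf_dvd_natCard (⟨x, hx⟩ : Cfsg.pPrimeCore 2 G)
      rwa [Subgroup.orderOf_mk] at this
    exact Nat.coprime_two_right.mp (Nat.Coprime.coprime_dvd_left h2 h1)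
  have hK : ∀ k : G, Odd (orderOf k) → z * k * z⁻¹ = k⁻¹ → k ∈ Cfsg.pPrimeCore 2 G := by
    intro k hk1 hk2
    have h1 := CfsgH3.iso_zstar hz k
    rw [hk2] at h1
    have h2 : k * k ∈ Cfsg.pPrimeCore 2 G := by
      have := inv_mem h1
      simpa using this
    rw [← rt_sq hk1]
    have h3 : rt k * rt k = rt (k * k) := by
      rw [← rt_uniq hk1 rfl, rt_sq hk1]
    rw [h3]
    exact rt_mem h2
  have h1 := card_K z s (Cfsg.pPrimeCore 2 G) hOodd hK hs2 hsz.eq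
  rw [mul_assoc, ← Nat.card_prod, ← h1]
  rw [Subgroup.card_eq_card_quotient_mul_card_subgroup (Subgroup.centralizer ({z} : Set G)), mul_comm]
  congr 1
  symm
  have hex : ∀ g : G, ∃! k : G, (Odd (orderOf k) ∧ z * k * z⁻¹ = k⁻¹) ∧ g⁻¹ * k ∈ Subgroup.centralizer ({z} : Set G) := by
    intro g
    have hodd := CfsgH3.iso_odd hz g
    obtain ⟨u, hu, hz'⟩ := CfsgH3.iso_conj_mem hz g
    refine ⟨u, ⟨⟨?_, ?_⟩, ?_⟩, ?_⟩
    · have h1 := orderOf_dvd_of_mem_zpowers hu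
      exact Odd.of_dvd_nat hodd h1
    · obtain ⟨k, rfl⟩ := hu
      have h1 := CfsgH3.xy_conj hz2 (CfsgH3.conj_sq hz2 g)
      have h2 : z * (z * (g * z * g⁻¹)) ^ k * z⁻¹ = (z * (z * (g * z * g⁻¹)) * z⁻¹) ^ k := by rw [conj_zpow]
      show z * (z * (g * z * g⁻¹)) ^ k * z⁻¹ = ((z * (g * z * g⁻¹)) ^ k)⁻¹
      rw [h2, h1, inv_zpow]
    · rw [Subgroup.mem_centralizer_singleton_iff]
      calc g⁻¹ * u * z = g⁻¹ * (u * z * u⁻¹) * u := by group
        _ = z * (g⁻¹ * u) := by rw [hz']; group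
    · rintro k ⟨⟨hk1, hk2⟩, hk3⟩
      have key : ∀ k : G, z * k * z⁻¹ = k⁻¹ → g⁻¹ * k ∈ Subgroup.centralizer ({z} : Set G) → k * k = g * z * g⁻¹ * z := by
        intro k h1 h2
        rw [Subgroup.mem_centralizer_singleton_iff] at h2
        have h3 : k * z * k⁻¹ = g * z * g⁻¹ := by
          calc k * z * k⁻¹ = g * (g⁻¹ * k * z) * k⁻¹ := by group
            _ = g * (z * (g⁻¹ * k)) * k⁻¹ := by rw [h2]
            _ = _ := by group
        rw [← h3]
        have h4 : z * k⁻¹ * z⁻¹ = k := by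
          have h5 : z * k⁻¹ * z⁻¹ = (z * k * z⁻¹)⁻¹ := by group
          rw [h5, h1, inv_inv]
        calc k * k = k * (z * k⁻¹ * z⁻¹) := by rw [h4]
          _ = k * z * k⁻¹ * z := by rw [hzi]; group
      have hu1 : Odd (orderOf u) := Odd.of_dvd_nat hodd (orderOf_dvd_of_mem_zpowers hu)
      have hu2 : z * u * z⁻¹ = u⁻¹ := by
        obtain ⟨k, rfl⟩ := hu
        have h1 := CfsgH3.xy_conj hz2 (CfsgH3.conj_sq hz2 g)
        have h2 : z * (z * (g * z * g⁻¹)) ^ k * z⁻¹ = (z * (z * (g * z * g⁻¹)) * z⁻¹) ^ k := by rw [conj_zpow]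
        show z * (z * (g * z * g⁻¹)) ^ k * z⁻¹ = ((z * (g * z * g⁻¹)) ^ k)⁻¹
        rw [h2, h1, inv_zpow]
      have hu3 : g⁻¹ * u ∈ Subgroup.centralizer ({z} : Set G) := by
        rw [Subgroup.mem_centralizer_singleton_iff]
        calc g⁻¹ * u * z = g⁻¹ * (u * z * u⁻¹) * u := by group
          _ = z * (g⁻¹ * u) := by rw [hz']; group
      have e1 := key k hk2 hk3
      have e2 := key u hu2 hu3
      rw [rt_uniq hk1 (e1.trans e2.symm), ← rt_uniq hu1 rfl]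
  refine Nat.card_congr (Equiv.ofBijective (fun k : {k : G // Odd (orderOf k) ∧ z * k * z⁻¹ = k⁻¹} => (QuotientGroup.mk k.1 : G ⧸ Subgroup.centralizer ({z} : Set G))) ⟨?_, ?_⟩)
  · rintro ⟨k, hk⟩ ⟨k', hk'⟩ h
    apply Subtype.ext
    have h2 : k⁻¹ * k' ∈ Subgroup.centralizer ({z} : Set G) := QuotientGroup.eq.1 h
    obtain ⟨u, -, hu⟩ := hex k
    have h3 := hu k ⟨hk, by simp⟩
    have h4 := hu k' ⟨hk', h2⟩
    show k = k'
    rw [h3, h4]
  · intro x
    obtain ⟨g, rfl⟩ := QuotientGroup.mk_surjective x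
    obtain ⟨u, ⟨hu1, hu2⟩, -⟩ := hex g
    exact ⟨⟨u, hu1⟩, (QuotientGroup.eq.2 hu2).symm⟩

end Cfsg.Agent.S1186
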