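import Mathlib
import Cfsg.Agent.H3.Iso
import Cfsg.Agent.H2.Cores
import Cfsg.Agent.H1.Syl
import Cfsg.Agent.H1.Fit
import Cfsg.Statements.S1187

set_option autoImplicit false
open Cfsg

namespace Cfsg.Agent.S1187

open Cfsg CfsgH1 in
theorem inv_sylow {G : Type*} [Group G] [Finite G] {z : G} (hz : IsIsolatedInvolution z) {p : ℕ} [hp : Fact p.Prime] (hp2 : p ≠ 2) :
    ∃ P : Subgroup G, IsSylowOf p P ⊤ ∧ z ∈ Subgroup.normalizer (P : Set G) := by
  set O := pPrimeCore 2 G with hO
  set C := Subgroup.centralizer ({z} : Set G) with hC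
  have hzC : z ∈ C := by rw [hC, Subgroup.mem_centralizer_singleton_iff]
  obtain ⟨P0, hP0⟩ := exists_isSylowOf p C
  set A := Subgroup.zpowers z with hA
  set H := O ⊔ P0 with hH
  have hAH : A ≤ Subgroup.normalizer (H : Set G) := by
    rw [hA, Subgroup.zpowers_le]
    rw [Subgroup.mem_normalizer_iff]
    have hc : ∀ x ∈ P0, z * x * z⁻¹ = x := by
      intro x hx
      have := isSylowOf_le hP0 hx
      rw [Subgroup.mem_centralizer_singleton_iff] at this
      rw [← this]; group
    have hmem : ∀ w, (∀ x ∈ P0, w * x * w⁻¹ = x) → ∀ h ∈ H, w * h * w⁻¹ ∈ H := by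
      intro w hw h hh
      rw [hH, Subgroup.mem_sup_of_normal_left] at hh
      obtain ⟨u, hu, x, hx, rfl⟩ := hh
      have : w * (u * x) * w⁻¹ = (w * u * w⁻¹) * (w * x * w⁻¹) := by group
      rw [this, hw x hx]
      exact mul_mem (Subgroup.mem_sup_left ((inferInstance : O.Normal).conj_mem _ hu _)) (Subgroup.mem_sup_right hx)
    intro h
    constructor
    · exact hmem z hc h
    · intro hh
      have h1 := hmem z⁻¹ (by
        intro x hx
        have := hc x hx
        calc z⁻¹ * x * z⁻¹⁻¹ = z⁻¹ * (z * x * z⁻¹) * z := by rw [this, inv_inv]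
          _ = x := by group) _ hh
      have : z⁻¹ * (z * h * z⁻¹) * z⁻¹⁻¹ = h := by group
      rwa [this] at h1
  have hcardA : Nat.card A = 2 := by rw [hA, Nat.card_zpowers, hz.1]
  have hPp : IsPGroup p P0 := isSylowOf_isPGroup hP0
  have hHodd : (Nat.card A).Coprime (Nat.card H) := by
    rw [hcardA]
    have h1 : Nat.card H ∣ Nat.card O * Nat.card P0 := by
      have h3 := card_sup_mul_card_inf (H := P0) (K := O) (by rw [Subgroup.normalizer_eq_top]; exact le_top)
      rw [hH, sup_comm, mul_comm (Nat.card O), ← h3]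
      exact Dvd.intro _ rfl
    have h2 : (Nat.card O * Nat.card P0).Coprime 2 := by
      apply Nat.Coprime.mul_left (CfsgH2.coprime_card_pPrimeCore 2)
      obtain ⟨n, hn⟩ := hPp.exists_card_eq
      rw [hn]
      exact Nat.Coprime.pow_left _ ((Nat.coprime_primes hp.out Nat.prime_two).2 hp2)
    exact (Nat.Coprime.coprime_dvd_left h1 h2).symm
  obtain ⟨⟨P, hP, hzP⟩, -⟩ := coprime_sylow hAH hHodd (Or.inl (by infer_instance)) p
  refine ⟨P, ?_, hzP (Subgroup.mem_zpowers z)⟩
  rw [isSylowOf_iff] at hP ⊢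
  refine ⟨le_top, hP.2.1, ?_⟩
  rw [← Subgroup.relIndex_mul_relIndex P H ⊤ hP.1 le_top, hp.out.dvd_mul, not_or]
  refine ⟨hP.2.2, ?_⟩
  rw [Subgroup.relIndex_top_right]
  have hCmap : C.map (QuotientGroup.mk' O) = ⊤ := by
    rw [eq_top_iff]
    intro x _
    obtain ⟨g, rfl⟩ := QuotientGroup.mk_surjective x
    obtain ⟨u, hu, h⟩ := CfsgH3.iso_conj_mem hz g
    refine ⟨u⁻¹ * g, ?_, ?_⟩
    · rw [SetLike.mem_coe, Subgroup.mem_centralizer_singleton_iff]
      have h3 : u⁻¹ * (g * z * g⁻¹) * u = z := by rw [← h]; group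
      calc u⁻¹ * g * z = (u⁻¹ * (g * z * g⁻¹) * u) * (u⁻¹ * g) := by group
        _ = z * (u⁻¹ * g) := by rw [h3]
    · have huO : u ∈ O := by
        have : Subgroup.zpowers (z * (g * z * g⁻¹)) ≤ O := by
          rw [Subgroup.zpowers_le]
          exact CfsgH5.zstar_odd (CfsgH3.iso_oddC hz) g
        exact this hu
      show (QuotientGroup.mk (u⁻¹ * g) : G ⧸ O) = QuotientGroup.mk g
      rw [QuotientGroup.mk_mul, (QuotientGroup.eq_one_iff _).2 (inv_mem huO), one_mul]
  have h1 := isSylowOf_map (QuotientGroup.mk' O) hP0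
  rw [hCmap, isSylowOf_iff, Subgroup.relIndex_top_right] at h1
  have h2 : (P0.map (QuotientGroup.mk' O)).comap (QuotientGroup.mk' O) = H := by
    rw [Subgroup.comap_map_eq, QuotientGroup.ker_mk', sup_comm]
  rw [← h2, Subgroup.index_comap_of_surjective _ (QuotientGroup.mk'_surjective O)]
  exact h1.2.2

/-- Let z be an isolated involution of the finite group G and p a prime. If Q is a p-subgroup normalized by z that is maximal among p-subgroups normalized by z, then Q is a Sylow p-subgroup of G. -/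
theorem result {G : Type*} [Group G] [Finite G] (z : G) (hz : Cfsg.IsIsolatedInvolution z) {p : ℕ} [Fact p.Prime] (Q : Subgroup G) (hQ : IsPGroup p Q) (hzQ : z ∈ Subgroup.normalizer (Q : Set G)) (hmax : ∀ R : Subgroup G, IsPGroup p R → z ∈ Subgroup.normalizer (R : Set G) → Q ≤ R → R = Q) : ∃ P : Sylow p G, (P : Subgroup G) = Q := by
  have hz2 : z * z = 1 := CfsgH3.sq_of_iso hz.1
  by_cases hp2 : p = 2
  · subst hp2
    have hzp : IsPGroup 2 (Subgroup.zpowers z) := by
      rw [IsPGroup.iff_card]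
      exact ⟨1, by rw [Nat.card_zpowers, hz.1, pow_one]⟩
    have h1 : IsPGroup 2 (Q ⊔ Subgroup.zpowers z : Subgroup G) := 
      CfsgH1.isPGroup_sup hQ hzp (by rwa [Subgroup.zpowers_le])
    have h2 : z ∈ Q := by
      have h3 := hmax _ h1 (Subgroup.le_normalizer (Subgroup.mem_sup_right (Subgroup.mem_zpowers z))) le_sup_left
      rw [← h3]; exact Subgroup.mem_sup_right (Subgroup.mem_zpowers z)
    obtain ⟨S, hS⟩ := hQ.exists_le_sylow
    exact ⟨S, hmax S S.isPGroup' (Subgroup.le_normalizer (hS h2)) hS⟩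
  · rw [← CfsgH1.isSylowOf_top_iff]
    apply CfsgH1.isSylowOf_of_normalizer le_top hQ
    rw [top_inf_eq]
    set N := Subgroup.normalizer (Q : Set G) with hN
    have hzN : Cfsg.IsIsolatedInvolution (⟨z, hzQ⟩ : N) := by
      refine ⟨by rw [Subgroup.orderOf_mk]; exact hz.1, ?_⟩
      rintro ⟨g, hg⟩ hc
      apply Subtype.ext
      apply hz.2 g
      have := congrArg Subtype.val hc.eq
      exact this
    obtain ⟨P, hP, hzP⟩ := inv_sylow hzN hp2
    have h1 := CfsgH1.isSylowOf_top_iff.1 hP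
    obtain ⟨T, hT⟩ := h1
    have hTQ : (T : Subgroup N).map N.subtype = Q := by
      apply hmax
      · exact T.isPGroup'.map _
      · rw [Subgroup.mem_normalizer_iff] at hzP ⊢
        intro x
        rw [hT]
        constructor
        · rintro ⟨y, hy, rfl⟩
          exact ⟨_, (hzP y).1 hy, rfl⟩
        · rintro ⟨y, hy, hyx⟩
          have hx : x ∈ N := by
            have h2 : z * x * z⁻¹ ∈ N := by rw [← hyx]; exact y.2
            have h3 : x = z⁻¹ * (z * x * z⁻¹) * z := by group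
            rw [h3]; exact mul_mem (mul_mem (inv_mem hzQ) h2) hzQ
          refine ⟨⟨x, hx⟩, (hzP ⟨x, hx⟩).2 ?_, rfl⟩
          have h4 : (⟨z, hzQ⟩ : N) * ⟨x, hx⟩ * (⟨z, hzQ⟩ : N)⁻¹ = y := Subtype.ext hyx.symm
          rw [h4]; exact hy
      · have h2 : (Q.subgroupOf N) ≤ (T : Subgroup N) := by
          have h3 : IsPGroup p (Q.subgroupOf N) := hQ.comap_subtype
          have h4 : (Q.subgroupOf N).Normal := Subgroup.normal_in_normalizer
          exact (CfsgH2.le_pCore h4 h3).trans (CfsgH1.pCore_le_sylow T)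
        intro x hx
        exact ⟨⟨x, Subgroup.le_normalizer hx⟩, h2 (by rw [Subgroup.mem_subgroupOf]; exact hx), rfl⟩
    exact ⟨T, hTQ⟩

end Cfsg.Agent.S1187
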