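import Mathlib
import Cfsg.Agent.H3.StrEmb
import Cfsg.Statements.S1224

set_option autoImplicit false
open Cfsg

namespace Cfsg.Agent.S1224

/-- Let H be a strongly embedded subgroup of the finite group G and x ≠ y two cosets in G/H. Then the number of involutions i of G with i • x = y equals the number of involutions lying in H. -/
theorem result {G : Type*} [Group G] [Finite G] (H : Subgroup G) (hH : Cfsg.IsStronglyEmbedded H) (x y : G ⧸ H) (hxy : x ≠ y) : Nat.card {i : G // orderOf i = 2 ∧ i • x = y} = Nat.card {t : G // orderOf t = 2 ∧ t ∈ H} := by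
  obtain ⟨g, rfl⟩ := QuotientGroup.mk_surjective x
  rw [← CfsgH3.SE.card_coset hH (g⁻¹ • y)]
  apply Nat.card_congr
  refine ⟨fun i => ⟨g⁻¹ * i * g, ?_, ?_⟩, fun t => ⟨g * t * g⁻¹, by rw [CfsgH3.orderOf_conj, t.2.1], ?_⟩, fun t => ?_, fun t => ?_⟩
  · have := CfsgH3.orderOf_conj g⁻¹ (i : G)
    rw [inv_inv] at this
    rw [this, i.2.1]
  · have h1 := i.2.2
    have h2 : (QuotientGroup.mk (g⁻¹ * (i : G) * g) : G ⧸ H) = g⁻¹ • ((i : G) • (QuotientGroup.mk g : G ⧸ H)) := by
      show (QuotientGroup.mk (g⁻¹ * (i : G) * g) : G ⧸ H) = QuotientGroup.mk (g⁻¹ * ((i : G) * g))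
      rw [mul_assoc]
    exact h2.trans (congrArg (fun z => g⁻¹ • z) h1)
  · have h1 := t.2.2
    have h2 : (g * (t : G) * g⁻¹) • (QuotientGroup.mk g : G ⧸ H) = g • (QuotientGroup.mk (t : G) : G ⧸ H) := by
      show (QuotientGroup.mk (g * (t : G) * g⁻¹ * g) : G ⧸ H) = QuotientGroup.mk (g * (t : G))
      rw [inv_mul_cancel_right]
    rw [h2, h1, smul_inv_smul]
  · apply Subtype.ext; show g * (g⁻¹ * (t : G) * g) * g⁻¹ = t; group
  · apply Subtype.ext; show g⁻¹ * (g * (t : G) * g⁻¹) * g = t; group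

end Cfsg.Agent.S1224
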