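import Mathlib
import Cfsg.Agent.H3.ElemCent2
import Cfsg.Statements.S1227

set_option autoImplicit false
open Cfsg

namespace Cfsg.Agent.S1227

/-- Let G be a finite group with a Sylow 2-subgroup T that is neither cyclic nor normal, such that the centralizer of every involution is an elementary abelian 2-group; put H = N_G(T), let u be an involution outside H and D = H ∩ uHu⁻¹. Then u inverts every element of D, |H| = |T|·(|T| − 1), and D is a complement to T in H. -/
theorem result {G : Type*} [Group G] [Finite G] (T : Sylow 2 G) (hnc : ¬ IsCyclic (T : Subgroup G)) (hnn : ¬ (T : Subgroup G).Normal) (hC : ∀ t : G, orderOf t = 2 → IsMulCommutative (Subgroup.centralizer ({t} : Set G)) ∧ ∀ c ∈ Subgroup.centralizer ({t} : Set G), c ^ 2 = 1) (u : G) (hu : orderOf u = 2) (huH : u ∉ Subgroup.normalizer ((T : Subgroup G) : Set G)) : (∀ d ∈ Subgroup.normalizer ((T : Subgroup G) : Set G) ⊓ (Subgroup.normalizer ((T : Subgroup G) : Set G)).map (MulAut.conj u).toMonoidHom, u * d * u⁻¹ = d⁻¹) ∧ Nat.card (Subgroup.normalizer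 ((T : Subgroup G) : Set G)) = Nat.card T * (Nat.card T - 1) ∧ Subgroup.IsComplement' ((Subgroup.normalizer ((T : Subgroup G) : Set G) ⊓ (Subgroup.normalizer ((T : Subgroup G) : Set G)).map (MulAut.conj u).toMonoidHom).subgroupOf (Subgroup.normalizer ((T : Subgroup G) : Set G))) ((T : Subgroup G).subgroupOf (Subgroup.normalizer ((T : Subgroup G) : Set G))) := by
  have h : CfsgH3.EC T := ⟨hnc, hnn, hC⟩
  have hcompl : Subgroup.IsComplement' ((h.D u).subgroupOf (Subgroup.normalizer ((T : Subgroup G) : Set G))) ((T : Subgroup G).subgroupOf (Subgroup.normalizer ((T : Subgroup G) : Set G))) := by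
    apply Subgroup.isComplement'_of_disjoint_and_mul_eq_univ
    · rw [disjoint_iff, eq_bot_iff]
      intro x hx
      obtain ⟨h1, h2⟩ := Subgroup.mem_inf.1 hx
      rw [Subgroup.mem_bot]
      exact Subtype.ext (h.eq_one_of_mem huH h1 h2)
    · rw [Set.eq_univ_iff_forall]
      intro x
      obtain ⟨d, hd, t, ht, hdt⟩ := h.exists_dt hu huH x.2
      exact Set.mem_mul.2 ⟨⟨d, (h.mem_D.1 hd).1⟩, hd, ⟨t, Subgroup.le_normalizer ht⟩, ht, Subtype.ext hdt.symm⟩
  refine ⟨h.D_inv hu huH, ?_, hcompl⟩
  have h1 := hcompl.card_mul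
  have h2 : Nat.card ((h.D u).subgroupOf (Subgroup.normalizer ((T : Subgroup G) : Set G))) = Nat.card T - 1 := by
    rw [← h.card_D hu huH]
    exact Nat.card_congr (Subgroup.subgroupOfEquivOfLe (show h.D u ≤ Subgroup.normalizer ((T : Subgroup G) : Set G) from inf_le_left)).toEquiv
  have h3 : Nat.card ((T : Subgroup G).subgroupOf (Subgroup.normalizer ((T : Subgroup G) : Set G))) = Nat.card T := 
    Nat.card_congr (Subgroup.subgroupOfEquivOfLe Subgroup.le_normalizer).toEquiv
  rw [h2, h3] at h1
  rw [← h1, mul_comm]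

end Cfsg.Agent.S1227
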