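import Mathlib
import Cfsg.Agent.H3.ElemCent2
import Cfsg.Statements.S1228

set_option autoImplicit false
open Cfsg

namespace Cfsg.Agent.S1228

/-- Let G be a finite group with a Sylow 2-subgroup T that is neither cyclic nor normal, such that the centralizer of every involution is an elementary abelian 2-group; put H = N_G(T), let u be an involution outside H and D = H ∩ uHu⁻¹. Then N_G(D) = D ⊔ ⟨u⟩, and a coset gH is fixed by every element of D exactly when gH = H or gH = uH. -/
theorem result {G : Type*} [Group G] [Finite G] (T : Sylow 2 G) (hnc : ¬ IsCyclic (T : Subgroup G)) (hnn : ¬ (T : Subgroup G).Normal) (hC : ∀ t : G, orderOf t = 2 → IsMulCommutative (Subgroup.centralizer ({t} : Set G)) ∧ ∀ c ∈ Subgroup.centralizer ({t} : Set G), c ^ 2 = 1) (u : G) (hu : orderOf u = 2) (huH : u ∉ Subgroup.normalizer ((T : Subgroup G) : Set G)) : Subgroup.normalizer ((Subgroup.normalizer ((T : Subgroup G) : Set G) ⊓ (Subgroup.normalizer ((T : Subgroup G) : Set G)).map (MulAut.conj u).toMonoidHom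 : Subgroup G) : Set G) = (Subgroup.normalizer ((T : Subgroup G) : Set G) ⊓ (Subgroup.normalizer ((T : Subgroup G) : Set G)).map (MulAut.conj u).toMonoidHom) ⊔ Subgroup.zpowers u ∧ ∀ g : G, ((∀ d ∈ Subgroup.normalizer ((T : Subgroup G) : Set G) ⊓ (Subgroup.normalizer ((T : Subgroup G) : Set G)).map (MulAut.conj u).toMonoidHom, d • (QuotientGroup.mk g : G ⧸ Subgroup.normalizer ((T : Subgroup G) : Set G)) = QuotientGroup.mk g) ↔ (QuotientGroup.mk g : G ⧸ Subgroup.normalizer ((T : Subgroup G) : Set G)) = QuotientGroup.mk 1 ∨ (QuotientGroup.mk g : G ⧸ Subgroup.normalizer ((T : Subgroup G) : Set G)) = QuotientGroup.mk u) := by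
  have h : CfsgH3.EC T := ⟨hnc, hnn, hC⟩
  have hfix : ∀ g : G, ((∀ d ∈ h.D u, d • (QuotientGroup.mk g : G ⧸ Subgroup.normalizer ((T : Subgroup G) : Set G)) = QuotientGroup.mk g) ↔ (QuotientGroup.mk g : G ⧸ Subgroup.normalizer ((T : Subgroup G) : Set G)) = QuotientGroup.mk 1 ∨ (QuotientGroup.mk g : G ⧸ Subgroup.normalizer ((T : Subgroup G) : Set G)) = QuotientGroup.mk u) := by
    intro g
    constructor
    · exact h.fix_D hu huH
    · rintro (h1 | h1) d hd
      · rw [h1]; exact (h.mem_D_iff.1 hd).1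
      · rw [h1]; exact (h.mem_D_iff.1 hd).2
  refine ⟨?_, hfix⟩
  have huD := h.u_norm hu
  change Subgroup.normalizer ((h.D u : Subgroup G) : Set G) = h.D u ⊔ Subgroup.zpowers u
  apply le_antisymm
  · intro m hm
    have h1 : ∀ d ∈ h.D u, d • (QuotientGroup.mk m : G ⧸ Subgroup.normalizer ((T : Subgroup G) : Set G)) = QuotientGroup.mk m := by
      intro d hd
      rw [h.smul_mk_iff]
      have := (Subgroup.mem_normalizer_iff.1 (inv_mem hm) d).1 hd
      rw [inv_inv] at this
      exact (h.mem_D.1 this).1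
    rcases (hfix m).1 h1 with h2 | h2
    · rw [h.mk_one_iff] at h2
      exact Subgroup.mem_sup_left (h.mem_D_of_norm hu huH h2 hm)
    · rw [eq_comm, QuotientGroup.eq] at h2
      have h3 := h.mem_D_of_norm hu huH h2 (mul_mem (inv_mem huD) hm)
      have h4 := mul_mem (Subgroup.mem_sup_right (Subgroup.mem_zpowers u) : u ∈ h.D u ⊔ Subgroup.zpowers u) (Subgroup.mem_sup_left h3)
      rwa [mul_inv_cancel_left] at h4
  · exact sup_le Subgroup.le_normalizer (Subgroup.zpowers_le.2 huD)

end Cfsg.Agent.S1228
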