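import Mathlib
import Cfsg.Agent.H3.RankCore
import Cfsg.Statements.S1231

set_option autoImplicit false
open Cfsg

namespace Cfsg.Agent.S1231

open scoped Pointwise

/-- Let H be a subgroup of the finite group G, p a prime, k ≥ 1, and P a Sylow p-subgroup of H whose p-rank is at least k. Then N_G(X) ≤ H for every subgroup X of P of p-rank at least k if and only if H ∩ gHg⁻¹ has p-rank less than k for every g ∉ H. -/
theorem result {G : Type*} [Group G] [Finite G] {p : ℕ} [Fact p.Prime] (k : ℕ) (hk : 1 ≤ k) (H : Subgroup G) (P : Sylow p ↥H) (hP : ¬ Cfsg.PRankLE p (k - 1) ↥(P : Subgroup ↥H)) : (∀ X : Subgroup G, X ≤ (P : Subgroup ↥H).map H.subtype → ¬ Cfsg.PRankLE p (k - 1) ↥X → Subgroup.normalizer (X : Set G) ≤ H) ↔ (∀ g : G, g ∉ H → Cfsg.PRankLE p (k - 1) ↥(H ⊓ H.map (MulAut.conj g).toMonoidHom)) := by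
  set PG : Subgroup G := (P : Subgroup ↥H).map H.subtype with hPG
  have hPGr : ¬ Cfsg.PRankLE p (k - 1) PG := by
    intro h0
    apply hP
    exact CfsgH3.PRankLE.of_injective (Subgroup.equivMapOfInjective (P : Subgroup ↥H) H.subtype H.subtype_injective).toMonoidHom 
      (Subgroup.equivMapOfInjective (P : Subgroup ↥H) H.subtype H.subtype_injective).injective h0
  have hPGH : PG ≤ H := Subgroup.map_subtype_le _
  have hPGp : IsPGroup p PG := P.2.map _
  have hPGs : CfsgH1.IsSylowOf p PG H := ⟨P, rfl⟩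
  constructor
  · intro hN
    -- PG is a Sylow subgroup of G
    have hNH : Subgroup.normalizer (PG : Set G) ≤ H := hN PG le_rfl hPGr
    obtain ⟨S, hS⟩ := hPGp.exists_le_sylow
    have hSP : (S : Subgroup G) = PG := by
      by_contra hne
      have h1 := CfsgH1.lt_inf_normalizer_of_nilpotent (S.2.isNilpotent) hS (fun h0 => hne h0.symm)
      have h2 : PG < (S : Subgroup G) ⊓ Subgroup.normalizer (PG : Set G) := by
        first | exact h1 | (rw [inf_comm] at h1; exact h1)
      have h3 : (S : Subgroup G) ⊓ Subgroup.normalizer (PG : Set G) ≤ H := inf_le_right.trans hNH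
      have h4 : IsPGroup p ((S : Subgroup G) ⊓ Subgroup.normalizer (PG : Set G) : Subgroup G) := S.2.to_le inf_le_left
      obtain ⟨h, hh, hhP⟩ := CfsgH3.exists_conj_le_sylowOf hPGs h4 h3
      have h5 := Subgroup.card_le_of_le hhP
      rw [CfsgH1.card_conj_smul] at h5
      have h6 := CfsgH1.card_lt_card_of_lt h2
      omega
    have key := CfsgH3.fusion_core S (fun X x => ¬ Cfsg.PRankLE p (k - 1) X → x ∈ H) ?_ ?_ ?_ ?_
    · intro g hgH
      by_contra hcon
      obtain ⟨A, hAE, hAc, hAp, hAcard⟩ := CfsgH3.exists_elemAb hcon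
      have hAr := CfsgH3.not_pRankLE_of le_rfl hAc hAp hAcard
      have hApg : IsPGroup p A := fun a => ⟨1, Subtype.ext (by rw [pow_one]; exact hAp a a.2)⟩
      obtain ⟨h, hh, hhA⟩ := CfsgH3.exists_conj_le_sylowOf hPGs hApg (hAE.trans inf_le_left)
      have hA2 : MulAut.conj g⁻¹ • A ≤ H := by
        rw [CfsgH3.conj_smul_le_iff]
        intro a ha
        obtain ⟨y, hy, hya⟩ := (Subgroup.mem_inf.1 (hAE ha)).2
        have hya' : g * y * g⁻¹ = a := hya
        rw [← hya', inv_inv]
        have : g⁻¹ * (g * y * g⁻¹) * g = y := by group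
        rw [this]; exact hy
      obtain ⟨h', hh', hh'A⟩ := CfsgH3.exists_conj_le_sylowOf hPGs (hApg.map (MulAut.conj g⁻¹).toMonoidHom) hA2
      have h1 := key _ (MulAut.conj h • A) (h' * g⁻¹ * h⁻¹) rfl (by rw [hSP]; exact hhA) (by
        rw [← mul_smul, ← map_mul, inv_mul_cancel_right, map_mul, mul_smul, hSP]; exact hh'A) (by rw [CfsgH3.PRankLE.conj_iff]; exact hAr)
      apply hgH
      have h2 := mul_mem (mul_mem (inv_mem hh') h1) hh
      have e : h'⁻¹ * (h' * g⁻¹ * h⁻¹) * h = g⁻¹ := by group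
      rw [e] at h2
      exact inv_mem_iff.1 h2
    · intro g hg _
      rw [hSP] at hg
      exact hNH hg
    · intro A g h hA hgA hhgA h1 h2 hr
      exact mul_mem (h2 (by rw [CfsgH3.PRankLE.conj_iff]; exact hr)) (h1 hr)
    · intro A B g hBA hA hgA h1 hr
      exact h1 (fun h0 => hr (CfsgH3.PRankLE.of_le hBA h0))
    · intro C hCS hfull _ n hn hr
      exact hN C (by rw [← hSP]; exact hCS.le) hr hn
  · intro hE X hX hXr n hn
    by_contra hnH
    apply hXr
    refine CfsgH3.PRankLE.of_le ?_ (hE n hnH)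
    intro x hx
    refine Subgroup.mem_inf.2 ⟨hPGH (hX hx), ⟨n⁻¹ * x * n, hPGH (hX ?_), ?_⟩⟩
    · have := (Subgroup.mem_normalizer_iff.1 (inv_mem hn) x).1 hx
      rwa [inv_inv] at this
    · show n * (n⁻¹ * x * n) * n⁻¹ = x
      group

end Cfsg.Agent.S1231
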