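import Mathlib
import Cfsg.Agent.H7.Syl
import Cfsg.Statements.S1236

set_option autoImplicit false
open Cfsg

namespace Cfsg.Agent.S1236

/-- an index two cyclic subgroup whose outer elements centralize at most two of its elements -/
theorem cent_le {X : Type*} [Group X] [Finite X] (C : Subgroup X) (hi : C.index ≤ 2)
    (h : ∀ v : X, v ∉ C → Nat.card ↥(C ⊓ Subgroup.centralizer ({v} : Set X)) ≤ 2)
    (hcyc : ∀ a ∈ C, ∀ b ∈ C, orderOf a = 2 → orderOf b = 2 → a = b)
    (V : Subgroup X) (hV : ∀ a ∈ V, a * a = 1) (hVc : ∀ a ∈ V, ∀ b ∈ V, a * b = b * a) (hV4 : Nat.card V = 4) (x : X) (hx : ∀ a ∈ V, x * a = a * x) : x ∈ V := by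
  classical
  -- an element of V outside C
  obtain ⟨v, hvV, hvC⟩ : ∃ v ∈ V, v ∉ C := by
    by_contra hcon
    push Not at hcon
    have h1 : ∀ a ∈ V, a ≠ 1 → orderOf a = 2 := fun a ha ha1 => orderOf_eq_prime (by rw [pow_two]; exact hV a ha) ha1
    haveI := Fintype.ofFinite V
    have h2 : 2 < Fintype.card V := by rw [← Nat.card_eq_fintype_card, hV4]; norm_num
    obtain ⟨a, b, c, hab, hac, hbc⟩ := Fintype.two_lt_card_iff.1 h2
    -- two of them are nontrivial and distinct
    by_cases ha : (a : X) = 1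
    · have hb : (b : X) ≠ 1 := fun h => hab (Subtype.ext (ha.trans h.symm))
      have hc : (c : X) ≠ 1 := fun h => hac (Subtype.ext (ha.trans h.symm))
      exact hbc (Subtype.ext (hcyc b (hcon b b.2) c (hcon c c.2) (h1 b b.2 hb) (h1 c c.2 hc)))
    · by_cases hb : (b : X) = 1
      · have hc : (c : X) ≠ 1 := fun h => hbc (Subtype.ext (hb.trans h.symm))
        exact hac (Subtype.ext (hcyc a (hcon a a.2) c (hcon c c.2) (h1 a a.2 ha) (h1 c c.2 hc)))
      · exact hab (Subtype.ext (hcyc a (hcon a a.2) b (hcon b b.2) (h1 a a.2 ha) (h1 b b.2 hb)))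
  have h1 := h v hvC
  set D := Subgroup.centralizer ({v} : Set X) with hD
  have h2 : Nat.card D ≤ 4 := by
    have h3 : Nat.card ↥(C ⊓ D) * (C ⊓ D).relIndex D = Nat.card D := by
      have h0 := Subgroup.relIndex_mul_relIndex ⊥ (C ⊓ D) D bot_le inf_le_right
      rwa [Subgroup.relIndex_bot_left, Subgroup.relIndex_bot_left] at h0
    have h4 : (C ⊓ D).relIndex D ≤ 2 := by
      rw [Subgroup.inf_relIndex_right]
      have hidx : C.relIndex D ≤ C.index := by
        rw [← Subgroup.relIndex_top_right]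
        exact Subgroup.relIndex_le_of_le_right le_top (by rw [Subgroup.relIndex_top_right]; exact Subgroup.index_ne_zero_of_finite)
      exact hidx.trans hi
    rw [← h3]
    calc Nat.card ↥(C ⊓ D) * (C ⊓ D).relIndex D ≤ 2 * 2 := Nat.mul_le_mul h1 h4
      _ = 4 := by norm_num
  have hVD : V ≤ D := by
    intro a ha
    rw [hD, Subgroup.mem_centralizer_singleton_iff]
    exact hVc a ha v hvV
  have h5 : V = D := Subgroup.eq_of_le_of_card_ge hVD (by rw [hV4]; exact h2)
  rw [h5, hD, Subgroup.mem_centralizer_singleton_iff]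
  exact hx v hvV

/-- Let R be a finite group, t a central involution of R such that R ⧸ ⟨t⟩ is dihedral (of order ≥ 4) or quasi-dihedral, and A ≤ R an elementary abelian subgroup of order 8 containing t. Then C_R(A) = A. -/
theorem result {R : Type*} [Group R] [Finite R] (t : R) (ht : orderOf t = 2) (htz : t ∈ Subgroup.center R) [(Subgroup.zpowers t).Normal] (hq : (∃ m : ℕ, 2 ≤ m ∧ Nonempty (R ⧸ Subgroup.zpowers t ≃* DihedralGroup m)) ∨ Cfsg.IsQuasiDihedral (R ⧸ Subgroup.zpowers t)) (A : Subgroup R) (hA : Cfsg.IsElementaryAbelian 2 A) (hA8 : Nat.card A = 8) (htA : t ∈ A) : Subgroup.centralizer (A : Set R) = A := by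
  classical
  set Z := Subgroup.zpowers t with hZ
  have hAc : ∀ a ∈ A, ∀ b ∈ A, a * b = b * a := fun a ha b hb =>
    congrArg Subtype.val (hA.1.is_comm.comm (⟨a, ha⟩ : A) ⟨b, hb⟩)
  have hA2 : ∀ a ∈ A, a * a = 1 := fun a ha => by rw [← pow_two]; exact hA.2 a ha
  apply le_antisymm
  swap
  · intro a ha
    rw [Subgroup.mem_centralizer_iff]
    intro b hb
    exact hAc b hb a ha
  intro x hx
  rw [Subgroup.mem_centralizer_iff] at hx
  have hZA : Z ≤ A := by rw [hZ, Subgroup.zpowers_le]; exact htA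
  -- the image of A
  set V := A.map (QuotientGroup.mk' Z) with hV
  have hV4 : Nat.card V = 4 := by
    have h1 : Nat.card V * Nat.card Z = Nat.card A := by
      have h0 := Subgroup.relIndex_mul_relIndex ⊥ Z A bot_le hZA
      rw [Subgroup.relIndex_bot_left, Subgroup.relIndex_bot_left] at h0
      have h2 := Subgroup.relIndex_ker A (QuotientGroup.mk' Z)
      rw [QuotientGroup.ker_mk'] at h2
      rw [hV, ← h2, mul_comm]; exact h0
    have h2 : Nat.card Z = 2 := by rw [hZ, Nat.card_zpowers, ht]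
    rw [h2, hA8] at h1
    omega
  have hV2 : ∀ a ∈ V, a * a = 1 := by
    rintro _ ⟨a, ha, rfl⟩
    rw [← map_mul, hA2 a ha, map_one]
  have hVc : ∀ a ∈ V, ∀ b ∈ V, a * b = b * a := by
    rintro _ ⟨a, ha, rfl⟩ _ ⟨b, hb, rfl⟩
    rw [← map_mul, hAc a ha b hb, map_mul]
  have hxV : ∀ a ∈ V, QuotientGroup.mk' Z x * a = a * QuotientGroup.mk' Z x := by
    rintro _ ⟨a, ha, rfl⟩
    rw [← map_mul, ← hx a ha, map_mul]
  have key : QuotientGroup.mk' Z x ∈ V → x ∈ A := by
    rintro ⟨a, ha, hax⟩
    have h1 : a⁻¹ * x ∈ Z := by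
      rw [← QuotientGroup.eq]; exact hax
    have h2 := A.mul_mem ha (hZA h1)
    rwa [mul_inv_cancel_left] at h2
  apply key
  rcases hq with ⟨m, hm, ⟨e⟩⟩ | ⟨n, hn, hcard, y, s, hy, hs, hsy⟩
  · -- dihedral
    haveI : NeZero m := ⟨by omega⟩
    haveI : Fintype (DihedralGroup m) := inferInstance
    let C : Subgroup (DihedralGroup m) := Subgroup.zpowers (DihedralGroup.r 1)
    have hCr : ∀ i : ZMod m, DihedralGroup.r i ∈ C := by
      intro i
      refine ⟨(i.val : ℤ), ?_⟩
      simp [DihedralGroup.r_one_pow]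
    have hCsr : ∀ g : DihedralGroup m, g ∈ C → ∃ i, g = DihedralGroup.r i := by
      rintro g ⟨k, rfl⟩
      exact ⟨_, DihedralGroup.r_one_zpow k⟩
    have htwo : ∀ i : ZMod m, i ≠ 0 → i + i = 0 → i.val = m / 2 ∧ 2 * (m / 2) = m := by
      intro i hi hii
      have h1 : i.val ≠ 0 := fun h => hi ((ZMod.val_eq_zero i).1 h)
      have h2 := ZMod.val_lt i
      have h3 : ((i.val + i.val : ℕ) : ZMod m) = 0 := by
        push_cast
        rw [ZMod.natCast_zmod_val]; exact hii
      rw [ZMod.natCast_eq_zero_iff] at h3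
      obtain ⟨k, hk⟩ := h3
      have hk1 : k = 1 := by
        have h4 : k ≠ 0 := by rintro rfl; omega
        have h5 : k < 2 := by
          by_contra h6
          have : m * 2 ≤ m * k := Nat.mul_le_mul_left m (by omega)
          omega
        omega
      subst hk1
      omega
    have hmain := cent_le (X := DihedralGroup m) C ?_ ?_ ?_ (V.map e.toMonoidHom) ?_ ?_ ?_ (e (QuotientGroup.mk' Z x)) ?_
    · obtain ⟨w, hw, hwe⟩ := hmain
      have : w = QuotientGroup.mk' Z x := e.injective hwe
      rw [← this]; exact hw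
    · -- index
      have h1 : Nat.card C = m := by
        rw [Nat.card_zpowers, DihedralGroup.orderOf_r_one]
      have h2 := Subgroup.card_mul_index C
      rw [h1, DihedralGroup.nat_card] at h2
      have h3 : m * C.index = m * 2 := by rw [h2, mul_comm]
      exact (Nat.eq_of_mul_eq_mul_left (by omega) h3).le
    · intro v hv
      obtain ⟨j, rfl⟩ : ∃ j, v = DihedralGroup.sr j := by
        rcases v with j | j
        · exact absurd (hCr j) hv
        · exact ⟨j, rfl⟩
      have hsub : ((C ⊓ Subgroup.centralizer ({DihedralGroup.sr j} : Set (DihedralGroup m)) : Subgroup (DihedralGroup m)) : Set (DihedralGroup m)) ⊆ {DihedralGroup.r 0, DihedralGroup.r ((m / 2 : ℕ) : ZMod m)} := by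
        rintro g ⟨hg1, hg2⟩
        obtain ⟨i, rfl⟩ := hCsr g hg1
        have h1 := Subgroup.mem_centralizer_singleton_iff.1 hg2
        rw [DihedralGroup.r_mul_sr, DihedralGroup.sr_mul_r] at h1
        have h2 : j - i = j + i := by injection h1
        have h3 : i + i = 0 := by
          have : j - i + i = j + i + i := by rw [h2]
          rw [sub_add_cancel, add_assoc] at this
          exact (left_eq_add.1 this)
        by_cases hi : i = 0
        · left; rw [hi]
        · right
          rw [Set.mem_singleton_iff, ← (htwo i hi h3).1, ZMod.natCast_zmod_val]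
      have h1 := Set.ncard_le_ncard hsub (Set.toFinite _)
      have h2 : ({DihedralGroup.r 0, DihedralGroup.r ((m / 2 : ℕ) : ZMod m)} : Set (DihedralGroup m)).ncard ≤ 2 := by
        refine (Set.ncard_insert_le _ _).trans ?_
        rw [Set.ncard_singleton]
      exact h1.trans h2
    · intro a ha b hb ha2 hb2
      obtain ⟨i, rfl⟩ := hCsr a ha
      obtain ⟨j, rfl⟩ := hCsr b hb
      have hh : ∀ i : ZMod m, orderOf (DihedralGroup.r i) = 2 → i ≠ 0 ∧ i + i = 0 := by
        intro i hi
        constructor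
        · rintro rfl
          rw [← DihedralGroup.one_def, orderOf_one] at hi
          exact absurd hi (by norm_num)
        · have h1 := pow_orderOf_eq_one (DihedralGroup.r i)
          rw [hi, pow_two, DihedralGroup.r_mul_r, DihedralGroup.one_def] at h1
          injection h1
      obtain ⟨h1, h2⟩ := hh i ha2
      obtain ⟨h3, h4⟩ := hh j hb2
      have h5 := (htwo i h1 h2).1
      have h6 := (htwo j h3 h4).1
      rw [ZMod.val_injective m (h5.trans h6.symm)]
    · rintro _ ⟨a, ha, rfl⟩
      rw [← map_mul, hV2 a ha, map_one]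
    · rintro _ ⟨a, ha, rfl⟩ _ ⟨b, hb, rfl⟩
      rw [← map_mul, hVc a ha b hb, map_mul]
    · rw [Subgroup.card_map_of_injective e.injective]; exact hV4
    · rintro _ ⟨a, ha, rfl⟩
      change e _ * e _ = e _ * e _
      rw [← map_mul, hxV a ha, map_mul]
  · -- quasi-dihedral
    let C : Subgroup (R ⧸ Z) := Subgroup.zpowers y
    have hCcard : Nat.card C = 2 ^ n := by rw [Nat.card_zpowers, hy]
    have hidx : C.index = 2 := by
      have h2 := Subgroup.card_mul_index C
      rw [hCcard, hcard, pow_succ] at h2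
      exact Nat.eq_of_mul_eq_mul_left (by positivity) h2
    have hCn : C.Normal := Subgroup.normal_of_index_eq_two hidx
    have hunique : ∀ a ∈ C, ∀ b ∈ C, orderOf a = 2 → orderOf b = 2 → a = b := by
      have hu : ∀ a ∈ C, orderOf a = 2 → a = y ^ (2 ^ (n - 1)) := by
        rintro a ⟨k, rfl⟩ ha
        change orderOf (y ^ k) = 2 at ha
        change y ^ k = _
        have h1 : (y ^ k) * (y ^ k) = 1 := by
          have := pow_orderOf_eq_one (y ^ k)
          rwa [ha, pow_two] at this
        rw [← zpow_add, ← orderOf_dvd_iff_zpow_eq_one, hy] at h1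
        obtain ⟨c, hc⟩ := h1
        have h2 : (2 : ℤ) ^ n = 2 * 2 ^ (n - 1) := by
          rw [← pow_succ', Nat.sub_add_cancel (by omega)]
        push_cast at hc
        rw [h2] at hc
        have h3 : k = 2 ^ (n - 1) * c := by linarith
        have hodd : c % 2 = 1 := by
          rcases Int.emod_two_eq_zero_or_one c with h | h
          · exfalso
            obtain ⟨d, rfl⟩ := Int.dvd_of_emod_eq_zero h
            have h4 : y ^ k = 1 := by
              rw [← orderOf_dvd_iff_zpow_eq_one, hy, h3]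
              push_cast
              rw [h2]
              exact ⟨d, by ring⟩
            rw [h4, orderOf_one] at ha
            exact absurd ha (by norm_num)
          · exact h
        obtain ⟨d, hd⟩ : ∃ d, c = 2 * d + 1 := ⟨c / 2, by omega⟩
        have h5 : k = ((2 ^ n : ℕ) : ℤ) * d + ((2 ^ (n - 1) : ℕ) : ℤ) := by
          rw [h3, hd]; push_cast; rw [h2]; ring
        rw [h5, zpow_add, zpow_mul, zpow_natCast, ← hy, pow_orderOf_eq_one, one_zpow, one_mul, zpow_natCast]
      intro a ha b hb ha2 hb2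
      rw [hu a ha ha2, hu b hb hb2]
    have hcent : ∀ v : R ⧸ Z, v ∉ C → ∀ k : ℤ, v * y ^ k = y ^ k * v → ((2 ^ (n - 1) : ℕ) : ℤ) ∣ k := by
      intro v hv k hvk
      have hsC : s ∉ C := by
        intro hsC
        -- s commutes with y then
        have h1 : s * y * s⁻¹ = y := by
          obtain ⟨j, rfl⟩ := hsC
          group
        rw [h1] at hsy
        have h2 : y ^ (2 ^ (n - 1) - 2) = 1 := by
          have h3 : (2 : ℕ) ^ (n - 1) - 1 = (2 ^ (n - 1) - 2) + 1 := by
            have : 2 ^ 2 ≤ 2 ^ (n - 1) := Nat.pow_le_pow_right (by norm_num) (by omega)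
            omega
          rw [h3, pow_succ] at hsy
          exact (mul_right_cancel (show 1 * y = y ^ (2 ^ (n - 1) - 2) * y by rw [one_mul]; exact hsy)).symm
        have h3 := orderOf_dvd_of_pow_eq_one h2
        rw [hy] at h3
        have h4 : 2 ^ 2 ≤ 2 ^ (n - 1) := Nat.pow_le_pow_right (by norm_num) (by omega)
        have h5 := Nat.le_of_dvd (by omega) h3
        have h6 : 2 ^ (n - 1) ≤ 2 ^ n := Nat.pow_le_pow_right (by norm_num) (by omega)
        omega
      -- v = c s
      have h1 : v * s⁻¹ ∈ C := by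
        rw [Subgroup.mul_mem_iff_of_index_two hidx, C.inv_mem_iff]
        exact ⟨fun h => absurd h hv, fun h => absurd h hsC⟩
      obtain ⟨j, hj⟩ := h1
      have hj' : v = y ^ j * s := by
        have : y ^ j = v * s⁻¹ := hj
        rw [this]; group
      have h2 : s * y ^ k * s⁻¹ = y ^ k := by
        rw [hj'] at hvk
        have h3 : y ^ j * (s * y ^ k) = y ^ j * (y ^ k * s) := by
          calc y ^ j * (s * y ^ k) = y ^ j * s * y ^ k := by group
            _ = y ^ k * (y ^ j * s) := hvk
            _ = y ^ j * (y ^ k * s) := by group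
        have h4 := mul_left_cancel h3
        rw [h4]; group
      have h3 : s * y ^ k * s⁻¹ = y ^ (((2 ^ (n - 1) - 1 : ℕ) : ℤ) * k) := by
        rw [zpow_mul, zpow_natCast, ← hsy]
        exact (conj_zpow).symm
      rw [h2] at h3
      have h4 : y ^ (((2 ^ (n - 1) - 1 : ℕ) : ℤ) * k - k) = 1 := by
        rw [zpow_sub, ← h3, mul_inv_cancel]
      rw [← orderOf_dvd_iff_zpow_eq_one, hy] at h4
      have h5 : (((2 ^ (n - 1) - 1 : ℕ) : ℤ) * k - k) = 2 * ((2 ^ (n - 2) - 1) * k) := by
        have h6 : 1 ≤ 2 ^ (n - 1) := Nat.one_le_two_pow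
        push_cast [Nat.cast_sub h6]
        have h7 : (2 : ℤ) ^ (n - 1) = 2 * 2 ^ (n - 2) := by
          rw [← pow_succ', show n - 2 + 1 = n - 1 by omega]
        rw [h7]; ring
      rw [h5] at h4
      have h6 : ((2 ^ n : ℕ) : ℤ) = 2 * ((2 ^ (n - 1) : ℕ) : ℤ) := by
        push_cast
        rw [← pow_succ', Nat.sub_add_cancel (by omega)]
      rw [h6] at h4
      have h7 := Int.dvd_of_mul_dvd_mul_left (by norm_num) h4
      have h8 : IsCoprime (((2 ^ (n - 1) : ℕ) : ℤ)) ((2 : ℤ) ^ (n - 2) - 1) := by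
        push_cast
        apply IsCoprime.pow_left
        refine ⟨2 ^ (n - 3), -1, ?_⟩
        have h9 : (2 : ℤ) ^ (n - 2) = 2 ^ (n - 3) * 2 := by
          rw [← pow_succ, show n - 3 + 1 = n - 2 by omega]
        rw [h9]; ring
      exact h8.dvd_of_dvd_mul_left h7
    refine cent_le C hidx.le ?_ hunique V hV2 hVc hV4 _ hxV
    intro v hv
    have hsub : ((C ⊓ Subgroup.centralizer ({v} : Set (R ⧸ Z)) : Subgroup (R ⧸ Z)) : Set (R ⧸ Z)) ⊆ {1, y ^ (2 ^ (n - 1))} := by
      rintro g ⟨⟨k, rfl⟩, hg2⟩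
      have h1 := Subgroup.mem_centralizer_singleton_iff.1 hg2
      obtain ⟨c, hc⟩ := hcent v hv k h1.symm
      change y ^ k ∈ _
      have h2 : ((2 ^ n : ℕ) : ℤ) = 2 * ((2 ^ (n - 1) : ℕ) : ℤ) := by
        push_cast
        rw [← pow_succ', Nat.sub_add_cancel (by omega)]
      rcases Int.emod_two_eq_zero_or_one c with h | h
      · left
        obtain ⟨d, rfl⟩ := Int.dvd_of_emod_eq_zero h
        rw [← orderOf_dvd_iff_zpow_eq_one, hy, hc, h2]
        exact ⟨d, by ring⟩
      · right
        obtain ⟨d, hd⟩ : ∃ d, c = 2 * d + 1 := ⟨c / 2, by omega⟩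
        have h5 : k = ((2 ^ n : ℕ) : ℤ) * d + ((2 ^ (n - 1) : ℕ) : ℤ) := by
          rw [hc, hd, h2]; ring
        rw [Set.mem_singleton_iff, h5, zpow_add, zpow_mul, zpow_natCast, ← hy, pow_orderOf_eq_one, one_zpow, one_mul, zpow_natCast]
    have h1 := Set.ncard_le_ncard hsub (Set.toFinite _)
    have h2 : ({1, y ^ (2 ^ (n - 1))} : Set (R ⧸ Z)).ncard ≤ 2 := by
      refine (Set.ncard_insert_le _ _).trans ?_
      rw [Set.ncard_singleton]
    exact h1.trans h2

end Cfsg.Agent.S1236
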