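import Mathlib
import Cfsg.Agent.H3.Transfer2
import Cfsg.Statements.S1241

set_option autoImplicit false
open Cfsg

namespace Cfsg.Agent.S1241

/-- Let G be a finite group, p a prime, H a subgroup of index prime to p, K a subgroup of H normal in H with H/K commutative, and g ∈ H ∖ K an element of p-power order such that for all integers m and all a ∈ G with a g^m a⁻¹ ∈ H one has a g^m a⁻¹ ∈ g^m K. Then g ∉ G'. -/
theorem result {G : Type*} [Group G] [Finite G] {p : ℕ} [Fact p.Prime] (H K : Subgroup G) (hHK : K ≤ H) (hKn : (K.subgroupOf H).Normal) (hab : ∀ x ∈ H, ∀ y ∈ H, x * y * x⁻¹ * y⁻¹ ∈ K) (hidx : Nat.Coprime p H.index) (g : G) (hgH : g ∈ H) (hgK : g ∉ K) (hgp : ∃ k : ℕ, orderOf g = p ^ k) (hctrl : ∀ (m : ℤ) (a : G), a * g ^ m * a⁻¹ ∈ H → (a * g ^ m * a⁻¹) * (g ^ m)⁻¹ ∈ K) : g ∉ commutator G := by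
  haveI := hKn
  have hcomm : ∀ x y : ↥H ⧸ K.subgroupOf H, x * y = y * x := by
    intro x y
    obtain ⟨x, rfl⟩ := QuotientGroup.mk'_surjective _ x
    obtain ⟨y, rfl⟩ := QuotientGroup.mk'_surjective _ y
    rw [← map_mul, ← map_mul, QuotientGroup.mk'_eq_mk']
    refine ⟨(x * y)⁻¹ * (y * x), ?_, by group⟩
    have h1 := hab _ (inv_mem y.2) _ (inv_mem x.2)
    have e : (((x * y)⁻¹ * (y * x) : H) : G) = (y : G)⁻¹ * (x : G)⁻¹ * (y : G)⁻¹⁻¹ * (x : G)⁻¹⁻¹ := by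
      simp [mul_assoc]
    rw [Subgroup.mem_subgroupOf, e]; exact h1
  letI : CommGroup (↥H ⧸ K.subgroupOf H) := { (inferInstance : Group (↥H ⧸ K.subgroupOf H)) with mul_comm := hcomm }
  intro hgc
  let ϕ : ↥H →* (↥H ⧸ K.subgroupOf H) := QuotientGroup.mk' (K.subgroupOf H)
  have h1 : MonoidHom.transfer ϕ g = ϕ ⟨g, hgH⟩ ^ H.index := by
    apply CfsgH3.transfer_eq_of_ctrl ϕ hgH
    intro m a ha
    rw [← map_pow]
    show QuotientGroup.mk' (K.subgroupOf H) _ = QuotientGroup.mk' (K.subgroupOf H) _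
    rw [eq_comm, QuotientGroup.mk'_eq_mk']
    have h2 := hctrl m a⁻¹ (by rw [inv_inv, zpow_natCast]; exact ha)
    rw [inv_inv, zpow_natCast] at h2
    refine ⟨(⟨g, hgH⟩ ^ m)⁻¹ * ⟨_, ha⟩, ?_, by group⟩
    -- K is normal in H
    have h3 : (⟨_, ha⟩ : H) * (⟨g, hgH⟩ ^ m)⁻¹ ∈ K.subgroupOf H := h2
    have h4 := hKn.conj_mem _ h3 ((⟨g, hgH⟩ ^ m)⁻¹)
    have e : ((⟨g, hgH⟩ : H) ^ m)⁻¹ * ((⟨_, ha⟩ : H) * (⟨g, hgH⟩ ^ m)⁻¹) * (((⟨g, hgH⟩ : H) ^ m)⁻¹)⁻¹ = (⟨g, hgH⟩ ^ m)⁻¹ * ⟨_, ha⟩ := by group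
    rwa [e] at h4
  rw [CfsgH3.transfer_commutator ϕ hgc] at h1
  -- g has p-power order
  obtain ⟨k, hk⟩ := hgp
  have h2 : (ϕ ⟨g, hgH⟩) ^ p ^ k = 1 := by
    rw [← map_pow]
    have : (⟨g, hgH⟩ : H) ^ p ^ k = 1 := Subtype.ext (by rw [Subgroup.coe_pow, ← hk]; exact pow_orderOf_eq_one g)
    rw [this, map_one]
  have h3 : orderOf (ϕ ⟨g, hgH⟩) = 1 := 
    Nat.eq_one_of_dvd_coprimes (Nat.Coprime.pow_left k hidx) (orderOf_dvd_of_pow_eq_one h2) (orderOf_dvd_of_pow_eq_one h1.symm)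
  have h4 : ϕ ⟨g, hgH⟩ = 1 := orderOf_eq_one_iff.1 h3
  apply hgK
  have h5 : (⟨g, hgH⟩ : H) ∈ K.subgroupOf H := (QuotientGroup.eq_one_iff _).1 h4
  exact h5

end Cfsg.Agent.S1241
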