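import Mathlib
import Cfsg.Agent.H3.Transfer2
import Cfsg.Statements.S1242

set_option autoImplicit false
open Cfsg

namespace Cfsg.Agent.S1242

/-- Let G be a finite group, p a prime and H a subgroup of index prime to p such that any two elements of H of p-power order that are conjugate in G are conjugate in H. Then (O^p(G)·G') ∩ H = O^p(H)·H', where O^p denotes the subgroup generated by the elements of order prime to p. -/
theorem result {G : Type*} [Group G] [Finite G] {p : ℕ} [Fact p.Prime] (H : Subgroup G) (hidx : Nat.Coprime p H.index) (hfus : ∀ g ∈ H, (∃ k : ℕ, orderOf g = p ^ k) → ∀ a : G, a * g * a⁻¹ ∈ H → ∃ h ∈ H, h * g * h⁻¹ = a * g * a⁻¹) : (Cfsg.pResidual p G ⊔ commutator G) ⊓ H = (Cfsg.pResidual p ↥H ⊔ commutator ↥H).map H.subtype := by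
  classical
  haveI hRn := CfsgH3.pResidual_normal' p ↥H
  set K : Subgroup ↥H := Cfsg.pResidual p ↥H ⊔ commutator ↥H with hK
  haveI hKn : K.Normal := by rw [hK]; infer_instance
  apply le_antisymm
  · intro g hg
    obtain ⟨hg1, hgH⟩ := Subgroup.mem_inf.1 hg
    have hcomm : ∀ x y : ↥H ⧸ K, x * y = y * x := by
      intro x y
      obtain ⟨x, rfl⟩ := QuotientGroup.mk'_surjective _ x
      obtain ⟨y, rfl⟩ := QuotientGroup.mk'_surjective _ y
      rw [← map_mul, ← map_mul, QuotientGroup.mk'_eq_mk']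
      refine ⟨(x * y)⁻¹ * (y * x), ?_, by group⟩
      apply Subgroup.mem_sup_right
      have e : (x * y)⁻¹ * (y * x) = y⁻¹ * x⁻¹ * y⁻¹⁻¹ * x⁻¹⁻¹ := by group
      rw [e]
      exact Subgroup.commutator_mem_commutator (Subgroup.mem_top y⁻¹) (Subgroup.mem_top x⁻¹)
    letI : CommGroup (↥H ⧸ K) := { (inferInstance : Group (↥H ⧸ K)) with mul_comm := hcomm }
    let ϕ : ↥H →* (↥H ⧸ K) := QuotientGroup.mk' K
    have hϕR : ∀ x : ↥H, (orderOf x).Coprime p → ϕ x = 1 := fun x hx => 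
      (QuotientGroup.eq_one_iff _).2 (Subgroup.mem_sup_left (CfsgH3.mem_pResidual hx))
    have hpA : IsPGroup p (↥H ⧸ K) := by
      have h1 := CfsgH3.isPGroup_quotient_pResidual (p := p) (G := ↥H)
      intro q
      obtain ⟨x, rfl⟩ := QuotientGroup.mk'_surjective _ q
      obtain ⟨k, hk⟩ := h1 (QuotientGroup.mk' _ x)
      refine ⟨k, ?_⟩
      rw [← map_pow] at hk ⊢
      have h2 : x ^ p ^ k ∈ Cfsg.pResidual p ↥H := (QuotientGroup.eq_one_iff _).1 hk
      exact (QuotientGroup.eq_one_iff _).2 (Subgroup.mem_sup_left h2)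
    set V := MonoidHom.transfer ϕ with hV
    have hVR : ∀ x ∈ Cfsg.pResidual p G, V x = 1 := by
      intro x hx
      have h1 : Cfsg.pResidual p G ≤ V.ker := by
        unfold Cfsg.pResidual
        rw [Subgroup.closure_le]
        intro y hy
        have hy' : (orderOf y).Coprime p := hy
        obtain ⟨k, hk⟩ := hpA (V y)
        have h2 : orderOf (V y) = 1 := Nat.eq_one_of_dvd_coprimes (Nat.Coprime.pow_right k hy') (orderOf_map_dvd V y) (orderOf_dvd_of_pow_eq_one hk)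
        exact orderOf_eq_one_iff.1 h2
      exact h1 hx
    have hVg : V g = 1 := by
      have h1 : Cfsg.pResidual p G ⊔ commutator G ≤ V.ker := by
        apply sup_le
        · exact hVR
        · exact Abelianization.commutator_subset_ker _
      exact h1 hg1
    -- decomposition
    obtain ⟨a, m, hm, hn⟩ := Nat.exists_eq_pow_mul_and_not_dvd (n := orderOf g) (Nat.pos_iff_ne_zero.1 (orderOf_pos g)) p (Fact.out : p.Prime).ne_one
    have hcop : IsCoprime (p ^ a : ℤ) (m : ℤ) := by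
      have : Nat.Coprime (p ^ a) m := Nat.Coprime.pow_left a ((Nat.Prime.coprime_iff_not_dvd Fact.out).2 hm)
      exact_mod_cast Nat.isCoprime_iff_coprime.2 this
    obtain ⟨r, s, hrs⟩ := hcop
    have hgn : g ^ ((p ^ a : ℤ) * (m : ℤ)) = 1 := by
      have : ((p ^ a : ℤ) * (m : ℤ)) = ((orderOf g : ℕ) : ℤ) := by rw [hn]; push_cast; ring
      rw [this, zpow_natCast, pow_orderOf_eq_one]
    set g₁ := g ^ (s * m : ℤ) with hg₁
    set g₂ := g ^ (r * p ^ a : ℤ) with hg₂
    have hgg : g = g₁ * g₂ := by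
      rw [hg₁, hg₂, ← zpow_add]
      have : (s * m + r * p ^ a : ℤ) = 1 := by linarith
      rw [this, zpow_one]
    have h1 : g₁ ^ p ^ a = 1 := by
      rw [hg₁, ← zpow_natCast, ← zpow_mul]
      have : (s * m * ((p ^ a : ℕ) : ℤ) : ℤ) = ((p ^ a : ℤ) * (m : ℤ)) * s := by push_cast; ring
      rw [this, zpow_mul, hgn, one_zpow]
    have h2 : g₂ ^ m = 1 := by
      rw [hg₂, ← zpow_natCast, ← zpow_mul]
      have : (r * p ^ a * (m : ℤ) : ℤ) = ((p ^ a : ℤ) * (m : ℤ)) * r := by ring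
      rw [this, zpow_mul, hgn, one_zpow]
    have hg₁H : g₁ ∈ H := zpow_mem hgH _
    have hg₂H : g₂ ∈ H := zpow_mem hgH _
    have hg₂o : (orderOf g₂).Coprime p := by
      have h3 : Nat.Coprime m p := ((Nat.Prime.coprime_iff_not_dvd Fact.out).2 hm).symm
      exact Nat.Coprime.coprime_dvd_left (orderOf_dvd_of_pow_eq_one h2) h3
    have hV1 : V g₁ = 1 := by
      have h3 := hVR g₂ (CfsgH3.mem_pResidual hg₂o)
      rw [hgg, map_mul, h3, mul_one] at hVg
      exact hVg
    have h4 : V g₁ = ϕ ⟨g₁, hg₁H⟩ ^ H.index := by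
      apply CfsgH3.transfer_eq_of_ctrl ϕ hg₁H
      intro k b hb
      have h5 : ∃ j : ℕ, orderOf (g₁ ^ k) = p ^ j := by
        have : (g₁ ^ k) ^ p ^ a = 1 := by rw [← pow_mul, mul_comm, pow_mul, h1, one_pow]
        obtain ⟨j, -, hj⟩ := (Nat.dvd_prime_pow Fact.out).1 (orderOf_dvd_of_pow_eq_one this)
        exact ⟨j, hj⟩
      obtain ⟨h, hh, hh2⟩ := hfus (g₁ ^ k) (pow_mem hg₁H k) h5 b⁻¹ (by rw [inv_inv]; exact hb)
      rw [inv_inv] at hh2
      have h6 : (⟨b⁻¹ * g₁ ^ k * b, hb⟩ : H) = ⟨h, hh⟩ * ⟨g₁, hg₁H⟩ ^ k * ⟨h, hh⟩⁻¹ := Subtype.ext hh2.symm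
      rw [h6, map_mul, map_mul, map_pow, map_inv, mul_comm (ϕ ⟨h, hh⟩), mul_inv_cancel_right]
    rw [hV1] at h4
    have h5 : (ϕ ⟨g₁, hg₁H⟩) ^ p ^ a = 1 := by
      rw [← map_pow]
      have : (⟨g₁, hg₁H⟩ : H) ^ p ^ a = 1 := Subtype.ext h1
      rw [this, map_one]
    have h6 : orderOf (ϕ ⟨g₁, hg₁H⟩) = 1 := 
      Nat.eq_one_of_dvd_coprimes (Nat.Coprime.pow_left a hidx) (orderOf_dvd_of_pow_eq_one h5) (orderOf_dvd_of_pow_eq_one h4.symm)
    have h7 : ϕ ⟨g₁, hg₁H⟩ = 1 := orderOf_eq_one_iff.1 h6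
    have h8 : ϕ ⟨g₂, hg₂H⟩ = 1 := hϕR _ (by rw [Subgroup.orderOf_mk]; exact hg₂o)
    have h9 : ϕ ⟨g, hgH⟩ = 1 := by
      have : (⟨g, hgH⟩ : H) = ⟨g₁, hg₁H⟩ * ⟨g₂, hg₂H⟩ := Subtype.ext hgg
      rw [this, map_mul, h7, h8, one_mul]
    have h10 : (⟨g, hgH⟩ : H) ∈ K := (QuotientGroup.eq_one_iff _).1 h9
    exact ⟨_, h10, rfl⟩
  · rw [hK, Subgroup.map_sup]
    apply sup_le
    · apply le_inf
      · apply le_trans _ le_sup_left
        unfold Cfsg.pResidual
        rw [MonoidHom.map_closure, Subgroup.closure_le]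
        rintro _ ⟨x, hx, rfl⟩
        apply Subgroup.subset_closure
        have hx' : (orderOf x).Coprime p := hx
        show (orderOf (x : G)).Coprime p
        rw [Subgroup.orderOf_coe]; exact hx'
      · exact Subgroup.map_subtype_le _
    · apply le_inf
      · apply le_trans _ le_sup_right
        rw [commutator_def, Subgroup.map_commutator]
        exact Subgroup.commutator_mono le_top le_top
      · exact Subgroup.map_subtype_le _

end Cfsg.Agent.S1242
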