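import Mathlib
import Cfsg.Agent.H3.AlpFus
import Cfsg.Statements.S1243

set_option autoImplicit false
open Cfsg

namespace Cfsg.Agent.S1243

open scoped Pointwise

/-- Let T be a Sylow p-subgroup of the finite group G and W ≤ T a subgroup weakly closed in T. If d and g d g⁻¹ both centralize W, then g d g⁻¹ = h d h⁻¹ for some h ∈ N_G(W). -/
theorem result {G : Type*} [Group G] [Finite G] {p : ℕ} [Fact p.Prime] (T : Sylow p G) (W : Subgroup G) (hW : Cfsg.IsWeaklyClosed W (T : Subgroup G)) (d g : G) (hd : d ∈ Subgroup.centralizer (W : Set G)) (hgd : g * d * g⁻¹ ∈ Subgroup.centralizer (W : Set G)) : ∃ h ∈ Subgroup.normalizer (W : Set G), h * d * h⁻¹ = g * d * g⁻¹ := by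
  obtain ⟨hWT, hcl⟩ := hW
  have hcl' : ∀ k : G, MulAut.conj k • W ≤ (T : Subgroup G) → MulAut.conj k • W = W := by
    intro k hk
    exact hcl k hk
  set C := Subgroup.centralizer ({d} : Set G) with hC
  have hmemC : ∀ x : G, x ∈ C ↔ x * d = d * x := by
    intro x
    rw [hC, Subgroup.mem_centralizer_iff]
    constructor
    · intro h; exact (h d rfl).symm
    · rintro h _ rfl; exact h.symm
  have hWp : IsPGroup p W := T.2.to_le hWT
  have h1 : W ≤ C := by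
    intro w hw
    rw [hmemC]
    exact (Subgroup.mem_centralizer_iff.1 hd) w hw
  have h2 : MulAut.conj g⁻¹ • W ≤ C := by
    rw [CfsgH3.conj_smul_le_iff]
    intro w hw
    rw [hmemC, inv_inv]
    have h3 := (Subgroup.mem_centralizer_iff.1 hgd) w hw
    calc g⁻¹ * w * g * d = g⁻¹ * (w * (g * d * g⁻¹)) * g := by group
      _ = g⁻¹ * ((g * d * g⁻¹) * w) * g := by rw [h3]
      _ = _ := by group
  obtain ⟨R, hR⟩ := CfsgH1.exists_isSylowOf (G := G) p C
  obtain ⟨c₁, hc₁, hc₁R⟩ := CfsgH3.exists_conj_le_sylowOf hR hWp h1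
  obtain ⟨c₂, hc₂, hc₂R⟩ := CfsgH3.exists_conj_le_sylowOf hR (hWp.map (MulAut.conj g⁻¹).toMonoidHom) h2
  obtain ⟨k, -, hk⟩ := CfsgH3.exists_conj_le_sylowOf (CfsgH1.sylow_isSylowOf T) (CfsgH1.isSylowOf_isPGroup hR) le_top
  have h3 := hcl' (k * c₁) (by rw [map_mul, mul_smul]; exact (CfsgH1.conj_smul_mono k hc₁R).trans hk)
  have h4 := hcl' (k * c₂ * g⁻¹) (by
    rw [map_mul, map_mul, mul_smul, mul_smul]; exact (CfsgH1.conj_smul_mono k hc₂R).trans hk)
  rw [CfsgH1.conj_smul_eq_self_iff] at h3 h4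
  -- h = (k c₁)⁻¹... 
  refine ⟨(k * c₂ * g⁻¹)⁻¹ * (k * c₁), mul_mem (inv_mem h4) h3, ?_⟩
  have e1 : (k * c₂ * g⁻¹)⁻¹ * (k * c₁) = g * (c₂⁻¹ * c₁) := by group
  rw [e1]
  have h5 : c₂⁻¹ * c₁ ∈ C := mul_mem (inv_mem hc₂) hc₁
  have h6 := (hmemC _).1 h5
  set c := c₂⁻¹ * c₁
  calc g * c * d * (g * c)⁻¹ = g * (c * d) * c⁻¹ * g⁻¹ := by group
    _ = g * (d * c) * c⁻¹ * g⁻¹ := by rw [h6]
    _ = _ := by group

end Cfsg.Agent.S1243
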