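import Cfsg.Statements.S1244
import Mathlib
import Cfsg.Agent.L.Misc.AbSyl

set_option autoImplicit false
open Cfsg

namespace Cfsg.Agent.S1244

/-- Let G be a finite group with no subgroup of index 2 whose Sylow 2-subgroup S is commutative, and let R ≤ S be a subgroup whose 2-rank is exactly one less than the 2-rank r of S. Then every involution of S is conjugate, by an element of N_G(S), to an element of R. -/
theorem result {G : Type*} [Group G] [Finite G] (hG : ∀ H : Subgroup G, H.index ≠ 2) (S : Sylow 2 G) (hS : IsMulCommutative (S : Subgroup G)) (r : ℕ) (hr1 : 1 ≤ r) (hSr : Cfsg.PRankLE 2 r (S : Subgroup G) ∧ ¬ Cfsg.PRankLE 2 (r - 1) (S : Subgroup G)) (R : Subgroup G) (hRS : R ≤ S) (hRr : Cfsg.PRankLE 2 (r - 1) R ∧ (r = 1 ∨ ¬ Cfsg.PRankLE 2 (r - 2) R)) (t : G) (ht : orderOf t = 2) (htS : t ∈ S) : ∃ n ∈ Subgroup.normalizer ((S : Subgroup G) : Set G), n * t * n⁻¹ ∈ R := by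
  classical
  have hc : ∀ x ∈ (S : Subgroup G), ∀ y ∈ (S : Subgroup G), x * y = y * x := by
    intro x hx y hy
    exact congrArg Subtype.val (hS.is_comm.comm (⟨x, hx⟩ : ↥(S : Subgroup G)) ⟨y, hy⟩)
  have hcR : ∀ x ∈ R, ∀ y ∈ R, x * y = y * x := fun x hx y hy => hc x (hRS hx) y (hRS hy)
  obtain ⟨a, ha⟩ := CfsgL.AbSyl.card_Om (H := (S : Subgroup G)) (hc := hc)
  obtain ⟨b, hb⟩ := CfsgL.AbSyl.card_Om (H := R) (hc := hcR)
  have h1 := (CfsgL.AbSyl.rank_iff (H := (S : Subgroup G)) (hc := hc) r).1 hSr.1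
  have h2 : ¬ Nat.card ↥(CfsgL.AbSyl.Om (S : Subgroup G) hc) ≤ 2 ^ (r - 1) := fun h => hSr.2 ((CfsgL.AbSyl.rank_iff (r - 1)).2 h)
  have h3 := (CfsgL.AbSyl.rank_iff (H := R) (hc := hcR) (r - 1)).1 hRr.1
  rw [ha] at h1 h2
  rw [hb] at h3
  have h1' : a ≤ r := (Nat.pow_le_pow_iff_right (by norm_num)).1 h1
  have h2' : ¬ a ≤ r - 1 := fun h => h2 (Nat.pow_le_pow_right (by norm_num) h)
  have h3' : b ≤ r - 1 := (Nat.pow_le_pow_iff_right (by norm_num)).1 h3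
  have har : a = r := by omega
  have hbr : b = r - 1 := by
    rcases hRr.2 with h | h
    · omega
    · have h4 : ¬ Nat.card ↥(CfsgL.AbSyl.Om R hcR) ≤ 2 ^ (r - 2) := fun h' => h ((CfsgL.AbSyl.rank_iff (r - 2)).2 h')
      rw [hb] at h4
      have h5 : ¬ b ≤ r - 2 := fun h' => h4 (Nat.pow_le_pow_right (by norm_num) h')
      omega
  have hWV : CfsgL.AbSyl.Om R hcR ≤ CfsgL.AbSyl.Om (S : Subgroup G) hc := fun x hx => ⟨hRS hx.1, hx.2⟩
  have hrel : (CfsgL.AbSyl.Om R hcR).relIndex (CfsgL.AbSyl.Om (S : Subgroup G) hc) = 2 := by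
    have h6 := Subgroup.relIndex_mul_relIndex ⊥ _ _ bot_le hWV
    rw [Subgroup.relIndex_bot_left, Subgroup.relIndex_bot_left, ha, hb, hbr, har] at h6
    have h7 : 2 ^ r = 2 ^ (r - 1) * 2 := by rw [← pow_succ, Nat.sub_add_cancel hr1]
    rw [h7] at h6
    exact Nat.eq_of_mul_eq_mul_left (by positivity) h6
  obtain ⟨n, hn, hnW⟩ := CfsgL.AbSyl.main hG S hS (V := CfsgL.AbSyl.Om (S : Subgroup G) hc) (W := CfsgL.AbSyl.Om R hcR)
    (fun x hx => hx.1) (fun n hn v hv => ⟨(Subgroup.mem_normalizer_iff.1 hn v).1 hv.1, by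
      have : n * v * n⁻¹ * (n * v * n⁻¹) = n * (v * v) * n⁻¹ := by group
      rw [this, hv.2]; group⟩) hrel (t := t) ⟨htS, by rw [← pow_two, ← ht, pow_orderOf_eq_one]⟩
  exact ⟨n, hn, hnW.1⟩

end Cfsg.Agent.S1244
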