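import Cfsg.Statements.S1253
import Mathlib
import Cfsg.Agent.H3.Iso
import Cfsg.Agent.S0024
import Cfsg.Agent.S0025
import Cfsg.Agent.H1.SetMul

set_option autoImplicit false
open Cfsg

namespace Cfsg.Agent.S1253
open Pointwise

/-- Let z be an isolated involution of the finite group G with centralizer C, p an odd prime and P a Sylow p-subgroup of G normalized by z. Then P ∩ C has p-power-free index in C (it is a Sylow p-subgroup of C), and |P : C_P(z)| equals the number of elements x ∈ P with z x z⁻¹ = x⁻¹. -/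
theorem result {G : Type*} [Group G] [Finite G] (z : G) (hz : Cfsg.IsIsolatedInvolution z) {p : ℕ} [Fact p.Prime] (hp : p ≠ 2) (P : Sylow p G) (hzP : z ∈ Subgroup.normalizer ((P : Subgroup G) : Set G)) : ¬ p ∣ ((P : Subgroup G) ⊓ Subgroup.centralizer ({z} : Set G)).relIndex (Subgroup.centralizer ({z} : Set G)) ∧ ((P : Subgroup G) ⊓ Subgroup.centralizer ({z} : Set G)).relIndex (P : Subgroup G) = Nat.card {x : G // x ∈ P ∧ z * x * z⁻¹ = x⁻¹} := by
  classical
  obtain ⟨C, hC⟩ : ∃ C, C = Subgroup.centralizer ({z} : Set G) := ⟨_, rfl⟩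
  rw [← hC]
  have hzz : z * z = 1 := by rw [← pow_two, ← hz.1, pow_orderOf_eq_one]
  have hzi : z⁻¹ = z := inv_eq_of_mul_eq_one_right hzz
  have hCmem : ∀ g : G, g ∈ C ↔ z * g * z⁻¹ = g := by
    intro g
    rw [hC, Subgroup.mem_centralizer_singleton_iff, mul_inv_eq_iff_eq_mul]
    exact eq_comm
  have hpodd : Odd p := (Fact.out : p.Prime).odd_of_ne_two hp
  have hPodd : Odd (Nat.card ↥(P : Subgroup G)) := by
    obtain ⟨k, hk⟩ := IsPGroup.iff_card.1 P.isPGroup'
    rw [hk]; exact hpodd.pow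
  have hPz : ∀ x ∈ (P : Subgroup G), z * x * z⁻¹ ∈ (P : Subgroup G) := fun x hx => (Subgroup.mem_normalizer_iff.1 hzP x).1 hx
  constructor
  · set O := Cfsg.pPrimeCore 2 G with hO
    haveI hOn : O.Normal := by rw [hO]; infer_instance
    have hOc : (Nat.card ↥O).Coprime 2 := CfsgH2.coprime_card_pPrimeCore 2
    obtain ⟨H, hH⟩ : ∃ H, H = (P : Subgroup G) ⊔ O := ⟨_, rfl⟩
    have hPH : (P : Subgroup G) ≤ H := by rw [hH]; exact le_sup_left
    have hOH : O ≤ H := by rw [hH]; exact le_sup_right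
    have hHodd : Odd (Nat.card ↥H) := by
      have h1 := CfsgH1.card_sup_mul_card_inf (H := (P : Subgroup G)) (K := O) (by rw [Subgroup.normalizer_eq_top_iff.2 hOn]; exact le_top)
      rw [← hH] at h1
      have h2 : Odd (Nat.card ↥H * Nat.card ↥((P : Subgroup G) ⊓ O)) := by
        rw [h1]; exact hPodd.mul (Nat.coprime_two_right.1 hOc)
      exact (Nat.odd_mul.1 h2).1
    set A := Subgroup.zpowers z with hA
    have hAcard : Nat.card ↥A = 2 := by rw [hA, Nat.card_zpowers, hz.1]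
    have hAP : A ≤ Subgroup.normalizer ((P : Subgroup G) : Set G) := by rw [hA, Subgroup.zpowers_le]; exact hzP
    have hAH : A ≤ Subgroup.normalizer (H : Set G) := by
      intro a ha
      rw [← CfsgH1.conj_smul_eq_self_iff, hH, Subgroup.smul_sup, CfsgH1.conj_smul_eq_self_iff.2 (hAP ha),
        CfsgH1.conj_smul_eq_self_iff.2 (by rw [Subgroup.normalizer_eq_top_iff.2 hOn]; trivial)]
    have hcop : (Nat.card ↥A).Coprime (Nat.card ↥H) := by rw [hAcard]; exact Nat.coprime_two_left.2 hHodd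
    have hAsol : Group.IsSolvable ↥A := by
      haveI : Fact (Nat.Prime 2) := ⟨Nat.prime_two⟩
      exact CfsgH1.isSolvable_of_isPGroup (p := 2) (IsPGroup.of_card (n := 1) (by rw [hAcard, pow_one]))
    have hAC : ∀ a ∈ A, ∀ c ∈ C, a * c = c * a := by
      intro a ha c hc
      obtain ⟨k, rfl⟩ := Subgroup.mem_zpowers_iff.1 ha
      have h1 : Commute z c := mul_inv_eq_iff_eq_mul.1 ((hCmem c).1 hc)
      exact (h1.zpow_left k).eq
    -- Sylow in `D = H ⊓ C`
    obtain ⟨D, hD⟩ : ∃ D, D = H ⊓ C := ⟨_, rfl⟩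
    have hDC : D ≤ C := by rw [hD]; exact inf_le_right
    have hDH : D ≤ H := by rw [hD]; exact inf_le_left
    have hPCD : (P : Subgroup G) ⊓ C ≤ D := by rw [hD]; exact inf_le_inf_right C hPH
    have h1 : ¬ p ∣ ((P : Subgroup G) ⊓ C).relIndex D := by
      obtain ⟨R⟩ : Nonempty (Sylow p ↥D) := inferInstance
      obtain ⟨U, hU⟩ : ∃ U, U = (R : Subgroup ↥D).map D.subtype := ⟨_, rfl⟩
      have hUD : U ≤ D := by rw [hU]; exact Subgroup.map_subtype_le _
      have hUp : IsPGroup p ↥U := by rw [hU]; exact R.isPGroup'.map _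
      have hUA : A ≤ Subgroup.normalizer (U : Set G) := by
        intro a ha
        rw [Subgroup.mem_normalizer_iff]
        intro u
        constructor
        · intro hu
          rw [hAC a ha u (hDC (hUD hu)), mul_inv_cancel_right]; exact hu
        · intro hu
          have h2 := hAC a ha _ (hDC (hUD hu))
          have h3 : a * u * a⁻¹ = u := by
            have e1 : a⁻¹ * (a * (a * u * a⁻¹)) * a = a * u := by group
            have e2 : a⁻¹ * ((a * u * a⁻¹) * a) * a = u * a := by group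
            rw [h2, e2] at e1
            rw [← e1, mul_inv_cancel_right]
          rw [h3] at hu; exact hu
      obtain ⟨P', hUP', hP'A⟩ := Cfsg.Agent.S0025.result A H hAH hcop (Or.inl hAsol) p U (hUD.trans hDH) hUp hUA
      have hmapP : (((P.subtype hPH : Sylow p ↥H) : Subgroup ↥H).map H.subtype) = (P : Subgroup G) := by
        have : ((P.subtype hPH : Sylow p ↥H) : Subgroup ↥H) = (P : Subgroup G).subgroupOf H := rfl
        rw [this, Subgroup.subgroupOf_map_subtype, inf_eq_left.2 hPH]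
      obtain ⟨c, hcA, hc⟩ := Cfsg.Agent.S0024.result A H hAH hcop (Or.inl hAsol) p P' (P.subtype hPH) hP'A (by rw [hmapP]; exact hAP)
      have hcC : (c : G) ∈ C := by
        rw [hCmem]
        have := Subgroup.mem_centralizer_iff.1 hcA z (Subgroup.mem_zpowers z)
        rw [this, mul_inv_cancel_right]
      have hUc : U.map (MulAut.conj (c : G)).toMonoidHom ≤ (P : Subgroup G) ⊓ C := by
        rintro _ ⟨u, hu, rfl⟩
        obtain ⟨u', hu', huu⟩ := hUP' hu
        refine ⟨?_, C.mul_mem (C.mul_mem hcC (hDC (hUD hu))) (C.inv_mem hcC)⟩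
        have h2 : c * u' * c⁻¹ ∈ ((P.subtype hPH : Sylow p ↥H) : Subgroup ↥H) := by
          rw [← hc]
          exact ⟨u', hu', rfl⟩
        have h3 : ((c * u' * c⁻¹ : ↥H) : G) ∈ (P : Subgroup G) := h2
        have h4 : ((c * u' * c⁻¹ : ↥H) : G) = (c : G) * u * (c : G)⁻¹ := by rw [← huu]; rfl
        rw [h4] at h3
        exact h3
      have hUcard : Nat.card ↥U ∣ Nat.card ↥((P : Subgroup G) ⊓ C) := by
        rw [← Subgroup.card_map_of_injective (K := U) (f := (MulAut.conj (c : G)).toMonoidHom) (MulAut.conj (c : G)).injective]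
        exact Subgroup.card_dvd_of_le hUc
      have hUR : Nat.card ↥U = Nat.card ↥(R : Subgroup ↥D) := by
        rw [hU]; exact Subgroup.card_map_of_injective D.subtype_injective
      intro hdvd
      apply R.not_dvd_index
      have h5 : Nat.card ↥((P : Subgroup G) ⊓ C) * ((P : Subgroup G) ⊓ C).relIndex D = Nat.card ↥D := by
        have := Subgroup.relIndex_mul_relIndex ⊥ _ _ bot_le hPCD
        rwa [Subgroup.relIndex_bot_left, Subgroup.relIndex_bot_left] at this
      have h6 := (R : Subgroup ↥D).card_mul_index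
      rw [← h5, ← hUR] at h6
      obtain ⟨m, hm⟩ := hUcard
      rw [hm, mul_assoc] at h6
      have h7 : (R : Subgroup ↥D).index = m * ((P : Subgroup G) ⊓ C).relIndex D :=
        Nat.eq_of_mul_eq_mul_left Nat.card_pos h6
      rw [h7]
      exact hdvd.mul_left m
    -- `G = C H`
    have hfact : CfsgH1.IsFact C H := by
      intro g
      obtain ⟨u, hu, huz⟩ := CfsgH3.iso_conj_mem hz g⁻¹
      have huO : u ∈ O := by
        have h2 : z * (g⁻¹ * z * g⁻¹⁻¹) ∈ O := CfsgH5.zstar_odd (CfsgH3.iso_oddC hz) g⁻¹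
        have h3 : Subgroup.zpowers (z * (g⁻¹ * z * g⁻¹⁻¹)) ≤ O := by rw [Subgroup.zpowers_le]; exact h2
        exact h3 hu
      refine ⟨g * u, ?_, u⁻¹, H.inv_mem (hOH huO), by group⟩
      rw [hCmem]
      -- z (g u) z⁻¹ = g u
      have h4 : g * (u * z * u⁻¹) * g⁻¹ = z := by rw [huz]; group
      calc z * (g * u) * z⁻¹ = (g * (u * z * u⁻¹) * g⁻¹) * (g * u) * z⁻¹ := by rw [h4]
        _ = g * u := by group
    have h2 : H.relIndex C = H.index := by
      have h3 := CfsgH1.isFact_iff_card.1 hfact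
      have h4 := Subgroup.relIndex_mul_relIndex ⊥ (H ⊓ C) C bot_le inf_le_right
      rw [Subgroup.relIndex_bot_left, Subgroup.relIndex_bot_left, Subgroup.inf_relIndex_right] at h4
      rw [inf_comm, ← h4, ← H.card_mul_index] at h3
      have h5 : 0 < Nat.card ↥H * Nat.card ↥(H ⊓ C) := Nat.mul_pos Nat.card_pos Nat.card_pos
      have h6 : (Nat.card ↥H * Nat.card ↥(H ⊓ C)) * H.index = (Nat.card ↥H * Nat.card ↥(H ⊓ C)) * H.relIndex C := by
        calc (Nat.card ↥H * Nat.card ↥(H ⊓ C)) * H.index = Nat.card ↥H * H.index * Nat.card ↥(H ⊓ C) := by ring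
          _ = Nat.card ↥(H ⊓ C) * H.relIndex C * Nat.card ↥H := h3
          _ = _ := by ring
      exact (Nat.eq_of_mul_eq_mul_left h5 h6).symm
    have h3 : ((P : Subgroup G) ⊓ C).relIndex D * D.relIndex C = ((P : Subgroup G) ⊓ C).relIndex C :=
      Subgroup.relIndex_mul_relIndex _ _ _ hPCD hDC
    rw [← h3, hD, Subgroup.inf_relIndex_right, h2]
    intro h4
    rcases (Nat.Prime.dvd_mul Fact.out).1 h4 with h5 | h5
    · rw [← hD] at h5; exact h1 h5
    · exact P.not_dvd_index (h5.trans (Subgroup.index_dvd_of_le hPH))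
  · -- counting
    have hsub : ((P : Subgroup G) ⊓ C).relIndex (P : Subgroup G) = Nat.card (↥(P : Subgroup G) ⧸ ((P : Subgroup G) ⊓ C).subgroupOf (P : Subgroup G)) := rfl
    rw [hsub]
    let F : (↥(P : Subgroup G) ⧸ ((P : Subgroup G) ⊓ C).subgroupOf (P : Subgroup G)) → {x : G // x ∈ P ∧ z * x * z⁻¹ = x⁻¹} := fun q =>
      ⟨(q.out : G) * (z * (q.out : G) * z⁻¹)⁻¹, (P : Subgroup G).mul_mem q.out.2 ((P : Subgroup G).inv_mem (hPz _ q.out.2)), by
        rw [hzi]
        have : z * ((q.out : G) * (z * (q.out : G) * z)⁻¹) * z = z * (q.out : G) * z⁻¹ * (q.out : G)⁻¹ * (z⁻¹ * z) := by group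
        rw [this, hzi, hzz, mul_one]; group
        try simp [hzz]⟩
    refine Nat.card_eq_of_bijective F ⟨?_, ?_⟩
    · intro a b hab
      have h1 : (a.out : G) * (z * (a.out : G) * z⁻¹)⁻¹ = (b.out : G) * (z * (b.out : G) * z⁻¹)⁻¹ := congrArg Subtype.val hab
      rw [← QuotientGroup.out_eq' a, ← QuotientGroup.out_eq' b, QuotientGroup.eq]
      refine ⟨((P : Subgroup G).mul_mem ((P : Subgroup G).inv_mem a.out.2) b.out.2), ?_⟩
      change (a.out : G)⁻¹ * (b.out : G) ∈ C
      rw [hCmem]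
      have h2 : (b.out : G)⁻¹ * ((a.out : G) * (z * (a.out : G) * z⁻¹)⁻¹) * (z * (a.out : G) * z⁻¹) = (b.out : G)⁻¹ * (a.out : G) := by group
      have h3 : (b.out : G)⁻¹ * ((b.out : G) * (z * (b.out : G) * z⁻¹)⁻¹) * (z * (a.out : G) * z⁻¹) = z * ((b.out : G)⁻¹ * (a.out : G)) * z⁻¹ := by group
      rw [h1, h3] at h2
      have h4 := congrArg (·⁻¹) h2
      beta_reduce at h4
      have h5 : (z * ((b.out : G)⁻¹ * (a.out : G)) * z⁻¹)⁻¹ = z * ((a.out : G)⁻¹ * (b.out : G)) * z⁻¹ := by group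
      have h6 : ((b.out : G)⁻¹ * (a.out : G))⁻¹ = (a.out : G)⁻¹ * (b.out : G) := by group
      rw [h5, h6] at h4
      exact h4
    · rintro ⟨y, hyP, hy⟩
      -- a square root of `y`
      have hyo : Odd (orderOf y) := by
        have := orderOf_dvd_natCard (⟨y, hyP⟩ : ↥(P : Subgroup G))
        rw [Subgroup.orderOf_mk] at this
        exact Odd.of_dvd_nat hPodd this
      obtain ⟨k, hk⟩ := hyo
      obtain ⟨w, hw⟩ : ∃ w, w = y ^ (k + 1) := ⟨_, rfl⟩
      have hww : w * w = y := by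
        rw [hw, ← pow_add]
        have : k + 1 + (k + 1) = orderOf y + 1 := by omega
        rw [this, pow_succ, pow_orderOf_eq_one, one_mul]
      have hwP : w ∈ (P : Subgroup G) := by rw [hw]; exact (P : Subgroup G).pow_mem hyP _
      have hwz : z * w * z⁻¹ = w⁻¹ := by rw [hw, ← conj_pow, hy, inv_pow]
      refine ⟨QuotientGroup.mk ⟨w, hwP⟩, ?_⟩
      apply Subtype.ext
      obtain ⟨r, hr⟩ : ∃ r : ↥(P : Subgroup G), r = (QuotientGroup.mk (⟨w, hwP⟩ : ↥(P : Subgroup G)) : ↥(P : Subgroup G) ⧸ ((P : Subgroup G) ⊓ C).subgroupOf (P : Subgroup G)).out := ⟨_, rfl⟩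
      change ((QuotientGroup.mk (⟨w, hwP⟩ : ↥(P : Subgroup G)) : ↥(P : Subgroup G) ⧸ ((P : Subgroup G) ⊓ C).subgroupOf (P : Subgroup G)).out : G) * (z * ((QuotientGroup.mk (⟨w, hwP⟩ : ↥(P : Subgroup G)) : ↥(P : Subgroup G) ⧸ ((P : Subgroup G) ⊓ C).subgroupOf (P : Subgroup G)).out : G) * z⁻¹)⁻¹ = y
      rw [← hr]
      have h1 : (QuotientGroup.mk r : ↥(P : Subgroup G) ⧸ ((P : Subgroup G) ⊓ C).subgroupOf (P : Subgroup G)) = QuotientGroup.mk ⟨w, hwP⟩ := by
        rw [hr]; exact QuotientGroup.out_eq' _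
      rw [QuotientGroup.eq] at h1
      have h2 : (r : G)⁻¹ * w ∈ C := h1.2
      rw [hCmem] at h2
      -- z r z⁻¹ = z w z⁻¹ (z r⁻¹ w z⁻¹)⁻¹ = w⁻¹ w⁻¹ r
      have h3 : z * (r : G) * z⁻¹ = w⁻¹ * w⁻¹ * (r : G) := by
        calc z * (r : G) * z⁻¹ = (z * w * z⁻¹) * (z * ((r : G)⁻¹ * w) * z⁻¹)⁻¹ := by group
          _ = w⁻¹ * ((r : G)⁻¹ * w)⁻¹ := by rw [hwz, h2]
          _ = w⁻¹ * w⁻¹ * (r : G) := by group
      rw [h3]
      calc (r : G) * (w⁻¹ * w⁻¹ * (r : G))⁻¹ = w * w := by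
            rw [mul_inv_rev (w⁻¹ * w⁻¹), mul_inv_rev w⁻¹, inv_inv, mul_inv_cancel_left]
        _ = y := hww

end Cfsg.Agent.S1253
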