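import Cfsg.Statements.S1254
import Mathlib
import Cfsg.Agent.L.Misc.DihAct

set_option autoImplicit false
open Cfsg

namespace Cfsg.Agent.S1254

/-- Let X be a finite group whose Sylow 2-subgroup S is dihedral (of order at least 4). Then X has a normal 2-complement if and only if, for every Klein four-subgroup U ≤ S, the normalizer N_X(U) is generated by C_X(U) and N_S(U). -/
theorem result {X : Type*} [Group X] [Finite X] (S : Sylow 2 X) (m : ℕ) (hm : 2 ≤ m) (eS : (S : Subgroup X) ≃* DihedralGroup m) : Cfsg.HasNormalPComplement 2 X ↔ ∀ U : Subgroup X, U ≤ S → IsKleinFour U → Subgroup.normalizer (U : Set X) = Subgroup.centralizer (U : Set X) ⊔ ((S : Subgroup X) ⊓ Subgroup.normalizer (U : Set X)) := by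
  classical
  haveI : Fact (Nat.Prime 2) := ⟨Nat.prime_two⟩
  rw [CfsgH3.hasNPC_iff]
  constructor
  · intro h U hUS hU
    obtain ⟨K, hKn, hK⟩ := h.exists_complement S
    apply le_antisymm
    · intro g hg
      -- `g = k s`
      obtain ⟨⟨k, s⟩, hks⟩ := hK.2 g
      have hks' : (k : X) * (s : X) = g := hks
      have key : ∀ u ∈ U, (s : X) * u * (s : X)⁻¹ = g * u * g⁻¹ := by
        intro u hu
        have h1 : g * u * g⁻¹ ∈ (S : Subgroup X) := hUS ((Subgroup.mem_normalizer_iff.1 hg u).1 hu)
        have h2 : (s : X) * u * (s : X)⁻¹ ∈ (S : Subgroup X) := (S : Subgroup X).mul_mem ((S : Subgroup X).mul_mem s.2 (hUS hu)) ((S : Subgroup X).inv_mem s.2)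
        have h3 : (g * u * g⁻¹) * ((s : X) * u * (s : X)⁻¹)⁻¹ ∈ K ⊓ (S : Subgroup X) := by
          refine ⟨?_, (S : Subgroup X).mul_mem h1 ((S : Subgroup X).inv_mem h2)⟩
          have : (g * u * g⁻¹) * ((s : X) * u * (s : X)⁻¹)⁻¹ = (k : X) * (((s : X) * u * (s : X)⁻¹) * (k : X)⁻¹ * ((s : X) * u * (s : X)⁻¹)⁻¹) := by
            rw [← hks']; group
          rw [this]
          exact K.mul_mem k.2 (hKn.conj_mem _ (K.inv_mem k.2) _)
        rw [hK.disjoint.eq_bot, Subgroup.mem_bot] at h3
        exact (mul_inv_eq_one.1 h3).symm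
      have hs : (s : X) ∈ (S : Subgroup X) ⊓ Subgroup.normalizer (U : Set X) := by
        refine ⟨s.2, Subgroup.mem_normalizer_iff.2 ?_⟩
        have h4 : ∀ u ∈ U, (s : X) * u * (s : X)⁻¹ ∈ U := by
          intro u hu
          rw [key u hu]; exact (Subgroup.mem_normalizer_iff.1 hg u).1 hu
        intro u
        refine ⟨h4 u, fun hu => ?_⟩
        -- finite: conj by s permutes U
        have h5 : ∃ v ∈ U, (s : X) * v * (s : X)⁻¹ = (s : X) * u * (s : X)⁻¹ := by
          have h6 := (Subgroup.mem_normalizer_iff.1 (inv_mem hg) _).1 hu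
          refine ⟨_, h6, ?_⟩
          rw [key _ h6]; group
        obtain ⟨v, hv, hvu⟩ := h5
        rw [mul_left_cancel (mul_right_cancel hvu)] at hv
        exact hv
      have hk : (k : X) ∈ Subgroup.centralizer (U : Set X) := by
        rw [Subgroup.mem_centralizer_iff]
        intro u hu
        have h6 := (Subgroup.mem_normalizer_iff.1 (inv_mem hs.2) _).1 hu
        have h7 := key _ h6
        have h8 : (s : X) * ((s : X)⁻¹ * u * (s : X)⁻¹⁻¹) * (s : X)⁻¹ = u := by group
        rw [h8, ← hks'] at h7
        have h9 : (k : X) * (s : X) * ((s : X)⁻¹ * u * (s : X)⁻¹⁻¹) * ((k : X) * (s : X))⁻¹ = (k : X) * u * (k : X)⁻¹ := by group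
        rw [h9] at h7
        nth_rewrite 1 [h7]
        group
      rw [← hks']
      exact Subgroup.mul_mem_sup hk hs
    · exact sup_le (Subgroup.centralizer_le_normalizer _) inf_le_right
  · intro h
    apply CfsgH3.hasNPC_frobenius
    intro U hU x hx hxo
    have hxo' : Odd (orderOf x) := Nat.coprime_two_right.1 hxo
    have hconj : ∀ q ∈ U, x * q * x⁻¹ ∈ U := fun q hq => (Subgroup.mem_normalizer_iff.1 hx q).1 hq
    obtain ⟨g, φ, hgS, hφ⟩ := CfsgL.DihAct.exists_emb S eS hU
    have hall : ∀ u ∈ U, x * u = u * x := by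
      rcases CfsgL.DihAct.dih_act hU φ hφ hxo' hx with h1 | ⟨h1, h2⟩
      · exact h1
      · by_cases h4 : Nat.card ↥U ≤ 2
        · refine CfsgL.ScnCon.cent_index_two hU (D := ⊥) bot_le (by rw [Subgroup.card_bot]; exact h4) hxo' hconj ?_
          intro d hd
          rw [Subgroup.mem_bot.1 hd, mul_one, one_mul]
        · have h5 : Nat.card ↥U = 4 := by
            obtain ⟨k, hk⟩ := IsPGroup.iff_card.1 hU
            rw [hk] at h1 h4 ⊢
            have : k < 3 := by
              by_contra hcon
              push Not at hcon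
              have : 2 ^ 3 ≤ 2 ^ k := Nat.pow_le_pow_right (by norm_num) hcon
              omega
            interval_cases k <;> simp_all
          -- the conjugate in `S`
          have hU'S : U.map (MulAut.conj g).toMonoidHom ≤ (S : Subgroup X) := by
            rintro _ ⟨u, hu, rfl⟩
            exact hgS u hu
          have hU'k : IsKleinFour ↥(U.map (MulAut.conj g).toMonoidHom) := by
            have hc4 : Nat.card ↥(U.map (MulAut.conj g).toMonoidHom) = 4 := by
              rw [Subgroup.card_map_of_injective (MulAut.conj g).injective]; exact h5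
            refine ⟨hc4, ?_⟩
            have hsq : ∀ y : ↥(U.map (MulAut.conj g).toMonoidHom), y ^ 2 = 1 := by
              rintro ⟨_, u, hu, rfl⟩
              apply Subtype.ext
              change (MulAut.conj g).toMonoidHom u ^ 2 = 1
              rw [← map_pow, pow_two, h2 u hu, map_one]
            have h6 : Monoid.exponent ↥(U.map (MulAut.conj g).toMonoidHom) ∣ 2 := Monoid.exponent_dvd_of_forall_pow_eq_one hsq
            rcases (Nat.dvd_prime Nat.prime_two).1 h6 with h7 | h7
            · exfalso
              rw [Monoid.exp_eq_one_iff] at h7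
              rw [Nat.card_eq_one_iff_unique.2 ⟨h7, inferInstance⟩] at hc4
              omega
            · exact h7
          have h6 := h _ hU'S hU'k
          have hmem : ∀ y, y ∈ U.map (MulAut.conj g).toMonoidHom ↔ g⁻¹ * y * g ∈ U := by
            intro y
            constructor
            · rintro ⟨u, hu, rfl⟩
              have : g⁻¹ * (MulAut.conj g).toMonoidHom u * g = u := by
                change g⁻¹ * (g * u * g⁻¹) * g = u
                group
              rw [this]; exact hu
            · intro hy
              refine ⟨_, hy, ?_⟩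
              change g * (g⁻¹ * y * g) * g⁻¹ = y
              group
          have hxN : g * x * g⁻¹ ∈ Subgroup.normalizer ((U.map (MulAut.conj g).toMonoidHom : Subgroup X) : Set X) := by
            rw [Subgroup.mem_normalizer_iff]
            intro y
            rw [hmem, hmem, Subgroup.mem_normalizer_iff.1 hx]
            have : g⁻¹ * (g * x * g⁻¹ * y * (g * x * g⁻¹)⁻¹) * g = x * (g⁻¹ * y * g) * x⁻¹ := by group
            rw [this]
          rw [h6] at hxN
          have hnorm : ∀ v ∈ (S : Subgroup X) ⊓ Subgroup.normalizer ((U.map (MulAut.conj g).toMonoidHom : Subgroup X) : Set X),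
              ∀ c ∈ Subgroup.centralizer ((U.map (MulAut.conj g).toMonoidHom : Subgroup X) : Set X), v * c * v⁻¹ ∈
                Subgroup.centralizer ((U.map (MulAut.conj g).toMonoidHom : Subgroup X) : Set X) := by
            intro v hv c hc
            rw [Subgroup.mem_centralizer_iff] at hc ⊢
            intro y hy
            have h1 : v⁻¹ * y * v ∈ U.map (MulAut.conj g).toMonoidHom := by
              have := (Subgroup.mem_normalizer_iff.1 (inv_mem hv.2) y).1 hy
              rwa [inv_inv] at this
            have h2 := hc _ h1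
            calc y * (v * c * v⁻¹) = v * ((v⁻¹ * y * v) * c) * v⁻¹ := by group
              _ = v * (c * (v⁻¹ * y * v)) * v⁻¹ := by rw [h2]
              _ = v * c * v⁻¹ * y := by group
          obtain ⟨k, hk⟩ := CfsgL.DihAct.sup_pow hnorm (S.isPGroup'.to_le inf_le_left) _ hxN
          have h7 : Odd (orderOf (g * x * g⁻¹)) := by
            have : orderOf (g * x * g⁻¹) = orderOf x := (MulAut.conj g).orderOf_eq x
            rw [this]; exact hxo'
          have h8 := CfsgL.DihAct.mem_of_pow_mem h7 hk
          intro u hu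
          have h9 := Subgroup.mem_centralizer_iff.1 h8 (g * u * g⁻¹) ⟨u, hu, rfl⟩
          have h10 : g⁻¹ * (g * u * g⁻¹ * (g * x * g⁻¹)) * g = u * x := by group
          have h11 : g⁻¹ * (g * x * g⁻¹ * (g * u * g⁻¹)) * g = x * u := by group
          rw [← h10, ← h11, h9]
    rw [Subgroup.mem_centralizer_iff]
    intro u hu
    exact (hall u hu).symm

end Cfsg.Agent.S1254
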