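import Cfsg.Statements.S1263
import Cfsg.Agent.H2.GenFitting2

set_option autoImplicit false
open Cfsg
open scoped commutatorElement

namespace Cfsg.Agent.S1263

open Subgroup in
theorem aux {G : Type*} [Group G] [Finite G] (s : Finset (Subgroup G)) (hs : ∀ L ∈ s, Cfsg.IsComponent L) :
    ∀ z ∈ (s.sup id : Subgroup G), (∀ L ∈ s, ∀ x ∈ L, x * z = z * x) →
      z ∈ ⨆ L : {K : Subgroup G // Cfsg.IsComponent K}, (Subgroup.center ↥(L : Subgroup G)).map (L : Subgroup G).subtype := by
  classical
  induction s using Finset.induction_on with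
  | empty =>
    intro z hz _
    simp only [Finset.sup_empty, mem_bot] at hz
    rw [hz]; exact one_mem _
  | insert L s hLs ih =>
    intro z hz hzc
    have hL := hs L (Finset.mem_insert_self _ _)
    have hcomm : ∀ x ∈ L, ∀ y ∈ (s.sup id : Subgroup G), x * y = y * x := by
      apply CfsgH2.commutator_eq_bot_iff_forall.mp
      rw [Subgroup.commutator_comm, Subgroup.commutator_eq_bot_iff_le_centralizer]
      refine Finset.sup_le fun K hK => ?_
      rw [id, ← Subgroup.commutator_eq_bot_iff_le_centralizer]
      refine CfsgH2.IsComponent.commutator_eq_bot_of_ne (hs K (Finset.mem_insert_of_mem hK)) hL ?_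
      rintro rfl; exact hLs hK
    rw [Finset.sup_insert, id] at hz
    obtain ⟨a, ha, b, hb, rfl⟩ := CfsgH2.exists_mul_of_mem_sup (A := L) (B := s.sup id) (by
      refine CfsgH1.le_normalizer_of_le_centralizer ?_
      intro x hx
      rw [mem_centralizer_iff]
      intro y hy
      exact (hcomm x hx y hy).symm) hz
    have haL : ∀ x ∈ L, x * a = a * x := by
      intro x hx
      have h1 := hzc L (Finset.mem_insert_self _ _) x hx
      have h2 := hcomm x hx b hb
      have h3 : x * a * b = a * x * b := by
        calc x * a * b = x * (a * b) := by group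
          _ = a * b * x := h1
          _ = a * (b * x) := by group
          _ = a * (x * b) := by rw [h2]
          _ = a * x * b := by group
      exact mul_right_cancel h3
    have haC : a ∈ ⨆ L : {K : Subgroup G // Cfsg.IsComponent K}, (Subgroup.center ↥(L : Subgroup G)).map (L : Subgroup G).subtype := by
      refine (le_iSup (fun L : {K : Subgroup G // Cfsg.IsComponent K} =>
        (Subgroup.center ↥(L : Subgroup G)).map (L : Subgroup G).subtype) ⟨L, hL⟩) ⟨⟨a, ha⟩, ?_, rfl⟩
      rw [SetLike.mem_coe, mem_center_iff]
      intro y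
      exact Subtype.ext (haL y y.2)
    refine mul_mem haC (ih (fun K hK => hs K (Finset.mem_insert_of_mem hK)) b hb ?_)
    intro K hK x hx
    have h1 := hzc K (Finset.mem_insert_of_mem hK) x hx
    have h2 : a * x = x * a := hcomm a ha x (Finset.le_sup (f := id) hK hx)
    have h3 : a * (x * b) = a * (b * x) := by
      calc a * (x * b) = (a * x) * b := by group
        _ = x * a * b := by rw [h2]
        _ = x * (a * b) := by group
        _ = a * b * x := h1
        _ = _ := by group
    exact mul_left_cancel h3


/-- For a finite group G, Z(E(G)) is the subgroup generated by the centres Z(L) of the components L of G (all viewed as subgroups of G). -/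
theorem result {G : Type*} [Group G] [Finite G] : (Subgroup.center ↥(Cfsg.layer G)).map (Cfsg.layer G).subtype = ⨆ L : {K : Subgroup G // Cfsg.IsComponent K}, (Subgroup.center ↥(L : Subgroup G)).map (L : Subgroup G).subtype := by
  classical
  apply le_antisymm
  · rintro _ ⟨z, hz, rfl⟩
    haveI : Fintype (Subgroup G) := Fintype.ofFinite _
    have h1 : Cfsg.layer G = ((Finset.univ.filter (fun K : Subgroup G => Cfsg.IsComponent K)).sup id : Subgroup G) := by
      apply le_antisymm
      · refine sSup_le fun K hK => ?_
        exact Finset.le_sup (f := id) (Finset.mem_filter.mpr ⟨Finset.mem_univ _, hK⟩)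
      · refine Finset.sup_le fun K hK => CfsgH2.IsComponent.le_layer (Finset.mem_filter.mp hK).2
    refine aux (Finset.univ.filter (fun K : Subgroup G => Cfsg.IsComponent K))
      (fun L hL => (Finset.mem_filter.mp hL).2) _ (by rw [← h1]; exact z.2) ?_
    intro L hL x hx
    have hxL : x ∈ Cfsg.layer G := CfsgH2.IsComponent.le_layer (Finset.mem_filter.mp hL).2 hx
    exact congrArg Subtype.val (Subgroup.mem_center_iff.mp hz ⟨x, hxL⟩)
  · refine iSup_le fun L => ?_
    rintro _ ⟨z, hz, rfl⟩
    have hzL : (z : G) ∈ Cfsg.layer G := CfsgH2.IsComponent.le_layer L.2 z.2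
    refine ⟨⟨z, hzL⟩, ?_, rfl⟩
    rw [SetLike.mem_coe, Subgroup.mem_center_iff]
    intro y
    apply Subtype.ext
    have h2 : Cfsg.layer G ≤ Subgroup.centralizer {(z : G)} := by
      refine sSup_le fun K hK => ?_
      by_cases hKL : K = L
      · subst hKL
        intro w hw
        rw [Subgroup.mem_centralizer_iff]
        rintro v rfl
        exact (congrArg Subtype.val (Subgroup.mem_center_iff.mp hz ⟨w, hw⟩)).symm
      · intro w hw
        rw [Subgroup.mem_centralizer_iff]
        rintro v rfl
        exact (CfsgH2.commutator_eq_bot_iff_forall.mp (CfsgH2.IsComponent.commutator_eq_bot_of_ne hK L.2 hKL) w hw _ z.2).symm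
    exact (Subgroup.mem_centralizer_iff.mp (h2 y.2) _ rfl).symm

end Cfsg.Agent.S1263
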