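import Cfsg.Statements.S1264
import Cfsg.Agent.H2.GenFitting2

set_option autoImplicit false
open Cfsg

namespace Cfsg.Agent.S1264

/-- Let G be finite, C = C_G(F(G)) the centralizer of the Fitting subgroup, and N a solvable subgroup of C normalized by C. Then N ≤ Z(F(G)). -/
theorem result {G : Type*} [Group G] [Finite G] (N : Subgroup G) (hN : N ≤ Subgroup.centralizer (Cfsg.fittingSubgroup G : Set G)) (hnorm : Subgroup.centralizer (Cfsg.fittingSubgroup G : Set G) ≤ Subgroup.normalizer (N : Set G)) (hsolv : Group.IsSolvable ↥N) : N ≤ (Subgroup.center ↥(Cfsg.fittingSubgroup G)).map (Cfsg.fittingSubgroup G).subtype := by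
  have hCn : (Subgroup.centralizer (Cfsg.fittingSubgroup G : Set G)).Normal := Subgroup.normal_centralizer
  have hNsub : N.IsSubnormal := by
    refine Subgroup.IsSubnormal.step N _ hN hCn.isSubnormal ?_
    rw [Subgroup.normal_subgroupOf_iff_le_normalizer hN]
    exact hnorm
  have h1 := CfsgH2.commutator_layer_eq_bot_of_solvable_subnormal hNsub hsolv
  have h2 : N ≤ Subgroup.centralizer (Cfsg.generalizedFittingSubgroup G : Set G) := by
    intro x hx
    rw [Subgroup.mem_centralizer_iff]
    intro y hy
    have h3 : Cfsg.generalizedFittingSubgroup G ≤ Subgroup.centralizer ({x} : Set G) := by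
      refine sup_le ?_ ?_
      · intro z hz
        rw [Subgroup.mem_centralizer_iff]
        intro w hw
        rw [Set.mem_singleton_iff] at hw
        subst hw
        exact (CfsgH2.commutator_eq_bot_iff_forall.mp h1 z hz w hx).symm
      · intro z hz
        rw [Subgroup.mem_centralizer_iff]
        intro w hw
        rw [Set.mem_singleton_iff] at hw
        subst hw
        exact ((Subgroup.mem_centralizer_iff.mp (hN hx)) z hz).symm
    have h4 := h3 hy
    rw [Subgroup.mem_centralizer_iff] at h4
    exact (h4 x rfl).symm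
  have h5 := CfsgH2.centralizer_generalizedFittingSubgroup_le_fittingSubgroup (G := G)
  intro x hx
  have hxF : x ∈ Cfsg.fittingSubgroup G := h5 (h2 hx)
  refine ⟨⟨x, hxF⟩, ?_, rfl⟩
  rw [SetLike.mem_coe, Subgroup.mem_center_iff]
  intro y
  exact Subtype.ext ((Subgroup.mem_centralizer_iff.mp (hN hx)) y y.2)

end Cfsg.Agent.S1264
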