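import Cfsg.Statements.S1271
import Cfsg.Agent.H2.BalanceAux

set_option autoImplicit false
open Cfsg
open scoped commutatorElement

namespace Cfsg.Agent.S1271

/-- Let G be finite with O_{p'}(G) = 1. Suppose that for every component L of G and every subgroup H ≥ L in which L is normal, the quotient H / C_H(L) is balanced for the prime p. Then G is balanced for p. -/
theorem result {G : Type*} [Group G] [Finite G] (p : ℕ) [Fact p.Prime] (hO : Cfsg.pPrimeCore p G = ⊥) (h : ∀ L : Subgroup G, Cfsg.IsComponent L → ∀ H : Subgroup G, L ≤ H → (L.subgroupOf H).Normal → ∀ [((Subgroup.centralizer (L : Set G)).subgroupOf H).Normal], Cfsg.IsBalancedFor p (↥H ⧸ (Subgroup.centralizer (L : Set G)).subgroupOf H)) : Cfsg.IsBalancedFor p G := by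
  intro x hx
  have hp : p.Prime := Fact.out
  rw [hO, le_bot_iff]
  refine CfsgH2.centralizerPPrimeCore_eq_bot_of_components hO hx (fun L hL => ?_)
  by_cases hne : ⁅L, Subgroup.zpowers x⁆ ≠ L
  · exact CfsgH2.commutator_centralizerPPrimeCore hO hx hL hne
  push Not at hne
  set Y := Cfsg.centralizerPPrimeCore p x with hY
  set C := Subgroup.centralizer ({x} : Set G) with hC
  have hperf := CfsgH2.IsComponent.commutator_self hL
  have hLp : p ∣ Nat.card L := CfsgH2.IsComponent.dvd_card_of_pPrimeCore_eq_bot hp hO hL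
  have hxL : x ∈ Subgroup.normalizer (L : Set G) := by
    have h1 : Subgroup.zpowers x ≤ Subgroup.normalizer (L : Set G) := by
      rw [Subgroup.le_normalizer_iff_commutator_le_left]; exact hne.le
    exact h1 (Subgroup.mem_zpowers x)
  have hYL : Y ≤ Subgroup.normalizer (L : Set G) := CfsgH2.centralizerPPrimeCore_le_normalizer hO hx hL
  have hxc : x ∉ Subgroup.centralizer (L : Set G) := by
    intro hxc
    apply CfsgH2.IsComponent.ne_bot hL
    rw [← hne, CfsgH2.commutator_eq_bot_iff_forall]
    intro l hl y hy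
    have : Subgroup.zpowers x ≤ Subgroup.centralizer (L : Set G) := by rw [Subgroup.zpowers_le]; exact hxc
    exact Subgroup.mem_centralizer_iff.mp (this hy) l hl
  -- the subgroup `H`
  set H := L ⊔ (Subgroup.normalizer (L : Set G) ⊓ C) with hH
  have hLH : L ≤ H := le_sup_left
  have hHL : H ≤ Subgroup.normalizer (L : Set G) := sup_le Subgroup.le_normalizer inf_le_left
  have hn1 : (L.subgroupOf H).Normal := CfsgH1.normal_subgroupOf_of_le_normalizer hHL
  haveI hn2 : ((Subgroup.centralizer (L : Set G)).subgroupOf H).Normal :=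
    CfsgH1.normal_subgroupOf_of_le_normalizer (hHL.trans (CfsgH2.normalizer_le_normalizer_centralizer L))
  have hbal := h L hL H hLH hn1
  set D := (Subgroup.centralizer (L : Set G)).subgroupOf H with hD
  set ρ := QuotientGroup.mk' D with hρ
  have hxC : x ∈ C := by rw [hC, Subgroup.mem_centralizer_iff]; rintro y rfl; rfl
  have hxH : x ∈ H := (le_sup_right : _ ≤ H) ⟨hxL, hxC⟩
  have hYC : Y ≤ C := CfsgH2.centralizerPPrimeCore_le x
  have hYH : Y ≤ H := le_trans (le_inf hYL hYC) le_sup_right
  have hρone : ∀ z : H, ρ z = 1 ↔ (z : G) ∈ Subgroup.centralizer (L : Set G) := fun z => QuotientGroup.eq_one_iff z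
  have hxp : x ^ p = 1 := by rw [← hx]; exact pow_orderOf_eq_one x
  have hox : orderOf (ρ ⟨x, hxH⟩) = p := by
    haveI : Fact p.Prime := ⟨hp⟩
    apply orderOf_eq_prime
    · rw [← map_pow]
      have : (⟨x, hxH⟩ : H) ^ p = 1 := Subtype.ext hxp
      rw [this, map_one]
    · intro h1
      exact hxc ((hρone _).mp h1)
  set Y' := (Y.subgroupOf H).map ρ with hY'
  -- `Y'` lies in the core of the centralizer of `ρ x`
  have hYle : Y' ≤ Cfsg.centralizerPPrimeCore p (ρ ⟨x, hxH⟩) := by
    apply CfsgH2.le_centralizerPPrimeCore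
    · rintro _ ⟨y, hy, rfl⟩
      rw [Subgroup.mem_centralizer_iff]
      rintro w rfl
      rw [← map_mul, ← map_mul]
      congr 1
      exact Subtype.ext (Subgroup.mem_centralizer_iff.mp (hYC hy) x rfl)
    · intro u hu
      obtain ⟨z, rfl⟩ := QuotientGroup.mk'_surjective D u
      have hcomm : ρ (⁅z, ⟨x, hxH⟩⁆) = 1 := by
        rw [map_commutatorElement, commutatorElement_eq_one_iff_mul_comm]
        exact (Subgroup.mem_centralizer_iff.mp hu _ rfl).symm
      have hz : (z : G) ∈ Subgroup.normalizer (Y : Set G) := by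
        have hz1 : (z : G) ∈ (Subgroup.normalizer (L : Set G) ⊓ C) ⊔ L := by rw [sup_comm]; exact z.2
        obtain ⟨c, hc, l, hl, hcl⟩ := CfsgH2.exists_mul_of_mem_sup inf_le_left hz1
        -- write `z = l' c`
        have hl' : c * l * c⁻¹ ∈ L := (Subgroup.mem_normalizer_iff.mp hc.1 l).mp hl
        have hzc : (z : G) = (c * l * c⁻¹) * c := by rw [← hcl]; group
        rw [hzc]
        refine mul_mem ?_ (CfsgH2.centralizer_le_normalizer_centralizerPPrimeCore x hc.2)
        apply CfsgH2.normalizer_sup_pCore_le_normalizer hx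
        -- `[l', x] ∈ O_p(G)`
        set l' := c * l * c⁻¹ with hl'def
        have hcx : c * x = x * c := (Subgroup.mem_centralizer_iff.mp hc.2 x rfl).symm
        have h2 : ⁅(z : G), x⁆ = ⁅l', x⁆ := by
          rw [hzc, commutatorElement_def, commutatorElement_def, mul_inv_rev]
          calc l' * c * x * (c⁻¹ * l'⁻¹) * x⁻¹ = l' * (c * x) * c⁻¹ * l'⁻¹ * x⁻¹ := by group
            _ = l' * (x * c) * c⁻¹ * l'⁻¹ * x⁻¹ := by rw [hcx]
            _ = _ := by group
        have h3 : ⁅l', x⁆ ∈ Subgroup.centralizer (L : Set G) := by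
          rw [← h2]; exact (hρone _).mp hcomm
        have h4 : ⁅l', x⁆ ∈ L := by
          rw [commutatorElement_def, mul_assoc, mul_assoc]
          refine L.mul_mem hl' ?_
          have := (Subgroup.mem_normalizer_iff.mp hxL l'⁻¹).mp (L.inv_mem hl')
          simpa [mul_assoc] using this
        have h5 : ⁅l', x⁆ ∈ Cfsg.pCore p G := by
          apply CfsgH2.mem_pCore_of_center_layer hO (CfsgH2.IsComponent.le_layer hL h4)
          rw [Subgroup.mem_centralizer_iff]
          intro y hy
          have h6 : Cfsg.layer G ≤ Subgroup.centralizer {⁅l', x⁆} := by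
            rw [CfsgH2.layer_eq_sup_otherComps hL]
            refine sup_le ?_ ?_
            · intro w hw
              rw [Subgroup.mem_centralizer_iff]
              rintro v rfl
              exact (Subgroup.mem_centralizer_iff.mp h3 w hw).symm
            · intro w hw
              rw [Subgroup.mem_centralizer_iff]
              rintro v rfl
              exact CfsgH2.commutator_eq_bot_iff_forall.mp (CfsgH2.commutator_otherComps hL) _ h4 w hw
          exact (Subgroup.mem_centralizer_iff.mp (h6 hy) _ rfl).symm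
        rw [CfsgH2.mem_normalizer_iff_map_conj, Subgroup.map_sup, CfsgH2.map_conj_of_normal (Cfsg.pCore p G)]
        have hxin : ∀ w : G, ⁅w, x⁆ ∈ Cfsg.pCore p G →
            (Subgroup.zpowers x).map (MulAut.conj w).toMonoidHom ≤ Subgroup.zpowers x ⊔ Cfsg.pCore p G := by
          intro w hw
          rw [MonoidHom.map_zpowers, Subgroup.zpowers_le]
          have : (MulAut.conj w).toMonoidHom x = ⁅w, x⁆ * x := by
            simp [commutatorElement_def, MulAut.conj_apply]
          rw [this]
          exact mul_mem ((le_sup_right : _ ≤ Subgroup.zpowers x ⊔ Cfsg.pCore p G) hw)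
            ((le_sup_left : _ ≤ Subgroup.zpowers x ⊔ Cfsg.pCore p G) (Subgroup.mem_zpowers x))
        apply le_antisymm
        · exact sup_le (hxin l' h5) le_sup_right
        · refine sup_le ?_ le_sup_right
          have h7 : ⁅l'⁻¹, x⁆ ∈ Cfsg.pCore p G := by
            have hn : (Cfsg.pCore p G).Normal := inferInstance
            have := hn.conj_mem _ ((Cfsg.pCore p G).inv_mem h5) l'⁻¹
            have h8 : l'⁻¹ * ⁅l', x⁆⁻¹ * l'⁻¹⁻¹ = ⁅l'⁻¹, x⁆ := by
              simp only [commutatorElement_def]; group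
            rwa [h8] at this
          have h8 := Subgroup.map_mono (f := (MulAut.conj l').toMonoidHom) (hxin l'⁻¹ h7)
          rw [← CfsgH2.map_conj_mul, mul_inv_cancel, CfsgH2.map_conj_one, Subgroup.map_sup,
            CfsgH2.map_conj_of_normal (Cfsg.pCore p G)] at h8
          exact h8
      -- so `ρ z` normalizes `Y'`
      have h9 : z ∈ Subgroup.normalizer ((Y.subgroupOf H : Subgroup H) : Set H) := by
        rw [Subgroup.mem_normalizer_iff]
        intro w
        rw [Subgroup.mem_subgroupOf, Subgroup.mem_subgroupOf]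
        exact Subgroup.mem_normalizer_iff.mp hz w
      exact Subgroup.le_normalizer_map ρ ⟨z, h9, rfl⟩
    · refine Nat.Coprime.coprime_dvd_left (Subgroup.card_map_dvd _ _) ?_
      rw [Nat.card_congr (Subgroup.subgroupOfEquivOfLe hYH).toEquiv]
      exact CfsgH2.coprime_card_centralizerPPrimeCore x
  have hYO : Y' ≤ Cfsg.pPrimeCore p (H ⧸ D) := hYle.trans (hbal _ hox)
  -- the image of `L`
  have hL' : Cfsg.IsComponent (L.subgroupOf H) := CfsgH2.IsComponent.subgroupOf hL hLH
  have hcomm : ⁅(L.subgroupOf H).map ρ, Y'⁆ = ⊥ := by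
    rcases CfsgH2.IsComponent.map_mk'_isComponent_or hL' D with hc | hc
    · have hn : (Cfsg.pPrimeCore p (H ⧸ D)).Normal := inferInstance
      rcases CfsgH2.IsComponent.le_or_commutator_eq_bot hc hn.isSubnormal with h1 | h1
      · exfalso
        let f : L →* H ⧸ D := ρ.comp (Subgroup.inclusion hLH)
        have hker : f.ker ≤ Subgroup.center L := by
          intro l hl
          have h2 : (l : G) ∈ Subgroup.centralizer (L : Set G) := (hρone (Subgroup.inclusion hLH l)).mp hl
          rw [Subgroup.mem_center_iff]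
          intro w
          exact Subtype.ext (Subgroup.mem_centralizer_iff.mp h2 w w.2)
        have h2 : p ∣ (Subgroup.center L).index := CfsgH2.IsQuasisimple.dvd_index_center hL.2 hp hLp
        have h3 : (Subgroup.center L).index ∣ f.ker.index := Subgroup.index_dvd_of_le hker
        rw [Subgroup.index_ker] at h3
        have h4 : f.range ≤ Cfsg.pPrimeCore p (H ⧸ D) := by
          rintro _ ⟨l, rfl⟩
          exact h1 ⟨Subgroup.inclusion hLH l, l.2, rfl⟩
        have h5 := (h2.trans h3).trans (Subgroup.card_dvd_of_le h4)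
        exact (hp.coprime_iff_not_dvd.mp (CfsgH2.coprime_card_pPrimeCore (G := H ⧸ D) p).symm) h5
      · rw [← le_bot_iff, ← h1]
        exact Subgroup.commutator_mono le_rfl hYO
    · rw [hc, Subgroup.commutator_bot_left]
  have hLY : ⁅L, Y⁆ ≤ Subgroup.centralizer (L : Set G) := by
    rw [Subgroup.commutator_le]
    intro l hl y hy
    have h1 := CfsgH2.commutator_eq_bot_iff_forall.mp hcomm (ρ ⟨l, hLH hl⟩) ⟨_, hl, rfl⟩ (ρ ⟨y, hYH hy⟩) ⟨_, hy, rfl⟩
    have h2 : ρ ⁅(⟨l, hLH hl⟩ : H), ⟨y, hYH hy⟩⁆ = 1 := by
      rw [map_commutatorElement, commutatorElement_eq_one_iff_mul_comm]; exact h1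
    exact (hρone _).mp h2
  apply CfsgH2.commutator_eq_bot_of_perfect hperf
  rw [Subgroup.commutator_comm Y L, Subgroup.commutator_eq_bot_iff_le_centralizer]
  exact hLY

end Cfsg.Agent.S1271
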