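import Cfsg.Statements.S1273
import Cfsg.Agent.H2.PLayer2

set_option autoImplicit false
open Cfsg

namespace Cfsg.Agent.S1273

/-- Let K be a p-component of the finite group X and N a normal subgroup of K whose index in K is prime to p. Then N = K. -/
theorem result {X : Type*} [Group X] [Finite X] (p : ℕ) [Fact p.Prime] (K : Subgroup X) (hK : Cfsg.IsPComponent p K) (N : Subgroup ↥K) [N.Normal] (hidx : (N.index).Coprime p) : N = ⊤ := by
  have hp : p.Prime := Fact.out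
  have hKg : K = CfsgH2.pElemGen p (K ⊔ Cfsg.pPrimeCore p X) := (CfsgH2.IsPComponent.eq_pElemGen hK).symm
  -- every `p`-element of `K` lies in `N`
  have h1 : CfsgH2.pElemGen p (K ⊔ Cfsg.pPrimeCore p X) ≤ N.map K.subtype := by
    refine (Subgroup.closure_le _).mpr ?_
    rintro x ⟨hx, k, hk⟩
    have hxK : x ∈ K := by
      rw [hKg]
      exact CfsgH2.mem_pElemGen hx hk
    refine ⟨⟨x, hxK⟩, ?_, rfl⟩
    have h2 : (⟨x, hxK⟩ : K) ^ N.index ∈ N := Subgroup.pow_index_mem N _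
    have h3 : (⟨x, hxK⟩ : K) ^ p ^ k ∈ N := by
      have : (⟨x, hxK⟩ : K) ^ p ^ k = 1 := Subtype.ext hk
      rw [this]; exact N.one_mem
    have hcop : (N.index).Coprime (p ^ k) := Nat.Coprime.pow_right k hidx
    have h4 := Nat.gcd_eq_gcd_ab N.index (p ^ k)
    rw [Nat.Coprime.gcd_eq_one hcop] at h4
    have h5 : (⟨x, hxK⟩ : K) = (⟨x, hxK⟩ : K) ^ ((N.index : ℤ) * N.index.gcdA (p ^ k) + ((p ^ k : ℕ) : ℤ) * N.index.gcdB (p ^ k)) := by
      rw [← h4]; simp
    rw [SetLike.mem_coe, h5, zpow_add, zpow_mul, zpow_mul, zpow_natCast, zpow_natCast]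
    exact N.mul_mem (N.zpow_mem h2 _) (N.zpow_mem h3 _)
  rw [eq_top_iff]
  intro x _
  have hx : (x : X) ∈ CfsgH2.pElemGen p (K ⊔ Cfsg.pPrimeCore p X) := by
    rw [← hKg]; exact x.2
  obtain ⟨y, hy, hyx⟩ := h1 hx
  have : y = x := Subtype.ext hyx
  rwa [← this]

end Cfsg.Agent.S1273
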