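import Cfsg.Statements.S1276
import Cfsg.Agent.H2.PLayer2

set_option autoImplicit false
open Cfsg

namespace Cfsg.Agent.S1276

/-- Let K be a 2-component of the finite group X. Then K is quasisimple if and only if ⁅K, O(K)⁆ = 1. -/
theorem result {X : Type*} [Group X] [Finite X] (K : Subgroup X) (hK : Cfsg.IsPComponent 2 K) : Cfsg.IsQuasisimple ↥K ↔ ⁅K, ((Cfsg.oddCore ↥K).map K.subtype)⁆ = ⊥ := by
  haveI : Fact (Nat.Prime 2) := ⟨Nat.prime_two⟩
  have hperf : Group.IsPerfect K := Subgroup.isPerfect_iff.mpr (CfsgH2.IsPComponent.commutator_self hK)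
  constructor
  · intro hq
    have h1 : Cfsg.oddCore K ≤ Subgroup.center K := by
      rcases CfsgH2.IsQuasisimple.normal_eq_top_or_le_center hq (Cfsg.oddCore K) with h | h
      · exfalso
        have h2 := CfsgH2.coprime_card_pPrimeCore (G := K) 2
        rw [show Cfsg.pPrimeCore 2 K = Cfsg.oddCore K from rfl, h, Subgroup.card_top] at h2
        have h3 := CfsgH2.IsPComponent.dvd_card hK
        rw [Nat.coprime_comm, Nat.prime_two.coprime_iff_not_dvd] at h2
        exact h2 h3
      · exact h
    rw [CfsgH2.commutator_eq_bot_iff_forall]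
    rintro x hx _ ⟨y, hy, rfl⟩
    have := Subgroup.mem_center_iff.mp (h1 hy) ⟨x, hx⟩
    exact congrArg Subtype.val this
  · intro h
    refine CfsgH2.isQuasisimple_of_quotient_center hperf (N := Cfsg.oddCore K) ?_
      (CfsgH2.IsPComponent.isQuasisimple_quotient hK)
    intro y hy
    rw [Subgroup.mem_center_iff]
    intro x
    exact Subtype.ext (CfsgH2.commutator_eq_bot_iff_forall.mp h x x.2 y ⟨y, hy, rfl⟩)

end Cfsg.Agent.S1276
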