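import Cfsg.Statements.S1277
import Cfsg.Agent.H2.PLayer2

set_option autoImplicit false
open Cfsg

namespace Cfsg.Agent.S1277

/-- For a finite group X with core O(X): the image of E(X) in X / O(X) is all of E(X / O(X)) if and only if every 2-component of X is a component, i.e. L_{2'}(X) ≤ E(X). -/
theorem result {X : Type*} [Group X] [Finite X] : (Cfsg.layer X).map (QuotientGroup.mk' (Cfsg.oddCore X)) = Cfsg.layer (X ⧸ Cfsg.oddCore X) ↔ Cfsg.pLayer 2 X ≤ Cfsg.layer X := by
  haveI : Fact (Nat.Prime 2) := ⟨Nat.prime_two⟩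
  set O := Cfsg.pPrimeCore 2 X with hO
  constructor
  · intro h
    refine sSup_le fun K hK => ?_
    set π := QuotientGroup.mk' O with hπ
    have hKbar := hK.2.1
    -- some component of `X` has the same image
    by_cases hex : ∃ L : Subgroup X, Cfsg.IsComponent L ∧ L.map π = K.map π
    · obtain ⟨L, hL, hLK⟩ := hex
      have h2 : L ⊔ O = K ⊔ O := by
        rw [← CfsgH2.comap_map_mk'_eq_sup, ← CfsgH2.comap_map_mk'_eq_sup]
        rw [hLK]
      have h3 := CfsgH2.pElemGen_sup_le Nat.prime_two (N := O) (CfsgH2.coprime_card_pPrimeCore 2) hL.1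
      rw [h2, CfsgH2.IsPComponent.eq_pElemGen hK] at h3
      exact h3.trans (CfsgH2.IsComponent.le_layer hL)
    · exfalso
      push Not at hex
      have h2 : (Cfsg.layer X).map π ≤ Subgroup.centralizer ((K.map π : Subgroup (X ⧸ O)) : Set (X ⧸ O)) := by
        rw [Subgroup.map_le_iff_le_comap]
        refine sSup_le fun L hL => ?_
        rw [← Subgroup.map_le_iff_le_comap]
        rcases CfsgH2.IsComponent.map_mk'_isComponent_or hL O with h' | h'
        · rw [← Subgroup.commutator_eq_bot_iff_le_centralizer]
          exact CfsgH2.IsComponent.commutator_eq_bot_of_ne h' hKbar (hex L hL)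
        · rw [← hπ] at h'
          rw [h']; exact bot_le
      have h3 : K.map π ≤ Subgroup.centralizer ((K.map π : Subgroup (X ⧸ O)) : Set (X ⧸ O)) := by
        refine le_trans ?_ h2
        have h4 : (Cfsg.layer X).map π = Cfsg.layer (X ⧸ O) := h
        rw [h4]
        exact CfsgH2.IsComponent.le_layer hKbar
      rw [← Subgroup.commutator_eq_bot_iff_le_centralizer, CfsgH2.IsComponent.commutator_self hKbar] at h3
      exact CfsgH2.IsComponent.ne_bot hKbar h3
  · intro h
    apply le_antisymm (CfsgH2.map_layer_le _)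
    have h2 := CfsgH2.map_pLayer (G := X) (p := 2)
    rw [← h2]
    exact Subgroup.map_mono h

end Cfsg.Agent.S1277
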