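import Cfsg.Statements.S1278
import Cfsg.Agent.H2.PLayer2

set_option autoImplicit false
open Cfsg

namespace Cfsg.Agent.S1278

/-- Let K ≠ L be 2-components of the finite group X. Then ⁅K, L⁆ ≤ O(K) ⊓ O(L), and if K is quasisimple then ⁅K, L⁆ = 1. -/
theorem result {X : Type*} [Group X] [Finite X] (K L : Subgroup X) (hK : Cfsg.IsPComponent 2 K) (hL : Cfsg.IsPComponent 2 L) (hne : K ≠ L) : ⁅K, L⁆ ≤ ((Cfsg.oddCore ↥K).map K.subtype) ⊓ ((Cfsg.oddCore ↥L).map L.subtype) ∧ (Cfsg.IsQuasisimple ↥K → ⁅K, L⁆ = ⊥) := by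
  haveI : Fact (Nat.Prime 2) := ⟨Nat.prime_two⟩
  have h1 := CfsgH2.IsPComponent.commutator_le hK hL hne
  refine ⟨?_, ?_⟩
  · rw [CfsgH2.IsPComponent.pPrimeCore_map hK, CfsgH2.IsPComponent.pPrimeCore_map hL]
    exact le_inf (le_inf (h1.trans (inf_le_left.trans inf_le_left)) (h1.trans inf_le_right))
      (le_inf (h1.trans (inf_le_left.trans inf_le_right)) (h1.trans inf_le_right))
  · intro hq
    rcases CfsgH2.IsComponent.le_or_commutator_eq_bot (L := K) ⟨hK.1, hq⟩ hL.1 with h | h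
    · exfalso
      apply hne
      exact CfsgH2.IsPComponent.eq_of_perfect_subnormal hL h hK.1 (CfsgH2.IsPComponent.commutator_self hK)
        (CfsgH2.IsPComponent.dvd_card hK)
    · exact h

end Cfsg.Agent.S1278
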