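import Cfsg.Statements.S1279
import Cfsg.Agent.H2.Signalizer

set_option autoImplicit false
open Cfsg
open scoped commutatorElement

namespace Cfsg.Agent.S1279

/-- Let A be a noncyclic elementary abelian p-subgroup of the finite group G such that C_G(a) is solvable for every non-identity a ∈ A. Then a ↦ O_{p'}(C_G(a)) is a solvable A-signalizer functor on G. -/
theorem result {G : Type*} [Group G] [Finite G] (p : ℕ) [Fact p.Prime] (A : Subgroup G) (hA : Cfsg.IsElementaryAbelian p A) (hA2 : p ^ 2 ≤ Nat.card ↥A) (hsolv : ∀ a ∈ A, a ≠ 1 → Group.IsSolvable ↥(Subgroup.centralizer ({a} : Set G))) : Cfsg.IsSolvableSignalizerFunctor p A (fun a => Cfsg.centralizerPPrimeCore p a) := by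
  have hp : p.Prime := Fact.out
  have hcomm := CfsgH2.IsElementaryAbelian.comm hA
  have hord : ∀ a ∈ A, a ≠ 1 → orderOf a = p := fun a ha ha1 => orderOf_eq_prime (hA.2 a ha) ha1
  refine ⟨⟨?_, ?_, ?_, ?_⟩, ?_⟩
  · intro a _ _; exact CfsgH2.centralizerPPrimeCore_le a
  · intro a _ _; exact CfsgH2.not_dvd_of_coprime (CfsgH2.coprime_card_centralizerPPrimeCore a)
  · intro a ha _ b hb x hx
    refine CfsgH2.conj_of_le_normalizer (CfsgH2.centralizer_le_normalizer_centralizerPPrimeCore a) b ?_ x hx
    rw [CfsgH2.mem_centralizer_singleton]; exact hcomm a ha b hb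
  · intro a ha ha1 b hb hb1
    set C := Subgroup.centralizer ({b} : Set G) with hC
    have haC : a ∈ C := by rw [hC, CfsgH2.mem_centralizer_singleton]; exact hcomm b hb a ha
    have hsC : Group.IsSolvable C := hsolv b hb hb1
    have h1 := CfsgH2.centralizerPPrimeCore_le_pPrimeCore (G := C) (p := p) (x := ⟨a, haC⟩)
      (CfsgH2.pLayer_eq_bot_of_isSolvable hsC) (by rw [Subgroup.orderOf_mk]; exact hord a ha ha1)
    set D := Cfsg.centralizerPPrimeCore p a ⊓ C with hD
    have h2 : D.subgroupOf C ≤ Cfsg.centralizerPPrimeCore p (⟨a, haC⟩ : C) := by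
      apply CfsgH2.le_centralizerPPrimeCore
      · intro x hx
        rw [CfsgH2.mem_centralizer_singleton]
        exact Subtype.ext (CfsgH2.mem_centralizer_singleton.mp (CfsgH2.centralizerPPrimeCore_le a hx.1))
      · intro x hx
        have hx' : (x : G) ∈ Subgroup.centralizer ({a} : Set G) := by
          rw [CfsgH2.mem_centralizer_singleton]
          exact congrArg Subtype.val (CfsgH2.mem_centralizer_singleton.mp hx)
        have h3 : (x : G) ∈ Subgroup.normalizer (D : Set G) := by
          have h4 : (x : G) ∈ Subgroup.normalizer (Cfsg.centralizerPPrimeCore p a : Set G) :=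
            CfsgH2.centralizer_le_normalizer_centralizerPPrimeCore a hx'
          have h5 : Subgroup.zpowers (x : G) ≤ Subgroup.normalizer (D : Set G) := by
            apply CfsgH1.le_normalizer_inf
            · rw [Subgroup.zpowers_le]; exact h4
            · rw [Subgroup.zpowers_le]; exact Subgroup.le_normalizer x.2
          exact h5 (Subgroup.mem_zpowers _)
        rw [Subgroup.mem_normalizer_iff]
        intro w
        rw [Subgroup.mem_subgroupOf, Subgroup.mem_subgroupOf]
        exact Subgroup.mem_normalizer_iff.mp h3 w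
      · rw [Nat.card_congr (Subgroup.subgroupOfEquivOfLe (inf_le_right : D ≤ C)).toEquiv]
        exact Nat.Coprime.coprime_dvd_left (Subgroup.card_dvd_of_le inf_le_left)
          (CfsgH2.coprime_card_centralizerPPrimeCore a)
    intro x hx
    exact ⟨⟨x, hx.2⟩, h1 (h2 hx), rfl⟩
  · intro a ha ha1
    exact CfsgH1.isSolvable_of_le (hsolv a ha ha1) (CfsgH2.centralizerPPrimeCore_le a)

end Cfsg.Agent.S1279
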