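import Cfsg.Statements.S1281
import Cfsg.Agent.H2.Signalizer

set_option autoImplicit false
open Cfsg
open scoped commutatorElement

namespace Cfsg.Agent.S1281

/-- Let θ be a solvable A-signalizer functor on the finite group G (A a noncyclic elementary abelian p-subgroup) and N a normal subgroup of order prime to p. Then for all non-identity a, b ∈ A, the image of θ a in G / N meets the centralizer of the image of b inside the image of θ b. -/
theorem result {G : Type*} [Group G] [Finite G] (p : ℕ) [Fact p.Prime] (A : Subgroup G) (hA : Cfsg.IsElementaryAbelian p A) (hA2 : p ^ 2 ≤ Nat.card ↥A) (θ : G → Subgroup G) (hθ : Cfsg.IsSolvableSignalizerFunctor p A θ) (N : Subgroup G) [N.Normal] (hN : ¬ p ∣ Nat.card ↥N) (a b : G) (ha : a ∈ A) (ha1 : a ≠ 1) (hb : b ∈ A) (hb1 : b ≠ 1) : (θ a).map (QuotientGroup.mk' N) ⊓ Subgroup.centralizer {QuotientGroup.mk' N b} ≤ (θ b).map (QuotientGroup.mk' N) := by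
  rintro _ ⟨⟨x, hx, rfl⟩, hxb⟩
  have hbz : Subgroup.zpowers b ≤ A := by rw [Subgroup.zpowers_le]; exact hb
  have hθa := CfsgH2.theta_mem_family hθ ha ha1
  have hbn : Subgroup.zpowers b ≤ Subgroup.normalizer (θ a : Set G) := hbz.trans (CfsgH2.family_le_normalizer hθa)
  have hcopN : (Nat.card (Subgroup.zpowers b)).Coprime (Nat.card ↥(θ a ⊓ N)) :=
    Nat.Coprime.coprime_dvd_right (Subgroup.card_dvd_of_le inf_le_left)
      (CfsgH2.zpowers_card_coprime hA hb hθa.2.1)
  obtain ⟨c, hc, hc'⟩ := CfsgH1.exists_fixed_in_coset (A := Subgroup.zpowers b) (D := θ a ⊓ N)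
    (CfsgH1.le_normalizer_inf hbn (CfsgH1.le_normalizer_of_normal _ _)) hcopN (Or.inl inferInstance) x (by
      intro y hy
      refine ⟨?_, ?_⟩
      · exact (θ a).mul_mem ((θ a).inv_mem hx) ((Subgroup.mem_normalizer_iff.mp (hbn hy) x).mp hx)
      · have h5 : QuotientGroup.mk' N x ∈ Subgroup.centralizer (Subgroup.zpowers (QuotientGroup.mk' N b) : Set (G ⧸ N)) := by
          rw [CfsgH2.centralizer_zpowers_eq]; exact hxb
        have h4 := Subgroup.mem_centralizer_iff.mp h5 (QuotientGroup.mk' N y) (by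
          rw [SetLike.mem_coe, ← MonoidHom.map_zpowers]; exact ⟨y, hy, rfl⟩)
        apply (QuotientGroup.eq_one_iff _).mp
        change QuotientGroup.mk' N (x⁻¹ * (y * x * y⁻¹)) = 1
        rw [map_mul, map_mul, map_mul, map_inv, map_inv, h4]; group)
  have hcθ : c ∈ θ a := by
    have : c = x * (x⁻¹ * c) := by group
    rw [this]; exact (θ a).mul_mem hx hc'.1
  refine ⟨c, hθ.1.2.2.2 a ha ha1 b hb hb1 ⟨hcθ, ?_⟩, (QuotientGroup.eq.mpr hc'.2).symm⟩
  rw [CfsgH2.centralizer_zpowers_eq] at hc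
  exact hc

end Cfsg.Agent.S1281
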