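import Cfsg.Statements.S1284
import Cfsg.Agent.H2.Signalizer

set_option autoImplicit false
open Cfsg
open scoped commutatorElement

namespace Cfsg.Agent.S1284

/-- Let θ be a solvable A-signalizer functor on the finite group G, A elementary abelian of rank at least 3, q a prime dividing some |θ a|, and Q maximal among the q-subgroups in the family of θ. Then (a) for every member H of the family, some c in the intersection of the θ a (a ∈ A non-identity) makes c Q c⁻¹ ∩ H a Sylow q-subgroup of H; and (b) for every nontrivial subgroup B ≤ A, C_Q(B) is a Sylow q-subgroup of the intersection of the θ b over the non-identity b ∈ B. -/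
theorem result {G : Type*} [Group G] [Finite G] (p : ℕ) [Fact p.Prime] (A : Subgroup G) (hA : Cfsg.IsElementaryAbelian p A) (hA3 : p ^ 3 ≤ Nat.card ↥A) (θ : G → Subgroup G) (hθ : Cfsg.IsSolvableSignalizerFunctor p A θ) (q : ℕ) [Fact q.Prime] (hq : ∃ a ∈ A, a ≠ 1 ∧ q ∣ Nat.card ↥(θ a)) (Q : Subgroup G) (hQW : Q ∈ Cfsg.signalizerFamily p A θ) (hQq : IsPGroup q ↥Q) (hQmax : ∀ R ∈ Cfsg.signalizerFamily p A θ, IsPGroup q ↥R → Q ≤ R → R = Q) : (∀ H : Subgroup G, H ∈ Cfsg.signalizerFamily p A θ → ∃ c ∈ Cfsg.signalizerInf A θ, ∃ S : Sylow q ↥H, (S : Subgroup ↥H).map H.subtype = Q.map (MulAut.conj c).toMonoidHom ⊓ H) ∧ (∀ B : Subgroup G, B ≤ A → B ≠ ⊥ → ∃ S : Sylow q ↥(Cfsg.signalizerInf B θ), (S : Subgroup ↥(Cfsg.signalizerInf B θ)).map (Cfsg.signalizerInf B θ).subtype = Q ⊓ Subgroup.centralizer (B : Set G)) := by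
  obtain ⟨a, ha, ha1, hqa⟩ := hq
  have hqp : q ≠ p := by
    rintro rfl
    exact hθ.1.2.1 a ha ha1 hqa
  have hpf : Fact p.Prime := inferInstance
  have hAp := CfsgH2.IsElementaryAbelian.isPGroup hA
  have hAs : Group.IsSolvable A := CfsgH1.isSolvable_of_isPGroup hAp
  have hcop : ∀ U : Subgroup G, U ∈ Cfsg.signalizerFamily p A θ → (Nat.card A).Coprime (Nat.card U) := by
    intro U hU
    obtain ⟨k, hk⟩ := IsPGroup.iff_card.mp hAp
    rw [hk]; exact ((CfsgH2.coprime_of_not_dvd hU.2.1).pow_right k).symm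
  have part1 : ∀ H : Subgroup G, H ∈ Cfsg.signalizerFamily p A θ →
      ∃ c ∈ Cfsg.signalizerInf A θ, CfsgH1.IsSylowOf q (Q.map (MulAut.conj c).toMonoidHom ⊓ H) H := by
    intro H hH
    obtain ⟨R, hR, hRA⟩ := (CfsgH1.coprime_sylow (CfsgH2.family_le_normalizer hH) (hcop H hH) (Or.inl hAs) q).1
    have hRf : R ∈ Cfsg.signalizerFamily p A θ := CfsgH2.family_mono hH (CfsgH1.isSylowOf_le hR) hRA
    obtain ⟨S, hS, hRS⟩ := CfsgH2.exists_isMaxQ hRf (CfsgH1.isSylowOf_isPGroup hR)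
    obtain ⟨c, hc, hc'⟩ := CfsgH2.transitivity hA hA3 hθ hqp Q S ⟨hQW, hQq, hQmax⟩ hS
    refine ⟨c, hc, ?_⟩
    rw [hc']
    rw [CfsgH1.isSylowOf_iff] at hR ⊢
    refine ⟨inf_le_right, hS.2.1.to_le inf_le_left, fun hd => hR.2.2 ?_⟩
    exact hd.trans (Subgroup.relIndex_dvd_of_le_left H (le_inf hRS hR.1))
  refine ⟨?_, ?_⟩
  · intro H hH
    obtain ⟨c, hc, S, hS⟩ := part1 H hH
    exact ⟨c, hc, S, hS⟩
  · intro B hBA hB
    obtain ⟨b, hb, hb1⟩ : ∃ b ∈ B, b ≠ 1 := by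
      by_contra hcon
      push Not at hcon
      exact hB (by rw [eq_bot_iff]; intro y hy; exact hcon y hy)
    set Θ := Cfsg.signalizerInf B θ with hΘ
    have hΘle : ∀ d ∈ B, d ≠ 1 → Θ ≤ θ d := fun d hd hd1 =>
      iInf_le (fun a : {a : G // a ∈ B ∧ a ≠ 1} => θ (a : G)) ⟨d, hd, hd1⟩
    have hΘf : Θ ∈ Cfsg.signalizerFamily p A θ := by
      refine CfsgH2.family_mono (CfsgH2.theta_mem_family hθ (hBA hb) hb1) (hΘle b hb hb1) ?_
      apply CfsgH2.le_normalizer_of_conj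
      intro x hx u hu
      rw [hΘ, Cfsg.signalizerInf, Subgroup.mem_iInf] at hu ⊢
      intro d
      exact hθ.1.2.2.1 d (hBA d.2.1) d.2.2 x hx u (hu d)
    obtain ⟨c, hc, hS⟩ := part1 Θ hΘf
    -- `c ∈ Θ`
    have hcΘ : c ∈ Θ := by
      rw [hΘ, Cfsg.signalizerInf, Subgroup.mem_iInf]
      intro d
      exact CfsgH2.inf_le_theta hc (hBA d.2.1) d.2.2
    have h1 : CfsgH1.IsSylowOf q ((Q.map (MulAut.conj c).toMonoidHom ⊓ Θ).map (MulAut.conj c⁻¹).toMonoidHom) Θ :=
      CfsgH1.isSylowOf_conj hS (g := c⁻¹) (Subgroup.le_normalizer (Θ.inv_mem hcΘ))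
    have h2 : (Q.map (MulAut.conj c).toMonoidHom ⊓ Θ).map (MulAut.conj c⁻¹).toMonoidHom = Q ⊓ Subgroup.centralizer (B : Set G) := by
      have h3 : Q ⊓ Θ = Q ⊓ Subgroup.centralizer (B : Set G) := by
        apply le_antisymm
        · refine le_inf inf_le_left (inf_le_right.trans ?_)
          intro x hx
          rw [Subgroup.mem_centralizer_iff]
          intro d hd
          by_cases hd1 : d = 1
          · rw [hd1, one_mul, mul_one]
          · exact CfsgH2.mem_centralizer_singleton.mp (hθ.1.1 d (hBA hd) hd1 (hΘle d hd hd1 hx))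
        · refine le_inf inf_le_left ?_
          refine le_iInf fun d => ?_
          refine le_trans (inf_le_inf_left _ (Subgroup.centralizer_le (Set.singleton_subset_iff.mpr d.2.1))) ?_
          exact hQW.2.2.2 d (hBA d.2.1) d.2.2
      rw [← h3]
      rw [Subgroup.map_inf _ _ _ (MulAut.conj c⁻¹).injective, ← CfsgH2.map_conj_mul, inv_mul_cancel, CfsgH2.map_conj_one,
        CfsgH2.mem_normalizer_iff_map_conj.mp (Subgroup.le_normalizer (Θ.inv_mem hcΘ))]
    rw [h2] at h1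
    obtain ⟨S, hS'⟩ := h1
    exact ⟨S, hS'⟩

end Cfsg.Agent.S1284
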