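import Cfsg.Statements.S1285
import Cfsg.Agent.H2.Signalizer

set_option autoImplicit false
open Cfsg
open scoped commutatorElement

namespace Cfsg.Agent.S1285

/-- Let θ be a solvable A-signalizer functor on the finite group G with A elementary abelian of rank at least 3, and suppose that for some prime q every θ a (a ∈ A non-identity) is a q-group. Then θ is complete. -/
theorem result {G : Type*} [Group G] [Finite G] (p : ℕ) [Fact p.Prime] (A : Subgroup G) (hA : Cfsg.IsElementaryAbelian p A) (hA3 : p ^ 3 ≤ Nat.card ↥A) (θ : G → Subgroup G) (hθ : Cfsg.IsSolvableSignalizerFunctor p A θ) (q : ℕ) [Fact q.Prime] (hq : ∀ a ∈ A, a ≠ 1 → IsPGroup q ↥(θ a)) : Cfsg.IsCompleteSignalizerFunctor p A θ := by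
  have hp : p.Prime := Fact.out
  refine ⟨hθ.1, ?_⟩
  by_cases hall : ∀ a ∈ A, a ≠ 1 → θ a = ⊥
  · refine ⟨⊥, ?_, ?_, ?_⟩
    · rintro b _ x hx
      rw [Subgroup.mem_bot] at hx ⊢
      rw [hx, mul_one, mul_inv_cancel]
    · rw [Subgroup.card_bot]; exact hp.one_lt.ne' ∘ Nat.dvd_one.mp
    · intro a ha ha1
      rw [hall a ha ha1, bot_inf_eq]
  push Not at hall
  obtain ⟨a₀, ha₀, ha₀1, hne⟩ := hall
  have hqa : q ∣ Nat.card (θ a₀) := by
    obtain ⟨k, hk⟩ := IsPGroup.iff_card.mp (hq a₀ ha₀ ha₀1)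
    rw [hk]
    have : k ≠ 0 := by
      rintro rfl
      rw [pow_zero, Subgroup.card_eq_one] at hk
      exact hne hk
    exact dvd_pow_self q this
  have hqp : q ≠ p := by
    rintro rfl
    exact hθ.1.2.1 a₀ ha₀ ha₀1 hqa
  obtain ⟨Q, hQ, hQle⟩ := CfsgH2.exists_isMaxQ (CfsgH2.theta_mem_family hθ ha₀ ha₀1) (hq a₀ ha₀ ha₀1)
  refine ⟨Q, hQ.1.2.2.1, hQ.1.2.1, ?_⟩
  intro a ha ha1
  apply le_antisymm (hQ.1.2.2.2 a ha ha1)
  refine le_inf ?_ (hθ.1.1 a ha ha1)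
  obtain ⟨S, hS, haS⟩ := CfsgH2.exists_isMaxQ (CfsgH2.theta_mem_family hθ ha ha1) (hq a ha ha1)
  obtain ⟨c, hc, hc'⟩ := CfsgH2.transitivity hA hA3 hθ hqp S Q hS hQ
  have h1 : (θ a).map (MulAut.conj c).toMonoidHom = θ a :=
    CfsgH2.mem_normalizer_iff_map_conj.mp (Subgroup.le_normalizer (CfsgH2.inf_le_theta hc ha ha1))
  rw [← h1, ← hc']
  exact Subgroup.map_mono haS

end Cfsg.Agent.S1285
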