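import Cfsg.Statements.S1286
import Cfsg.Agent.H2.Basic

set_option autoImplicit false
open Cfsg
open scoped commutatorElement

namespace Cfsg.Agent.S1286

abbrev P5 := Equiv.Perm (Fin 5)
def ea : P5 := Equiv.swap 3 4
def eb : P5 := Equiv.swap 0 1
def ex : P5 := Equiv.swap 0 1 * Equiv.swap 1 2
def ey : P5 := Equiv.swap 2 3 * Equiv.swap 3 4

theorem mem3 {z x : P5} (hx : x ^ 3 = 1) (hz : z ∈ Subgroup.zpowers x) : z = 1 ∨ z = x ∨ z = x ^ 2 := by
  rw [← mem_powers_iff_mem_zpowers] at hz
  obtain ⟨n, rfl⟩ := hz
  have h : ∀ n : ℕ, x ^ n = 1 ∨ x ^ n = x ∨ x ^ n = x ^ 2 := by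
    intro n
    induction n with
    | zero => left; rfl
    | succ n ih =>
      rcases ih with h | h | h
      · right; left; rw [pow_succ, h, one_mul]
      · right; right; rw [pow_succ, h, pow_two]
      · left; rw [pow_succ, h, ← pow_succ, hx]
  exact h n

theorem ex3 : ex ^ 3 = 1 := by decide
theorem ey3 : ey ^ 3 = 1 := by decide

def A4 : Subgroup P5 where
  carrier := {z | z = 1 ∨ z = ea ∨ z = eb ∨ z = ea * eb}
  one_mem' := Or.inl rfl
  mul_mem' := by
    rintro a b (rfl | rfl | rfl | rfl) (rfl | rfl | rfl | rfl) <;> decide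
  inv_mem' := by
    rintro a (rfl | rfl | rfl | rfl) <;> decide

theorem mem_A4 {z : P5} : z ∈ A4 ↔ (z = 1 ∨ z = ea ∨ z = eb ∨ z = ea * eb) := Iff.rfl

open Classical in
noncomputable def th (z : P5) : Subgroup P5 :=
  if z = ea then Subgroup.zpowers ex else if z = eb then Subgroup.zpowers ey else ⊥

theorem th_a : th ea = Subgroup.zpowers ex := if_pos rfl
theorem th_b : th eb = Subgroup.zpowers ey := by
  rw [th, if_neg (by decide), if_pos rfl]
theorem th_ab : th (ea * eb) = ⊥ := by
  rw [th, if_neg (by decide), if_neg (by decide)]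

theorem mem_centralizer_iff' {a u : P5} : u ∈ Subgroup.centralizer ({a} : Set P5) ↔ a * u = u * a := by
  rw [Subgroup.mem_centralizer_iff]
  constructor
  · intro h; exact h a rfl
  · rintro h y rfl; exact h


/-- There exist a finite group X, an elementary abelian subgroup A of order 4 and a solvable A-signalizer functor θ on X for the prime 2 which is not complete. -/
theorem result : ∃ (X : Type) (_ : Group X) (_ : Finite X) (A : Subgroup X) (θ : X → Subgroup X), Cfsg.IsElementaryAbelian 2 A ∧ Nat.card ↥A = 4 ∧ Cfsg.IsSolvableSignalizerFunctor 2 A θ ∧ ¬ Cfsg.IsCompleteSignalizerFunctor 2 A θ := by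
  refine ⟨P5, inferInstance, inferInstance, A4, th, ⟨?_, ?_⟩, ?_, ⟨⟨?_, ?_, ?_, ?_⟩, ?_⟩, ?_⟩
  · refine ⟨⟨?_⟩⟩
    rintro ⟨a, ha⟩ ⟨b, hb⟩
    apply Subtype.ext
    change a * b = b * a
    rcases ha with rfl | rfl | rfl | rfl <;> rcases hb with rfl | rfl | rfl | rfl <;> decide
  · rintro a (rfl | rfl | rfl | rfl) <;> decide
  · have h : (A4 : Set P5) = ((({1, ea, eb, ea * eb} : Finset P5)) : Set P5) := by
      ext z
      simp [mem_A4]
    rw [← SetLike.coe_sort_coe, Nat.card_coe_set_eq, h, Set.ncard_coe_finset]
    decide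
  · rintro a (rfl | rfl | rfl | rfl) ha1
    · exact absurd rfl ha1
    · rw [th_a, Subgroup.zpowers_le, mem_centralizer_iff']; decide
    · rw [th_b, Subgroup.zpowers_le, mem_centralizer_iff']; decide
    · rw [th_ab]; exact bot_le
  · rintro a (rfl | rfl | rfl | rfl) ha1
    · exact absurd rfl ha1
    · rw [th_a, Nat.card_zpowers, orderOf_eq_prime ex3 (by decide)]; decide
    · rw [th_b, Nat.card_zpowers, orderOf_eq_prime ey3 (by decide)]; decide
    · rw [th_ab, Subgroup.card_bot]; decide
  · rintro a (rfl | rfl | rfl | rfl) ha1 b hb x hx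
    · exact absurd rfl ha1
    · rw [th_a] at hx ⊢
      have hpow : ∀ n : ℕ, ex ^ n ∈ Subgroup.zpowers ex := fun n => Subgroup.npow_mem_zpowers ex n
      rcases hb with rfl | rfl | rfl | rfl <;> rcases mem3 ex3 hx with rfl | rfl | rfl
      · simp
      · simpa using hpow 1
      · simpa using hpow 2
      · simp
      · convert hpow 1 using 1; decide
      · convert hpow 2 using 1; decide
      · simp
      · convert hpow 2 using 1; decide
      · convert hpow 1 using 1; decide
      · simp
      · convert hpow 2 using 1; decide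
      · convert hpow 1 using 1; decide
    · rw [th_b] at hx ⊢
      have hpow : ∀ n : ℕ, ey ^ n ∈ Subgroup.zpowers ey := fun n => Subgroup.npow_mem_zpowers ey n
      rcases hb with rfl | rfl | rfl | rfl <;> rcases mem3 ey3 hx with rfl | rfl | rfl
      · simp
      · simpa using hpow 1
      · simpa using hpow 2
      · simp
      · convert hpow 2 using 1; decide
      · convert hpow 1 using 1; decide
      · simp
      · convert hpow 1 using 1; decide
      · convert hpow 2 using 1; decide
      · simp
      · convert hpow 2 using 1; decide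
      · convert hpow 1 using 1; decide
    · rw [th_ab, Subgroup.mem_bot] at hx ⊢
      rw [hx, mul_one, mul_inv_cancel]
  · rintro a (rfl | rfl | rfl | rfl) ha1 b (rfl | rfl | rfl | rfl) hb1
    · exact absurd rfl ha1
    · exact absurd rfl ha1
    · exact absurd rfl ha1
    · exact absurd rfl ha1
    · exact absurd rfl hb1
    · exact inf_le_left
    · rintro x ⟨hx1, hx2⟩
      rw [th_a] at hx1
      have hx2' := mem_centralizer_iff'.mp hx2
      rcases mem3 ex3 hx1 with rfl | rfl | rfl
      · exact one_mem _
      · exact absurd hx2' (by decide)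
      · exact absurd hx2' (by decide)
    · rintro x ⟨hx1, hx2⟩
      rw [th_a] at hx1
      have hx2' := mem_centralizer_iff'.mp hx2
      rcases mem3 ex3 hx1 with rfl | rfl | rfl
      · exact one_mem _
      · exact absurd hx2' (by decide)
      · exact absurd hx2' (by decide)
    · exact absurd rfl hb1
    · rintro x ⟨hx1, hx2⟩
      rw [th_b] at hx1
      have hx2' := mem_centralizer_iff'.mp hx2
      rcases mem3 ey3 hx1 with rfl | rfl | rfl
      · exact one_mem _
      · exact absurd hx2' (by decide)
      · exact absurd hx2' (by decide)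
    · exact inf_le_left
    · rintro x ⟨hx1, hx2⟩
      rw [th_b] at hx1
      have hx2' := mem_centralizer_iff'.mp hx2
      rcases mem3 ey3 hx1 with rfl | rfl | rfl
      · exact one_mem _
      · exact absurd hx2' (by decide)
      · exact absurd hx2' (by decide)
    · exact absurd rfl hb1
    · rw [th_ab, bot_inf_eq]; exact bot_le
    · rw [th_ab, bot_inf_eq]; exact bot_le
    · exact inf_le_left
  · rintro a (rfl | rfl | rfl | rfl) ha1
    · exact absurd rfl ha1
    · rw [th_a]; infer_instance
    · rw [th_b]; infer_instance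
    · rw [th_ab]; infer_instance
  · rintro ⟨-, X, -, hX2, hX⟩
    have hx : ex ∈ X := by
      have h1 := hX ea (Or.inr (Or.inl rfl)) (by decide)
      have h2 : ex ∈ th ea := by rw [th_a]; exact Subgroup.mem_zpowers _
      rw [← h1] at h2; exact h2.1
    have hy : ey ∈ X := by
      have h1 := hX eb (Or.inr (Or.inr (Or.inl rfl))) (by decide)
      have h2 : ey ∈ th eb := by rw [th_b]; exact Subgroup.mem_zpowers _
      rw [← h1] at h2; exact h2.1
    apply hX2
    have hw : ex * ey * ex * ey⁻¹ ∈ X := X.mul_mem (X.mul_mem (X.mul_mem hx hy) hx) (X.inv_mem hy)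
    have h3 : orderOf (⟨_, hw⟩ : X) = 2 := by
      rw [Subgroup.orderOf_mk]
      exact orderOf_eq_prime (by decide) (by decide)
    rw [← h3]
    exact orderOf_dvd_natCard _

end Cfsg.Agent.S1286
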