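import Cfsg.Statements.S1287
import Cfsg.Agent.H2.CopFact
import Cfsg.Agent.H3.Rank2

set_option autoImplicit false
open scoped Pointwise
open Cfsg
open scoped commutatorElement

namespace Cfsg.Agent.S1287

/-- Let A be a noncyclic elementary abelian p-subgroup of a finite group H normalizing a subgroup K of order prime to p, and X, Y ≤ K subgroups normalized by A with C_K(a) = C_X(a) C_Y(a) (as sets) for every non-identity a ∈ A, where X is also normalized by C_K(A). Then K = XY as sets. -/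
theorem result {H : Type*} [Group H] [Finite H] (p : ℕ) [Fact p.Prime] (A K X Y : Subgroup H) (hA : Cfsg.IsElementaryAbelian p A) (hA2 : p ^ 2 ≤ Nat.card ↥A) (hK : ¬ p ∣ Nat.card ↥K) (hAK : A ≤ Subgroup.normalizer (K : Set H)) (hX : X ≤ K) (hY : Y ≤ K) (hAX : A ≤ Subgroup.normalizer (X : Set H)) (hAY : A ≤ Subgroup.normalizer (Y : Set H)) (hCX : K ⊓ Subgroup.centralizer (A : Set H) ≤ Subgroup.normalizer (X : Set H)) (hfac : ∀ a ∈ A, a ≠ 1 → ((K ⊓ Subgroup.centralizer {a} : Subgroup H) : Set H) = ((X ⊓ Subgroup.centralizer {a} : Subgroup H) : Set H) * ((Y ⊓ Subgroup.centralizer {a} : Subgroup H) : Set H)) : (K : Set H) = (X : Set H) * (Y : Set H) := by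
  obtain ⟨hAab, hAe⟩ := CfsgH3.isElementaryAbelian_iff'.1 hA
  have hAp : IsPGroup p A := fun x => ⟨1, Subtype.ext (by rw [pow_one]; exact hAe x x.2)⟩
  have hpp : p.Prime := Fact.out
  refine CfsgH2.fact_coprime hAp hAab ?_ hK hAK hX hY hAX hAY hCX hfac
  intro hcyc
  obtain ⟨g, hg⟩ := hcyc.exists_generator
  have h2 : Nat.card A = orderOf g := by
    rw [← Nat.card_zpowers]
    have : Subgroup.zpowers g = ⊤ := (Subgroup.eq_top_iff' _).2 hg
    rw [this, Subgroup.card_top]
  have h3 : orderOf g ≤ p := orderOf_le_of_pow_eq_one hpp.pos (Subtype.ext (hAe g g.2))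
  have h4 := hpp.one_lt
  rw [h2] at hA2
  nlinarith

end Cfsg.Agent.S1287
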