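import Cfsg.Statements.S1288
import Cfsg.Agent.H2.Signalizer

set_option autoImplicit false
open Cfsg
open scoped commutatorElement

namespace Cfsg.Agent.S1288

/-- Let A be a noncyclic elementary abelian p-subgroup of a finite group H normalizing a solvable subgroup K of order prime to p, q a prime dividing |K|, and U ≤ K a subgroup of order prime to q such that ⁅U, C_K(B)⁆ has order prime to q for every subgroup B of index p in A. Then U ≤ O_{q'}(K). -/
theorem result {H : Type*} [Group H] [Finite H] (p : ℕ) [Fact p.Prime] (A K : Subgroup H) (hA : Cfsg.IsElementaryAbelian p A) (hA2 : p ^ 2 ≤ Nat.card ↥A) (hK : ¬ p ∣ Nat.card ↥K) (hKs : Group.IsSolvable ↥K) (hAK : A ≤ Subgroup.normalizer (K : Set H)) (q : ℕ) [Fact q.Prime] (hqK : q ∣ Nat.card ↥K) (U : Subgroup H) (hU : U ≤ K) (hUq : ¬ q ∣ Nat.card ↥U) (hcomm : ∀ B : Subgroup H, B ≤ A → B.relIndex A = p → ¬ q ∣ Nat.card ↥⁅U, K ⊓ Subgroup.centralizer (B : Set H)⁆) : U ≤ (Cfsg.pPrimeCore q ↥K).map K.subtype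 := by
  have hp : p.Prime := Fact.out
  have hq : q.Prime := Fact.out
  set O := (Cfsg.pPrimeCore q K).map K.subtype with hO
  set V := (Cfsg.pPrimePCore q K).map K.subtype with hV
  have hKn : ∀ M : Subgroup K, M.Characteristic → Subgroup.normalizer (K : Set H) ≤
      Subgroup.normalizer ((M.map K.subtype : Subgroup H) : Set H) := by
    intro M hM
    exact CfsgH2.normalizer_le_normalizer_map_of_characteristic M
  have hcharV : (Cfsg.pPrimePCore q K).Characteristic := by
    rw [Subgroup.characteristic_iff_map_le]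
    rintro φ _ ⟨x, hx, rfl⟩
    let e2 : (K ⧸ Cfsg.pPrimeCore q K) ≃* (K ⧸ Cfsg.pPrimeCore q K) :=
      QuotientGroup.congr _ _ φ (CfsgH2.pPrimeCore_map_equiv q φ)
    have h2 := CfsgH2.pCore_map_equiv q e2
    change QuotientGroup.mk' (Cfsg.pPrimeCore q K) (φ x) ∈ Cfsg.pCore q (K ⧸ Cfsg.pPrimeCore q K)
    rw [← h2]
    exact ⟨_, hx, rfl⟩
  have hAV : A ≤ Subgroup.normalizer (V : Set H) := hAK.trans (hKn _ hcharV)
  have hVK : V ≤ K := Subgroup.map_subtype_le _
  have hOK : O ≤ K := Subgroup.map_subtype_le _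
  have hOcop : (Nat.card O).Coprime q := by
    rw [hO, Subgroup.card_map_of_injective K.subtype_injective]; exact CfsgH2.coprime_card_pPrimeCore q
  have hKV : K ≤ Subgroup.normalizer (V : Set H) := Subgroup.le_normalizer.trans (hKn _ hcharV)
  -- the subgroup `W` of `K` of elements commuting with `U` modulo `O`
  let π := QuotientGroup.mk' (Cfsg.pPrimeCore q K)
  let W : Subgroup H := ((Subgroup.centralizer (((U.subgroupOf K).map π : Subgroup _) : Set (K ⧸ Cfsg.pPrimeCore q K))).comap π).map K.subtype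
  have hVW : V ≤ W := by
    refine CfsgH2.coprime_gen_hyperplane hp (A := A) (K := V) hA.2 (CfsgH2.IsElementaryAbelian.comm hA) hAV
      (CfsgH2.coprime_of_not_dvd (fun hd => hK (hd.trans (Subgroup.card_dvd_of_le hVK)))) ?_
    intro B hB hBp
    rintro v ⟨hv, hvB⟩
    have hvK : v ∈ K := hVK hv
    refine ⟨⟨v, hvK⟩, ?_, rfl⟩
    rw [SetLike.mem_coe, Subgroup.mem_comap, Subgroup.mem_centralizer_iff]
    rintro _ ⟨u, hu, rfl⟩
    -- `[u, v] ∈ O`
    have hcomm' : ¬ q ∣ Nat.card ↥⁅U, K ⊓ Subgroup.centralizer (B : Set H)⁆ := by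
      by_cases h1 : B.relIndex A = 1
      · -- replace `B` by a subgroup of index `p`
        have hBA : B = A := le_antisymm hB (Subgroup.relIndex_eq_one.mp h1)
        have hAp : IsPGroup p A := CfsgH2.IsElementaryAbelian.isPGroup hA
        obtain ⟨k, hk⟩ := IsPGroup.iff_card.mp hAp
        have hk2 : 2 ≤ k := by
          rw [hk] at hA2; exact (Nat.pow_le_pow_iff_right hp.one_lt).mp hA2
        obtain ⟨M, hM⟩ := Sylow.exists_subgroup_card_pow_prime (G := A) p (n := k - 1) (by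
          rw [hk]; exact pow_dvd_pow p (by omega))
        have h2 := Subgroup.relIndex_mul_relIndex (⊥ : Subgroup H) (M.map A.subtype) A bot_le (Subgroup.map_subtype_le _)
        rw [Subgroup.relIndex_bot_left, Subgroup.relIndex_bot_left, Subgroup.card_map_of_injective A.subtype_injective,
          hM, hk] at h2
        have h3 : p ^ k = p ^ (k - 1) * p := by rw [← pow_succ]; congr 1; omega
        rw [h3] at h2
        have h4 := Nat.eq_of_mul_eq_mul_left (pow_pos hp.pos _) h2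
        intro hd
        refine hcomm _ (Subgroup.map_subtype_le _) h4 (hd.trans (Subgroup.card_dvd_of_le ?_))
        refine Subgroup.commutator_mono le_rfl (inf_le_inf_left _ (Subgroup.centralizer_le ?_))
        rw [hBA]; exact Subgroup.map_subtype_le _
      · refine hcomm B hB ?_
        have h2 : B.relIndex A ∣ Nat.card A := Subgroup.relIndex_dvd_card _ _
        obtain ⟨k, hk⟩ := IsPGroup.iff_card.mp (CfsgH2.IsElementaryAbelian.isPGroup hA)
        rw [hk] at h2
        obtain ⟨j, _, hj⟩ := (Nat.dvd_prime_pow hp).mp h2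
        rw [hj] at hBp h1 ⊢
        have h0 : j ≠ 0 := by rintro rfl; exact h1 (pow_zero _)
        have h3 : j ≤ 1 := by
          rw [← Nat.pow_le_pow_iff_right hp.one_lt, pow_one]; exact hBp
        have h4 : j = 1 := by omega
        rw [h4, pow_one]
    have h5 : (⁅(u : H), v⁆) ∈ ⁅U, K ⊓ Subgroup.centralizer (B : Set H)⁆ :=
      Subgroup.commutator_mem_commutator hu ⟨hvK, hvB⟩
    have h6 : ⁅u, (⟨v, hvK⟩ : K)⁆ ∈ Cfsg.pPrimePCore q K := by
      obtain ⟨v', hv', hvv⟩ := hv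
      have : v' = ⟨v, hvK⟩ := Subtype.ext hvv
      rw [this] at hv'
      have hn : (Cfsg.pPrimePCore q K).Normal := inferInstance
      rw [commutatorElement_def]
      exact mul_mem (hn.conj_mem _ hv' u) (inv_mem hv')
    -- the image in `K/O_{q'}(K)` is a `q`-element of order dividing a `q'`-number
    have h7 : π ⁅u, (⟨v, hvK⟩ : K)⁆ = 1 := by
      obtain ⟨k, hk⟩ := CfsgH2.isPGroup_pCore (G := K ⧸ Cfsg.pPrimeCore q K) q ⟨_, h6⟩
      have hk' : (π ⁅u, (⟨v, hvK⟩ : K)⁆) ^ q ^ k = 1 := congrArg Subtype.val hk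
      have h8 : orderOf (π ⁅u, (⟨v, hvK⟩ : K)⁆) ∣ q ^ k := orderOf_dvd_of_pow_eq_one hk'
      have h9 : orderOf (π ⁅u, (⟨v, hvK⟩ : K)⁆) ∣ Nat.card ↥⁅U, K ⊓ Subgroup.centralizer (B : Set H)⁆ := by
        refine (orderOf_map_dvd π _).trans ?_
        have h10 : orderOf (⟨_, h5⟩ : ↥⁅U, K ⊓ Subgroup.centralizer (B : Set H)⁆) ∣ Nat.card ↥⁅U, K ⊓ Subgroup.centralizer (B : Set H)⁆ := orderOf_dvd_natCard _
        rw [Subgroup.orderOf_mk] at h10
        have h11 : orderOf ⁅u, (⟨v, hvK⟩ : K)⁆ = orderOf ⁅(u : H), v⁆ := by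
          rw [← Subgroup.orderOf_coe]; rfl
        rwa [h11]
      have h10 : (Nat.card ↥⁅U, K ⊓ Subgroup.centralizer (B : Set H)⁆).Coprime (q ^ k) :=
        (CfsgH2.coprime_of_not_dvd hcomm').pow_right k
      exact orderOf_eq_one_iff.mp (Nat.dvd_one.mp (h10 ▸ Nat.dvd_gcd h9 h8))
    rw [map_commutatorElement, commutatorElement_eq_one_iff_mul_comm] at h7
    exact h7
  -- so `U` centralizes `O_q(K/O_{q'}(K))`
  have hcent : (U.subgroupOf K).map π ≤ Subgroup.centralizer (Cfsg.pCore q (K ⧸ Cfsg.pPrimeCore q K) : Set _) := by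
    rintro _ ⟨u, hu, rfl⟩
    rw [Subgroup.mem_centralizer_iff]
    intro z hz
    obtain ⟨z, rfl⟩ := QuotientGroup.mk'_surjective _ z
    have h1 : (z : H) ∈ V := ⟨z, hz, rfl⟩
    obtain ⟨w, hw, hwz⟩ := hVW h1
    have h2 : w = z := Subtype.ext hwz
    rw [h2] at hw
    exact (Subgroup.mem_centralizer_iff.mp hw (π u) ⟨u, hu, rfl⟩).symm
  have hlay : Cfsg.layer (K ⧸ Cfsg.pPrimeCore q K) = ⊥ := CfsgH2.layer_eq_bot_of_isSolvable inferInstance
  have hF : Cfsg.generalizedFittingSubgroup (K ⧸ Cfsg.pPrimeCore q K) = Cfsg.pCore q (K ⧸ Cfsg.pPrimeCore q K) := by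
    unfold Cfsg.generalizedFittingSubgroup
    rw [hlay, bot_sup_eq, CfsgH2.fittingSubgroup_eq_pCore_of_pPrimeCore_eq_bot
      (CfsgH2.pPrimeCore_quotient_pPrimeCore q)]
  have h1 : (U.subgroupOf K).map π ≤ Cfsg.pCore q (K ⧸ Cfsg.pPrimeCore q K) := by
    refine hcent.trans ?_
    rw [← hF]; exact CfsgH2.centralizer_generalizedFittingSubgroup_le
  have h2 : (U.subgroupOf K).map π = ⊥ := by
    apply CfsgH2.eq_bot_of_isPGroup_of_coprime (p := q) ((CfsgH2.isPGroup_pCore q).to_le h1)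
    refine Nat.Coprime.coprime_dvd_left (Subgroup.card_map_dvd _ _) ?_
    rw [Nat.card_congr (Subgroup.subgroupOfEquivOfLe hU).toEquiv]
    exact CfsgH2.coprime_of_not_dvd hUq
  rw [Subgroup.map_eq_bot_iff, QuotientGroup.ker_mk'] at h2
  intro u hu
  exact ⟨⟨u, hU hu⟩, h2 hu, rfl⟩

end Cfsg.Agent.S1288
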