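import Cfsg.Statements.S1300
import Cfsg.Agent.H2.Cores

set_option autoImplicit false
open Cfsg
open scoped commutatorElement

namespace Cfsg.Agent.S1300

/-- For a finite group G, balance in the sense of commuting involutions is the same as 1-balance for the prime 2. -/
theorem result {G : Type*} [Group G] [Finite G] : Cfsg.IsBalanced G ↔ Cfsg.IsKBalanced 2 1 G := by
  haveI : Fact (Nat.Prime 2) := ⟨Nat.prime_two⟩
  have hCle : ∀ x : G, Cfsg.centralizerPPrimeCore 2 x ≤ Subgroup.centralizer ({x} : Set G) :=
    fun x => Subgroup.map_subtype_le _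
  constructor
  · intro h A hA hcard b hb hAb
    -- a generator
    obtain ⟨x, hx, hxA⟩ : ∃ x ∈ A, x ≠ 1 := by
      by_contra hcon
      push Not at hcon
      have : A = ⊥ := by rw [eq_bot_iff]; intro y hy; exact hcon y hy
      rw [this, Subgroup.card_bot] at hcard
      norm_num at hcard
    have hox : orderOf x = 2 := orderOf_eq_prime (hA.2 x hx) hxA
    have h1 : Cfsg.signalizerDelta 2 A ≤ Cfsg.centralizerPPrimeCore 2 x :=
      iInf_le (fun a : {a : G // a ∈ A ∧ a ≠ 1} => Cfsg.centralizerPPrimeCore 2 (a : G)) ⟨x, hx, hxA⟩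
    refine (inf_le_inf_right _ h1).trans ?_
    rw [h x b hox hb (hAb x hx)]
    exact inf_le_left
  · intro h
    have key : ∀ x y : G, orderOf x = 2 → orderOf y = 2 → x * y = y * x →
        Cfsg.centralizerPPrimeCore 2 x ⊓ Subgroup.centralizer {y} ≤ Cfsg.centralizerPPrimeCore 2 y := by
      intro x y hx hy hxy
      have hx2 : x ^ 2 = 1 := by rw [← hx]; exact pow_orderOf_eq_one x
      have hcomm : ∀ a ∈ Subgroup.zpowers x, a * y = y * a := by
        intro a ha
        obtain ⟨k, rfl⟩ := Subgroup.mem_zpowers_iff.mp ha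
        exact (Commute.zpow_left hxy k).eq
      have hmem : ∀ a ∈ Subgroup.zpowers x, a = 1 ∨ a = x := by
        intro a ha
        obtain ⟨k, rfl⟩ := Subgroup.mem_zpowers_iff.mp ha
        rcases Int.even_or_odd k with ⟨m, hm⟩ | ⟨m, hm⟩
        · left; rw [hm, ← two_mul, zpow_mul]; norm_cast; rw [hx2, one_zpow]
        · right; rw [hm, zpow_add, zpow_mul]; norm_cast; rw [hx2, one_zpow, one_mul, pow_one]
      have h2 := h (Subgroup.zpowers x) ⟨inferInstance, ?_⟩ (by rw [Nat.card_zpowers, hx]; norm_num) y hy hcomm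
      · refine le_trans (inf_le_inf_right _ ?_) h2
        refine le_iInf fun a => ?_
        rcases hmem a.1 a.2.1 with h3 | h3
        · exact absurd h3 a.2.2
        · rw [h3]
      · intro a ha
        rcases hmem a ha with rfl | rfl
        · exact one_pow 2
        · exact hx2
    intro x y hx hy hxy
    apply le_antisymm
    · exact le_inf (key x y hx hy hxy) (inf_le_left.trans (hCle x))
    · exact le_inf (key y x hy hx hxy.symm) (inf_le_left.trans (hCle y))

end Cfsg.Agent.S1300
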