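import Mathlib
import Cfsg.Statements.S2427

set_option autoImplicit false
open Cfsg

namespace Cfsg.Agent.S2427

set_option maxRecDepth 100000

abbrev G3 := Matrix.SpecialLinearGroup (Fin 2) (ZMod 3)
instance instFG : Fintype G3 := inferInstanceAs (Fintype {A : Matrix (Fin 2) (Fin 2) (ZMod 3) // A.det = 1})
instance instDG : DecidableEq G3 := inferInstanceAs (DecidableEq {A : Matrix (Fin 2) (Fin 2) (ZMod 3) // A.det = 1})
def m1 : G3 := ⟨!![2,0;0,2], by decide⟩
def I : G3 := ⟨!![0,1;2,0], by decide⟩
def J : G3 := ⟨!![1,1;1,2], by decide⟩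
def f0 : QuaternionGroup 2 → G3
  | .a i => I ^ i.val
  | .xa i => J * I ^ i.val
theorem c1 : Fintype.card G3 = 24 := by decide +kernel
theorem c2 : ∀ g : G3, (∀ h : G3, h * g = g * h) ↔ (g = 1 ∨ g = m1) := by decide +kernel
theorem c3 : ∀ g : G3, g * g = 1 → g = 1 ∨ g = m1 := by decide +kernel
theorem c4 : ∀ x y : QuaternionGroup 2, f0 (x * y) = f0 x * f0 y := by decide +kernel
theorem c5 : ∀ x : G3, (∃ q, f0 q = x) ↔ x ^ 4 = 1 := by decide +kernel
theorem c6 : ∀ x y : QuaternionGroup 2, f0 x = f0 y → x = y := by decide +kernel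
theorem c7 : ∀ g h : G3, (g * h * g⁻¹ * h⁻¹) ^ 4 = 1 := by decide +kernel
theorem c8 : ∀ x : G3, x ^ 4 = 1 → ∃ g h : G3, g * h * g⁻¹ * h⁻¹ = x := by decide +kernel
theorem c9 : ∀ x : G3, x ^ 4 ≠ 1 → ∃ g : G3, (x * g * x⁻¹ * g⁻¹) ^ 2 ≠ 1 := by decide +kernel
theorem c10 : ∀ y z : G3, y ^ 4 = 1 → y ^ 2 ≠ 1 → z ^ 4 = 1 → z ^ 2 ≠ 1 → ∃ g : G3, g * y * g⁻¹ = z := by decide +kernel
theorem c11 : ∀ y z : G3, y ^ 4 = 1 → y ^ 2 ≠ 1 → z ^ 2 = 1 → z = 1 ∨ z = y * y := by decide +kernel
theorem c12 : ∀ x z : G3, x ^ 4 ≠ 1 → z ^ 4 = 1 ∨ (x⁻¹ * z) ^ 4 = 1 ∨ (x * z) ^ 4 = 1 := by decide +kernel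
theorem c13 : (1 : G3) ≠ m1 := by decide +kernel

/-- The group SL₂ over the field with 3 elements has order 24 and centre of order 2; its commutator subgroup has order 8, is isomorphic to the quaternion group of order 8 and is complemented by every Sylow 3-subgroup (so the group is a semidirect product of a quaternion group of order 8 by a cyclic group of order 3); and its only normal subgroups besides the trivial subgroup and the whole group are the centre and the commutator subgroup. -/
theorem result :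
    Nat.card (Matrix.SpecialLinearGroup (Fin 2) (ZMod 3)) = 24 ∧
    Nat.card (Subgroup.center (Matrix.SpecialLinearGroup (Fin 2) (ZMod 3))) = 2 ∧
    Nat.card (commutator (Matrix.SpecialLinearGroup (Fin 2) (ZMod 3))) = 8 ∧
    Nonempty (commutator (Matrix.SpecialLinearGroup (Fin 2) (ZMod 3)) ≃* QuaternionGroup 2) ∧
    (∀ P : Sylow 3 (Matrix.SpecialLinearGroup (Fin 2) (ZMod 3)),
      Subgroup.IsComplement' (commutator (Matrix.SpecialLinearGroup (Fin 2) (ZMod 3)))
        (P : Subgroup (Matrix.SpecialLinearGroup (Fin 2) (ZMod 3)))) ∧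
    ∀ N : Subgroup (Matrix.SpecialLinearGroup (Fin 2) (ZMod 3)), N.Normal →
      N = ⊥ ∨ N = ⊤ ∨ N = Subgroup.center (Matrix.SpecialLinearGroup (Fin 2) (ZMod 3)) ∨
        N = commutator (Matrix.SpecialLinearGroup (Fin 2) (ZMod 3)) := by
  classical
  have hcard : Nat.card G3 = 24 := by rw [Nat.card_eq_fintype_card]; exact c1
  have hcen : ∀ g : G3, g ∈ Subgroup.center G3 ↔ (g = 1 ∨ g = m1) := by
    intro g
    rw [Subgroup.mem_center_iff]; exact c2 g
  let f : QuaternionGroup 2 →* G3 := MonoidHom.mk' f0 c4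
  have hfinj : Function.Injective f := fun x y h => c6 x y h
  have hcomm : ∀ x : G3, x ∈ commutator G3 ↔ x ^ 4 = 1 := by
    intro x
    constructor
    · intro hx
      have h1 : commutator G3 ≤ f.range := by
        rw [commutator_def, Subgroup.commutator_le]
        intro g _ h _
        have h2 := (c5 _).2 (c7 g h)
        obtain ⟨q, hq⟩ := h2
        exact ⟨q, hq⟩
      obtain ⟨q, hq⟩ := h1 hx
      exact (c5 x).1 ⟨q, hq⟩
    · intro hx
      obtain ⟨g, h, hgh⟩ := c8 x hx
      rw [← hgh]
      exact Subgroup.commutator_mem_commutator (Subgroup.mem_top g) (Subgroup.mem_top h)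
  have hrange : f.range = commutator G3 := by
    ext x
    rw [hcomm, ← c5]
    exact Iff.rfl
  have e : QuaternionGroup 2 ≃* commutator G3 := (MonoidHom.ofInjective hfinj).trans (MulEquiv.subgroupCongr hrange)
  have hK8 : Nat.card (commutator G3) = 8 := by
    rw [← Nat.card_congr e.toEquiv, Nat.card_eq_fintype_card]
    decide +kernel
  refine ⟨hcard, ?_, hK8, ⟨e.symm⟩, ?_, ?_⟩
  · have h1 : ((Subgroup.center G3 : Subgroup G3) : Set G3) = {1, m1} := by
      ext g
      rw [SetLike.mem_coe, hcen]; rfl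
    change Nat.card ((Subgroup.center G3 : Subgroup G3) : Set G3) = 2
    rw [h1, Nat.card_coe_set_eq, Set.ncard_pair c13]
  · intro P
    haveI : Fact (Nat.Prime 3) := ⟨Nat.prime_three⟩
    have hP : Nat.card P = 3 := by
      rw [P.card_eq_multiplicity, hcard]
      have : Nat.factorization 24 3 = 1 := by
        rw [show 24 = 3 ^ 1 * 8 by norm_num, Nat.factorization_mul (by norm_num) (by norm_num), Nat.Prime.factorization_pow Nat.prime_three]
        simp [Nat.factorization_eq_zero_of_not_dvd]
      rw [this, pow_one]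
    apply Subgroup.isComplement'_of_coprime
    · rw [hK8, hcard, hP]
    · rw [hK8, hP]; decide
  · intro N hN
    by_cases h1 : ∃ x ∈ N, x ^ 4 ≠ 1
    · obtain ⟨x, hxN, hx⟩ := h1
      right; left
      obtain ⟨g, hg⟩ := c9 x hx
      have hyN : x * g * x⁻¹ * g⁻¹ ∈ N := by
        have h2 := N.mul_mem hxN (hN.conj_mem x⁻¹ (N.inv_mem hxN) g)
        have h3 : x * g * x⁻¹ * g⁻¹ = x * (g * x⁻¹ * g⁻¹) := by group
        rw [h3]; exact h2
      have hK : ∀ z : G3, z ^ 4 = 1 → z ∈ N := by
        intro z hz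
        by_cases hz2 : z ^ 2 = 1
        · rcases c11 _ z (c7 x g) hg hz2 with h | h
          · rw [h]; exact N.one_mem
          · rw [h]; exact N.mul_mem hyN hyN
        · obtain ⟨w, hw⟩ := c10 _ z (c7 x g) hg hz hz2
          rw [← hw]; exact hN.conj_mem _ hyN w
      rw [eq_top_iff]
      intro z _
      rcases c12 x z hx with h | h | h
      · exact hK z h
      · have := N.mul_mem hxN (hK _ h)
        rwa [mul_inv_cancel_left] at this
      · have := N.mul_mem (N.inv_mem hxN) (hK _ h)
        rwa [inv_mul_cancel_left] at this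
    · push Not at h1
      by_cases h2 : ∃ y ∈ N, y ^ 2 ≠ 1
      · obtain ⟨y, hyN, hy⟩ := h2
        right; right; right
        apply le_antisymm
        · intro z hz
          exact (hcomm z).2 (h1 z hz)
        · intro z hz
          have hz4 := (hcomm z).1 hz
          by_cases hz2 : z ^ 2 = 1
          · rcases c11 y z (h1 y hyN) hy hz2 with h | h
            · rw [h]; exact N.one_mem
            · rw [h]; exact N.mul_mem hyN hyN
          · obtain ⟨w, hw⟩ := c10 y z (h1 y hyN) hy hz4 hz2
            rw [← hw]; exact hN.conj_mem _ hyN w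
      · push Not at h2
        by_cases h3 : m1 ∈ N
        · right; right; left
          apply le_antisymm
          · intro z hz
            rw [hcen]
            exact c3 z (by rw [← pow_two]; exact h2 z hz)
          · intro z hz
            rcases (hcen z).1 hz with h | h
            · rw [h]; exact N.one_mem
            · rw [h]; exact h3
        · left
          rw [eq_bot_iff]
          intro z hz
          rcases c3 z (by rw [← pow_two]; exact h2 z hz) with h | h
          · rw [h]; exact Subgroup.mem_bot.2 rfl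
          · exact absurd (h ▸ hz) h3

end Cfsg.Agent.S2427
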