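import Mathlib
import Cfsg.Agent.S2427
import Cfsg.Agent.H1.PCon2
import Cfsg.Agent.H2.Cores
import Cfsg.Statements.S1303

set_option autoImplicit false
open Cfsg

namespace Cfsg.Agent.S1303

set_option maxRecDepth 100000
open Cfsg.Agent.S2427
theorem d1 : ∀ x : G3, (∀ k : G3, k ^ 4 = 1 → k * x = x * k) → x ^ 4 = 1 := by decide +kernel
theorem d2 : ∀ x : G3, x * x = 1 → ∀ y : G3, y * x = x * y := by decide +kernel
theorem d3 : ∃ x : G3, x ^ 3 = 1 ∧ x ≠ 1 := by decide +kernel
theorem d4 : ∀ g h : G3, (g ^ 4 = 1 → h ^ 4 = 1 → (g * h) ^ 4 = 1) := by decide +kernel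

/-- The group X = SL(2, 3): it is 2-constrained, O_{2'}(X) = 1, its centre A = Z(X) contains every involution of X = C_X(A), and X has a subgroup of order 3 (normalized by A) not contained in O_{2'}(X). -/
theorem result : Cfsg.IsPConstrained 2 (Matrix.SpecialLinearGroup (Fin 2) (ZMod 3)) ∧ Cfsg.pPrimeCore 2 (Matrix.SpecialLinearGroup (Fin 2) (ZMod 3)) = ⊥ ∧ (∀ t : Matrix.SpecialLinearGroup (Fin 2) (ZMod 3), orderOf t = 2 → t ∈ Subgroup.center (Matrix.SpecialLinearGroup (Fin 2) (ZMod 3))) ∧ ∃ Q : Subgroup (Matrix.SpecialLinearGroup (Fin 2) (ZMod 3)), Nat.card ↥Q = 3 ∧ ¬ (Q ≤ Cfsg.pPrimeCore 2 (Matrix.SpecialLinearGroup (Fin 2) (ZMod 3))) := by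
  classical
  have hcard : Nat.card G3 = 24 := by rw [Nat.card_eq_fintype_card]; exact c1
  obtain ⟨-, hZ2, hK8, -, -, hnormal⟩ := Cfsg.Agent.S2427.result
  have hcomm : ∀ x : G3, x ^ 4 = 1 → x ∈ commutator G3 := by
    intro x hx
    obtain ⟨g, h, hgh⟩ := c8 x hx
    rw [← hgh]
    exact Subgroup.commutator_mem_commutator (Subgroup.mem_top g) (Subgroup.mem_top h)
  have hcop : (Nat.card (Cfsg.pPrimeCore 2 G3)).Coprime 2 := CfsgH2.coprime_card_pPrimeCore (G := G3) 2
  haveI hpn : (Cfsg.pPrimeCore 2 G3).Normal := inferInstance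
  have hbot : Cfsg.pPrimeCore 2 G3 = ⊥ := by
    rcases hnormal _ hpn with h | h | h | h
    · exact h
    · exfalso
      rw [h, Subgroup.card_top, hcard] at hcop
      exact absurd hcop (by decide)
    · exfalso
      rw [h, hZ2] at hcop
      exact absurd hcop (by decide)
    · exfalso
      rw [h, hK8] at hcop
      exact absurd hcop (by decide)
  haveI : Fact (Nat.Prime 2) := ⟨Nat.prime_two⟩
  have hKle : commutator G3 ≤ Cfsg.pPrimePCore 2 G3 := by
    refine le_trans ?_ (CfsgH1.pCore_le_pPrimePCore' (G := G3) (p := 2))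
    apply le_sSup
    refine ⟨inferInstance, ?_⟩
    rw [IsPGroup.iff_card]
    exact ⟨3, by rw [hK8]; norm_num⟩
  refine ⟨?_, hbot, ?_, ?_⟩
  · intro P x hx
    apply hKle
    apply hcomm
    apply d1
    intro k hk
    rw [Subgroup.mem_centralizer_iff] at hx
    apply hx
    -- k lies in P
    have hkM : k ∈ Cfsg.pPrimePCore 2 G3 := hKle (hcomm k hk)
    have hKn : ((commutator G3).subgroupOf (Cfsg.pPrimePCore 2 G3)).Normal := inferInstance
    have hKp : IsPGroup 2 ((commutator G3).subgroupOf (Cfsg.pPrimePCore 2 G3)) := by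
      have h1 : IsPGroup 2 (commutator G3) := by
        rw [IsPGroup.iff_card]
        exact ⟨3, by rw [hK8]; norm_num⟩
      exact h1.of_equiv (Subgroup.subgroupOfEquivOfLe hKle).symm
    have h2 : (commutator G3).subgroupOf (Cfsg.pPrimePCore 2 G3) ≤ (P : Subgroup _) := hKp.le_sylow_of_normal P
    exact ⟨⟨k, hkM⟩, h2 (hcomm k hk), rfl⟩
  · intro t ht
    rw [Subgroup.mem_center_iff]
    apply d2
    have := pow_orderOf_eq_one t
    rwa [ht, pow_two] at this
  · obtain ⟨x, hx3, hx1⟩ := d3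
    haveI : Fact (Nat.Prime 3) := ⟨Nat.prime_three⟩
    have hox : orderOf x = 3 := orderOf_eq_prime hx3 hx1
    refine ⟨Subgroup.zpowers x, by rw [Nat.card_zpowers, hox], ?_⟩
    rw [hbot, le_bot_iff, Subgroup.zpowers_eq_bot]
    exact hx1

end Cfsg.Agent.S1303
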