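import Cfsg.Statements.S1304
import Cfsg.Agent.H2.Misc


set_option autoImplicit false
open Cfsg

namespace Cfsg.Agent.S1304

/-- Let X be a perfect group and α an automorphism of X with α(x) x⁻¹ central for every x. Then α is the identity. -/
theorem result {X : Type*} [Group X] (hperf : commutator X = ⊤) (α : X ≃* X) (h : ∀ x : X, α x * x⁻¹ ∈ Subgroup.center X) : ∀ x : X, α x = x := by
  let φ : X →* Subgroup.center X :=
    { toFun := fun x => ⟨α x * x⁻¹, h x⟩
      map_one' := by ext; simp
      map_mul' := by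
        intro x y
        ext
        show α (x * y) * (x * y)⁻¹ = (α x * x⁻¹) * (α y * y⁻¹)
        have h1 := Subgroup.mem_center_iff.mp (h y) x⁻¹
        rw [map_mul, mul_inv_rev]
        calc α x * α y * (y⁻¹ * x⁻¹) = α x * (α y * y⁻¹ * x⁻¹) := by simp only [mul_assoc]
          _ = α x * (x⁻¹ * (α y * y⁻¹)) := by rw [h1]
          _ = α x * x⁻¹ * (α y * y⁻¹) := by simp only [mul_assoc] }
  have h1 : commutator X ≤ φ.ker := CfsgH2.commutator_le_ker_of_comm φ (fun a b => Subtype.ext ((Subgroup.mem_center_iff.mp (φ b).2) _))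
  intro x
  have h2 : x ∈ φ.ker := h1 (by rw [hperf]; trivial)
  have h3 : α x * x⁻¹ = 1 := congrArg Subtype.val (MonoidHom.mem_ker.mp h2)
  exact mul_inv_eq_one.mp h3

end Cfsg.Agent.S1304
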