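import Cfsg.Statements.S1306
import Cfsg.Agent.H2.BalanceAux

set_option autoImplicit false
open Cfsg
open scoped commutatorElement

namespace Cfsg.Agent.S1306

/-- Let G be finite, x an involution and L ≤ C_G(x) a component of C_G(x). Suppose L is a component of C_G(y) for every involution y ∈ C_G(L), and ⁅L, g L g⁻¹⁆ ≠ 1 whenever g L g⁻¹ ≠ L. Then L is a standard subgroup of G. -/
theorem result {G : Type*} [Group G] [Finite G] (x : G) (hx : orderOf x = 2) (L : Subgroup G) (hLx : L ≤ Subgroup.centralizer ({x} : Set G)) (hL : Cfsg.IsComponent (L.subgroupOf (Subgroup.centralizer ({x} : Set G)))) (hne : ∀ y : G, orderOf y = 2 → y ∈ Subgroup.centralizer (L : Set G) → L ≤ Subgroup.centralizer ({y} : Set G) ∧ Cfsg.IsComponent (L.subgroupOf (Subgroup.centralizer ({y} : Set G)))) (hnc : ∀ g : G, L.map (MulAut.conj g).toMonoidHom ≠ L → ⁅L, L.map (MulAut.conj g).toMonoidHom⁆ ≠ ⊥) : Cfsg.IsStandardSubgroup L := by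
  have hLx' : x ∈ Subgroup.centralizer (L : Set G) := by
    rw [Subgroup.mem_centralizer_iff]
    intro y hy
    exact (Subgroup.mem_centralizer_iff.mp (hLx hy) x rfl).symm
  have hq : Cfsg.IsQuasisimple L := (CfsgH2.isQuasisimple_subgroupOf hLx).mp hL.2
  -- key: an involution in `C(L) ∩ C(L^g)` forces `L^g = L`
  have key : ∀ g y : G, orderOf y = 2 → y ∈ Subgroup.centralizer (L : Set G) →
      y ∈ (Subgroup.centralizer (L : Set G)).map (MulAut.conj g).toMonoidHom →
      L.map (MulAut.conj g).toMonoidHom = L := by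
    intro g y hy hyL hyg
    obtain ⟨z, hz, hzy⟩ := hyg
    have hz2 : orderOf z = 2 := by
      rw [← hy, ← hzy]; exact (orderOf_injective _ (MulAut.conj g).injective z).symm
    obtain ⟨h1, h2⟩ := hne y hy hyL
    obtain ⟨h3, h4⟩ := hne z hz2 hz
    have hgL : L.map (MulAut.conj g).toMonoidHom ≤ Subgroup.centralizer ({y} : Set G) := by
      rintro _ ⟨l, hl, rfl⟩
      rw [Subgroup.mem_centralizer_iff]
      rintro w rfl
      rw [← hzy, ← map_mul, ← map_mul, Subgroup.mem_centralizer_iff.mp (h3 hl) z rfl]
    -- the conjugate is a component of `C(y)`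
    have h5 : Cfsg.IsComponent ((L.map (MulAut.conj g).toMonoidHom).subgroupOf (Subgroup.centralizer ({y} : Set G))) := by
      refine ⟨?_, (CfsgH2.isQuasisimple_subgroupOf hgL).mpr ((CfsgH2.isQuasisimple_congr
        (L.equivMapOfInjective _ (MulAut.conj g).injective)).mp hq)⟩
      have hmapC : (Subgroup.centralizer ({z} : Set G)).map (MulAut.conj g).toMonoidHom =
          Subgroup.centralizer ({y} : Set G) := by
        apply le_antisymm
        · rintro _ ⟨c, hc, rfl⟩
          rw [Subgroup.mem_centralizer_iff]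
          rintro w rfl
          rw [← hzy, ← map_mul, ← map_mul, Subgroup.mem_centralizer_iff.mp hc z rfl]
        · intro c hc
          refine ⟨g⁻¹ * c * g, ?_, by simp [MulAut.conj_apply, mul_assoc]⟩
          rw [SetLike.mem_coe, Subgroup.mem_centralizer_iff]
          rintro w rfl
          have h6 : y * c = c * y := Subgroup.mem_centralizer_iff.mp hc y rfl
          have h7 : w = g⁻¹ * y * g := by rw [← hzy]; simp [MulAut.conj_apply, mul_assoc]
          rw [h7]
          calc g⁻¹ * y * g * (g⁻¹ * c * g) = g⁻¹ * (y * c) * g := by group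
            _ = g⁻¹ * (c * y) * g := by rw [h6]
            _ = _ := by group
      let e : Subgroup.centralizer ({z} : Set G) ≃* Subgroup.centralizer ({y} : Set G) :=
        ((Subgroup.centralizer ({z} : Set G)).equivMapOfInjective _ (MulAut.conj g).injective).trans
          (MulEquiv.subgroupCongr hmapC)
      have h6 := (h4.1.map (f := e.toMonoidHom) e.surjective)
      have h7 : (L.subgroupOf (Subgroup.centralizer ({z} : Set G))).map e.toMonoidHom =
          (L.map (MulAut.conj g).toMonoidHom).subgroupOf (Subgroup.centralizer ({y} : Set G)) := by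
        ext w
        constructor
        · rintro ⟨l, hl, rfl⟩
          exact ⟨l, hl, rfl⟩
        · rintro ⟨l, hl, hlw⟩
          exact ⟨⟨l, h3 hl⟩, hl, Subtype.ext hlw⟩
      rwa [h7] at h6
    by_contra hne'
    apply hnc g hne'
    have h8 : L.subgroupOf (Subgroup.centralizer ({y} : Set G)) ≠
        (L.map (MulAut.conj g).toMonoidHom).subgroupOf (Subgroup.centralizer ({y} : Set G)) := by
      intro heq
      apply hne'
      have := congrArg (Subgroup.map (Subgroup.centralizer ({y} : Set G)).subtype) heq
      rw [Subgroup.map_subgroupOf_eq_of_le h1, Subgroup.map_subgroupOf_eq_of_le hgL] at this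
      exact this.symm
    have h9 := CfsgH2.IsComponent.commutator_eq_bot_of_ne h2 h5 h8
    have h10 := congrArg (Subgroup.map (Subgroup.centralizer ({y} : Set G)).subtype) h9
    rwa [Subgroup.map_commutator, Subgroup.map_subgroupOf_eq_of_le h1, Subgroup.map_subgroupOf_eq_of_le hgL,
      Subgroup.map_bot] at h10
  refine ⟨hq, ⟨?_, ?_⟩, hnc, ?_⟩
  · rw [even_iff_two_dvd, ← hx]
    have : orderOf (⟨x, hLx'⟩ : Subgroup.centralizer (L : Set G)) ∣ Nat.card (Subgroup.centralizer (L : Set G)) :=
      orderOf_dvd_natCard _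
    rwa [Subgroup.orderOf_mk] at this
  · intro g hg
    by_contra hodd
    rw [Nat.not_odd_iff_even, even_iff_two_dvd] at hodd
    haveI : Fact (Nat.Prime 2) := ⟨Nat.prime_two⟩
    obtain ⟨y, hy⟩ := exists_prime_orderOf_dvd_card' 2 hodd
    apply hg
    have h1 : orderOf (y : G) = 2 := by rw [Subgroup.orderOf_coe]; exact hy
    have h2 := key g y h1 y.2.1 y.2.2
    exact CfsgH2.normalizer_le_normalizer_centralizer L (CfsgH2.mem_normalizer_iff_map_conj.mpr h2)
  · apply le_antisymm (CfsgH2.normalizer_le_normalizer_centralizer L)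
    intro g hg
    rw [CfsgH2.mem_normalizer_iff_map_conj] at hg ⊢
    exact key g x hx hLx' (by rw [hg]; exact hLx')

end Cfsg.Agent.S1306
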