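import Cfsg.Statements.S1307
import Cfsg.Agent.H2.QuatComp

set_option autoImplicit false
open Cfsg
open scoped commutatorElement

namespace Cfsg.Agent.S1307

/-- Let G be finite, x an involution and L ≤ C_G(x) a component of C_G(x) of even order and 2-rank 1, such that L is a component of C_G(y) for every involution y ∈ C_G(L). Then some involution of L is a classical involution of G. -/
theorem result {G : Type*} [Group G] [Finite G] (x : G) (hx : orderOf x = 2) (L : Subgroup G) (hLx : L ≤ Subgroup.centralizer ({x} : Set G)) (hL : Cfsg.IsComponent (L.subgroupOf (Subgroup.centralizer ({x} : Set G)))) (heven : Even (Nat.card ↥L)) (hrk : Cfsg.PRankLE 2 1 ↥L) (hne : ∀ y : G, orderOf y = 2 → y ∈ Subgroup.centralizer (L : Set G) → L ≤ Subgroup.centralizer ({y} : Set G) ∧ Cfsg.IsComponent (L.subgroupOf (Subgroup.centralizer ({y} : Set G)))) : ∃ t ∈ L, Cfsg.IsClassicalInvolution t := by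
  have hq : Cfsg.IsQuasisimple L := (CfsgH2.isQuasisimple_subgroupOf hLx).mp hL.2
  obtain ⟨S, m, ⟨e⟩⟩ := CfsgH2.sylow_quaternion hq heven hrk
  obtain ⟨z, hzc, hz2⟩ := CfsgH2.exists_central_involution hq S e
  have hzG : orderOf (z : G) = 2 := by rw [Subgroup.orderOf_coe]; exact hz2
  have hzL : (z : G) ∈ Subgroup.centralizer (L : Set G) := by
    refine Subgroup.mem_centralizer_iff.mpr ?_
    intro l hl
    exact congrArg Subtype.val (Subgroup.mem_center_iff.mp hzc ⟨l, hl⟩)
  obtain ⟨h1, h2⟩ := hne z hzG hzL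
  exact ⟨z, z.2, hzG, L, h1, z.2, h2.1, S, m, ⟨e⟩⟩

end Cfsg.Agent.S1307
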