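import Cfsg.Statements.S1314
import Cfsg.Agent.H2.GenFitting2

set_option autoImplicit false
open Cfsg
open scoped commutatorElement

namespace Cfsg.Agent.S1314

/-- Let x be an involution of a group G and L a perfect subgroup with ⁅L, x L x⁻¹⁆ = 1. Then l ↦ l (x l x⁻¹) is a group homomorphism π from L to G whose kernel is central in L and whose image lies in C_G(x); and the commutator subgroup of C_{L ⊔ xLx⁻¹}(x) equals the image of π. -/
theorem result {G : Type*} [Group G] [Finite G] (x : G) (hx : orderOf x = 2) (L : Subgroup G) (hperf : ⁅L, L⁆ = L) (hcomm : ⁅L, L.map (MulAut.conj x).toMonoidHom⁆ = ⊥) : ∃ π : ↥L →* G, (∀ l : ↥L, π l = (l : G) * (x * (l : G) * x⁻¹)) ∧ π.ker ≤ Subgroup.center ↥L ∧ π.range ≤ Subgroup.centralizer ({x} : Set G) ∧ ⁅(L ⊔ L.map (MulAut.conj x).toMonoidHom) ⊓ Subgroup.centralizer ({x} : Set G), (L ⊔ L.map (MulAut.conj x).toMonoidHom) ⊓ Subgroup.centralizer ({x} : Set G)⁆ = π.range := by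
  have hx2 : x * x = 1 := by
    have := pow_orderOf_eq_one x
    rw [hx, pow_two] at this; exact this
  have hxi : x⁻¹ = x := inv_eq_of_mul_eq_one_left hx2
  have hc : ∀ a ∈ L, ∀ b ∈ L, a * (x * b * x⁻¹) = (x * b * x⁻¹) * a := by
    intro a ha b hb
    exact CfsgH2.commutator_eq_bot_iff_forall.mp hcomm a ha _ ⟨b, hb, rfl⟩
  let π : ↥L →* G :=
    { toFun := fun l => (l : G) * (x * (l : G) * x⁻¹)
      map_one' := by simp
      map_mul' := by
        intro a b
        have h1 := hc b b.2 a a.2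
        calc ((a * b : L) : G) * (x * ((a * b : L) : G) * x⁻¹)
            = a * (b * (x * a * x⁻¹)) * (x * b * x⁻¹) := by push_cast; group
          _ = a * ((x * a * x⁻¹) * b) * (x * b * x⁻¹) := by rw [h1]
          _ = _ := by group }
  have hπ : ∀ l : ↥L, π l = (l : G) * (x * (l : G) * x⁻¹) := fun l => rfl
  have hker : π.ker ≤ Subgroup.center L := by
    intro l hl
    have h1 : (l : G) * (x * (l : G) * x⁻¹) = 1 := hl
    have h2 : (l : G) = x * ((l⁻¹ : L) : G) * x⁻¹ := by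
      rw [mul_eq_one_iff_eq_inv] at h1
      rw [h1]; push_cast; group
    rw [Subgroup.mem_center_iff]
    intro y
    apply Subtype.ext
    have h3 := hc y y.2 (l⁻¹ : L) (l⁻¹ : L).2
    rw [← h2] at h3
    exact h3
  have hxx : ∀ a : G, x * (x * a * x⁻¹) * x⁻¹ = a := by
    intro a
    calc x * (x * a * x⁻¹) * x⁻¹ = (x * x) * a * (x * x)⁻¹ := by group
      _ = a := by rw [hx2]; simp
  have hrange : π.range ≤ Subgroup.centralizer ({x} : Set G) := by
    rintro _ ⟨l, rfl⟩
    rw [Subgroup.mem_centralizer_iff]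
    rintro y rfl
    rw [hπ]
    have h1 := hc l l.2 l l.2
    have h2 := hxx l
    calc y * (↑l * (y * ↑l * y⁻¹)) = (y * l * y⁻¹) * (y * (y * l * y⁻¹) * y⁻¹) * y := by group
      _ = (y * l * y⁻¹) * l * y := by rw [h2]
      _ = l * (y * l * y⁻¹) * y := by rw [← h1]
  refine ⟨π, hπ, hker, hrange, ?_⟩
  set M := L ⊔ L.map (MulAut.conj x).toMonoidHom with hM
  set C := M ⊓ Subgroup.centralizer ({x} : Set G) with hC
  have hrC : π.range ≤ C := by
    refine le_inf ?_ hrange
    rintro _ ⟨l, rfl⟩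
    rw [hπ]
    exact mul_mem ((le_sup_left : L ≤ M) l.2) ((le_sup_right : _ ≤ M) ⟨l, l.2, rfl⟩)
  apply le_antisymm
  · -- every element of `C` is `π a * z` with `z` central in `M`
    have hdec : ∀ c ∈ C, ∃ a : L, ∃ z : G, c = π a * z ∧ ∀ m ∈ M, m * z = z * m := by
      rintro c ⟨hcM, hcx⟩
      obtain ⟨a, ha, b, hb, rfl⟩ := CfsgH2.exists_mul_of_mem_sup (A := L)
        (B := L.map (MulAut.conj x).toMonoidHom) (by
          refine CfsgH1.le_normalizer_of_le_centralizer ?_
          exact Subgroup.commutator_eq_bot_iff_le_centralizer.mp hcomm) hcM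
      obtain ⟨a', ha', rfl⟩ := hb
      have hcx' : x * (a * (x * a' * x⁻¹)) = (a * (x * a' * x⁻¹)) * x := Subgroup.mem_centralizer_iff.mp hcx x rfl
      have h1 : (x * a * x⁻¹) * a' = a * (x * a' * x⁻¹) := by
        calc (x * a * x⁻¹) * a' = (x * a * x⁻¹) * (x * (x * a' * x⁻¹) * x⁻¹) := by rw [hxx]
          _ = (x * (a * (x * a' * x⁻¹))) * x⁻¹ := by group
          _ = ((a * (x * a' * x⁻¹)) * x) * x⁻¹ := by rw [hcx']
          _ = _ := by group
      have h2 : a⁻¹ * a' = x * (a' * a⁻¹) * x⁻¹ := by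
        have h3 := hc a' ha' a ha
        have h4 : a' * (x * a * x⁻¹) = a * (x * a' * x⁻¹) := by rw [h3]; exact h1
        calc a⁻¹ * a' = a⁻¹ * (a' * (x * a * x⁻¹)) * (x * a⁻¹ * x⁻¹) := by group
          _ = a⁻¹ * (a * (x * a' * x⁻¹)) * (x * a⁻¹ * x⁻¹) := by rw [h4]
          _ = _ := by group
      -- `z₀ = a⁻¹ a'` is in both factors
      have hz0L : a⁻¹ * a' ∈ L := L.mul_mem (L.inv_mem ha) ha'
      have hz0c : ∀ m ∈ L, m * (a⁻¹ * a') = (a⁻¹ * a') * m := by
        intro m hm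
        rw [h2]; exact hc m hm _ (L.mul_mem ha' (L.inv_mem ha))
      refine ⟨⟨a, ha⟩, x * (a⁻¹ * a') * x⁻¹, ?_, ?_⟩
      · rw [hπ]
        change a * (x * a' * x⁻¹) = _
        simp only
        group
      · intro m hm
        have hMc : M ≤ Subgroup.centralizer {x * (a⁻¹ * a') * x⁻¹} := by
          refine sup_le ?_ ?_
          · intro w hw
            rw [Subgroup.mem_centralizer_iff]
            rintro v rfl
            exact (hc w hw _ hz0L).symm
          · rintro _ ⟨w, hw, rfl⟩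
            rw [Subgroup.mem_centralizer_iff]
            rintro v rfl
            have h5 := hz0c w hw
            change x * (a⁻¹ * a') * x⁻¹ * (x * w * x⁻¹) = (x * w * x⁻¹) * (x * (a⁻¹ * a') * x⁻¹)
            calc x * (a⁻¹ * a') * x⁻¹ * (x * w * x⁻¹) = x * ((a⁻¹ * a') * w) * x⁻¹ := by group
              _ = x * (w * (a⁻¹ * a')) * x⁻¹ := by rw [h5]
              _ = _ := by group
        exact (Subgroup.mem_centralizer_iff.mp (hMc hm) _ rfl).symm
    rw [Subgroup.commutator_le]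
    intro c hc' d hd'
    obtain ⟨a, z, rfl, hz⟩ := hdec c hc'
    obtain ⟨b, w, rfl, hw⟩ := hdec d hd'
    have haM : π a ∈ M := (hrC ⟨a, rfl⟩).1
    have hbM : π b ∈ M := (hrC ⟨b, rfl⟩).1
    have hdM : π b * w ∈ M := hd'.1
    have key : ⁅π a * z, π b * w⁆ = ⁅π a, π b⁆ := by
      have e1 : z * (π b * w) = (π b * w) * z := (hz _ hdM).symm
      have e2 : w * (π a)⁻¹ = (π a)⁻¹ * w := (hw _ (inv_mem haM)).symm
      rw [commutatorElement_def, commutatorElement_def, mul_inv_rev, mul_inv_rev]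
      calc π a * z * (π b * w) * (z⁻¹ * (π a)⁻¹) * (w⁻¹ * (π b)⁻¹)
          = π a * (z * (π b * w)) * z⁻¹ * (π a)⁻¹ * w⁻¹ * (π b)⁻¹ := by group
        _ = π a * ((π b * w) * z) * z⁻¹ * (π a)⁻¹ * w⁻¹ * (π b)⁻¹ := by rw [e1]
        _ = π a * π b * (w * (π a)⁻¹) * w⁻¹ * (π b)⁻¹ := by group
        _ = π a * π b * ((π a)⁻¹ * w) * w⁻¹ * (π b)⁻¹ := by rw [e2]
        _ = _ := by group
    rw [key, ← map_commutatorElement]
    exact ⟨_, rfl⟩
  · have h1 : ⁅π.range, π.range⁆ = π.range := by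
      have hp : Group.IsPerfect L := Subgroup.isPerfect_iff.mpr hperf
      have : Group.IsPerfect π.range := Group.IsPerfect.range π
      exact Subgroup.isPerfect_iff.mp this
    calc π.range = ⁅π.range, π.range⁆ := h1.symm
      _ ≤ _ := Subgroup.commutator_mono hrC hrC

end Cfsg.Agent.S1314
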