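import Cfsg.Statements.S1316
import Cfsg.Agent.H2.GenFitting2
import Cfsg.Agent.H1.Solv

set_option autoImplicit false
open Cfsg
open scoped commutatorElement

namespace Cfsg.Agent.S1316

/-- For a finite group X, E(X) equals the intersection of the derived series of F*(X) (its last term). -/
theorem result {X : Type*} [Group X] [Finite X] : (⨅ n : ℕ, (derivedSeries ↥(Cfsg.generalizedFittingSubgroup X) n).map (Cfsg.generalizedFittingSubgroup X).subtype) = Cfsg.layer X := by
  set F := Cfsg.generalizedFittingSubgroup X with hF
  set E := (Cfsg.layer X).subgroupOf F with hE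
  have hEle : Cfsg.layer X ≤ F := CfsgH2.layer_le_generalizedFittingSubgroup
  have hEmap : E.map F.subtype = Cfsg.layer X := Subgroup.map_subgroupOf_eq_of_le hEle
  have hEperf : ⁅E, E⁆ = E := by
    apply Subgroup.map_injective F.subtype_injective
    rw [Subgroup.map_commutator, hEmap, CfsgH2.commutator_layer]
  have hle : ∀ n, E ≤ derivedSeries F n := by
    intro n
    induction n with
    | zero => rw [derivedSeries_zero]; exact le_top
    | succ n ih =>
      rw [derivedSeries_succ, ← hEperf]
      exact Subgroup.commutator_mono ih ih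
  have hEn : E.Normal := inferInstance
  have hsolv : Group.IsSolvable (F ⧸ E) := by
    let f : (Cfsg.fittingSubgroup X) →* F ⧸ E := (QuotientGroup.mk' E).comp
      (Subgroup.inclusion CfsgH2.fittingSubgroup_le_generalizedFittingSubgroup)
    have hf : Function.Surjective f := by
      intro y
      obtain ⟨y, rfl⟩ := QuotientGroup.mk'_surjective E y
      have hy : (y : X) ∈ Cfsg.fittingSubgroup X ⊔ Cfsg.layer X := by rw [sup_comm]; exact y.2
      obtain ⟨a, ha, b, hb, hab⟩ := CfsgH2.exists_mul_of_mem_sup
        (CfsgH1.le_normalizer_of_normal _ _) hy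
      refine ⟨⟨a, ha⟩, ?_⟩
      apply QuotientGroup.eq.mpr
      rw [hE, Subgroup.mem_subgroupOf]
      have : ((Subgroup.inclusion CfsgH2.fittingSubgroup_le_generalizedFittingSubgroup ⟨a, ha⟩ : F) : X)⁻¹ * y = b := by
        rw [← hab]; simp
      rw [Subgroup.coe_mul, Subgroup.coe_inv, this]; exact hb
    have hs : Group.IsSolvable (Cfsg.fittingSubgroup X) := inferInstance
    exact Group.isSolvable_of_surjective hf
  obtain ⟨n, hn⟩ := (Group.isSolvable_def _).mp hsolv
  have hDn : derivedSeries F n ≤ E := by
    have h1 := map_derivedSeries_le_derivedSeries (QuotientGroup.mk' E) n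
    rw [hn, le_bot_iff, Subgroup.map_eq_bot_iff, QuotientGroup.ker_mk'] at h1
    exact h1
  apply le_antisymm
  · refine (iInf_le _ n).trans ?_
    rw [← hEmap]
    exact Subgroup.map_mono hDn
  · refine le_iInf fun n => ?_
    rw [← hEmap]
    exact Subgroup.map_mono (hle n)

end Cfsg.Agent.S1316
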