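import Cfsg.Statements.S1319
import Cfsg.Agent.H2.GenFitting2

set_option autoImplicit false
open Cfsg

namespace Cfsg.Agent.S1319

/-- Let A be a subnormal subgroup of the finite group X with E(A) = A. Then A ≤ E(X) and A is normal in E(X). -/
theorem result {X : Type*} [Group X] [Finite X] (A : Subgroup X) (hsn : A.IsSubnormal) (hA : Cfsg.layer ↥A = ⊤) : A ≤ Cfsg.layer X ∧ (A.subgroupOf (Cfsg.layer X)).Normal := by
  have h1 := CfsgH2.IsSubnormal.map_layer_eq_sSup hsn
  have h2 : A = sSup {L : Subgroup X | Cfsg.IsComponent L ∧ L ≤ A} := by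
    rw [← h1]; exact (CfsgH2.layer_eq_top_of_eq.mpr hA).symm
  have hle : A ≤ Cfsg.layer X := by
    rw [h2]; exact sSup_le fun L hL => CfsgH2.IsComponent.le_layer hL.1
  refine ⟨hle, ?_⟩
  rw [Subgroup.normal_subgroupOf_iff_le_normalizer hle]
  intro x hx
  rw [CfsgH2.mem_normalizer_iff_map_conj]
  have key : ∀ L : Subgroup X, Cfsg.IsComponent L → L.map (MulAut.conj x).toMonoidHom = L := fun L hL => by
    rw [← CfsgH2.mem_normalizer_iff_map_conj]; exact CfsgH2.layer_le_normalizer hL hx
  have h3 : A.map (MulAut.conj x).toMonoidHom = (sSup {L : Subgroup X | Cfsg.IsComponent L ∧ L ≤ A}).map (MulAut.conj x).toMonoidHom := by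
    rw [← h2]
  rw [h3, sSup_eq_iSup, Subgroup.map_iSup]
  simp only [Subgroup.map_iSup]
  conv_rhs => rw [h2, sSup_eq_iSup]
  apply iSup_congr; intro L; apply iSup_congr; intro hL
  exact key L hL.1

end Cfsg.Agent.S1319
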