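import Cfsg.Statements.S1321
import Cfsg.Agent.H2.GenFitting2

set_option autoImplicit false
open Cfsg
open scoped commutatorElement

namespace Cfsg.Agent.S1321

/-- Let X be finite and U ≤ X. Then E(X) is generated by C_{E(X)}(U) together with ⁅E(X), U⁆ (indeed it is their product, ⁅E(X), U⁆ being normal in E(X)). -/
theorem result {X : Type*} [Group X] [Finite X] (U : Subgroup X) : Cfsg.layer X = (Cfsg.layer X ⊓ Subgroup.centralizer (U : Set X)) ⊔ ⁅Cfsg.layer X, U⁆ ∧ ⁅Cfsg.layer X, U⁆ ≤ Cfsg.layer X := by
  set E := Cfsg.layer X with hE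
  set D := ⁅E, U⁆ with hD
  have hEn : E.Normal := inferInstance
  have hDE : D ≤ E := Subgroup.commutator_le_left E U
  refine ⟨?_, hDE⟩
  -- `D` is subnormal in `X`
  have hDn : D.IsSubnormal := by
    refine Subgroup.IsSubnormal.step D E hDE hEn.isSubnormal ?_
    rw [Subgroup.normal_subgroupOf_iff_le_normalizer hDE]
    exact Subgroup.normalizer_commutator_ge_left _ _
  apply le_antisymm
  · set M : Subgroup X := sSup {L : Subgroup X | Cfsg.IsComponent L ∧ ⁅L, D⁆ = ⊥} with hM
    have hME : M ≤ E := sSup_le fun L hL => CfsgH2.IsComponent.le_layer hL.1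
    have hMperf : ⁅M, M⁆ = M := by
      apply le_antisymm (Subgroup.commutator_le_self _)
      refine sSup_le fun L hL => ?_
      rw [← CfsgH2.IsComponent.commutator_self hL.1]
      exact Subgroup.commutator_mono (le_sSup hL) (le_sSup hL)
    have hMD : ⁅M, D⁆ = ⊥ := by
      rw [Subgroup.commutator_eq_bot_iff_le_centralizer]
      refine sSup_le fun L hL => ?_
      rw [← Subgroup.commutator_eq_bot_iff_le_centralizer]; exact hL.2
    have hMU : ⁅M, U⁆ = ⊥ := by
      apply CfsgH2.commutator_eq_bot_of_perfect hMperf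
      rw [← le_bot_iff, ← hMD, Subgroup.commutator_comm M D]
      refine Subgroup.commutator_mono ?_ le_rfl
      rw [Subgroup.commutator_comm U M]
      exact Subgroup.commutator_mono hME le_rfl
    refine sSup_le fun L hL => ?_
    rcases CfsgH2.IsComponent.le_or_commutator_eq_bot hL hDn with h | h
    · exact h.trans le_sup_right
    · refine le_trans (le_inf (CfsgH2.IsComponent.le_layer hL) ?_) le_sup_left
      refine le_trans (le_sSup (show L ∈ {L : Subgroup X | Cfsg.IsComponent L ∧ ⁅L, D⁆ = ⊥} from ⟨hL, h⟩)) ?_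
      rw [← Subgroup.commutator_eq_bot_iff_le_centralizer]; exact hMU
  · exact sup_le inf_le_left hDE

end Cfsg.Agent.S1321
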