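import Cfsg.Statements.S1324
import Cfsg.Agent.H2.CopGen

set_option autoImplicit false
open Cfsg

namespace Cfsg.Agent.S1324

/-- Let A be a noncyclic elementary abelian p-subgroup of a finite group H normalizing a subgroup X of order prime to p. Then X is generated by the subgroups X ∩ C_H(B), B ranging over the subgroups of A of index at most p. -/
theorem result {H : Type*} [Group H] [Finite H] (p : ℕ) [Fact p.Prime] (A X : Subgroup H) (hA : Cfsg.IsElementaryAbelian p A) (hA2 : p ^ 2 ≤ Nat.card ↥A) (hX : ¬ p ∣ Nat.card ↥X) (hAX : A ≤ Subgroup.normalizer (X : Set H)) : X = ⨆ B : {B : Subgroup H // B ≤ A ∧ B.relIndex A ≤ p}, X ⊓ Subgroup.centralizer ((B : Subgroup H) : Set H) := by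
  have hp : p.Prime := Fact.out
  apply le_antisymm
  · refine CfsgH2.coprime_gen_hyperplane hp (A := A) hA.2 (fun x hx y hy => ?_) hAX
      ((Nat.coprime_comm.mp ((hp.coprime_iff_not_dvd).mpr hX))) ?_
    · exact congrArg Subtype.val (hA.1.1.1 ⟨x, hx⟩ ⟨y, hy⟩)
    · intro B hB hBp
      exact le_iSup (fun B : {B : Subgroup H // B ≤ A ∧ B.relIndex A ≤ p} =>
        X ⊓ Subgroup.centralizer ((B : Subgroup H) : Set H)) ⟨B, hB, hBp⟩
  · exact iSup_le fun B => inf_le_left

end Cfsg.Agent.S1324
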