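import Cfsg.Statements.S1331
import Cfsg.Agent.H2.Signalizer

set_option autoImplicit false
open Cfsg
open scoped commutatorElement

namespace Cfsg.Agent.S1331

/-- Let θ be a solvable A-signalizer functor on the finite group G for the prime p, A elementary abelian of rank at least 3, X a member of the family of θ, and B ≤ A with |B| ≥ p². Then X is generated by the subgroups X ∩ ⋂_{d ∈ D, d ≠ 1} θ d, D ranging over the subgroups of index p in B. -/
theorem result {G : Type*} [Group G] [Finite G] (p : ℕ) [Fact p.Prime] (A : Subgroup G) (hA : Cfsg.IsElementaryAbelian p A) (hA3 : p ^ 3 ≤ Nat.card ↥A) (θ : G → Subgroup G) (hθ : Cfsg.IsSolvableSignalizerFunctor p A θ) (X : Subgroup G) (hX : X ∈ Cfsg.signalizerFamily p A θ) (B : Subgroup G) (hB : B ≤ A) (hB2 : p ^ 2 ≤ Nat.card ↥B) : X = ⨆ D : {D : Subgroup G // D ≤ B ∧ D.relIndex B = p}, X ⊓ Cfsg.signalizerInf (D : Subgroup G) θ := by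
  have hp : p.Prime := Fact.out
  have hBn : ∀ b ∈ B, b ^ p = 1 := fun b hb => hA.2 b (hB hb)
  have hBc : ∀ x ∈ B, ∀ y ∈ B, x * y = y * x := fun x hx y hy =>
    CfsgH2.IsElementaryAbelian.comm hA x (hB hx) y (hB hy)
  have hBp : IsPGroup p B := (CfsgH2.IsElementaryAbelian.isPGroup hA).to_le hB
  apply le_antisymm
  · refine CfsgH2.coprime_gen_hyperplane hp (A := B) hBn hBc (hB.trans (CfsgH2.family_le_normalizer hX))
      (CfsgH2.coprime_of_not_dvd hX.2.1) ?_
    intro D hD hDp
    -- a subgroup of index exactly `p` inside `D`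
    obtain ⟨D', hD'D, hD'p⟩ : ∃ D' : Subgroup G, D' ≤ D ∧ D'.relIndex B = p := by
      by_cases h1 : D.relIndex B = 1
      · have hDB : D = B := le_antisymm hD (Subgroup.relIndex_eq_one.mp h1)
        obtain ⟨k, hk⟩ := IsPGroup.iff_card.mp hBp
        have hk2 : 2 ≤ k := by
          rw [hk] at hB2; exact (Nat.pow_le_pow_iff_right hp.one_lt).mp hB2
        obtain ⟨M, hM⟩ := Sylow.exists_subgroup_card_pow_prime (G := B) p (n := k - 1) (by
          rw [hk]; exact pow_dvd_pow p (by omega))
        refine ⟨M.map B.subtype, by rw [hDB]; exact Subgroup.map_subtype_le _, ?_⟩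
        have h2 := Subgroup.relIndex_mul_relIndex (⊥ : Subgroup G) (M.map B.subtype) B bot_le (Subgroup.map_subtype_le _)
        rw [Subgroup.relIndex_bot_left, Subgroup.relIndex_bot_left, Subgroup.card_map_of_injective B.subtype_injective,
          hM, hk] at h2
        have h3 : p ^ k = p ^ (k - 1) * p := by rw [← pow_succ]; congr 1; omega
        rw [h3] at h2
        exact Nat.eq_of_mul_eq_mul_left (pow_pos hp.pos _) h2
      · refine ⟨D, le_rfl, ?_⟩
        have h2 : D.relIndex B ∣ Nat.card B := Subgroup.relIndex_dvd_card _ _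
        obtain ⟨k, hk⟩ := IsPGroup.iff_card.mp hBp
        rw [hk] at h2
        obtain ⟨j, _, hj⟩ := (Nat.dvd_prime_pow hp).mp h2
        rw [hj] at hDp h1 ⊢
        have : j ≠ 0 := by rintro rfl; exact h1 (pow_zero _)
        have h3 : j ≤ 1 := by
          rw [← Nat.pow_le_pow_iff_right hp.one_lt, pow_one]; exact hDp
        have : j = 1 := by omega
        rw [this, pow_one]
    have hD'B : D' ≤ B := hD'D.trans hD
    refine le_trans ?_ (le_iSup (fun D : {D : Subgroup G // D ≤ B ∧ D.relIndex B = p} =>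
      X ⊓ Cfsg.signalizerInf (D : Subgroup G) θ) ⟨D', hD'B, hD'p⟩)
    refine le_inf inf_le_left ?_
    refine le_iInf fun d => ?_
    refine le_trans (inf_le_inf_left _ (Subgroup.centralizer_le (Set.singleton_subset_iff.mpr (hD'D d.2.1)))) ?_
    exact hX.2.2.2 d (hB (hD'B d.2.1)) d.2.2
  · exact iSup_le fun D => inf_le_left

end Cfsg.Agent.S1331
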