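import Cfsg.Statements.S1335
import Cfsg.Agent.H8.Syl
import Cfsg.Agent.H3.Frob

set_option autoImplicit false
open Cfsg
open scoped commutatorElement

namespace Cfsg.Agent.S1335

/-- Let H be a subgroup of the finite group G, p a prime, k ≥ 1, P a Sylow p-subgroup of H of p-rank at least k, and suppose N_G(X) ≤ H for every subgroup X ≤ P of p-rank at least k. Then P is a Sylow p-subgroup of G. -/
theorem result {G : Type*} [Group G] [Finite G] {p : ℕ} [Fact p.Prime] (k : ℕ) (hk : 1 ≤ k) (H : Subgroup G) (P : Sylow p ↥H) (hP : ¬ Cfsg.PRankLE p (k - 1) ↥(P : Subgroup ↥H)) (hΓ : (∀ X : Subgroup G, X ≤ (P : Subgroup ↥H).map H.subtype → ¬ Cfsg.PRankLE p (k - 1) ↥X → Subgroup.normalizer (X : Set G) ≤ H)) : ∃ Q : Sylow p G, (Q : Subgroup G) = (P : Subgroup ↥H).map H.subtype := by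
  set P₁ := (P : Subgroup ↥H).map H.subtype with hP₁
  have hP₁p : IsPGroup p P₁ := P.isPGroup'.map _
  -- ranks
  have hrk : ¬ Cfsg.PRankLE p (k - 1) ↥P₁ := by
    intro h
    apply hP
    intro A hA hAp
    let e : (P : Subgroup H) ≃* P₁ := (P : Subgroup H).equivMapOfInjective H.subtype H.subtype_injective
    have h1 := h (A.map e.toMonoidHom) ?_ ?_
    · rwa [Subgroup.card_map_of_injective (f := e.toMonoidHom) e.injective] at h1
    · refine ⟨⟨?_⟩⟩
      rintro ⟨_, a, ha, rfl⟩ ⟨_, b, hb, rfl⟩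
      apply Subtype.ext
      change e a * e b = e b * e a
      rw [← map_mul, ← map_mul]
      congr 1
      exact congrArg Subtype.val (hA.1.1 ⟨a, ha⟩ ⟨b, hb⟩)
    · rintro _ ⟨a, ha, rfl⟩
      change (e a) ^ p = 1
      rw [← map_pow, hAp a ha, map_one]
  have hN : Subgroup.normalizer (P₁ : Set G) ≤ H := hΓ P₁ le_rfl hrk
  obtain ⟨Q, hQ⟩ := hP₁p.exists_le_sylow
  refine ⟨Q, ?_⟩
  by_contra hne
  have hlt : P₁ < (Q : Subgroup G) := lt_of_le_of_ne hQ (Ne.symm hne)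
  haveI : Group.IsNilpotent (Q : Subgroup G) := Q.isPGroup'.isNilpotent
  obtain ⟨x, hxQ, hxP, hxn⟩ := CfsgH3.exists_normalizer_gt hlt
  have hxH : x ∈ H := hN hxn
  -- `P` is a maximal `p`-subgroup of `H`
  have h2 : IsPGroup p ((Q : Subgroup G).subgroupOf H) := Q.isPGroup'.comap_subtype
  have h3 : (P : Subgroup H) ≤ (Q : Subgroup G).subgroupOf H := by
    intro y hy
    exact hQ ⟨y, hy, rfl⟩
  have h4 := P.is_maximal' h2 h3
  apply hxP
  have h5 : (⟨x, hxH⟩ : H) ∈ (P : Subgroup H) := by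
    change (⟨x, hxH⟩ : H) ∈ P.toSubgroup
    rw [← h4]; exact hxQ
  exact ⟨_, h5, rfl⟩

end Cfsg.Agent.S1335
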