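import Cfsg.Statements.S1337
import Cfsg.Agent.H2.RankConn

set_option autoImplicit false
open Cfsg
open scoped commutatorElement

namespace Cfsg.Agent.S1337

open Subgroup

theorem sup_elem {P : Type*} [Group P] {p : ℕ} {X Y : Subgroup P} (hX1 : ∀ x ∈ X, ∀ y ∈ X, x * y = y * x) (hX2 : ∀ x ∈ X, x ^ p = 1)
    (hY1 : ∀ x ∈ Y, ∀ y ∈ Y, x * y = y * x) (hY2 : ∀ x ∈ Y, x ^ p = 1) (hXY : ∀ x ∈ X, ∀ y ∈ Y, x * y = y * x) :
    (∀ x ∈ X ⊔ Y, ∀ y ∈ X ⊔ Y, x * y = y * x) ∧ (∀ x ∈ X ⊔ Y, x ^ p = 1) := by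
  have hn : Y ≤ normalizer (X : Set P) := by
    intro y hy
    rw [mem_normalizer_iff]
    intro x
    constructor
    · intro hx
      rw [← hXY x hx y hy, mul_inv_cancel_right]; exact hx
    · intro hx
      have h1 := hXY _ hx y hy
      have h2 : x = y * x * y⁻¹ := by
        have h3 : y * x = y * (y * x * y⁻¹) := by rw [← h1]; group
        exact mul_left_cancel h3
      rw [h2]; exact hx
  have hmem : ∀ z ∈ X ⊔ Y, ∃ x ∈ X, ∃ y ∈ Y, x * y = z := fun z hz => (CfsgH1.mem_sup_of_le_normalizer' hn).1 hz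
  constructor
  · intro z hz z' hz'
    obtain ⟨x, hx, y, hy, rfl⟩ := hmem z hz
    obtain ⟨x', hx', y', hy', rfl⟩ := hmem z' hz'
    calc x * y * (x' * y') = x * (y * x') * y' := by simp only [mul_assoc]
      _ = x * (x' * y) * y' := by rw [← hXY x' hx' y hy]
      _ = (x * x') * (y * y') := by simp only [mul_assoc]
      _ = (x' * x) * (y' * y) := by rw [hX1 x hx x' hx', hY1 y hy y' hy']
      _ = x' * (x * y') * y := by simp only [mul_assoc]
      _ = x' * (y' * x) * y := by rw [hXY x hx y' hy']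
      _ = x' * y' * (x * y) := by simp only [mul_assoc]
  · intro z hz
    obtain ⟨x, hx, y, hy, rfl⟩ := hmem z hz
    have hc : Commute x y := hXY x hx y hy
    rw [hc.mul_pow, hX2 x hx, hY2 y hy, one_mul]


/-- Let P be a finite p-group of p-rank greater than 2. Then P has a normal elementary abelian subgroup U of order p², and for every elementary abelian X ≤ P with |X| ≥ p²: X is joined to U by a chain of pairwise commuting elementary abelian subgroups of order ≥ p² if and only if C_P(X) has p-rank greater than 2. -/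
theorem result {P : Type*} [Group P] [Finite P] (p : ℕ) [Fact p.Prime] (hP : IsPGroup p P) (hrk : ¬ Cfsg.PRankLE p 2 P) : ∃ U : Subgroup P, U.Normal ∧ Cfsg.IsElementaryAbelian p U ∧ Nat.card ↥U = p ^ 2 ∧ ∀ X : Subgroup P, Cfsg.IsElementaryAbelian p X → p ^ 2 ≤ Nat.card ↥X → (Relation.ReflTransGen (fun A B : Subgroup P => Cfsg.IsElementaryAbelian p A ∧ p ^ 2 ≤ Nat.card ↥A ∧ Cfsg.IsElementaryAbelian p B ∧ p ^ 2 ≤ Nat.card ↥B ∧ ∀ a ∈ A, ∀ b ∈ B, a * b = b * a) X U ↔ ¬ Cfsg.PRankLE p 2 ↥(Subgroup.centralizer (X : Set P))) := by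
  have hpp : p.Prime := Fact.out
  -- large elementary abelian subgroup
  have hrk' := hrk
  unfold PRankLE at hrk'
  push Not at hrk'
  obtain ⟨E, hEc, hEp, hEcard⟩ := hrk'
  have hEab : ∀ x ∈ E, ∀ y ∈ E, x * y = y * x := fun x hx y hy => congrArg Subtype.val (hEc.is_comm.comm ⟨x, hx⟩ ⟨y, hy⟩)
  obtain ⟨U, hUn, hUab, hUp, hUc⟩ : ∃ U : Subgroup P, U.Normal ∧ (∀ a ∈ U, ∀ b ∈ U, a * b = b * a) ∧ (∀ a ∈ U, a ^ p = 1) ∧ Nat.card U = p ^ 2 := by
    by_cases hp2 : p = 2
    · subst hp2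
      apply CfsgH2.exists_normal_four hP hEab (fun x hx => by rw [← pow_two]; exact hEp x hx)
      obtain ⟨k, hk⟩ := IsPGroup.iff_card.1 (hP.to_subgroup E)
      rw [hk] at hEcard ⊢
      have : 2 < k := by
        by_contra hcon
        have := Nat.pow_le_pow_right (show 0 < 2 by norm_num) (not_lt.1 hcon)
        omega
      calc 8 = 2 ^ 3 := by norm_num
        _ ≤ 2 ^ k := Nat.pow_le_pow_right (by norm_num) this
    · apply CfsgH3.exists_normal_sq hp2 hP
      intro hcyc
      have h1 : Nat.card E ≤ p := by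
        haveI : IsCyclic E := inferInstance
        obtain ⟨g, hg⟩ := IsCyclic.exists_generator (α := E)
        have h2 : Nat.card E = orderOf g := by
          rw [← Nat.card_zpowers]
          have : zpowers g = ⊤ := (Subgroup.eq_top_iff' _).2 hg
          rw [this, Subgroup.card_top]
        rw [h2]
        exact orderOf_le_of_pow_eq_one hpp.pos (Subtype.ext (hEp g g.2))
      have h2 : p ^ 1 ≤ p ^ 2 := Nat.pow_le_pow_right hpp.pos (by norm_num)
      rw [pow_one] at h2
      omega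
  have hUea : IsElementaryAbelian p U := CfsgH3.isElementaryAbelian_iff'.2 ⟨hUab, hUp⟩
  -- rank criterion
  have rk1 : ∀ X Y : Subgroup P, (∀ x ∈ X, ∀ y ∈ Y, x * y = y * x) → (∀ x ∈ Y, ∀ y ∈ Y, x * y = y * x) → (∀ y ∈ Y, y ^ p = 1) →
      p ^ 2 < Nat.card Y → ¬ PRankLE p 2 ↥(Subgroup.centralizer (X : Set P)) := by
    intro X Y hXY hY1 hY2 hYc hcon
    have hle : Y ≤ centralizer (X : Set P) := fun y hy => mem_centralizer_iff.2 (fun x hx => hXY x hx y hy)
    have h1 := hcon (Y.subgroupOf (centralizer (X : Set P))) ⟨⟨fun x y => Subtype.ext (Subtype.ext (hY1 _ x.2 _ y.2))⟩⟩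
      (fun y hy => Subtype.ext (hY2 _ hy))
    rw [CfsgH1.card_subgroupOf hle] at h1
    omega
  have rk2 : ∀ X : Subgroup P, ¬ PRankLE p 2 ↥(Subgroup.centralizer (X : Set P)) → ∃ Y : Subgroup P,
      (∀ x ∈ X, ∀ y ∈ Y, x * y = y * x) ∧ (∀ x ∈ Y, ∀ y ∈ Y, x * y = y * x) ∧ (∀ y ∈ Y, y ^ p = 1) ∧ p ^ 2 < Nat.card Y := by
    intro X hX
    unfold PRankLE at hX
    push Not at hX
    obtain ⟨Y, hY1, hY2, hY3⟩ := hX
    refine ⟨Y.map (Subgroup.subtype _), ?_, ?_, ?_, ?_⟩
    · rintro x hx _ ⟨y, hy, rfl⟩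
      exact mem_centralizer_iff.1 y.2 x hx
    · rintro _ ⟨x, hx, rfl⟩ _ ⟨y, hy, rfl⟩
      have h1 := congrArg Subtype.val (hY1.is_comm.comm ⟨x, hx⟩ ⟨y, hy⟩)
      exact congrArg Subtype.val h1
    · rintro _ ⟨y, hy, rfl⟩
      exact congrArg Subtype.val (hY2 y hy)
    · rw [Subgroup.card_map_of_injective (Subgroup.subtype_injective _)]
      exact hY3
  -- centralizer of `U`
  haveI := hUn
  have hCU := CfsgH3.centralizer_index_le hP (A := U) hUab hUc.le
  have hCE : ∀ Y : Subgroup P, Nat.card Y ≤ p * Nat.card (Y ⊓ centralizer (U : Set P) : Subgroup P) := by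
    intro Y
    have h1 := (( centralizer (U : Set P)).subgroupOf Y).card_mul_index
    have h2 : Nat.card ((centralizer (U : Set P)).subgroupOf Y) = Nat.card (Y ⊓ centralizer (U : Set P) : Subgroup P) := by
      rw [← Subgroup.inf_subgroupOf_left, CfsgH1.card_subgroupOf inf_le_left]
    have h3 : ((centralizer (U : Set P)).subgroupOf Y).index ≤ p := by
      have h4 : (centralizer (U : Set P)).relIndex Y ∣ (centralizer (U : Set P)).index := Subgroup.relIndex_dvd_index_of_normal _ _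
      exact (Nat.le_of_dvd (Nat.pos_of_ne_zero Subgroup.index_ne_zero_of_finite) h4).trans hCU
    rw [← h1, h2, mul_comm]
    exact Nat.mul_le_mul_right _ h3
  have hcardpow : ∀ Y : Subgroup P, p ^ 2 < Nat.card Y → p ^ 3 ≤ Nat.card Y := by
    intro Y hY
    obtain ⟨k, hk⟩ := IsPGroup.iff_card.1 (hP.to_subgroup Y)
    rw [hk] at hY ⊢
    have : 2 < k := by
      by_contra hcon
      have := Nat.pow_le_pow_right hpp.pos (not_lt.1 hcon)
      omega
    exact Nat.pow_le_pow_right hpp.pos this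
  have hCE2 : ∀ Y : Subgroup P, p ^ 2 < Nat.card Y → p ^ 2 ≤ Nat.card (Y ⊓ centralizer (U : Set P) : Subgroup P) := by
    intro Y hY
    have h1 := hcardpow Y hY
    have h2 := hCE Y
    have h3 : p * p ^ 2 ≤ p * Nat.card (Y ⊓ centralizer (U : Set P) : Subgroup P) := by
      calc p * p ^ 2 = p ^ 3 := by ring
        _ ≤ _ := h1.trans h2
    exact Nat.le_of_mul_le_mul_left h3 hpp.pos
  refine ⟨U, hUn, hUea, hUc, ?_⟩
  intro X hX hXc
  obtain ⟨hXab, hXp⟩ := CfsgH3.isElementaryAbelian_iff'.1 hX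
  constructor
  · intro h
    clear hXab hXp hX hXc
    induction h using Relation.ReflTransGen.head_induction_on with
    | refl =>
      have h2 := hCE2 E hEcard
      obtain ⟨h3, h4⟩ := sup_elem (X := U) (Y := E ⊓ centralizer (U : Set P)) hUab hUp (fun x hx y hy => hEab x hx.1 y hy.1)
        (fun x hx => hEp x hx.1) (fun x hx y hy => mem_centralizer_iff.1 hy.2 x hx)
      apply rk1 U (U ⊔ (E ⊓ centralizer (U : Set P))) (fun x hx y hy => h3 x (mem_sup_left hx) y hy) h3 h4
      by_contra hcon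
      push Not at hcon
      have h5 : U = U ⊔ (E ⊓ centralizer (U : Set P)) := Subgroup.eq_of_le_of_card_ge le_sup_left (by rw [hUc]; exact hcon)
      have h6 : E ⊓ centralizer (U : Set P) ≤ U := le_trans le_sup_right h5.ge
      have h7 : E ⊓ centralizer (U : Set P) = U := Subgroup.eq_of_le_of_card_ge h6 (by rw [hUc]; exact h2)
      have h8 : U ≤ E := by rw [← h7]; exact inf_le_left
      have h9 : E ≤ U := by
        rw [← h7]
        intro x hx
        exact ⟨hx, mem_centralizer_iff.2 (fun u hu => hEab u (h8 hu) x hx)⟩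
      have h10 := Nat.card_le_card_of_injective (Subgroup.inclusion h9) (Subgroup.inclusion_injective h9)
      omega
    | @head A C hAC hCU' ih =>
      obtain ⟨hA1, hA2, hC1, hC2, hAC'⟩ := hAC
      by_cases hACe : A = C
      · rw [hACe]; exact ih
      obtain ⟨hAab, hAp⟩ := CfsgH3.isElementaryAbelian_iff'.1 hA1
      obtain ⟨hCab, hCp⟩ := CfsgH3.isElementaryAbelian_iff'.1 hC1
      obtain ⟨h3, h4⟩ := sup_elem hAab hAp hCab hCp hAC'
      apply rk1 A (A ⊔ C) (fun x hx y hy => h3 x (mem_sup_left hx) y hy) h3 h4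
      by_contra hcon
      push Not at hcon
      have h5 : A = A ⊔ C := Subgroup.eq_of_le_of_card_ge le_sup_left (hcon.trans hA2)
      have h6 : C = A ⊔ C := Subgroup.eq_of_le_of_card_ge le_sup_right (hcon.trans hC2)
      exact hACe (h5.trans h6.symm)
  · intro h
    obtain ⟨Y, hXY, hYab, hYp, hYc⟩ := rk2 X h
    obtain ⟨h3, h4⟩ := sup_elem hXab hXp hYab hYp hXY
    have hZc : p ^ 2 < Nat.card (X ⊔ Y : Subgroup P) :=
      lt_of_lt_of_le hYc (Nat.card_le_card_of_injective (Subgroup.inclusion le_sup_right) (Subgroup.inclusion_injective le_sup_right))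
    have hZ : IsElementaryAbelian p (X ⊔ Y) := CfsgH3.isElementaryAbelian_iff'.2 ⟨h3, h4⟩
    have hV : IsElementaryAbelian p ((X ⊔ Y) ⊓ centralizer (U : Set P)) :=
      CfsgH3.isElementaryAbelian_iff'.2 ⟨fun x hx y hy => h3 x hx.1 y hy.1, fun x hx => h4 x hx.1⟩
    have hVc := hCE2 _ hZc
    apply Relation.ReflTransGen.head (b := X ⊔ Y) ⟨hX, hXc, hZ, hZc.le, fun a ha b hb => h3 a (mem_sup_left ha) b hb⟩
    apply Relation.ReflTransGen.head (b := (X ⊔ Y) ⊓ centralizer (U : Set P)) ⟨hZ, hZc.le, hV, hVc, fun a ha b hb => h3 a ha b hb.1⟩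
    apply Relation.ReflTransGen.single
    exact ⟨hV, hVc, hUea, hUc.ge, fun a ha b hb => (mem_centralizer_iff.1 ha.2 b hb).symm⟩

end Cfsg.Agent.S1337
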