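import Cfsg.Statements.S1348
import Cfsg.Agent.H2.SLStd

set_option autoImplicit false
open Cfsg
open scoped commutatorElement

namespace Cfsg.Agent.S1348

/-- Let F be a finite field of odd order, n ≥ 7 odd, and t ∈ SL(n, F) the diagonal matrix with entries −1, …, −1, 1. Then E(C(t)) is a standard subgroup of SL(n, F). -/
theorem result {F : Type*} [Field F] [Fintype F] [DecidableEq F] (hF : Odd (Fintype.card F)) (n : ℕ) (hn : 7 ≤ n) (hodd : Odd n) (t : Matrix.SpecialLinearGroup (Fin n) F) (ht : (t : Matrix (Fin n) (Fin n) F) = Matrix.diagonal (fun i : Fin n => if (i : ℕ) + 1 = n then (1 : F) else -1)) : Cfsg.IsStandardSubgroup ((Cfsg.layer ↥(Subgroup.centralizer ({t} : Set (Matrix.SpecialLinearGroup (Fin n) F)))).map (Subgroup.centralizer ({t} : Set (Matrix.SpecialLinearGroup (Fin n) F))).subtype) := by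
  have hl : ∀ i : Fin n, ((i : ℕ) + 1 = n) ↔ i = ⟨n - 1, by omega⟩ := by
    intro i
    rw [Fin.ext_iff]
    change _ ↔ (i : ℕ) = n - 1
    omega
  have ht' : t.1 = Matrix.diagonal (fun i : Fin n => if i = ⟨n - 1, by omega⟩ then (1 : F) else -1) := by
    have h1 : t.1 = _ := ht
    rw [h1]
    congr 1
    ext i
    by_cases hi : (i : ℕ) + 1 = n
    · rw [if_pos hi, if_pos ((hl i).mp hi)]
    · rw [if_neg hi, if_neg (fun h => hi ((hl i).mpr h))]
  exact CfsgH2.standard_SL hF (by omega) hodd t ht'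

end Cfsg.Agent.S1348
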