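import Mathlib
import Cfsg.Agent.H3.FitHall
import Cfsg.Statements.S1386

set_option autoImplicit false
open Cfsg

namespace Cfsg.Agent.S1386

/-- Let G be a finite group, W₁, W₂ subgroups forming a self-normalizing cyclic pair, S a subgroup with W₂ ≤ S and W₁ a complement to S' in S, and (W₁, U, W₂') type-P data for S. Then W₂' = W₂ (that is, C_{S'}(W₁) = W₂). -/
theorem result {G : Type*} [Group G] [Finite G] (W₁ W₂ S U W₂' : Subgroup G) (hW : Cfsg.IsSelfNormalizingCyclic W₁ W₂)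
    (hSW : Cfsg.IsComplIn ⁅S, S⁆ W₁ S) (hW₂S : W₂ ≤ S) (hP : Cfsg.IsTypePWith S W₁ U W₂') :
    W₂' = W₂ := by
  classical
  obtain ⟨hW1, hW2, hdisj, hcomm, hcyc, hnorm⟩ := hW
  obtain ⟨hW1', hW2', hdisj', hcomm', hcyc', hnorm'⟩ := hP.selfNormalizing
  obtain ⟨a, haW, ha1⟩ := (Subgroup.bot_or_exists_ne_one W₁).resolve_left hW1
  obtain ⟨b, hbW, hb1⟩ := (Subgroup.bot_or_exists_ne_one W₂).resolve_left hW2
  have hcyccomm : ∀ x ∈ W₁ ⊔ W₂', ∀ y ∈ W₁ ⊔ W₂', x * y = y * x := by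
    intro x hx y hy
    haveI := hcyc'
    exact congrArg Subtype.val (IsMulCommutative.is_comm.comm (⟨x, hx⟩ : ↥(W₁ ⊔ W₂')) ⟨y, hy⟩)
  -- W₂ ≤ W₁ ⊔ W₂'
  have h1 : W₂ ≤ W₁ ⊔ W₂' := by
    intro w hw
    obtain ⟨c, hc, d, hd, hcd⟩ := hSW.2.2.2 w (hW₂S hw)
    have h2 : c ∈ ⁅S, S⁆ ⊓ Subgroup.centralizer ({a} : Set G) := by
      refine Subgroup.mem_inf.2 ⟨hc, ?_⟩
      rw [Subgroup.mem_centralizer_iff]
      intro z hz
      rw [Set.mem_singleton_iff.1 hz]
      have h3 : c = w * d⁻¹ := by rw [hcd]; group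
      have h4 : a * w = w * a := hcomm a haW w hw
      have h5 : a * d = d * a := hcyccomm a (le_sup_left (a := W₁) haW) d (le_sup_left (a := W₁) hd)
      rw [h3, ← mul_assoc, h4, mul_assoc, mul_assoc]
      congr 1
      rw [eq_inv_mul_iff_mul_eq, ← mul_assoc, ← h5]
      group
    rw [hP.W₂_centralizer a haW ha1] at h2
    rw [hcd]
    exact Subgroup.mul_mem _ (le_sup_right (a := W₁) h2) (le_sup_left (a := W₁) hd)
  have hle : W₁ ⊔ W₂ ≤ W₁ ⊔ W₂' := sup_le le_sup_left h1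
  -- the reverse inclusion
  have hx : a * b ∈ (↑(W₁ ⊔ W₂) : Set G) \ (↑W₁ ∪ ↑W₂) := by
    refine ⟨Subgroup.mul_mem _ (le_sup_left (a := W₁) haW) (le_sup_right (a := W₁) hbW), ?_⟩
    rintro (h | h)
    · have h2 : b ∈ W₁ := by
        have := W₁.mul_mem (W₁.inv_mem haW) h
        rwa [inv_mul_cancel_left] at this
      have h3 : b ∈ W₁ ⊓ W₂ := Subgroup.mem_inf.2 ⟨h2, hbW⟩
      rw [hdisj, Subgroup.mem_bot] at h3
      exact hb1 h3
    · have h2 : a ∈ W₂ := by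
        have := W₂.mul_mem h (W₂.inv_mem hbW)
        rwa [mul_inv_cancel_right] at this
      have h3 : a ∈ W₁ ⊓ W₂ := Subgroup.mem_inf.2 ⟨haW, h2⟩
      rw [hdisj, Subgroup.mem_bot] at h3
      exact ha1 h3
  have h2 := hnorm {a * b} (Set.singleton_subset_iff.2 hx) (Set.singleton_nonempty _)
  have hge : W₁ ⊔ W₂' ≤ W₁ ⊔ W₂ := by
    rw [← h2]
    intro y hy
    have h3 : ∀ n : G, n ∈ ({a * b} : Set G) ↔ y * n * y⁻¹ ∈ ({a * b} : Set G) := by
      intro n
      rw [Set.mem_singleton_iff, Set.mem_singleton_iff]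
      have h4 : y * (a * b) * y⁻¹ = a * b := by
        rw [hcyccomm y hy (a * b) (hle hx.1), mul_inv_cancel_right]
      constructor
      · rintro rfl; exact h4
      · intro h5
        have h6 : n = y⁻¹ * (y * n * y⁻¹) * y := by group
        rw [h6, h5, ← h4]
        have h7 : y⁻¹ * (y * (a * b) * y⁻¹) * y = a * b := by group
        rw [h7, h4]
    exact h3
  have heq : W₁ ⊔ W₂ = W₁ ⊔ W₂' := le_antisymm hle hge
  have hcardW : ∀ V : Subgroup G, W₁ ⊓ V = ⊥ → (∀ a ∈ W₁, ∀ b ∈ V, a * b = b * a) → Nat.card ↥(W₁ ⊔ V) = Nat.card W₁ * Nat.card V := by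
    intro V h3 h4
    apply CfsgH1.card_sup_of_disjoint _ h3
    intro x hx
    rw [Subgroup.mem_normalizer_iff]
    intro y
    constructor
    · intro hy
      rw [h4 x hx y hy, mul_inv_cancel_right]
      exact hy
    · intro hy
      have h5 := h4 x hx _ hy
      have h6 : y = x * y * x⁻¹ := by
        calc y = x⁻¹ * (x * y * x⁻¹ * x) := by group
          _ = x⁻¹ * (x * (x * y * x⁻¹)) := by rw [← h5]
          _ = x * y * x⁻¹ := by group
      rw [h6]
      exact hy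
  have hc1 := hcardW W₂ hdisj hcomm
  have hc2 := hcardW W₂' hdisj' hcomm'
  rw [heq, hc2] at hc1
  have hc3 : Nat.card W₂' = Nat.card W₂ := Nat.eq_of_mul_eq_mul_left Nat.card_pos hc1
  -- subgroups of a cyclic group of the same order
  haveI := hcyc'
  have h5 : W₂'.subgroupOf (W₁ ⊔ W₂') = W₂.subgroupOf (W₁ ⊔ W₂') := by
    apply CfsgH3.cyclic_subgroup_eq
    rw [Nat.card_congr (Subgroup.subgroupOfEquivOfLe le_sup_right).toEquiv, Nat.card_congr (Subgroup.subgroupOfEquivOfLe h1).toEquiv, hc3]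
  have h6 := congrArg (fun K => Subgroup.map (W₁ ⊔ W₂').subtype K) h5
  skip
  rwa [Subgroup.map_subgroupOf_eq_of_le le_sup_right, Subgroup.map_subgroupOf_eq_of_le h1] at h6

end Cfsg.Agent.S1386
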