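import Mathlib
import Cfsg.Agent.H3.FitHall
import Cfsg.Statements.S1387

set_option autoImplicit false
open Cfsg

namespace Cfsg.Agent.S1387

theorem key {G : Type*} [Group G] [Finite G] (M W₁ U W₂ : Subgroup G) (hP : Cfsg.IsTypePWith M W₁ U W₂) :
    Cfsg.fittingOf M = Cfsg.fittingHallOf M ⊔ (U ⊓ Subgroup.centralizer (Cfsg.fittingHallOf M : Set G)) := by
  have hU : U ≤ M := hP.U_compl.2.1.trans (Subgroup.commutator_le_self M)
  apply le_antisymm
  · rw [← hP.fitting_eq]
    apply sup_le le_sup_left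
    intro c hc
    have hcF : c ∈ Cfsg.fittingOf M := by
      rw [← hP.fitting_eq]
      exact le_sup_right (a := Cfsg.fittingHallOf M) hc
    obtain ⟨h, hh, u, hu, hhu⟩ := hP.U_compl.2.2.2 c (hP.fitting_le hcF)
    have hcc := (Subgroup.mem_inf.1 hc).2
    have hcom : Commute c h := (Subgroup.mem_centralizer_iff.1 hcc h hh).symm
    have hu' : u = h⁻¹ * c := by rw [hhu]; group
    have h1 : u ^ (Nat.card (Cfsg.fittingHallOf M)) ∈ Subgroup.centralizer (Cfsg.fittingHallOf M : Set G) := by
      rw [hu', (hcom.inv_right).symm.mul_pow, inv_pow]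
      have h2 : h ^ (Nat.card (Cfsg.fittingHallOf M)) = 1 := by
        have := pow_card_eq_one' (x := (⟨h, hh⟩ : Cfsg.fittingHallOf M))
        exact congrArg Subtype.val this
      rw [h2, inv_one, one_mul]
      exact Subgroup.pow_mem _ hcc _
    have h2 : (Nat.card (Cfsg.fittingHallOf M)).Coprime (Nat.card U) := by
      refine Nat.Coprime.coprime_dvd_right ?_ (CfsgH3.fittingHallOf_coprime M)
      rw [← CfsgH3.complIn_relIndex_left hP.U_compl]
      rw [← Subgroup.relIndex_mul_relIndex _ _ _ hP.U_compl.1 (Subgroup.commutator_le_self M)]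
      exact Dvd.intro _ rfl
    have h3 : u ∈ Subgroup.centralizer (Cfsg.fittingHallOf M : Set G) := by
      refine CfsgH3.mem_of_coprime_pow _ h1 (n := Nat.card U) ?_ h2
      have := pow_card_eq_one' (x := (⟨u, hu⟩ : U))
      have h4 : u ^ Nat.card U = 1 := congrArg Subtype.val this
      rw [h4]
      exact Subgroup.one_mem _
    rw [hhu]
    exact Subgroup.mul_mem _ (le_sup_left (a := Cfsg.fittingHallOf M) hh) (le_sup_right (a := Cfsg.fittingHallOf M) (Subgroup.mem_inf.2 ⟨hu, h3⟩))
  · rw [← hP.fitting_eq]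
    exact sup_le_sup_left (inf_le_inf_right _ hU) _

/-- Let M be a subgroup of a finite group G with type-P data (W₁, U, W₂) and H = M_F. Then the Fitting subgroup F(M) is generated by H and the centralizer of H in U. -/
theorem result {G : Type*} [Group G] [Finite G] (M W₁ U W₂ : Subgroup G) (hP : Cfsg.IsTypePWith M W₁ U W₂) :
    Cfsg.fittingOf M = Cfsg.fittingHallOf M ⊔ (U ⊓ Subgroup.centralizer (Cfsg.fittingHallOf M : Set G)) := by
  exact key M W₁ U W₂ hP

end Cfsg.Agent.S1387
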