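import Mathlib
import Cfsg.Agent.S1387
import Cfsg.Agent.H2.CopGen
import Cfsg.Statements.S1388

set_option autoImplicit false
open Cfsg

namespace Cfsg.Agent.S1388

/-- Let M be a subgroup of a finite group G with type-P data (W₁, U, W₂) and H = M_F. Then the derived subgroup of U centralizes H, and if U ≠ 1 then U does not centralize H. -/
theorem result {G : Type*} [Group G] [Finite G] (M W₁ U W₂ : Subgroup G) (hP : Cfsg.IsTypePWith M W₁ U W₂) :
    ⁅U, U⁆ ≤ Subgroup.centralizer (Cfsg.fittingHallOf M : Set G) ∧ (U ≠ ⊥ → ¬ U ≤ Subgroup.centralizer (Cfsg.fittingHallOf M : Set G)) := by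
  classical
  have hF := Cfsg.Agent.S1387.key M W₁ U W₂ hP
  have hU : U ≤ M := hP.U_compl.2.1.trans (Subgroup.commutator_le_self M)
  constructor
  · intro x hx
    have hxU : x ∈ U := Subgroup.commutator_le_self U hx
    have h1 : x ∈ Cfsg.fittingOf M := by
      rw [← hP.fitting_eq]
      exact hP.derived_two_le (Subgroup.commutator_mono hP.U_compl.2.1 hP.U_compl.2.1 hx)
    rw [hF] at h1
    obtain ⟨h, hh, u, hu, hhu'⟩ := (CfsgH1.mem_sup_of_le_normalizer' (K := Cfsg.fittingHallOf M) (H := U ⊓ Subgroup.centralizer (Cfsg.fittingHallOf M : Set G))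
      ((inf_le_left.trans hU).trans (CfsgH3.le_normalizer_fittingHallOf M))).1 h1
    have hhu := hhu'.symm
    have h2 : h ∈ Cfsg.fittingHallOf M ⊓ U := by
      refine Subgroup.mem_inf.2 ⟨hh, ?_⟩
      have h3 : h = x * u⁻¹ := by rw [hhu]; group
      rw [h3]
      exact U.mul_mem hxU (U.inv_mem (Subgroup.mem_inf.1 hu).1)
    rw [hP.U_compl.2.2.1, Subgroup.mem_bot] at h2
    rw [hhu, h2, one_mul]
    exact (Subgroup.mem_inf.1 hu).2
  · intro hU1 hUC
    apply hU1
    have h1 : ⁅M, M⁆ = Cfsg.fittingOf M := by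
      apply le_antisymm _ hP.fitting_le
      intro m hm
      obtain ⟨h, hh, u, hu, hhu⟩ := hP.U_compl.2.2.2 m hm
      rw [hF, hhu]
      exact Subgroup.mul_mem _ (le_sup_left (a := Cfsg.fittingHallOf M) hh) (le_sup_right (a := Cfsg.fittingHallOf M) (Subgroup.mem_inf.2 ⟨hu, hUC hu⟩))
    have hnil : Group.IsNilpotent (⁅M, M⁆ : Subgroup G) := by
      rw [h1]
      haveI := CfsgH2.isNilpotent_fittingSubgroup (G := M)
      exact Group.nilpotent_of_mulEquiv ((Cfsg.fittingSubgroup M).equivMapOfInjective M.subtype M.subtype_injective)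
    have h2 : ⁅M, M⁆ ≤ Cfsg.fittingHallOf M := by
      apply CfsgH3.le_fittingHallOf M (Subgroup.commutator_le_self M) ?_ hnil
      · have h3 := CfsgH3.complIn_relIndex_left hP.W₁_compl
        have h4 := CfsgH3.complIn_relIndex_right hP.W₁_compl
        rw [h3, ← h4]
        exact hP.W₁_hall.symm
      · exact Subgroup.le_normalizer.trans (CfsgH2.le_normalizer_commutator_self M)
    rw [eq_bot_iff, ← hP.U_compl.2.2.1]
    exact le_inf (hP.U_compl.2.1.trans h2) le_rfl

end Cfsg.Agent.S1388
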