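import Mathlib
import Cfsg.Agent.H3.OmCent
import Cfsg.Statements.S1442

set_option autoImplicit false
open Cfsg

namespace Cfsg.Agent.S1442

/-- Let G be a finite group, H a nilpotent subgroup and A a subgroup normalizing H with the orders of A and H coprime. Put C = H ∩ C_G(A). If H ∩ C_G(C) ≤ C then A centralizes H. -/
theorem result {G : Type*} [Group G] [Finite G] (H A : Subgroup G) (hH : Group.IsNilpotent H) (hA : (A ≤ Subgroup.normalizer (H : Set G))) (hcop : (Nat.card A).Coprime (Nat.card H))
    (hC : H ⊓ Subgroup.centralizer (((H ⊓ Subgroup.centralizer (A : Set G)) : Subgroup G) : Set G) ≤ (H ⊓ Subgroup.centralizer (A : Set G))) :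
    A ≤ Subgroup.centralizer (H : Set G) := by
  classical
  set C := H ⊓ Subgroup.centralizer (A : Set G) with hCdef
  by_contra hcon
  have hCH : C ≤ H := inf_le_left
  have hne : C ≠ H := by
    intro h
    apply hcon
    intro a ha
    rw [Subgroup.mem_centralizer_iff]
    intro x hx
    have hx' : x ∈ C := by rw [h]; exact hx
    exact (Subgroup.mem_centralizer_iff.1 (Subgroup.mem_inf.1 hx').2 a ha).symm
  have hlt := CfsgH1.lt_inf_normalizer_of_nilpotent hH hCH hne
  set N := H ⊓ Subgroup.normalizer (C : Set G) with hN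
  have hCA : ⁅C, A⁆ = ⊥ := by
    rw [← CfsgH1.le_centralizer_iff_commutator]
    exact inf_le_right
  have hAC : A ≤ Subgroup.normalizer (C : Set G) := by
    rw [Subgroup.le_normalizer_iff_commutator_le_left, hCA]
    exact bot_le
  have hAN : A ≤ Subgroup.normalizer (N : Set G) := by
    apply CfsgH1.le_normalizer_inf hA
    exact hAC.trans Subgroup.le_normalizer
  have hNH : N ≤ H := inf_le_left
  have hcopN : (Nat.card A).Coprime (Nat.card N) := Nat.Coprime.coprime_dvd_right (Subgroup.card_dvd_of_le hNH) hcop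
  have hNs : Group.IsSolvable N := CfsgH1.isNilpotent_isSolvable (CfsgH1.isNilpotent_of_le hH hNH)
  have h1 : ⁅⁅N, C⁆, A⁆ = ⊥ := by
    have h2 : ⁅N, C⁆ ≤ C := by
      rw [← Subgroup.le_normalizer_iff_commutator_le_right]
      exact inf_le_right
    rw [eq_bot_iff, ← hCA]
    exact Subgroup.commutator_mono h2 le_rfl
  have h2 : ⁅⁅C, A⁆, N⁆ = ⊥ := by rw [hCA, Subgroup.commutator_bot_left]
  have h3 : ⁅⁅A, N⁆, C⁆ = ⊥ := Subgroup.commutator_commutator_eq_bot_of_rotate h1 h2
  have h4 : ⁅N, A⁆ ≤ C := by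
    refine le_trans ?_ hC
    apply le_inf
    · exact (Subgroup.commutator_mono hNH le_rfl).trans (by rw [← Subgroup.le_normalizer_iff_commutator_le_left]; exact hA)
    · rw [CfsgH1.le_centralizer_iff_commutator, Subgroup.commutator_comm N A]
      exact h3
  have h5 : ⁅⁅N, A⁆, A⁆ = ⊥ := by
    rw [eq_bot_iff, ← hCA]
    exact Subgroup.commutator_mono h4 le_rfl
  have h6 := CfsgH1.coprime_commutator_eq_bot hAN hcopN (Or.inr hNs) h5
  have h7 : N ≤ C := le_inf hNH (CfsgH1.le_centralizer_iff_commutator.2 h6)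
  exact not_le_of_gt hlt h7

end Cfsg.Agent.S1442
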