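import Mathlib
import Cfsg.Agent.H3.OmCent
import Cfsg.Statements.S1443

set_option autoImplicit false
open Cfsg

namespace Cfsg.Agent.S1443

/-- Let G be a finite group, p an odd prime, H a p-subgroup, E an elementary abelian subgroup of H, and A a subgroup of order coprime to p normalizing H. If A centralizes every element of order p in H ∩ C_G(E), then A centralizes H. -/
theorem result {G : Type*} [Group G] [Finite G] (p : ℕ) [Fact p.Prime] (hp : p ≠ 2) (H E A : Subgroup G) (hH : IsPGroup p H) (hE : E ≤ H) (hEe : Cfsg.IsElementaryAbelian p E)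
    (hA : (A ≤ Subgroup.normalizer (H : Set G))) (hcop : (Nat.card A).Coprime p)
    (hfix : ∀ x ∈ (H ⊓ Subgroup.centralizer (E : Set G)), orderOf x = p → A ≤ Subgroup.centralizer ({x} : Set G)) :
    A ≤ Subgroup.centralizer (H : Set G) := by
  classical
  have hEp : IsPGroup p E := hH.to_le hE
  have hEH : E ≤ H ⊓ Subgroup.centralizer (E : Set G) := by
    apply le_inf hE
    intro x hx
    rw [Subgroup.mem_centralizer_iff]
    intro y hy
    exact congrArg Subtype.val (hEe.1.is_comm.comm (⟨y, hy⟩ : E) ⟨x, hx⟩)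
  have hcent1 : ∀ x ∈ H ⊓ Subgroup.centralizer (E : Set G), x ^ p = 1 → ∀ a ∈ A, a * x = x * a := by
    intro x hx hxp a ha
    by_cases hx1 : x = 1
    · rw [hx1, mul_one, one_mul]
    · exact (Subgroup.mem_centralizer_iff.1 (hfix x hx (orderOf_eq_prime hxp hx1) ha) x rfl).symm
  have hAE : ⁅A, E⁆ = ⊥ := by
    rw [← CfsgH1.le_centralizer_iff_commutator]
    intro a ha
    rw [Subgroup.mem_centralizer_iff]
    intro x hx
    exact (hcent1 x (hEH hx) (hEe.2 x hx) a ha).symm
  have hAC : A ≤ Subgroup.normalizer ((H ⊓ Subgroup.centralizer (E : Set G) : Subgroup G) : Set G) := by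
    apply CfsgH1.le_normalizer_inf hA
    exact (CfsgH1.le_centralizer_iff_commutator.2 hAE).trans Subgroup.le_normalizer
  have h1 := CfsgH3.omega_cent hp (hH.to_le inf_le_left) hAC hcop hcent1
  have h2 := CfsgH2.thompson_axb hEp hcop hAE H hH hA (hE.trans Subgroup.le_normalizer) (by
    rw [Subgroup.commutator_comm, ← CfsgH1.le_centralizer_iff_commutator]
    exact h1)
  rw [CfsgH1.le_centralizer_iff_commutator, Subgroup.commutator_comm]
  exact h2

end Cfsg.Agent.S1443
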