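import Mathlib
import Cfsg.Agent.H3.OddStab
import Cfsg.Agent.H3.Cores2
import Cfsg.Statements.S1457

set_option autoImplicit false
open Cfsg

namespace Cfsg.Agent.S1457

/-- Let G be a solvable group of odd order, p a prime, S a Sylow p-subgroup of G and A an abelian subgroup of S normal in S. Then A ≤ O_{p',p}(G). -/
theorem result {G : Type*} [Group G] [Finite G] [Group.IsSolvable G] (hodd : Odd (Nat.card G)) (p : ℕ) [Fact p.Prime] (S : Sylow p G) (A : Subgroup G) (hA : A ≤ (S : Subgroup G)) (hAc : IsMulCommutative A)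
    (hAn : (S : Subgroup G) ≤ Subgroup.normalizer (A : Set G)) :
    A ≤ Cfsg.pPrimePCore p G := by
  by_cases hp2 : p = 2
  · subst hp2
    have h1 : (S : Subgroup G) = ⊥ := by
      have h2 := S.card_eq_multiplicity
      rw [Nat.factorization_eq_zero_of_not_dvd (fun h => (Nat.not_even_iff_odd.2 hodd) (even_iff_two_dvd.2 h)), pow_zero] at h2
      exact (Subgroup.card_eq_one).1 h2
    rw [h1] at hA
    exact hA.trans bot_le
  · set N := Cfsg.pPrimeCore p G with hN
    set π := QuotientGroup.mk' N with hπ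
    have hsurj := QuotientGroup.mk'_surjective N
    have hodd' : Odd (Nat.card (G ⧸ N)) := Odd.of_dvd_nat hodd (Subgroup.card_quotient_dvd_card N)
    have hst := CfsgH3.odd_nps hp2 hodd' (p := p)
    have hO := CfsgH2.pPrimeCore_quotient_pPrimeCore (G := G) p
    have hs : Cfsg.IsPSolvable p (G ⧸ N) := CfsgH1.IsPSolvable.map (CfsgH1.isPSolvable_of_isSolvable _ G rfl inferInstance) π hsurj
    have hc := CfsgH1.psolv_centralizer_pCore_le hs hO
    have hTn := CfsgH7.pCore_normal' p (G ⧸ N)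
    intro a ha
    show π a ∈ Cfsg.pCore p (G ⧸ N)
    refine CfsgH3.quad_mem_pCore hst hc (Cfsg.pCore p (G ⧸ N)) (CfsgH2.isPGroup_pCore p) inf_le_left ?_
    have hT : Cfsg.pCore p (G ⧸ N) ≤ (S.mapSurjective hsurj : Subgroup (G ⧸ N)) := CfsgH3.pCore_le_sylow _
    refine CfsgH3.quad_of_le (B := A.map π) ?_ ?_ ⟨a, ha, rfl⟩
    · rintro _ ⟨x, hx, rfl⟩ _ ⟨y, hy, rfl⟩
      rw [← map_mul, CfsgH7.isMulComm_iff.1 hAc x hx y hy, map_mul]
    · refine hT.trans ?_
      rintro _ ⟨s, hs, rfl⟩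
      exact Subgroup.le_normalizer_map π ⟨s, hAn hs, rfl⟩

end Cfsg.Agent.S1457
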