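import Mathlib
import Cfsg.Agent.H3.ZJE
import Cfsg.Statements.S1458

set_option autoImplicit false
open Cfsg

namespace Cfsg.Agent.S1458

/-- Let G be a solvable group of odd order, p a prime and S a Sylow p-subgroup of G. Then the subgroup generated by the centre of the Thompson subgroup of S and O_{p'}(G) is normal in G. -/
theorem result {G : Type*} [Group G] [Finite G] [Group.IsSolvable G] (hodd : Odd (Nat.card G)) (p : ℕ) [Fact p.Prime] (S : Sylow p G) :
    (Cfsg.centerThompsonOf p (S : Subgroup G) ⊔ Cfsg.pPrimeCore p G).Normal := by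
  by_cases hp2 : p = 2
  · subst hp2
    have h1 : (S : Subgroup G) = ⊥ := by
      have h2 := S.card_eq_multiplicity
      rw [Nat.factorization_eq_zero_of_not_dvd (fun h => (Nat.not_even_iff_odd.2 hodd) (even_iff_two_dvd.2 h)), pow_zero] at h2
      exact (Subgroup.card_eq_one).1 h2
    rw [CfsgH3.ZE_eq, h1]
    have h2 : CfsgH3.ZE 2 (⊥ : Subgroup G) = ⊥ := by
      rw [eq_bot_iff]; exact CfsgH3.ZE_le _
    rw [h2, bot_sup_eq]
    infer_instance
  · rw [CfsgH3.ZE_eq]
    exact CfsgH3.ZE_sup_normal hp2 (CfsgH3.not_involves_qd_of_odd hp2 hodd) (CfsgH1.isPSolvable_of_isSolvable _ G rfl inferInstance) S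

end Cfsg.Agent.S1458
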