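import Mathlib
import Cfsg.Agent.S0055
import Cfsg.Agent.H1.Coprime
import Cfsg.Agent.H1.CopExtra
import Cfsg.Agent.H2.Fitting
import Cfsg.Agent.H3.PGroup
import Cfsg.Agent.H4.BrauerC
import Cfsg.Agent.H1.ConjAct
import Cfsg.Statements.S1459

set_option autoImplicit false
open Cfsg

namespace Cfsg.Agent.S1459

open Subgroup
open scoped commutatorElement

theorem part_a {G : Type*} [Group G] [Finite G] [hs : Group.IsSolvable G] (H K : Subgroup G) (hn : H.Normal)
    (hcop : (Nat.card H).Coprime H.index) (hc : Subgroup.IsComplement' H K) (hle : H ≤ commutator G) :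
    H = ⁅H, K⁆ ∧ H ⊓ Subgroup.centralizer (K : Set G) ≤ ⁅H, H⁆ := by
  have hKcard : Nat.card K = H.index := by
    have h1 := hc.card_mul
    rw [← Subgroup.card_mul_index H] at h1
    exact Nat.eq_of_mul_eq_mul_left Nat.card_pos h1
  have hKH : (Nat.card K).Coprime (Nat.card H) := by rw [hKcard]; exact hcop.symm
  have hHs : Group.IsSolvable H := inferInstance
  have hKN : K ≤ normalizer (H : Set G) := by
    rw [Subgroup.normalizer_eq_top_iff.2 hn]; exact le_top
  have htop : H ⊔ K = ⊤ := hc.sup_eq_top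
  have hmul : ∀ g : G, ∃ h ∈ H, ∃ k ∈ K, h * k = g := by
    intro g
    have : g ∈ H ⊔ K := by rw [htop]; trivial
    exact (CfsgH1.mem_sup_of_le_normalizer' hKN).1 this
  -- N = ⁅H, K⁆ is normal
  set N := ⁅H, K⁆ with hN
  have hNn : N.Normal := by
    rw [← Subgroup.normalizer_eq_top_iff, eq_top_iff, ← htop]
    exact sup_le (normalizer_commutator_ge_left H K) (normalizer_commutator_ge_right H K)
  have hNH : N ≤ H := by
    rw [← Subgroup.le_normalizer_iff_commutator_le_left]; exact hKN
  have hHN : H ≤ N := by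
    let π := QuotientGroup.mk' N
    have hker : π.ker = N := QuotientGroup.ker_mk' N
    have hcomm : ∀ a ∈ H.map π, ∀ b ∈ K.map π, a * b = b * a := by
      rintro _ ⟨h, hh, rfl⟩ _ ⟨k, hk, rfl⟩
      rw [← map_mul, ← map_mul]
      have h1 : ⁅h, k⁆ ∈ N := commutator_mem_commutator hh hk
      have h2 : π ⁅h, k⁆ = 1 := by rw [← MonoidHom.mem_ker, hker]; exact h1
      rw [commutatorElement_def, map_mul, map_mul, map_mul, map_inv, map_inv] at h2
      have h3 : π h * π k = (π h * π k * (π h)⁻¹ * (π k)⁻¹) * (π k * π h) := by group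
      rw [map_mul, map_mul, h3, h2, one_mul]
    have hdisj : H.map π ⊓ K.map π = ⊥ := by
      apply CfsgH1.inf_eq_bot_of_coprime
      exact Nat.Coprime.coprime_dvd_left (Subgroup.card_map_dvd _ _) (Nat.Coprime.coprime_dvd_right (Subgroup.card_map_dvd _ _) hKH.symm)
    have hcle : commutator (G ⧸ N) ≤ ⁅H.map π, H.map π⁆ ⊔ ⁅K.map π, K.map π⁆ := by
      rw [_root_.commutator_def, Subgroup.commutator_le]
      intro a _ b _
      obtain ⟨g, rfl⟩ := QuotientGroup.mk'_surjective N a
      obtain ⟨g', rfl⟩ := QuotientGroup.mk'_surjective N b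
      obtain ⟨h, hh, k, hk, rfl⟩ := hmul g
      obtain ⟨h', hh', k', hk', rfl⟩ := hmul g'
      have e1 := hcomm _ ⟨h, hh, rfl⟩ _ ⟨k, hk, rfl⟩
      have e2 := hcomm _ ⟨h', hh', rfl⟩ _ ⟨k', hk', rfl⟩
      have e3 := hcomm _ ⟨h, hh, rfl⟩ _ ⟨k', hk', rfl⟩
      have e4 := hcomm _ ⟨h', hh', rfl⟩ _ ⟨k, hk, rfl⟩
      have key : ∀ a b c d : G ⧸ N, Commute a b → Commute c d → Commute a d → Commute c b → ⁅a * b, c * d⁆ = ⁅a, c⁆ * ⁅b, d⁆ := by
        intro a b c d h1 h2 h3 h4
        rw [commutatorElement_def, commutatorElement_def, commutatorElement_def, mul_inv_rev, mul_inv_rev]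
        have s1 : Commute b (c * a⁻¹ * c⁻¹) := (h4.symm.mul_right h1.symm.inv_right).mul_right h4.symm.inv_right
        have s2 : Commute (b * d * b⁻¹) c⁻¹ := ((h4.symm.mul_left h2.symm).mul_left h4.symm.inv_left).inv_right
        have s3 : Commute (b * d * b⁻¹) a⁻¹ := ((h1.symm.mul_left h3.symm).mul_left h1.symm.inv_left).inv_right
        calc a * b * (c * d) * (b⁻¹ * a⁻¹) * (d⁻¹ * c⁻¹)
            = a * (b * c) * d * b⁻¹ * a⁻¹ * (d⁻¹ * c⁻¹) := by group
          _ = a * (c * b) * d * b⁻¹ * a⁻¹ * (c⁻¹ * d⁻¹) := by rw [h4.symm.eq, (h2.inv_inv).symm.eq]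
          _ = a * c * ((b * d * b⁻¹) * a⁻¹) * c⁻¹ * d⁻¹ := by group
          _ = a * c * (a⁻¹ * (b * d * b⁻¹)) * c⁻¹ * d⁻¹ := by rw [s3.eq]
          _ = a * c * a⁻¹ * ((b * d * b⁻¹) * c⁻¹) * d⁻¹ := by group
          _ = a * c * a⁻¹ * (c⁻¹ * (b * d * b⁻¹)) * d⁻¹ := by rw [s2.eq]
          _ = a * c * a⁻¹ * c⁻¹ * (b * d * b⁻¹ * d⁻¹) := by group
      rw [map_mul, map_mul, key _ _ _ _ e1 e2 e3 e4]
      exact Subgroup.mul_mem _ (Subgroup.mem_sup_left (commutator_mem_commutator ⟨h, hh, rfl⟩ ⟨h', hh', rfl⟩))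
        (Subgroup.mem_sup_right (commutator_mem_commutator ⟨k, hk, rfl⟩ ⟨k', hk', rfl⟩))
    have h1 : H.map π ≤ ⁅H.map π, H.map π⁆ := by
      have h2 : H.map π ≤ commutator (G ⧸ N) := by
        have h3 : (commutator G).map π ≤ commutator (G ⧸ N) := by
          rw [_root_.commutator_def, Subgroup.map_commutator, _root_.commutator_def]
          exact commutator_mono le_top le_top
        exact (Subgroup.map_mono hle).trans h3
      intro x hx
      have h3 := hcle (h2 hx)
      have hKn : ⁅K.map π, K.map π⁆ ≤ normalizer ((⁅H.map π, H.map π⁆ : Subgroup (G ⧸ N)) : Set (G ⧸ N)) := by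
        intro y hy
        rw [mem_normalizer_iff]
        have hyK : y ∈ K.map π := Subgroup.commutator_le_self _ hy
        intro z
        have h4 : ∀ w ∈ (⁅H.map π, H.map π⁆ : Subgroup (G ⧸ N)), w * y = y * w := fun w hw =>
          hcomm w (Subgroup.commutator_le_self _ hw) y hyK
        constructor
        · intro hz
          rw [← h4 z hz, mul_inv_cancel_right]
          exact hz
        · intro hz
          have h5 := h4 _ hz
          have h6 : z = y * z * y⁻¹ := by
            calc z = y⁻¹ * ((y * z * y⁻¹) * y) := by group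
              _ = y⁻¹ * (y * (y * z * y⁻¹)) := by rw [h5]
              _ = y * z * y⁻¹ := by group
          rw [h6]
          exact hz
      obtain ⟨d, hd, e, he, hde⟩ := (CfsgH1.mem_sup_of_le_normalizer' hKn).1 h3
      have h5 : e ∈ H.map π ⊓ K.map π := by
        refine Subgroup.mem_inf.2 ⟨?_, Subgroup.commutator_le_self _ he⟩
        have : e = d⁻¹ * x := by rw [← hde]; group
        rw [this]
        exact Subgroup.mul_mem _ (Subgroup.inv_mem _ (Subgroup.commutator_le_self _ hd)) hx
      rw [hdisj, mem_bot] at h5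
      rw [← hde, h5, mul_one]
      exact hd
    have h2 : H.map π = ⊥ := by
      by_contra hne
      haveI : Group.IsSolvable (G ⧸ N) := inferInstance
      have hlt := Group.IsSolvable.commutator_lt_of_ne_bot hne
      exact not_le_of_gt hlt h1
    rw [Subgroup.map_eq_bot_iff, hker] at h2
    exact h2
  have hEq : H = N := le_antisymm hHN hNH
  refine ⟨hEq, ?_⟩
  -- second part: modulo ⁅H, H⁆
  have hMn : (⁅H, H⁆ : Subgroup G).Normal := Subgroup.commutator_normal H H
  let π := QuotientGroup.mk' (⁅H, H⁆ : Subgroup G)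
  have hker : π.ker = ⁅H, H⁆ := QuotientGroup.ker_mk' _
  have hab : ∀ a ∈ H.map π, ∀ b ∈ H.map π, a * b = b * a := by
    rintro _ ⟨h, hh, rfl⟩ _ ⟨k, hk, rfl⟩
    have h1 : ⁅h, k⁆ ∈ (⁅H, H⁆ : Subgroup G) := commutator_mem_commutator hh hk
    have h2 : π ⁅h, k⁆ = 1 := by rw [← MonoidHom.mem_ker, hker]; exact h1
    rw [commutatorElement_def, map_mul, map_mul, map_mul, map_inv, map_inv] at h2
    have h3 : π h * π k = (π h * π k * (π h)⁻¹ * (π k)⁻¹) * (π k * π h) := by group
    rw [h3, h2, one_mul]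
  have hcop' : (Nat.card (K.map π)).Coprime (Nat.card (H.map π)) :=
    Nat.Coprime.coprime_dvd_left (Subgroup.card_map_dvd _ _) (Nat.Coprime.coprime_dvd_right (Subgroup.card_map_dvd _ _) hKH)
  have hKN' : K.map π ≤ normalizer ((H.map π : Subgroup _) : Set _) := by
    rw [Subgroup.normalizer_eq_top_iff.2 (hn.map π (QuotientGroup.mk'_surjective _))]; exact le_top
  intro x hx
  have hxH := (mem_inf.1 hx).1
  have h1 : π x ∈ H.map π ⊓ centralizer ((K.map π : Subgroup _) : Set _) := by
    refine mem_inf.2 ⟨⟨x, hxH, rfl⟩, ?_⟩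
    rw [mem_centralizer_iff]
    rintro _ ⟨k, hk, rfl⟩
    rw [← map_mul, ← map_mul, mem_centralizer_iff.1 (mem_inf.1 hx).2 k hk]
  have h2 : π x ∈ ⁅H.map π, K.map π⁆ := by
    rw [← Subgroup.map_commutator, ← hN, ← hEq]
    exact ⟨x, hxH, rfl⟩
  have h3 := CfsgH1.coprime_abelian_inf hab hKN' hcop'
  have h4 : π x ∈ (H.map π ⊓ centralizer ((K.map π : Subgroup _) : Set _)) ⊓ ⁅H.map π, K.map π⁆ := mem_inf.2 ⟨h1, h2⟩
  rw [h3, mem_bot, ← MonoidHom.mem_ker, hker] at h4
  exact h4

theorem pgroup_index_prime {X : Type*} [Group X] [Finite X] {p : ℕ} [hp : Fact p.Prime] (hX : IsPGroup p X)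
    (hi : (commutator X).index.Prime) : commutator X = ⊥ := by
  have hne : commutator X ≠ ⊤ := by
    intro h
    rw [h, Subgroup.index_top] at hi
    exact Nat.not_prime_one hi
  obtain ⟨x, hx⟩ : ∃ x, x ∉ commutator X := by
    by_contra hcon
    push Not at hcon
    exact hne (eq_top_iff.2 fun x _ => hcon x)
  by_cases htop : zpowers x = ⊤
  · have hc : ∀ a b : X, a * b = b * a := by
      intro a b
      have ha : a ∈ zpowers x := by rw [htop]; trivial
      have hb : b ∈ zpowers x := by rw [htop]; trivial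
      obtain ⟨i, rfl⟩ := mem_zpowers_iff.1 ha
      obtain ⟨j, rfl⟩ := mem_zpowers_iff.1 hb
      exact zpow_mul_comm x i j
    rw [_root_.commutator_def, Subgroup.commutator_eq_bot_iff_le_centralizer]
    intro a _
    rw [mem_centralizer_iff]
    intro b _
    exact hc b a
  · exfalso
    obtain ⟨M, hM, hxM⟩ := (IsCoatomic.eq_top_or_exists_le_coatom (zpowers x)).resolve_left htop
    have h1 := CfsgH3.coatom_normal hX hM
    have h2 := CfsgH3.coatom_index hX hM
    have h3 : commutator X ≤ M := by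
      haveI := h1
      have := CfsgH3.isMulCommutative_quotient_coatom hX hM
      exact Subgroup.Normal.quotient_commutative_iff_commutator_le.1 this
    have h4 : M.index ∣ (commutator X).index := Subgroup.index_dvd_of_le h3
    have h5 : M.index = (commutator X).index := by
      rcases (Nat.dvd_prime hi).1 h4 with h | h
      · rw [h2] at h; exact absurd h hp.out.one_lt.ne'
      · exact h
    have h6 : commutator X = M := by
      apply Subgroup.eq_of_le_of_card_ge h3
      have e1 := Subgroup.card_mul_index M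
      have e2 := Subgroup.card_mul_index (commutator X)
      rw [h5] at e1
      exact (Nat.eq_of_mul_eq_mul_right (Nat.pos_of_ne_zero hi.ne_zero) (e1.trans e2.symm)).le
    exact hx (h6 ▸ hxM (mem_zpowers x))

theorem part_b {G : Type*} [Group G] [Finite G] (hnil : Group.IsNilpotent ↥(commutator G)) 
    (hi : (commutator G).index.Prime) : (Nat.card ↥(commutator G)).Coprime (commutator G).index := by
  obtain ⟨p, hpi⟩ : ∃ p, p = (commutator G).index := ⟨_, rfl⟩
  have hp : p.Prime := by rw [hpi]; exact hi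
  haveI := Fact.mk hp
  obtain ⟨N, -, hNmem, k, hk, hNp⟩ := CfsgH4.exists_pprime_kernel (A := commutator G) hp
  set N' := N.map (commutator G).subtype with hN'
  have hmem : ∀ x, x ∈ N' ↔ x ∈ commutator G ∧ ¬ p ∣ orderOf x := by
    intro x
    constructor
    · rintro ⟨y, hy, rfl⟩
      refine ⟨y.2, ?_⟩
      have := (hNmem y).1 hy
      rwa [← Subgroup.orderOf_coe] at this
    · rintro ⟨h1, h2⟩
      refine ⟨⟨x, h1⟩, (hNmem _).2 ?_, rfl⟩
      rwa [← Subgroup.orderOf_coe]
  have hN'n : N'.Normal := by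
    refine ⟨fun x hx g => ?_⟩
    rw [hmem] at hx ⊢
    refine ⟨Subgroup.Normal.conj_mem inferInstance x hx.1 g, ?_⟩
    have : orderOf (g * x * g⁻¹) = orderOf x := by
      have := MulEquiv.orderOf_eq (MulAut.conj g) x
      simpa using this
    rw [this]; exact hx.2
  have hN'le : N' ≤ commutator G := Subgroup.map_subtype_le _
  have hcardN : Nat.card N' = Nat.card N := 
    (Nat.card_congr (N.equivMapOfInjective _ (commutator G).subtype_injective).toEquiv).symm
  have hidx : N'.index = p ^ (k + 1) := by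
    have e1 := Subgroup.card_mul_index N'
    have e2 := Subgroup.card_mul_index (commutator G)
    have e3 := Subgroup.card_mul_index N
    rw [hk] at e3
    rw [← hpi, ← e3, mul_assoc, ← pow_succ, ← hcardN] at e2
    exact Nat.eq_of_mul_eq_mul_left Nat.card_pos (e1.trans e2.symm)
  have hQ : IsPGroup p (G ⧸ N') := IsPGroup.of_card (n := k + 1) (by rw [← hidx]; rfl)
  have hmap : (commutator G).map (QuotientGroup.mk' N') = commutator (G ⧸ N') := by
    rw [_root_.commutator_def, Subgroup.map_commutator, ← MonoidHom.range_eq_map,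
      MonoidHom.range_eq_top.2 (QuotientGroup.mk'_surjective N'), ← _root_.commutator_def]
  have hidx2 : (commutator (G ⧸ N')).index = p := by
    rw [← hmap, Subgroup.index_map, QuotientGroup.ker_mk', sup_eq_left.2 hN'le, MonoidHom.range_eq_top.2 (QuotientGroup.mk'_surjective N'),
      Subgroup.index_top, mul_one, hpi]
  have h1 := pgroup_index_prime hQ (by rw [hidx2]; exact hp)
  have h2 : N' = commutator G := by
    apply le_antisymm hN'le
    have h3 : (commutator G).map (QuotientGroup.mk' N') = ⊥ := by rw [hmap, h1]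
    rwa [Subgroup.map_eq_bot_iff, QuotientGroup.ker_mk'] at h3
  rw [← hpi, ← h2, hcardN]
  exact ((Nat.Prime.coprime_iff_not_dvd hp).2 hNp).symm

/-- Let G be a finite solvable group. (a) If H is a normal subgroup of order coprime to its index, K is a complement to H, and H ≤ G', then H = [H, K] and H ∩ C_G(K) ≤ [H, H]. (b) If G' is nilpotent and has prime index in G, then the order of G' is coprime to its index and G' = [G, K] (the subgroup generated by commutators of elements of G with elements of K) for every complement K of G'. -/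
theorem result {G : Type*} [Group G] [Finite G] [Group.IsSolvable G] :
    (∀ (H K : Subgroup G), H.Normal → (Nat.card H).Coprime H.index → Subgroup.IsComplement' H K → H ≤ commutator G →
        H = ⁅H, K⁆ ∧ H ⊓ Subgroup.centralizer (K : Set G) ≤ ⁅H, H⁆) ∧
      (Group.IsNilpotent ↥(commutator G) → (commutator G).index.Prime →
        (Nat.card ↥(commutator G)).Coprime (commutator G).index ∧
        ∀ K : Subgroup G, Subgroup.IsComplement' (commutator G) K → commutator G = ⁅(⊤ : Subgroup G), K⁆) := by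
  refine ⟨fun H K h1 h2 h3 h4 => part_a H K h1 h2 h3 h4, fun hnil hi => ⟨part_b hnil hi, fun K hK => ?_⟩⟩
  have h1 := (part_a (commutator G) K inferInstance (part_b hnil hi) hK le_rfl).1
  apply le_antisymm
  · calc commutator G = ⁅commutator G, K⁆ := h1
      _ ≤ ⁅(⊤ : Subgroup G), K⁆ := Subgroup.commutator_mono le_top le_rfl
  · exact Subgroup.commutator_mono le_rfl le_top

end Cfsg.Agent.S1459
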