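import Mathlib
import Cfsg.Agent.H3.PLenOne
import Cfsg.Statements.S1460

set_option autoImplicit false
open Cfsg

namespace Cfsg.Agent.S1460

open scoped commutatorElement

/-- Let G be a finite solvable group, K a normal subgroup and U a subgroup with G = KU, and H ≤ U a subgroup whose order is coprime to that of K. Then H ∩ G' = H ∩ U'; N_G(H) is generated by K ∩ C_G(H) and U ∩ N_G(H); and if gHg⁻¹ ≤ U for some g ∈ G then g = u c with u ∈ U and c ∈ K ∩ C_G(H). -/
theorem result {G : Type*} [Group G] [Finite G] [Group.IsSolvable G] (K U H : Subgroup G) [K.Normal] (hKU : K ⊔ U = ⊤) (hH : H ≤ U) (hcop : (Nat.card H).Coprime (Nat.card K)) :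
    H ⊓ commutator G = H ⊓ ⁅U, U⁆ ∧
      Subgroup.normalizer (H : Set G) = (K ⊓ Subgroup.centralizer (H : Set G)) ⊔ (U ⊓ Subgroup.normalizer (H : Set G)) ∧
      ∀ g : G, H.map (MulAut.conj g).toMonoidHom ≤ U → ∃ u ∈ U, ∃ c ∈ K ⊓ Subgroup.centralizer (H : Set G), g = u * c := by
  have h3 := fun g hg => CfsgH3.coprime_control (K := K) (U := U) (H := H) hKU hH hcop g hg
  refine ⟨?_, ?_, h3⟩
  · apply le_antisymm
    · refine le_inf inf_le_left ?_
      intro h hh
      obtain ⟨hh1, hh2⟩ := Subgroup.mem_inf.1 hh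
      -- `G' ≤ U' K`
      have h4 : commutator G ≤ ⁅U, U⁆ ⊔ K := by
        have e1 : U.map (QuotientGroup.mk' K) = ⊤ := by
          rw [eq_top_iff]
          intro x _
          obtain ⟨g, rfl⟩ := QuotientGroup.mk'_surjective K x
          have hg : g ∈ U ⊔ K := by rw [sup_comm, hKU]; trivial
          obtain ⟨u, hu, k, hk, rfl⟩ := Subgroup.mem_sup_of_normal_right.1 hg
          refine ⟨u, hu, ?_⟩
          rw [map_mul, show QuotientGroup.mk' K k = 1 from (QuotientGroup.eq_one_iff k).2 hk, mul_one]
        have e2 : (commutator G).map (QuotientGroup.mk' K) ≤ (⁅U, U⁆ : Subgroup G).map (QuotientGroup.mk' K) := by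
          rw [Subgroup.map_commutator, commutator_def, Subgroup.map_commutator, e1]
          exact Subgroup.commutator_mono le_top le_top
        rw [Subgroup.map_le_iff_le_comap, Subgroup.comap_map_eq, QuotientGroup.ker_mk'] at e2
        exact e2
      obtain ⟨d, hd, k, hk, hdk⟩ := Subgroup.mem_sup_of_normal_right.1 (h4 hh2)
      have hUU : (⁅U, U⁆ : Subgroup G) ≤ U := Subgroup.commutator_le_self U
      have hkU : k ∈ U := by
        have : k = d⁻¹ * h := by rw [← hdk]; group
        rw [this]
        exact mul_mem (inv_mem (hUU hd)) (hH hh1)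
      let f : ↥U →* Abelianization ↥U := Abelianization.of
      have hker : ∀ x : ↥U, f x = 1 ↔ (x : G) ∈ (⁅U, U⁆ : Subgroup G) := by
        intro x
        rw [← MonoidHom.mem_ker, Abelianization.ker_of, ← Subgroup.map_subtype_commutator]
        constructor
        · intro hx
          exact ⟨x, hx, rfl⟩
        · rintro ⟨y, hy, hyx⟩
          rwa [← Subtype.ext hyx]
      have h5 : f ⟨h, hH hh1⟩ = f ⟨k, hkU⟩ := by
        have e : (⟨h, hH hh1⟩ : ↥U) = ⟨d, hUU hd⟩ * ⟨k, hkU⟩ := Subtype.ext hdk.symm
        rw [e, map_mul, (hker ⟨d, hUU hd⟩).2 hd, one_mul]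
      have h6 : orderOf (f ⟨h, hH hh1⟩) ∣ Nat.card H := by
        refine (orderOf_map_dvd f _).trans ?_
        rw [← Subgroup.orderOf_coe]
        have := _root_.orderOf_dvd_natCard (⟨h, hh1⟩ : ↥H)
        rwa [← Subgroup.orderOf_coe] at this
      have h7 : orderOf (f ⟨h, hH hh1⟩) ∣ Nat.card K := by
        rw [h5]
        refine (orderOf_map_dvd f _).trans ?_
        rw [← Subgroup.orderOf_coe]
        have := _root_.orderOf_dvd_natCard (⟨k, hk⟩ : ↥K)
        rwa [← Subgroup.orderOf_coe] at this
      have h8 : f ⟨h, hH hh1⟩ = 1 := by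
        rw [← orderOf_eq_one_iff]
        exact Nat.eq_one_of_dvd_coprimes hcop h6 h7
      exact (hker _).1 h8
    · refine inf_le_inf le_rfl ?_
      rw [commutator_def]
      exact Subgroup.commutator_mono le_top le_top
  · apply le_antisymm
    · intro g hg
      have hgm : H.map (MulAut.conj g).toMonoidHom = H := Subgroup.mem_normalizer_iff_map_conj_eq.1 hg
      obtain ⟨u, hu, c, hc, rfl⟩ := h3 g (by rw [hgm]; exact hH)
      have hcN : c ∈ Subgroup.normalizer (H : Set G) := Subgroup.centralizer_le_normalizer _ (Subgroup.mem_inf.1 hc).2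
      have huN : u ∈ Subgroup.normalizer (H : Set G) := by
        have := mul_mem hg (inv_mem hcN)
        rwa [mul_inv_cancel_right] at this
      exact mul_mem (Subgroup.mem_sup_right (Subgroup.mem_inf.2 ⟨hu, huN⟩)) (Subgroup.mem_sup_left hc)
    · exact sup_le (inf_le_right.trans (Subgroup.centralizer_le_normalizer _)) inf_le_right

end Cfsg.Agent.S1460
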