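import Mathlib
import Cfsg.Agent.S1460
import Cfsg.Statements.S1461

set_option autoImplicit false
open Cfsg

namespace Cfsg.Agent.S1461

open scoped commutatorElement

/-- Let G be a finite solvable group, p a prime with G = O_{p',p,p'}(G), and S a Sylow p-subgroup. Then: if S ≤ G' then S ≤ [N_G(S), N_G(S)]; if Y ⊆ S and xYx⁻¹ ⊆ S then x = g c for some g ∈ N_G(S) and c centralizing Y; and for every p-subgroup Q there is x ∈ C_G(Q ∩ S) with xQx⁻¹ ≤ S. -/
theorem result {G : Type*} [Group G] [Finite G] [Group.IsSolvable G] (p : ℕ) [Fact p.Prime] (hpl : Cfsg.PLengthLE p 1 G) (S : Sylow p G) :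
    ((S : Subgroup G) ≤ commutator G → (S : Subgroup G) ≤ ⁅Subgroup.normalizer ((S : Subgroup G) : Set G), Subgroup.normalizer ((S : Subgroup G) : Set G)⁆) ∧
      (∀ (Y : Set G) (x : G), Y ⊆ (S : Subgroup G) → (fun y => x * y * x⁻¹) '' Y ⊆ (S : Subgroup G) →
        ∃ g ∈ Subgroup.normalizer ((S : Subgroup G) : Set G), ∃ c ∈ Subgroup.centralizer Y, g * c = x) ∧
      ∀ Q : Subgroup G, IsPGroup p Q → ∃ x ∈ Subgroup.centralizer ((Q ⊓ (S : Subgroup G) : Subgroup G) : Set G), Q.map (MulAut.conj x).toMonoidHom ≤ (S : Subgroup G) := by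
  have hK := CfsgH2.coprime_card_pPrimeCore (G := G) p
  have htop := CfsgH3.sup_normalizer_eq_top (S : Subgroup G) (Cfsg.pPrimeCore p G) S.isPGroup' hK (CfsgH3.plen_one hpl S)
  have hcopS : ∀ H : Subgroup G, H ≤ (S : Subgroup G) → (Nat.card H).Coprime (Nat.card (Cfsg.pPrimeCore p G)) := by
    intro H hH
    obtain ⟨k, hk⟩ := IsPGroup.iff_card.1 (S.isPGroup'.to_le hH)
    rw [hk]
    exact (hK.symm).pow_left k
  have hSU : (S : Subgroup G) ≤ Subgroup.normalizer ((S : Subgroup G) : Set G) := Subgroup.le_normalizer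
  refine ⟨?_, ?_, ?_⟩
  · intro hS
    have h1 := (Cfsg.Agent.S1460.result (Cfsg.pPrimeCore p G) (Subgroup.normalizer ((S : Subgroup G) : Set G)) (S : Subgroup G) htop hSU (hcopS _ le_rfl)).1
    rw [inf_eq_left.2 hS] at h1
    exact inf_eq_left.1 h1.symm
  · intro Y x hY hx
    have hH : Subgroup.closure Y ≤ (S : Subgroup G) := (Subgroup.closure_le _).2 hY
    obtain ⟨u, hu, c, hc, rfl⟩ := CfsgH3.coprime_control (K := Cfsg.pPrimeCore p G) htop (hH.trans hSU) (hcopS _ hH) x (by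
      refine le_trans ?_ hSU
      rw [MonoidHom.map_closure, Subgroup.closure_le]
      exact hx)
    refine ⟨u, hu, c, ?_, rfl⟩
    exact Subgroup.centralizer_le Subgroup.subset_closure (Subgroup.mem_inf.1 hc).2
  · intro Q hQ
    obtain ⟨y, -, hy⟩ := (CfsgH7.isSyl_of_sylow S).exists_conj_le hQ le_top
    have hy' : CfsgH7.cj y Q ≤ (S : Subgroup G) := hy
    obtain ⟨u, hu, c, hc, rfl⟩ := CfsgH3.coprime_control (K := Cfsg.pPrimeCore p G) (H := Q ⊓ (S : Subgroup G)) htop (inf_le_right.trans hSU)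
      (hcopS _ inf_le_right) y (by
        refine le_trans ?_ (hy'.trans hSU)
        exact Subgroup.map_mono inf_le_left)
    refine ⟨c, (Subgroup.mem_inf.1 hc).2, ?_⟩
    rintro _ ⟨q, hq, rfl⟩
    have h1 : (u * c) * q * (u * c)⁻¹ ∈ (S : Subgroup G) := hy' ⟨q, hq, rfl⟩
    have h2 : u * (c * q * c⁻¹) * u⁻¹ ∈ (S : Subgroup G) := by
      have e : u * (c * q * c⁻¹) * u⁻¹ = (u * c) * q * (u * c)⁻¹ := by group
      rw [e]; exact h1
    exact (Subgroup.mem_normalizer_iff.1 hu _).2 h2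

end Cfsg.Agent.S1461
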