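import Mathlib
import Cfsg.Agent.H3.PLenOne
import Cfsg.Agent.H1.FitOdd
import Cfsg.Statements.S1462

set_option autoImplicit false
open Cfsg

namespace Cfsg.Agent.S1462

open scoped commutatorElement

theorem cent_omega {G : Type*} [Group G] [Finite G] {p : ℕ} [hp : Fact p.Prime] (hp2 : p ≠ 2) {X : Subgroup G} (hXp : IsPGroup p X)
    {y : G} (hyN : y ∈ Subgroup.normalizer (X : Set G)) (hy : (orderOf y).Coprime p) (h : ∀ x ∈ X, x ^ p = 1 → y * x = x * y) :
    ∀ x ∈ X, y * x = x * y := by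
  have hn : (X.subgroupOf (Subgroup.normalizer (X : Set G))).Normal := Subgroup.normal_in_normalizer
  have h1 := CfsgH1.centralize_of_omega (G := ↥(Subgroup.normalizer (X : Set G))) hp2 (X := X.subgroupOf (Subgroup.normalizer (X : Set G)))
    (hXp.comap_of_injective _ Subtype.val_injective) (y := ⟨y, hyN⟩) (by rwa [← Subgroup.orderOf_coe]) (by
      intro x hx hxp
      exact Subtype.ext (h x hx (congrArg Subtype.val hxp)))
  intro x hx
  exact congrArg Subtype.val (h1 ⟨x, Subgroup.le_normalizer hx⟩ hx)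

theorem normal_case {G : Type*} [Group G] [Finite G] {p : ℕ} [hp : Fact p.Prime] (hp2 : p ≠ 2) {P E L : Subgroup G} [hP : P.Normal]
    (hPp : IsPGroup p P) (hPc : Subgroup.centralizer (P : Set G) ≤ P) (hEP : E ≤ P) 
    (hmax : ∀ x ∈ P, x ∈ Subgroup.centralizer (E : Set G) → x ^ p = 1 → x ∈ E) (hL : (Nat.card L).Coprime p)
    (hEL : E ≤ Subgroup.normalizer (L : Set G)) : L = ⊥ := by
  have hLP : L ⊓ P = ⊥ := by
    apply CfsgH1.inf_eq_bot_of_coprime
    obtain ⟨k, hk⟩ := IsPGroup.iff_card.1 hPp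
    rw [hk]; exact hL.pow_right k
  have hLE : ⁅L, E⁆ = ⊥ := by
    rw [eq_bot_iff, ← hLP]
    refine le_inf ?_ ?_
    · rw [Subgroup.commutator_comm, Subgroup.commutator_le]
      intro e he l hl
      rw [commutatorElement_def]
      exact mul_mem ((Subgroup.mem_normalizer_iff.1 (hEL he) _).1 hl) (inv_mem hl)
    · exact (Subgroup.commutator_mono le_rfl hEP).trans (Subgroup.commutator_le_right L P)
  have hLcE : L ≤ Subgroup.centralizer (E : Set G) := Subgroup.commutator_eq_bot_iff_le_centralizer.1 hLE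
  have hcE : ∀ l ∈ L, l ∈ Subgroup.normalizer ((P ⊓ Subgroup.centralizer (E : Set G) : Subgroup G) : Set G) := by
    intro l hl
    apply CfsgH7.mem_normalizer_of_cj_le
    rintro _ ⟨x, hx, rfl⟩
    exact Subgroup.mem_inf.2 ⟨hP.conj_mem _ (Subgroup.mem_inf.1 hx).1 l,
      mul_mem (mul_mem (hLcE hl) (Subgroup.mem_inf.1 hx).2) (inv_mem (hLcE hl))⟩
  have h1 : ⁅P ⊓ Subgroup.centralizer (E : Set G), L⁆ = ⊥ := by
    rw [Subgroup.commutator_eq_bot_iff_le_centralizer]
    intro x hx
    rw [Subgroup.mem_centralizer_iff]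
    intro l hl
    have hlp : (orderOf l).Coprime p := by
      have := _root_.orderOf_dvd_natCard (⟨l, hl⟩ : ↥L)
      rw [← Subgroup.orderOf_coe] at this
      exact hL.coprime_dvd_left this
    refine cent_omega hp2 (hPp.to_le inf_le_left) (hcE l hl) hlp ?_ x hx
    intro z hz hzp
    have hzE := hmax z (Subgroup.mem_inf.1 hz).1 (Subgroup.mem_inf.1 hz).2 hzp
    exact (Subgroup.mem_centralizer_iff.1 (hLcE hl) z hzE).symm
  have h2 := CfsgH2.thompson_axb (hPp.to_le hEP) hL hLE P hPp
    (by rw [Subgroup.normalizer_eq_top_iff.mpr hP]; exact le_top) (by rw [Subgroup.normalizer_eq_top_iff.mpr hP]; exact le_top) h1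
  have h3 : L ≤ P := by
    refine le_trans ?_ hPc
    rw [← Subgroup.commutator_eq_bot_iff_le_centralizer, Subgroup.commutator_comm]
    exact h2
  rwa [inf_eq_left.2 h3] at hLP

/-- Let G be a finite solvable group, p an odd prime with G = O_{p',p,p'}(G), E an elementary abelian p-subgroup contained in no larger elementary abelian p-subgroup of G, and L a subgroup of order coprime to p normalized by E. Then L ≤ O_{p'}(G). -/
theorem result {G : Type*} [Group G] [Finite G] [Group.IsSolvable G] (p : ℕ) [Fact p.Prime] (hp : p ≠ 2) (hpl : Cfsg.PLengthLE p 1 G) (E L : Subgroup G) (hE : Cfsg.IsElementaryAbelian p E)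
    (hEmax : ∀ B : Subgroup G, Cfsg.IsElementaryAbelian p B → E ≤ B → B = E) (hL : (Nat.card L).Coprime p) (hEL : E ≤ Subgroup.normalizer (L : Set G)) :
    L ≤ Cfsg.pPrimeCore p G := by
  set K := Cfsg.pPrimeCore p G with hKdef
  set π := QuotientGroup.mk' K with hπ
  have hsurj := QuotientGroup.mk'_surjective K
  have hK := CfsgH2.coprime_card_pPrimeCore (G := G) p
  have hEp : IsPGroup p E := by
    intro e
    exact ⟨1, Subtype.ext (by rw [pow_one]; exact hE.2 e e.2)⟩
  obtain ⟨S, hES⟩ := hEp.exists_le_sylow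
  have hSn : ((S : Subgroup G).map π).Normal := by
    have h1 := (CfsgH3.plen_one hpl S).map π hsurj
    rw [Subgroup.map_sup] at h1
    have h2 : K.map π = ⊥ := by
      rw [Subgroup.map_eq_bot_iff, QuotientGroup.ker_mk']
    rwa [h2, sup_bot_eq] at h1
  have hinj : ∀ s ∈ (S : Subgroup G), π s = 1 → s = 1 := by
    intro s hs hs1
    have h1 : s ∈ K := (QuotientGroup.eq_one_iff s).1 hs1
    obtain ⟨k, hk⟩ := S.isPGroup' ⟨s, hs⟩
    refine CfsgH3.eq_one_of_coprime_of_pow (p := p) (k := k) ?_ (congrArg Subtype.val hk)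
    have h2 : orderOf (⟨s, h1⟩ : ↥K) ∣ Nat.card ↥K := _root_.orderOf_dvd_natCard _
    rw [← Subgroup.orderOf_coe] at h2
    exact hK.coprime_dvd_left h2
  have hSp : IsPGroup p ↥((S : Subgroup G).map π) := S.isPGroup'.map π
  have hc : Subgroup.centralizer (((S : Subgroup G).map π : Subgroup (G ⧸ K)) : Set (G ⧸ K)) ≤ (S : Subgroup G).map π := by
    have hO := CfsgH2.pPrimeCore_quotient_pPrimeCore (G := G) p
    have hs : Cfsg.IsPSolvable p (G ⧸ K) := CfsgH1.IsPSolvable.map (CfsgH1.isPSolvable_of_isSolvable _ G rfl inferInstance) π hsurj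
    have h1 := CfsgH1.psolv_centralizer_pCore_le hs hO
    have h2 : (S : Subgroup G).map π = Cfsg.pCore p (G ⧸ K) := by
      apply le_antisymm
      · exact CfsgH2.le_pCore hSn hSp
      · exact CfsgH7.pCore_le_sylow (S.mapSurjective hsurj)
    rw [h2]; exact h1
  have h1 := normal_case hp (P := (S : Subgroup G).map π) (E := E.map π) (L := L.map π) hSp hc (Subgroup.map_mono hES) ?_
    (hL.coprime_dvd_left (Subgroup.card_map_dvd _ _)) ?_
  · rw [Subgroup.map_eq_bot_iff, QuotientGroup.ker_mk'] at h1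
    exact h1
  · rintro _ ⟨s, hs, rfl⟩ hsc hsp
    refine ⟨s, ?_, rfl⟩
    have hcomm : ∀ e ∈ E, e * s = s * e := by
      intro e he
      have h2 : π e * π s = π s * π e := Subgroup.mem_centralizer_iff.1 hsc _ ⟨e, he, rfl⟩
      have h3 : e * s * e⁻¹ * s⁻¹ = 1 := by
        apply hinj
        · exact mul_mem (mul_mem (mul_mem (hES he) hs) (inv_mem (hES he))) (inv_mem hs)
        · rw [map_mul, map_mul, map_mul, h2, map_inv, map_inv]; group
      have h4 : e * s = (e * s * e⁻¹ * s⁻¹) * (s * e) := by group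
      rw [h4, h3, one_mul]
    have hsp' : s ^ p = 1 := by
      apply hinj _ (pow_mem hs p)
      rw [map_pow]; exact hsp
    have h5 := hEmax _ (CfsgH7.elem_sup_zpowers hE hcomm hsp') le_sup_left
    rw [← h5]
    exact Subgroup.mem_sup_right (Subgroup.mem_zpowers s)
  · rintro _ ⟨e, he, rfl⟩
    exact Subgroup.le_normalizer_map π ⟨e, hEL he, rfl⟩

end Cfsg.Agent.S1462
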