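import Mathlib
import Cfsg.Agent.H3.OddStab
import Cfsg.Agent.H3.Cores2
import Cfsg.Statements.S1464

set_option autoImplicit false
open Cfsg

namespace Cfsg.Agent.S1464

/-- Let p be an odd prime and G a solvable group of odd order, P a p-subgroup with O_{p'}(G)P normal in G, and A a p-subgroup of N_G(P) with [[P, A], A] = 1. Then the image of A in the quotient N_G(P)/C_G(P) is contained in the p-core of that quotient. -/
theorem result {G : Type*} [Group G] [Finite G] [Group.IsSolvable G] (hodd : Odd (Nat.card G)) (p : ℕ) [Fact p.Prime] (hp : p ≠ 2) (P A : Subgroup G) (hP : IsPGroup p P) (hPn : (Cfsg.pPrimeCore p G ⊔ P).Normal)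
    (hA : IsPGroup p A) (hAN : A ≤ Subgroup.normalizer (P : Set G)) (hquad : ⁅⁅P, A⁆, A⁆ = ⊥) :
    (A.subgroupOf (Subgroup.normalizer (P : Set G))).map
        (QuotientGroup.mk' ((Subgroup.centralizer (P : Set G)).subgroupOf (Subgroup.normalizer (P : Set G))))
      ≤ Cfsg.pCore p _ := by
  rintro _ ⟨⟨x, hx⟩, hxA, rfl⟩
  have hxA' : x ∈ A := hxA
  refine CfsgH3.odd_nps hp hodd P hP x hx ?_
  have hz : Subgroup.zpowers x ≤ A := Subgroup.zpowers_le.2 hxA'
  rw [eq_bot_iff, ← hquad]
  exact Subgroup.commutator_mono (Subgroup.commutator_mono le_rfl hz) hz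

end Cfsg.Agent.S1464
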