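import Mathlib
import Cfsg.Agent.H3.Puig2
import Cfsg.Statements.S1469

set_option autoImplicit false
open Cfsg

namespace Cfsg.Agent.S1469

/-- Let p be an odd prime, G a solvable group of odd order and S a Sylow p-subgroup, and let Z be the centre of the Puig subgroup L(S), viewed inside G. Then G is generated by O_{p'}(G) and N_G(Z); and if O_{p'}(G) = 1 then Z is normal in G. -/
theorem result {G : Type*} [Group G] [Finite G] [Group.IsSolvable G] (hodd : Odd (Nat.card G)) (p : ℕ) [Fact p.Prime] (hp : p ≠ 2) (S : Sylow p G) :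
    Cfsg.pPrimeCore p G ⊔ Subgroup.normalizer ((((Subgroup.center ↥(Cfsg.puigSubgroup ↥(S : Subgroup G))).map (Cfsg.puigSubgroup ↥(S : Subgroup G)).subtype).map (S : Subgroup G).subtype : Subgroup G) : Set G) = ⊤ ∧
      (Cfsg.pPrimeCore p G = ⊥ → (((Subgroup.center ↥(Cfsg.puigSubgroup ↥(S : Subgroup G))).map (Cfsg.puigSubgroup ↥(S : Subgroup G)).subtype).map (S : Subgroup G).subtype).Normal) := by
  rw [CfsgH3.zPuig_eq]
  constructor
  · set N := Cfsg.pPrimeCore p G with hN
    set π := QuotientGroup.mk' N with hπ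
    have hsurj := QuotientGroup.mk'_surjective N
    have hodd' : Odd (Nat.card (G ⧸ N)) := Odd.of_dvd_nat hodd (Subgroup.card_quotient_dvd_card N)
    have hst := CfsgH3.odd_nps hp hodd' (p := p)
    have hO := CfsgH2.pPrimeCore_quotient_pPrimeCore (G := G) p
    have hs : Cfsg.IsPSolvable p (G ⧸ N) := CfsgH1.IsPSolvable.map (CfsgH1.isPSolvable_of_isSolvable _ G rfl inferInstance) π hsurj
    have hc := CfsgH1.psolv_centralizer_pCore_le hs hO
    have h1 := CfsgH3.zPuig_normal hst hc (S.mapSurjective hsurj)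
    have hinj : Function.Injective (π.comp (S : Subgroup G).subtype) := by
      rw [injective_iff_map_eq_one]
      intro s hs1
      have h1 : (s : G) ∈ N := (QuotientGroup.eq_one_iff (s : G)).1 hs1
      obtain ⟨k, hk⟩ := S.isPGroup' s
      apply Subtype.ext
      refine CfsgH3.eq_one_of_coprime_of_pow (p := p) (k := k) ?_ (congrArg Subtype.val hk)
      have h2 : orderOf (⟨(s : G), h1⟩ : ↥N) ∣ Nat.card ↥N := _root_.orderOf_dvd_natCard _
      rw [← Subgroup.orderOf_coe] at h2
      exact (CfsgH2.coprime_card_pPrimeCore (G := G) p).coprime_dvd_left h2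
    have h2 : (CfsgH3.zPuig (S : Subgroup G)).map π = CfsgH3.zPuig ((S : Subgroup G).map π) := by
      have e1 : CfsgH3.zPuig (S : Subgroup G) = (CfsgH3.zPuig (⊤ : Subgroup ↥(S : Subgroup G))).map (S : Subgroup G).subtype := by
        rw [CfsgH3.zPuig_map _ (S : Subgroup G).subtype_injective, ← MonoidHom.range_eq_map, Subgroup.range_subtype]
      rw [e1, Subgroup.map_map, CfsgH3.zPuig_map _ hinj, ← Subgroup.map_map, ← MonoidHom.range_eq_map, Subgroup.range_subtype]
    have h3 : ((S.mapSurjective hsurj : Sylow p (G ⧸ N)) : Subgroup (G ⧸ N)) = (S : Subgroup G).map π := rfl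
    rw [h3, ← h2] at h1
    have h4 := h1.comap π
    rw [Subgroup.comap_map_eq, QuotientGroup.ker_mk'] at h4
    refine CfsgH3.sup_normalizer_eq_top _ N ?_ (CfsgH2.coprime_card_pPrimeCore p) h4
    exact S.isPGroup'.to_le (inf_le_left.trans (CfsgH3.pUp_le _))
  · intro hO
    have hst := CfsgH3.odd_nps hp hodd (G := G) (p := p)
    have hc := CfsgH1.psolv_centralizer_pCore_le (CfsgH1.isPSolvable_of_isSolvable _ G rfl inferInstance) hO
    exact CfsgH3.zPuig_normal hst hc S

end Cfsg.Agent.S1469
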