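import Mathlib
import Cfsg.Agent.H2.EppoNS
import Cfsg.Agent.H1.Carter
import Cfsg.Agent.H1.FrobComp
import Cfsg.Statements.S1475

set_option autoImplicit false
open Cfsg

namespace Cfsg.Agent.S1475

open scoped commutatorElement

theorem fpf_aux {G : Type*} [Group G] [Finite G] (hpp : ∀ g : G, g ≠ 1 → IsPrimePow (orderOf g)) {V K : Subgroup G} {p : ℕ} (hp : p.Prime)
    (hVp : IsPGroup p V) (hK : (Nat.card K).Coprime p) : ∀ e ∈ K, e ≠ 1 → ∀ k ∈ V, e * k = k * e → k = 1 := by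
  intro e he he1 k hk hek
  by_contra hk1
  obtain ⟨q, hq, hqe⟩ := Nat.exists_prime_and_dvd (fun h => he1 (orderOf_eq_one_iff.1 h))
  haveI : Fact p.Prime := ⟨hp⟩
  have hpk : p ∣ orderOf k := by
    obtain ⟨j, hj⟩ := IsPGroup.iff_orderOf.1 hVp ⟨k, hk⟩
    rw [Subgroup.orderOf_mk] at hj
    rw [hj]
    refine dvd_pow_self p ?_
    rintro rfl
    rw [pow_zero, orderOf_eq_one_iff] at hj
    exact hk1 hj
  have h2 := CfsgH2.eppo_prime_eq hpp hek hq hp hqe hpk
  subst h2
  have h3 : orderOf e ∣ Nat.card K := by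
    have := _root_.orderOf_dvd_natCard (⟨e, he⟩ : ↥K)
    rwa [← Subgroup.orderOf_coe] at this
  exact (hq.coprime_iff_not_dvd.1 hK.symm) (hqe.trans h3)

theorem aux {G : Type*} [Group G] [Finite G] (hpp : ∀ g : G, g ≠ 1 → IsPrimePow (orderOf g)) {V K : Subgroup G} {p : ℕ} (hp : p.Prime)
    (hV : V ≠ ⊥) (hVp : IsPGroup p V) (hK : (Nat.card K).Coprime p) (hKV : K ≤ Subgroup.normalizer (V : Set G))
    {s t : ℕ} (hs : s.Prime) (ht : t.Prime) (hst : s ≠ t) (hc : Nat.card K = s * t) (hsol : Group.IsSolvable V) : False := by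
  haveI : Fact s.Prime := ⟨hs⟩
  haveI : Fact t.Prime := ⟨ht⟩
  haveI : Fact p.Prime := ⟨hp⟩
  have h1 : IsCyclic K := by
    refine CfsgH1.isCyclic_of_fpf_conj hKV hV ?_ (Or.inr hsol) (Or.inr ⟨s, t, hs, ht, hc⟩) ?_
    · obtain ⟨k, hk⟩ := IsPGroup.iff_card.1 hVp
      rw [hk]; exact hK.pow_right k
    · exact fpf_aux hpp hp hVp hK
  obtain ⟨g, hg⟩ := h1.exists_generator
  have h2 : orderOf (g : G) = s * t := by
    rw [Subgroup.orderOf_coe, orderOf_eq_card_of_forall_mem_zpowers hg, hc]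
  have h3 := CfsgH2.eppo_prime_eq hpp (h := (g : G)) (k := (g : G)) rfl hs ht (by rw [h2]; exact dvd_mul_right _ _) (by rw [h2]; exact dvd_mul_left _ _)
  exact hst h3

/-- Let G be a finite solvable group such that the order of every element is a prime power (1 included). Then at most two distinct primes divide the order of G. -/
theorem result {G : Type*} [Group G] [Finite G] [Group.IsSolvable G] (h : ∀ g : G, IsPrimePow (orderOf g) ∨ g = 1) :
    (Nat.card G).primeFactors.card ≤ 2 := by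
  have hpp : ∀ g : G, g ≠ 1 → IsPrimePow (orderOf g) := fun g hg => (h g).resolve_right hg
  by_contra hcon
  push Not at hcon
  have hnt : Nontrivial G := by
    by_contra hn
    rw [not_nontrivial_iff_subsingleton] at hn
    rw [Nat.card_of_subsingleton (1 : G)] at hcon
    simp at hcon
  obtain ⟨V, hVn, hVb, -, hVc, p, hp, -, hVp⟩ := CfsgH1.exists_minNormal_pgroup (G := G)
  haveI : Fact p.Prime := ⟨hp⟩
  obtain ⟨K, k, hK, hKi⟩ := CfsgH1.exists_hall_pprime (G := G) hp
  have hnV : ∀ H : Subgroup G, H ≤ Subgroup.normalizer (V : Set G) := fun H => CfsgH1.le_normalizer_of_normal H V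
  have hdvd : ∀ q : ℕ, q ∈ (Nat.card G).primeFactors.erase p → q.Prime ∧ q ∣ Nat.card K := by
    intro q hq
    obtain ⟨h1, h2⟩ := Finset.mem_erase.1 hq
    have h3 := Nat.prime_of_mem_primeFactors h2
    refine ⟨h3, ?_⟩
    have h4 := Nat.dvd_of_mem_primeFactors h2
    rw [← K.card_mul_index, hKi] at h4
    rcases h3.dvd_mul.1 h4 with h5 | h5
    · exact h5
    · exact absurd ((Nat.prime_dvd_prime_iff_eq h3 hp).1 (h3.dvd_of_dvd_pow h5)) h1
  have hcard : 1 < ((Nat.card G).primeFactors.erase p).card := by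
    have := Finset.pred_card_le_card_erase (s := (Nat.card G).primeFactors) (a := p)
    omega
  obtain ⟨q, hq, r, hr, hqr⟩ := Finset.one_lt_card.1 hcard
  obtain ⟨hqp, hqK⟩ := hdvd q hq
  obtain ⟨hrp, hrK⟩ := hdvd r hr
  haveI hKnt : Nontrivial ↥K := by
    rw [Subgroup.nontrivial_iff_ne_bot]
    rintro rfl
    rw [Subgroup.card_bot] at hqK
    exact hqp.one_lt.ne' (Nat.dvd_one.1 hqK)
  obtain ⟨M, hMn, hMb, -, hMc, s, hs, hMs, hMsp⟩ := CfsgH1.exists_minNormal_pgroup (G := ↥K)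
  obtain ⟨t, ht, hts, htK⟩ : ∃ t : ℕ, t.Prime ∧ s ≠ t ∧ t ∣ Nat.card K := by
    by_cases h1 : s = q
    · exact ⟨r, hrp, by rw [h1]; exact hqr, hrK⟩
    · exact ⟨q, hqp, h1, hqK⟩
  haveI : Fact s.Prime := ⟨hs⟩
  haveI : Fact t.Prime := ⟨ht⟩
  set M' := M.map K.subtype with hM'
  have hM'K : M' ≤ K := Subgroup.map_subtype_le _
  have hM'b : M' ≠ ⊥ := by
    rw [hM', Ne, Subgroup.map_eq_bot_iff_of_injective _ K.subtype_injective]
    exact hMb
  have hsolV : Group.IsSolvable V := inferInstance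
  have hKM' : (Nat.card M').Coprime p := hK.coprime_dvd_left (Subgroup.card_dvd_of_le hM'K)
  have hMcyc : IsCyclic M' := by
    refine CfsgH1.isCyclic_of_fpf_conj (hnV M') hVb ?_ (Or.inr hsolV) (Or.inl ?_) ?_
    · obtain ⟨k, hk⟩ := IsPGroup.iff_card.1 hVp
      rw [hk]; exact hKM'.pow_right k
    · rintro _ ⟨x, hx, rfl⟩ _ ⟨y, hy, rfl⟩
      exact congrArg Subtype.val (hMc x hx y hy)
    · exact fpf_aux hpp hp hVp hKM'
  have hMcard : Nat.card M' = s := by
    obtain ⟨g, hg⟩ := hMcyc.exists_generator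
    have h2 : orderOf g = Nat.card M' := orderOf_eq_card_of_forall_mem_zpowers hg
    have h3 : g ^ s = 1 := by
      obtain ⟨x, hx, hxg⟩ := g.2
      apply Subtype.ext
      rw [Subgroup.coe_pow, ← hxg]
      exact congrArg Subtype.val (hMs x hx)
    rw [← h2]
    rcases (Nat.dvd_prime hs).1 (orderOf_dvd_of_pow_eq_one h3) with h4 | h4
    · exfalso
      rw [h2, Subgroup.card_eq_one] at h4
      exact hM'b h4
    · exact h4
  obtain ⟨y, hy⟩ := exists_prime_orderOf_dvd_card' (G := K) t htK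
  have hyo : Nat.card (Subgroup.zpowers (y : G)) = t := by rw [Nat.card_zpowers, Subgroup.orderOf_coe, hy]
  have hyN : Subgroup.zpowers (y : G) ≤ Subgroup.normalizer (M' : Set G) := by
    rw [Subgroup.zpowers_le]
    have h1 : K ≤ Subgroup.normalizer (M' : Set G) := by
      have := Subgroup.le_normalizer_map (H := M) K.subtype
      rw [Subgroup.normalizer_eq_top_iff.2 hMn, ← MonoidHom.range_eq_map, Subgroup.range_subtype] at this
      exact this
    exact h1 y.2
  have hinf : Subgroup.zpowers (y : G) ⊓ M' = ⊥ := by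
    apply CfsgH1.inf_eq_bot_of_coprime
    rw [hyo, hMcard]
    exact (Nat.coprime_primes ht hs).2 (Ne.symm hts)
  have hE : Nat.card ↥(Subgroup.zpowers (y : G) ⊔ M') = s * t := by
    have h1 := CfsgH1.card_sup_mul_card_inf hyN
    rw [hinf, Subgroup.card_bot, mul_one, hyo, hMcard] at h1
    rw [h1, mul_comm]
  refine aux hpp hp hVb hVp (K := Subgroup.zpowers (y : G) ⊔ M') ?_ (hnV _) hs ht hts hE hsolV
  exact hK.coprime_dvd_left (Subgroup.card_dvd_of_le (sup_le (Subgroup.zpowers_le.2 y.2) hM'K))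

end Cfsg.Agent.S1475
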