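import Mathlib
import Cfsg.Agent.H3.CNgrp5
import Cfsg.Statements.S1476

set_option autoImplicit false
open Cfsg

namespace Cfsg.Agent.S1476

/-- Let G be a finite solvable group in which every non-identity element has nilpotent centralizer. Then either G is nilpotent; or G has a normal subgroup K with a Frobenius complement E (K E = G, K ∩ E = 1, E meets its conjugates by outside elements trivially) such that E is cyclic or E is generated by two elementwise-commuting subgroups, one cyclic of odd order and one isomorphic to a generalized quaternion group; or G is a three-step group with respect to some prime p. -/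
theorem result {G : Type*} [Group G] [Finite G] [Group.IsSolvable G] (hCN : Cfsg.IsCNGroup G) :
    Group.IsNilpotent G ∨
      (∃ K E : Subgroup G, K.Normal ∧ Subgroup.IsComplement' K E ∧ Cfsg.IsFrobeniusComplement E ∧
        (IsCyclic E ∨ ∃ C Q : Subgroup G, C ⊔ Q = E ∧ (∀ a ∈ C, ∀ b ∈ Q, a * b = b * a) ∧ IsCyclic C ∧ Odd (Nat.card C) ∧
          ∃ n : ℕ, Nonempty (↥Q ≃* QuaternionGroup (2 ^ n)))) ∨
      ∃ p : ℕ, p.Prime ∧ Cfsg.IsThreeStepGroup p G := by
  by_cases hnn : Group.IsNilpotent G
  · exact Or.inl hnn
  right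
  by_cases hne : Cfsg.fittingHall G = ⊥
  · exact Or.inr (CfsgH3.cn_trichotomy hCN hnn hne)
  · left
    obtain ⟨E, hc, hF, hEb, hEn, hf⟩ := CfsgH3.cn_struct' hCN hnn hne
    have hKn := Cfsg.fittingHall_normal G
    refine ⟨Cfsg.fittingHall G, E, hKn, hc, hF, ?_⟩
    have hEi : Nat.card E = (Cfsg.fittingHall G).index := hc.symm.index_eq_card.symm
    refine CfsgH3.nilp_fpf_struct (CfsgH1.le_normalizer_of_normal E (Cfsg.fittingHall G)) hne ?_ ?_ hEn
    · rw [hEi]; exact CfsgH3.fittingHall_coprime.symm
    · intro e he he1 k hk hc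
      have h1 : k ∈ Cfsg.fittingHall G ⊓ Subgroup.centralizer ({e} : Set G) := ⟨hk, Subgroup.mem_centralizer_singleton_iff.2 hc.symm⟩
      rw [hf e he he1, Subgroup.mem_bot] at h1
      exact h1

end Cfsg.Agent.S1476
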