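import Mathlib
import Cfsg.Agent.H3.CNgrp2
import Cfsg.Statements.S1477

set_option autoImplicit false
open Cfsg

namespace Cfsg.Agent.S1477

/-- Let G be a finite group in which every non-identity element has nilpotent centralizer, and H a nilpotent subgroup not properly contained in any nilpotent subgroup. Then the order of H is coprime to its index; if the order of H is not a prime power then H ∩ gHg⁻¹ = 1 whenever gHg⁻¹ ≠ H; and if H ∩ gHg⁻¹ = 1 whenever gHg⁻¹ ≠ H, then C_G(x) ≤ H for every non-identity x ∈ H. -/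
theorem result {G : Type*} [Group G] [Finite G] (hCN : Cfsg.IsCNGroup G) (H : Subgroup G) (hH : Group.IsNilpotent H)
    (hmax : ∀ L : Subgroup G, Group.IsNilpotent L → H ≤ L → L = H) :
    (Nat.card H).Coprime H.index ∧
      (¬ IsPrimePow (Nat.card H) → Nat.card H ≠ 1 → ∀ g : G, H.map (MulAut.conj g).toMonoidHom ≠ H → H ⊓ H.map (MulAut.conj g).toMonoidHom = ⊥) ∧
      ((∀ g : G, H.map (MulAut.conj g).toMonoidHom ≠ H → H ⊓ H.map (MulAut.conj g).toMonoidHom = ⊥) → ∀ x ∈ H, x ≠ 1 → Subgroup.centralizer ({x} : Set G) ≤ H) := by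
  have h : CfsgH3.MaxNil H := ⟨hH, hmax⟩
  refine ⟨h.hall hCN, ?_, fun hti x hx hx1 => h.cent_le_of_ti hCN hti hx hx1⟩
  intro hnp h1 g hne
  obtain ⟨p, hp, hpH⟩ := Nat.exists_prime_and_dvd h1
  obtain ⟨q, hq, hpq, hqH⟩ : ∃ q : ℕ, q.Prime ∧ p ≠ q ∧ q ∣ Nat.card H := by
    by_contra hcon
    push Not at hcon
    apply hnp
    have h2 := Nat.eq_prime_pow_of_unique_prime_dvd (p := p) (Nat.card_pos (α := H)).ne' (fun {d} hd hdv => by
      by_contra hne
      exact hcon d hd (Ne.symm hne) hdv)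
    rw [h2]
    refine hp.isPrimePow.pow ?_
    intro h3
    rw [h3, pow_zero] at h2
    exact h1 h2
  exact h.ti hCN hp hq hpq hpH hqH g hne

end Cfsg.Agent.S1477
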