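import Mathlib
import Cfsg.Agent.H3.Transit
import Cfsg.Statements.S1480

set_option autoImplicit false
open Cfsg

namespace Cfsg.Agent.S1480

open Subgroup CfsgH3

/-- Let G be a finite group and p a prime such that the normalizer of every nontrivial p-subgroup of G is p-constrained; if p = 2 assume also that the Sylow 2-subgroups of G have nilpotency class at most 2. Let E be an abelian p-subgroup containing an elementary abelian subgroup of order p ^ 3 and containing every element of p-power order of C_G(E). Then for every prime q ≠ p, any two maximal E-invariant q-subgroups of G are conjugate by an element of O_{p'}(C_G(E)). -/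
theorem result {G : Type*} [Group G] [Finite G] (p : ℕ) [Fact p.Prime]
    (hloc : ∀ T : Subgroup G, IsPGroup p T → T ≠ ⊥ → Cfsg.IsPConstrained p ↥(Subgroup.normalizer (T : Set G)))
    (h2 : p = 2 → ∀ S : Sylow p G, Group.IsNilpotent (S : Subgroup G) ∧ Group.nilpotencyClass (S : Subgroup G) ≤ 2)
    (E : Subgroup G) (hEp : IsPGroup p E) (hEc : IsMulCommutative E) (hE3 : ¬ Cfsg.PRankLE p 2 E)
    (hEfull : ∀ x ∈ Subgroup.centralizer (E : Set G), IsPGroup p (Subgroup.zpowers x) → x ∈ E)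
    (q : ℕ) [Fact q.Prime] (hqp : q ≠ p) :
    ∀ Q₁ ∈ Cfsg.maxInvSubgroups ⊤ E {q}, ∀ Q₂ ∈ Cfsg.maxInvSubgroups ⊤ E {q},
        ∃ k ∈ Cfsg.piCoreOf (Cfsg.primesNotDvd p) (Subgroup.centralizer (E : Set G)), Q₂ = Q₁.map (MulAut.conj k).toMonoidHom := by
  have hfull : ∀ x ∈ centralizer (E : Set G), (∃ k, x ^ p ^ k = 1) → x ∈ E := by
    rintro x hx ⟨k, hk⟩
    apply hEfull x hx
    rintro ⟨y, hy⟩
    obtain ⟨i, rfl⟩ := Subgroup.mem_zpowers_iff.1 hy
    refine ⟨k, Subtype.ext ?_⟩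
    change (x ^ i) ^ p ^ k = 1
    rw [← zpow_natCast, ← zpow_mul, mul_comm, zpow_mul, zpow_natCast, hk, one_zpow]
  have hEc' : ∀ a ∈ E, ∀ b ∈ E, a * b = b * a := fun a ha b hb =>
    congrArg Subtype.val (hEc.is_comm.comm (⟨a, ha⟩ : E) ⟨b, hb⟩)
  have hcl : p ≠ 2 ∨ ∀ S : Subgroup G, IsPGroup p S → ∀ x ∈ S, ∀ y ∈ S, ∀ z ∈ S,
      (x * y * x⁻¹ * y⁻¹) * z = z * (x * y * x⁻¹ * y⁻¹) := by
    by_cases hp2 : p = 2
    · right
      intro S hS x hx y hy z hz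
      obtain ⟨T, hT⟩ := hS.exists_le_sylow
      obtain ⟨hTn, hTc⟩ := h2 hp2 T
      haveI := hTn
      have h3 := Subgroup.lowerCentralSeries_eq_bot_of_nilpotencyClass_le hTc
      have h4 : ⁅⁅(T : Subgroup G), (T : Subgroup G)⁆, (T : Subgroup G)⁆ = ⊥ := h3
      rw [Subgroup.commutator_eq_bot_iff_le_centralizer] at h4
      have h5 := h4 (Subgroup.commutator_mem_commutator (hT hx) (hT hy))
      exact (Subgroup.mem_centralizer_iff.1 h5 z (hT hz)).symm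
    · exact Or.inl hp2
  obtain ⟨A, hA1, hA2, hA3⟩ : ∃ A : Subgroup E, IsMulCommutative A ∧ (∀ a ∈ A, a ^ p = 1) ∧ p ^ 3 ≤ Nat.card A := by
    unfold Cfsg.PRankLE at hE3
    push Not at hE3
    obtain ⟨A, hA1, hA2, hA3⟩ := hE3
    refine ⟨A, hA1, hA2, ?_⟩
    obtain ⟨k, hk⟩ := IsPGroup.iff_card.1 (hEp.to_subgroup A)
    rw [hk] at hA3 ⊢
    have h3 := (Nat.pow_lt_pow_iff_right (Fact.out : p.Prime).one_lt).1 hA3
    exact Nat.pow_le_pow_right (Fact.out : p.Prime).pos h3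
  have hAE : A.map E.subtype ≤ E := Subgroup.map_subtype_le _
  have hAel : IsElementaryAbelian p (A.map E.subtype) := by
    refine ⟨⟨⟨?_⟩⟩, ?_⟩
    · rintro ⟨a, ha⟩ ⟨b, hb⟩
      exact Subtype.ext (hEc' a (hAE ha) b (hAE hb))
    · rintro _ ⟨a, ha, rfl⟩
      exact congrArg Subtype.val (hA2 a ha)
  have hAcard : p ^ 3 ≤ Nat.card (A.map E.subtype) := by
    rw [Subgroup.card_map_of_injective E.subtype_injective]; exact hA3
  have hconv : ∀ X : Subgroup G, (∀ r : ℕ, r.Prime → r ∣ Nat.card X → r ∈ ({q} : Set ℕ)) → IsPGroup q X := by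
    intro X hX
    exact IsPGroup.of_card (n := (Nat.card X).primeFactorsList.length)
        (Nat.eq_prime_pow_of_unique_prime_dvd Nat.card_pos.ne' (by
          intro r hr hrd
          exact hX r hr hrd))
  have hconv' : ∀ X : Subgroup G, IsPGroup q X → (∀ r : ℕ, r.Prime → r ∣ Nat.card X → r ∈ ({q} : Set ℕ)) := by
    intro X hX r hr hrd
    obtain ⟨k, hk⟩ := IsPGroup.iff_card.1 hX
    rw [hk] at hrd
    exact (Nat.prime_dvd_prime_iff_eq hr Fact.out).1 (hr.dvd_of_dvd_pow hrd)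
  have hmax : ∀ Q ∈ Cfsg.maxInvSubgroups ⊤ E {q}, MaxI q E Q := by
    rintro Q ⟨⟨-, hQ1, hQ2⟩, hQ3⟩
    refine ⟨⟨hconv Q hQ1, hQ2⟩, fun R hR hER hQR => ?_⟩
    exact hQ3 R ⟨le_top, hconv' R hR, hER⟩ hQR
  intro Q₁ hQ₁ Q₂ hQ₂
  obtain ⟨c, hc, hcQ⟩ := transit hloc hcl hEp hEc' hAE hAel hAcard hfull hqp _ Q₁ Q₂ rfl (hmax Q₁ hQ₁) (hmax Q₂ hQ₂)
  refine ⟨c, ?_, hcQ.symm⟩
  obtain ⟨d, hd, rfl⟩ := hc
  refine ⟨d, ?_, rfl⟩
  have h3 : Cfsg.pPrimeCore p (centralizer (E : Set G)) ≤ Cfsg.piCore (Cfsg.primesNotDvd p) (centralizer (E : Set G)) := by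
    apply le_sSup
    refine ⟨CfsgH7.pPrimeCore_normal' p _, fun r hr hrd => ⟨hr, fun hrp => ?_⟩⟩
    have h4 := CfsgH2.coprime_card_pPrimeCore (G := centralizer (E : Set G)) p
    exact hr.one_lt.ne' (Nat.eq_one_of_dvd_coprimes h4 hrd hrp)
  exact h3 hd

end Cfsg.Agent.S1480
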