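import Mathlib
import Cfsg.Agent.H3.CNmin2
import Cfsg.Statements.S1483

set_option autoImplicit false
open Cfsg

namespace Cfsg.Agent.S1483

/-- Let G be a minimal simple group of odd order in which every non-identity element has nilpotent centralizer. Then any two nilpotent subgroups each contained in no larger nilpotent subgroup are either conjugate or of coprime orders; and for primes p, q, r: if some elements x, y ≠ 1 of p-power and q-power order commute, and some elements y', z ≠ 1 of q-power and r-power order commute, then some elements of p-power and r-power order, both ≠ 1, commute. -/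
theorem result {G : Type*} [Group G] [Finite G] (hG : Cfsg.IsMinSimpleOddOrder G) (hCN : Cfsg.IsCNGroup G) :
    (∀ H₁ H₂ : Subgroup G, (Group.IsNilpotent ↥H₁ ∧ ∀ L : Subgroup G, Group.IsNilpotent L → H₁ ≤ L → L = H₁) → (Group.IsNilpotent ↥H₂ ∧ ∀ L : Subgroup G, Group.IsNilpotent L → H₂ ≤ L → L = H₂) → (∃ g : G, H₂ = H₁.map (MulAut.conj g).toMonoidHom) ∨ (Nat.card H₁).Coprime (Nat.card H₂)) ∧
      ∀ (p q r : ℕ), p.Prime → q.Prime → r.Prime → ∀ (x y y' z : G), x ≠ 1 → y ≠ 1 → y' ≠ 1 → z ≠ 1 →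
        IsPGroup p (Subgroup.zpowers x) → IsPGroup q (Subgroup.zpowers y) → IsPGroup q (Subgroup.zpowers y') → IsPGroup r (Subgroup.zpowers z) →
        x * y = y * x → y' * z = z * y' →
        ∃ x' z' : G, x' ≠ 1 ∧ z' ≠ 1 ∧ IsPGroup p (Subgroup.zpowers x') ∧ IsPGroup r (Subgroup.zpowers z') ∧ x' * z' = z' * x' := by
  constructor
  · intro H₁ H₂ h₁ h₂
    exact CfsgH3.ms_maxNil_coprime hG hCN h₁ h₂
  · intro p q r hp hq hr x y y' z hx1 hy1 hy'1 hz1 hx hy hy' hz hxy hyz
    haveI : Fact p.Prime := ⟨hp⟩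
    haveI : Fact q.Prime := ⟨hq⟩
    haveI : Fact r.Prime := ⟨hr⟩
    have hdvd : ∀ (s : ℕ) (_ : s.Prime) (t : G) (H : Subgroup G), t ≠ 1 → IsPGroup s (Subgroup.zpowers t) → t ∈ H → s ∣ Nat.card H := by
      intro s hs t H ht1 ht htH
      haveI : Fact s.Prime := ⟨hs⟩
      obtain ⟨k, hk⟩ := IsPGroup.iff_card.1 ht
      have h1 : s ∣ Nat.card (Subgroup.zpowers t) := by
        rw [hk]
        refine dvd_pow_self s ?_
        rintro rfl
        rw [pow_zero, Subgroup.card_eq_one, Subgroup.zpowers_eq_bot] at hk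
        exact ht1 hk
      exact h1.trans (Subgroup.card_dvd_of_le ((Subgroup.zpowers_le).2 htH))
    obtain ⟨H₁, h₁, hle₁⟩ := CfsgH3.exists_maxNil (hCN y hy1)
    obtain ⟨H₂, h₂, hle₂⟩ := CfsgH3.exists_maxNil (hCN y' hy'1)
    have hxH : x ∈ H₁ := hle₁ (Subgroup.mem_centralizer_singleton_iff.2 hxy)
    have hyH : y ∈ H₁ := hle₁ (Subgroup.mem_centralizer_singleton_iff.2 rfl)
    have hzH : z ∈ H₂ := hle₂ (Subgroup.mem_centralizer_singleton_iff.2 hyz.symm)
    have hyH' : y' ∈ H₂ := hle₂ (Subgroup.mem_centralizer_singleton_iff.2 rfl)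
    by_cases hpr : p = r
    · subst hpr
      exact ⟨x, x, hx1, hx1, hx, hx, rfl⟩
    have hcard : Nat.card H₂ = Nat.card H₁ := by
      rcases CfsgH3.ms_maxNil_coprime hG hCN h₁ h₂ with ⟨g, rfl⟩ | h
      · exact CfsgH7.card_cj g H₁
      · exact absurd (Nat.eq_one_of_dvd_coprimes h (hdvd q hq y H₁ hy1 hy hyH) (hdvd q hq y' H₂ hy'1 hy' hyH')) hq.one_lt.ne'
    have hrH : r ∣ Nat.card H₁ := hcard ▸ hdvd r hr z H₂ hz1 hz hzH
    have hpH : p ∣ Nat.card H₁ := hdvd p hp x H₁ hx1 hx hxH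
    obtain ⟨a, ha⟩ := exists_prime_orderOf_dvd_card' (G := H₁) p hpH
    obtain ⟨b, hb⟩ := exists_prime_orderOf_dvd_card' (G := H₁) r hrH
    have ha' : orderOf (a : G) = p := by rw [Subgroup.orderOf_coe]; exact ha
    have hb' : orderOf (b : G) = r := by rw [Subgroup.orderOf_coe]; exact hb
    refine ⟨a, b, ?_, ?_, ?_, ?_, ?_⟩
    · intro h
      rw [h, orderOf_one] at ha'
      exact hp.one_lt.ne ha'
    · intro h
      rw [h, orderOf_one] at hb'
      exact hr.one_lt.ne hb'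
    · exact IsPGroup.iff_card.2 ⟨1, by rw [Nat.card_zpowers, ha', pow_one]⟩
    · exact IsPGroup.iff_card.2 ⟨1, by rw [Nat.card_zpowers, hb', pow_one]⟩
    · refine CfsgH3.commute_of_nilp h₁.1 a.2 b.2 ?_
      rw [ha', hb']
      exact (Nat.coprime_primes hp hr).2 hpr

end Cfsg.Agent.S1483
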