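import Mathlib
import Cfsg.Agent.H3.CNmin2
import Cfsg.Statements.S1484

set_option autoImplicit false
open Cfsg

namespace Cfsg.Agent.S1484

/-- Let G be a minimal simple group of odd order in which every non-identity element has nilpotent centralizer, and M₁, …, M_k maximal subgroups, pairwise non-conjugate, such that every maximal subgroup is conjugate to some M_i. Let H_i be the largest normal nilpotent Hall subgroup of M_i. Then the orders of the H_i are pairwise coprime, their product is the order of G, and every element of G is conjugate to an element of some H_i. -/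
theorem result {G : Type*} [Group G] [Finite G] (hG : Cfsg.IsMinSimpleOddOrder G) (hCN : Cfsg.IsCNGroup G) (k : ℕ) (Mrep : Fin k → Subgroup G) (hmax : ∀ i, IsCoatom (Mrep i))
    (hnc : ∀ i j, i ≠ j → ∀ g : G, Mrep j ≠ (Mrep i).map (MulAut.conj g).toMonoidHom) (hall : ∀ M : Subgroup G, IsCoatom M → ∃ i, ∃ g : G, M = (Mrep i).map (MulAut.conj g).toMonoidHom) :
    (∀ i j, i ≠ j → (Nat.card (Cfsg.fittingHallOf (Mrep i))).Coprime (Nat.card (Cfsg.fittingHallOf (Mrep j)))) ∧
      ∏ i, Nat.card (Cfsg.fittingHallOf (Mrep i)) = Nat.card G ∧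
      ∀ x : G, ∃ i, ∃ g : G, g * x * g⁻¹ ∈ Cfsg.fittingHallOf (Mrep i) := by
  have key : ∀ i, ∃ H : Subgroup G, CfsgH3.MaxNil H ∧ Mrep i = Subgroup.normalizer (H : Set G) ∧ Cfsg.fittingHallOf (Mrep i) = H := by
    intro i
    obtain ⟨H, h, hM⟩ := CfsgH3.ms_coatom_eq hG hCN (hmax i)
    exact ⟨H, h, hM, by rw [hM]; exact CfsgH3.ms_maxNil_fittingHallOf hCN h⟩
  choose H hH hM hF using key
  have hcj : ∀ (g : G) (X : Subgroup G), Subgroup.normalizer ((CfsgH7.cj g X : Subgroup G) : Set G) = CfsgH7.cj g (Subgroup.normalizer (X : Set G)) := by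
    intro g X
    exact (Subgroup.map_equiv_normalizer_eq X (MulAut.conj g)).symm
  have hcop : ∀ i j, i ≠ j → (Nat.card (H i)).Coprime (Nat.card (H j)) := by
    intro i j hij
    rcases CfsgH3.ms_maxNil_coprime hG hCN (hH i) (hH j) with ⟨g, hg⟩ | h
    · exfalso
      apply hnc i j hij g
      rw [hM j, hM i, hg]
      exact hcj g (H i)
    · exact h
  -- every maximal nilpotent subgroup is conjugate to some `H i`
  have hconj : ∀ X : Subgroup G, CfsgH3.MaxNil X → ∃ i, ∃ g : G, X = CfsgH7.cj g (H i) := by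
    intro X hX
    obtain ⟨i, g, hg⟩ := hall _ (CfsgH3.ms_isCoatom hG hCN hX)
    refine ⟨i, g, ?_⟩
    have h1 := CfsgH3.ms_maxNil_fittingHallOf hCN hX
    have h2 := CfsgH3.ms_maxNil_fittingHallOf hCN ((hH i).cj g)
    rw [hcj, ← hM i] at h2
    rw [← h1, ← h2, hg]
  refine ⟨fun i j hij => by rw [hF, hF]; exact hcop i j hij, ?_, fun x => ?_⟩
  · simp only [hF]
    have hdvd : ∏ i, Nat.card (H i) ∣ Nat.card G := by
      apply Fintype.prod_dvd_of_isRelPrime
      · intro i j hij
        exact Nat.coprime_iff_isRelPrime.1 (hcop i j hij)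
      · intro i
        exact (H i).card_subgroup_dvd_card
    obtain ⟨m, hm⟩ := hdvd
    have hm1 : m = 1 := by
      by_contra hm1
      obtain ⟨p, hp, hpm⟩ := Nat.exists_prime_and_dvd hm1
      haveI : Fact p.Prime := ⟨hp⟩
      have hpG : p ∣ Nat.card G := hm ▸ hpm.trans (dvd_mul_left _ _)
      obtain ⟨x, hx⟩ := exists_prime_orderOf_dvd_card' (G := G) p hpG
      have hx1 : x ≠ 1 := by
        rintro rfl
        rw [orderOf_one] at hx
        exact hp.one_lt.ne hx
      obtain ⟨X, hX, hle⟩ := CfsgH3.exists_maxNil (hCN x hx1)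
      obtain ⟨i, g, hg⟩ := hconj X hX
      have h1 : p ∣ Nat.card (H i) := by
        have h2 : Nat.card X = Nat.card (H i) := by rw [hg]; exact CfsgH7.card_cj g (H i)
        rw [← h2, ← hx]
        have := _root_.orderOf_dvd_natCard (⟨x, hle (Subgroup.mem_centralizer_singleton_iff.2 rfl)⟩ : ↥X)
        rwa [← Subgroup.orderOf_coe] at this
      have h2 := (hH i).hall hCN
      have h3 : p ∣ (H i).index := by
        have h4 : Nat.card (H i) * (H i).index = (∏ i, Nat.card (H i)) * m := by rw [Subgroup.card_mul_index, hm]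
        rw [← Finset.mul_prod_erase _ _ (Finset.mem_univ i), mul_assoc] at h4
        have h5 := Nat.eq_of_mul_eq_mul_left Nat.card_pos h4
        rw [h5]
        exact hpm.trans (dvd_mul_left _ _)
      exact hp.one_lt.ne' (Nat.eq_one_of_dvd_coprimes h2 h1 h3)
    rw [hm, hm1, mul_one]
  · obtain ⟨X, hX, hle⟩ := CfsgH3.exists_maxNil (G := G) (X := Subgroup.zpowers x) (by
      letI : CommGroup (Subgroup.zpowers x) := IsCyclic.commGroup
      exact CommGroup.isNilpotent)
    obtain ⟨i, g, hg⟩ := hconj X hX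
    refine ⟨i, g⁻¹, ?_⟩
    rw [hF, inv_inv, ← CfsgH7.mem_cj, ← hg]
    exact hle (Subgroup.mem_zpowers x)

end Cfsg.Agent.S1484
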