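import Cfsg.Statements.S1486
import Cfsg.Agent.H4.Pet1

set_option autoImplicit false
open Cfsg

namespace Cfsg.Agent.S1486

open CfsgH4

/-- Let H be a normal subgroup of the finite group G and θ, φ irreducible characters of H. If φ is a G-conjugate of θ then the functions induced from θ and φ coincide; if φ is not a G-conjugate of θ then the induced functions are orthogonal. -/
theorem result {G : Type*} [Group G] [Fintype G] (H : Subgroup G) [hN : H.Normal] (θ φ : H → ℂ) (hθ : Cfsg.IsIrrCharacter H θ) (hφ : Cfsg.IsIrrCharacter H φ) : ((∃ g : G, φ = fun h : H => θ ⟨g * h * g⁻¹, hN.conj_mem h h.2 g⟩) → Cfsg.indFun H φ = Cfsg.indFun H θ) ∧ ((¬ ∃ g : G, φ = fun h : H => θ ⟨g * h * g⁻¹, hN.conj_mem h h.2 g⟩) → Cfsg.classInner (Cfsg.indFun H φ) (Cfsg.indFun H θ) = 0) := by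
  classical
  haveI : Fintype H := Fintype.ofFinite _
  constructor
  · rintro ⟨g, rfl⟩
    exact indFun_conjFun H θ g
  · intro h
    have h1 := classInner_indFun_normal H φ θ
    rw [Finset.sum_eq_zero] at h1
    · exact (mul_eq_zero.1 h1).resolve_left (card_ne_zero H)
    · intro x _
      refine classInner_irr_ne (conjFun_isIrr H hφ x) hθ fun he => h ⟨x⁻¹, ?_⟩
      show φ = CfsgH4.conjFun H θ x⁻¹
      rw [← he, conjFun_inv_cancel]

end Cfsg.Agent.S1486
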