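import Cfsg.Statements.S1487
import Cfsg.Agent.H4.Pet1

set_option autoImplicit false
open Cfsg

namespace Cfsg.Agent.S1487

open CfsgH4

/-- Let A ≤ H be normal subgroups of the finite group G and θ an irreducible character of H. Then θ takes the value θ 1 on all of A if and only if the function induced from θ to G takes its value at 1 on all of A. -/
theorem result {G : Type*} [Group G] [Fintype G] (A H : Subgroup G) [A.Normal] [H.Normal] (hAH : A ≤ H) (θ : H → ℂ) (hθ : Cfsg.IsIrrCharacter H θ) : (∀ a : H, (a : G) ∈ A → θ a = θ 1) ↔ (∀ a : G, a ∈ A → Cfsg.indFun H θ a = Cfsg.indFun H θ 1) := by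
  classical
  haveI : Fintype H := Fintype.ofFinite _
  have hAn : A.Normal := inferInstance
  constructor
  · intro h a ha
    rw [indFun_apply, indFun_apply]
    congr 1
    refine Finset.sum_congr rfl fun x _ => ?_
    have h1 : x⁻¹ * a * x ∈ A := by simpa using hAn.conj_mem a ha x⁻¹
    rw [extendByZero_of_mem H θ (hAH h1), extendByZero_of_mem H θ (by simpa using H.one_mem),
      h _ h1]
    congr 1
    ext; simp
  · intro h a ha
    have hc := isCharacter_restrict H (isCharacter_indFun H (IsIrr.isCharacter hθ))
    refine ker_of_inner_ne_zero hc hθ ?_ (h a ha)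
    rw [← frobenius_right H θ (indFun_isClassFunction H θ)]
    intro h0
    have h1 := classInner_self_eq_zero h0
    have h2 := congrFun h1 1
    rw [indFun_one] at h2
    rcases mul_eq_zero.1 h2 with h3 | h3
    · exact Subgroup.index_ne_zero_of_finite (by exact_mod_cast h3)
    · exact IsIrr.one_ne_zero hθ h3

end Cfsg.Agent.S1487
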