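import Cfsg.Statements.S1491
import Cfsg.Agent.H4.Pet1
import Cfsg.Agent.S0867

set_option autoImplicit false
open Cfsg

namespace Cfsg.Agent.S1491

open CfsgH4 CfsgH5

/-- Let H be a normal subgroup of the finite group G and θ an irreducible character of H with inertia group T, where T/H is abelian (commutators of T lie in H) and the index of H in T is coprime to the order of H. Then the function induced from θ is the sum of a set of exactly [T:H] irreducible characters of G, each of degree [G:T] * θ(1). -/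
theorem result {G : Type*} [Group G] [Fintype G] (H T : Subgroup G) [hN : H.Normal] (θ : H → ℂ) (hθ : Cfsg.IsIrrCharacter H θ) (hT : ∀ g : G, g ∈ T ↔ ∀ h : H, θ ⟨g * h * g⁻¹, hN.conj_mem h h.2 g⟩ = θ h) (hab : ∀ x ∈ T, ∀ y ∈ T, x * y * x⁻¹ * y⁻¹ ∈ H) (hcop : Nat.Coprime (Nat.card H) (H.relIndex T)) : ∃ C : Finset (G → ℂ), (∀ χ ∈ C, Cfsg.IsIrrCharacter G χ) ∧ C.card = H.relIndex T ∧ Cfsg.indFun H θ = ∑ χ ∈ C, χ ∧ ∀ χ ∈ C, χ 1 = (T.index : ℂ) * θ 1 := by
  classical
  haveI : Fintype H := Fintype.ofFinite _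
  have hTe : T = inertia H θ := by
    ext g
    rw [hT, mem_inertia]
    exact ⟨fun h => funext h, fun h n => congrFun h n⟩
  subst hTe
  obtain ⟨e, C, h1, h2, h3, h4, h5, h6⟩ := ab_main H hθ hab
  have hHT : H ≤ inertia H θ := le_inertia H (IsIrr.isClassFunction hθ)
  have he : e = 1 := by
    apply h6
    set T := inertia H θ with hT'
    set θ' : H.subgroupOf T → ℂ := fun x => θ ⟨(x : T), Subgroup.mem_subgroupOf.mp x.2⟩ with hθ'
    have hθi : IsIrrCharacter (H.subgroupOf T) θ' :=
      (isIrr_comp_equiv (Subgroup.subgroupOfEquivOfLe hHT)).2 hθ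
    have hcard : Nat.card (H.subgroupOf T) = Nat.card H :=
      Nat.card_congr (Subgroup.subgroupOfEquivOfLe hHT).toEquiv
    obtain ⟨d, hd⟩ := IsCharacter.one_nat (IsIrr.isCharacter hθi)
    have hdvd : d ∣ Nat.card H := by
      rw [← hcard]
      haveI : Fintype (H.subgroupOf T) := Fintype.ofFinite _
      exact degree_dvd_card hθi hd
    have hdet : Cfsg.detOrder θ' ∣ Nat.card H := by
      rw [← hcard]
      obtain ⟨f, hf⟩ := exists_det_hom (IsIrr.isCharacter hθi)
      have h7 : Cfsg.detChar θ' = fun g => (f g : ℂ) := funext hf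
      show orderOf (Cfsg.detChar θ') ∣ _
      rw [h7, orderOf_linear]
      exact orderOf_linear_dvd f
    obtain ⟨χ, ⟨hχ, hχe, -⟩, -⟩ := Cfsg.Agent.S0867.result (H.subgroupOf T) θ' hθi
      (fun g n => by
        have h1 : CfsgH4.conjFun H θ (g : G) = θ := (mem_inertia H θ (g : G)).1 g.2
        exact congrFun h1 ⟨(n : T), Subgroup.mem_subgroupOf.mp n.2⟩) d hd
      (by
        have h8 : Nat.Coprime (H.subgroupOf T).index (Nat.card H) := hcop.symm
        exact Nat.Coprime.mul_right (Nat.Coprime.coprime_dvd_right hdet h8)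
          (Nat.Coprime.coprime_dvd_right hdvd h8))
    exact ⟨χ, hχ, hχe⟩
  subst he
  refine ⟨C, h2, ?_, ?_, ?_⟩
  · have h7 := Subgroup.card_mul_index (H.subgroupOf (inertia H θ))
    rw [Nat.card_congr (Subgroup.subgroupOfEquivOfLe hHT).toEquiv, ← h3, one_pow, one_mul,
      mul_comm] at h7
    exact (Nat.eq_of_mul_eq_mul_right Nat.card_pos h7).symm
  · rw [h4, Nat.cast_one, one_smul]
  · intro χ hχ
    rw [h5 χ hχ]; simp

end Cfsg.Agent.S1491
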