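import Cfsg.Statements.S1492
import Cfsg.Agent.H4.Pet1

set_option autoImplicit false
open Cfsg

namespace Cfsg.Agent.S1492

open CfsgH4 CfsgH5

/-- Let ψ be an irreducible character of the finite group G and B ≤ D ≤ C subgroups with B normal in C, every commutator of an element of D with an element of C lying in B (so D/B is central in C/B), and ψ constant equal to ψ 1 on B. Then ψ(1) ^ 2 * |C| * |D| ≤ |G| ^ 2. -/
theorem result {G : Type*} [Group G] [Finite G] (ψ : G → ℂ) (hψ : Cfsg.IsIrrCharacter G ψ) (B C D : Subgroup G) (hBD : B ≤ D) (hDC : D ≤ C) (hBn : ∀ c ∈ C, ∀ b ∈ B, c * b * c⁻¹ ∈ B) (hcent : ∀ d ∈ D, ∀ c ∈ C, d * c * d⁻¹ * c⁻¹ ∈ B) (hker : ∀ b ∈ B, ψ b = ψ 1) : ‖ψ 1‖ ^ 2 * (Nat.card C : ℝ) * (Nat.card D : ℝ) ≤ (Nat.card G : ℝ) ^ 2 := by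
  classical
  haveI := Fintype.ofFinite G
  haveI : Fintype C := Fintype.ofFinite _
  have hψc := IsIrr.isCharacter hψ
  obtain ⟨φ, hφ, hne⟩ := exists_constituent_restrict C hψ
  have hBφ : ∀ b : C, (b : G) ∈ B → φ b = φ 1 := by
    intro b hb
    exact ker_of_inner_ne_zero (isCharacter_restrict C hψc) hφ hne (hker b hb)
  have hφc := IsIrr.isCharacter hφ
  obtain ⟨m, ρ, hρ, hρφ'⟩ := hφ
  have hφ' : IsIrrCharacter C φ := ⟨m, ρ, hρ, hρφ'⟩
  have hρφ : φ = ρ.character := hρφ'.symm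
  obtain ⟨dφ, hdφ⟩ := IsCharacter.one_nat hφc
  -- elements of `D` act as scalars
  have hnorm : ∀ d : C, (d : G) ∈ D → ‖φ d‖ = dφ := by
    intro d hd
    obtain ⟨ω, hω⟩ := schur_scalar ρ hρ (ρ d) (fun x => by
      have h1 : d * x * d⁻¹ * x⁻¹ ∈ (charKerSub hφc : Subgroup C) := by
        rw [mem_charKerSub]
        exact hBφ _ (hcent d hd x x.2)
      rw [mem_charKerSub, hρφ] at h1
      have h2 := (rep_eq_id_iff ρ _).1 h1
      have h3 : d * x = (d * x * d⁻¹ * x⁻¹) * (x * d) := by group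
      rw [← map_mul, h3, map_mul, h2, ← map_mul]
      rfl)
    have h4 : φ d = ω * φ 1 := by
      rw [hρφ]
      simp only [Representation.character]
      rw [hω, map_one, map_smul, smul_eq_mul]
      rfl
    have h5 : φ 1 ≠ 0 := IsIrr.one_ne_zero hφ'
    have h6 : ω ^ orderOf d = 1 := by
      have h7 : ρ (d ^ orderOf d) = ω ^ orderOf d • LinearMap.id := by
        rw [map_pow, hω, smul_pow]
        congr 1
        exact one_pow _
      rw [pow_orderOf_eq_one, map_one] at h7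
      have h8 : φ 1 = ω ^ orderOf d * φ 1 := by
        have h9 := congrArg (LinearMap.trace ℂ (Fin m → ℂ)) h7
        rw [map_smul, smul_eq_mul] at h9
        have h10 : φ 1 = LinearMap.trace ℂ (Fin m → ℂ) (1 : (Fin m → ℂ) →ₗ[ℂ] (Fin m → ℂ)) := by
          rw [hρφ]; simp only [Representation.character, map_one]
        rw [h10]; exact h9
      have h11 : (ω ^ orderOf d - 1) * φ 1 = 0 := by rw [sub_mul, one_mul, ← h8, sub_self]
      exact sub_eq_zero.1 ((mul_eq_zero.1 h11).resolve_right h5)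
    rw [h4, norm_mul, norm_of_pow_orderOf h6, one_mul, hdφ]
    simp
  have h1 : (Nat.card D : ℝ) * (dφ : ℝ) ^ 2 ≤ Nat.card C := by
    have h2 := classInner_self_eq φ
    rw [classInner_irr_self hφ'] at h2
    have h3 : (1 : ℝ) = (Nat.card C : ℝ)⁻¹ * ∑ g : C, ‖φ g‖ ^ 2 := by exact_mod_cast h2
    have hC0 : (Nat.card C : ℝ) ≠ 0 := by exact_mod_cast Nat.card_pos.ne'
    have h4 : ∑ g : C, ‖φ g‖ ^ 2 = (Nat.card C : ℝ) := by
      field_simp at h3
      exact h3.symm
    rw [← h4]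
    haveI : Fintype D := Fintype.ofFinite _
    have h5 : ∑ d : D, ‖φ ⟨d, hDC d.2⟩‖ ^ 2 ≤ ∑ g : C, ‖φ g‖ ^ 2 := by
      have hinj : Function.Injective (fun d : D => (⟨d, hDC d.2⟩ : C)) := fun a b h =>
        Subtype.ext (congrArg (fun x : C => (x : G)) h)
      rw [← Finset.sum_image (f := fun g : C => ‖φ g‖ ^ 2) (s := Finset.univ)
        (g := fun d : D => (⟨d, hDC d.2⟩ : C)) (fun a _ b _ h => hinj h)]
      exact Finset.sum_le_sum_of_subset_of_nonneg (Finset.subset_univ _) (fun _ _ _ => by positivity)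
    refine le_trans (le_of_eq ?_) h5
    rw [Finset.sum_congr rfl (fun d _ => by rw [hnorm ⟨d, hDC d.2⟩ d.2]), Finset.sum_const,
      nsmul_eq_mul, Finset.card_univ, Nat.card_eq_fintype_card]
  -- the degree bound
  obtain ⟨n, hn⟩ := IsCharacter.one_nat hψc
  have h2 : (n : ℝ) ≤ C.index * dφ := by
    have h3 : classInner (indFun C φ) ψ ≠ 0 := by
      rw [CfsgH4.frobenius C _ (IsIrr.isClassFunction hψ), ← classInner_conj_symm]
      exact (map_ne_zero _).2 hne
    obtain ⟨χ', hχ', he⟩ := IsCharacter.sub_irr (isCharacter_indFun C hφc) hψ h3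
    have h4 := congrFun he 1
    rw [indFun_one, Pi.add_apply, hn, hdφ] at h4
    have h5 := IsCharacter.one_nonneg hχ'
    have h6 := congrArg Complex.re h4
    simp at h6
    linarith
  have hcard : (Nat.card C : ℝ) * C.index = Nat.card G := by exact_mod_cast Subgroup.card_mul_index C
  rw [hn]
  have h7 : ‖(n : ℂ)‖ = (n : ℝ) := by simp
  rw [h7]
  calc (n : ℝ) ^ 2 * (Nat.card C : ℝ) * (Nat.card D : ℝ)
      ≤ ((C.index : ℝ) * dφ) ^ 2 * (Nat.card C : ℝ) * (Nat.card D : ℝ) := by gcongr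
    _ = (C.index : ℝ) ^ 2 * (Nat.card C : ℝ) * ((Nat.card D : ℝ) * (dφ : ℝ) ^ 2) := by ring
    _ ≤ (C.index : ℝ) ^ 2 * (Nat.card C : ℝ) * Nat.card C := by gcongr
    _ = (Nat.card G : ℝ) ^ 2 := by rw [← hcard]; ring

end Cfsg.Agent.S1492
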