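import Cfsg.Statements.S1493
import Cfsg.Agent.H4.Galois

set_option autoImplicit false
open Cfsg

namespace Cfsg.Agent.S1493

open CfsgH4

/-- Let G be a finite group of order a * b with a and b coprime, let k be coprime to a, and let χ be a character of G. Then there is a character χ' of G such that χ'(g) = χ(g ^ k) whenever the order of g divides a and χ'(g) = χ(g) whenever the order of g is coprime to a; moreover χ' is irreducible if χ is. -/
theorem result {G : Type*} [Group G] [Finite G] (a b k : ℕ) (hab : Nat.card G = a * b) (hcop : Nat.Coprime a b) (hk : Nat.Coprime k a) (χ : G → ℂ) (hχ : Cfsg.IsCharacter G χ) : ∃ χ' : G → ℂ, Cfsg.IsCharacter G χ' ∧ (Cfsg.IsIrrCharacter G χ → Cfsg.IsIrrCharacter G χ') ∧ (∀ g : G, orderOf g ∣ a → χ' g = χ (g ^ k)) ∧ (∀ g : G, Nat.Coprime (orderOf g) a → χ' g = χ g) := by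
  classical
  haveI := Fintype.ofFinite G
  obtain ⟨k', hk1, hk2⟩ := Nat.chineseRemainder hcop k 1
  have hcop' : k'.Coprime (Nat.card G) := by
    rw [hab]
    refine Nat.Coprime.mul_right ?_ ?_
    · have := Nat.ModEq.gcd_eq hk1
      rw [Nat.Coprime, this]; exact hk
    · have := Nat.ModEq.gcd_eq hk2
      rw [Nat.Coprime, this]; simp
  refine ⟨fun g => χ (g ^ k'), isCharacter_pow_arg hcop' hχ,
    fun h => isIrrCharacter_pow_arg hcop' h, fun g hg => ?_, fun g hg => ?_⟩
  · show χ (g ^ k') = χ (g ^ k)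
    congr 1
    exact pow_eq_pow_iff_modEq.2 (hk1.of_dvd hg)
  · show χ (g ^ k') = χ g
    congr 1
    have h1 : orderOf g ∣ b := by
      have h2 : orderOf g ∣ a * b := hab ▸ orderOf_dvd_natCard g
      exact (Nat.Coprime.dvd_mul_left hg).1 h2
    conv_rhs => rw [← pow_one g]
    exact pow_eq_pow_iff_modEq.2 (hk2.of_dvd h1)

end Cfsg.Agent.S1493
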