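import Cfsg.Statements.S1494
import Cfsg.Agent.H4.Main

set_option autoImplicit false
open Cfsg

namespace Cfsg.Agent.S1494

open CfsgH4

/-- Let χ be a generalized character of the finite group G, p a prime, x an element of order p and y an element commuting with x. Then χ(x * y) − χ(y) = (1 − ε) * ω for some algebraic integer ω, where ε = exp(2πi/p). -/
theorem result {G : Type*} [Group G] [Finite G] (χ : G → ℂ) (hχ : Cfsg.IsGeneralizedCharacter G χ) (p : ℕ) (hp : p.Prime) (x y : G) (hx : orderOf x = p) (hxy : x * y = y * x) : ∃ ω : ℂ, IsIntegral ℤ ω ∧ χ (x * y) - χ y = (1 - Complex.exp (2 * Real.pi * Complex.I / p)) * ω := by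
  classical
  have hp0 : (p : ℂ) ≠ 0 := by exact_mod_cast hp.ne_zero
  set ε := Complex.exp (2 * Real.pi * Complex.I / p) with hε
  have h1 : ε ^ p = 1 := by
    rw [hε, ← Complex.exp_nat_mul, mul_div_cancel₀ _ hp0, Complex.exp_two_pi_mul_I]
  have hεi : IsIntegral ℤ ε := isIntegral_of_pow_orderOf hp.pos h1
  have hprim : IsPrimitiveRoot ε p := Complex.isPrimitiveRoot_exp p hp.ne_zero
  haveI : NeZero p := ⟨hp.ne_zero⟩
  suffices H : ∀ φ : G → ℂ, IsCharacter G φ → ∃ ω : ℂ, IsIntegral ℤ ω ∧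
      φ (x * y) - φ y = (1 - ε) * ω by
    obtain ⟨φ, ψ, hφ, hψ, rfl⟩ := hχ
    obtain ⟨a, ha, hae⟩ := H φ hφ
    obtain ⟨b, hb, hbe⟩ := H ψ hψ
    refine ⟨a - b, ha.sub hb, ?_⟩
    simp only [Pi.sub_apply]
    linear_combination hae - hbe
  intro φ hφ
  set A := Subgroup.closure ({x, y} : Set G) with hA
  have hcomm : ∀ a b : A, a * b = b * a := by
    have : ∀ a ∈ ({x, y} : Set G), ∀ b ∈ ({x, y} : Set G), a * b = b * a := by
      rintro a (rfl | rfl) b (rfl | rfl)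
      · rfl
      · exact hxy
      · exact hxy.symm
      · rfl
    letI := Subgroup.closureCommGroupOfComm this
    intro a b
    exact (mul_comm a b)
  have hxA : x ∈ A := Subgroup.subset_closure (by simp)
  have hyA : y ∈ A := Subgroup.subset_closure (by simp)
  obtain ⟨s, hs⟩ := IsCharacter.decomp (isCharacter_restrict A hφ)
  have h2 : φ (x * y) = (s.map (fun χ : IrrCharacter A => (χ : A → ℂ))).sum (⟨x, hxA⟩ * ⟨y, hyA⟩) := by
    rw [← hs]; rfl
  have h3 : φ y = (s.map (fun χ : IrrCharacter A => (χ : A → ℂ))).sum ⟨y, hyA⟩ := by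
    rw [← hs]
  rw [h2, h3]
  clear hs h2 h3
  induction s using Multiset.induction_on with
  | empty => exact ⟨0, isIntegral_zero, by simp⟩
  | cons χ s ih =>
    obtain ⟨ω, hω, hωe⟩ := ih
    obtain ⟨f, hf⟩ := IsIrr.linear_of_comm hcomm χ.2
    have h4 : ((f ⟨x, hxA⟩ : ℂˣ) : ℂ) ^ p = 1 := by
      have h5 : (⟨x, hxA⟩ : A) ^ p = 1 := by
        ext
        simp only [Subgroup.coe_pow, Subgroup.coe_one]
        rw [← hx, pow_orderOf_eq_one]
      rw [← Units.val_pow_eq_pow_val, ← map_pow, h5, map_one, Units.val_one]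
    obtain ⟨i, -, hi⟩ := hprim.eq_pow_of_pow_eq_one h4
    have h6 : ∃ r : ℂ, IsIntegral ℤ r ∧ ε ^ i - 1 = (1 - ε) * r := by
      refine ⟨-∑ j ∈ Finset.range i, ε ^ j, (IsIntegral.sum _ fun j _ => hεi.pow j).neg, ?_⟩
      have := mul_geom_sum ε i
      linear_combination -this
    obtain ⟨r, hr, hre⟩ := h6
    have hfy : IsIntegral ℤ ((f ⟨y, hyA⟩ : ℂˣ) : ℂ) := by
      have h7 := IsCharacter.isIntegral (IsIrr.isCharacter χ.2) ⟨y, hyA⟩
      rw [hf] at h7; exact h7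
    refine ⟨((f ⟨y, hyA⟩ : ℂˣ) : ℂ) * r + ω, (hfy.mul hr).add hω, ?_⟩
    rw [Multiset.map_cons, Multiset.sum_cons, Pi.add_apply, Pi.add_apply]
    have h8 : (χ : A → ℂ) (⟨x, hxA⟩ * ⟨y, hyA⟩) - (χ : A → ℂ) ⟨y, hyA⟩ =
        ((f ⟨y, hyA⟩ : ℂˣ) : ℂ) * ((1 - ε) * r) := by
      rw [hf]
      show ((f (⟨x, hxA⟩ * ⟨y, hyA⟩) : ℂˣ) : ℂ) - ((f ⟨y, hyA⟩ : ℂˣ) : ℂ) = _
      rw [map_mul, Units.val_mul, ← hi, ← hre]; ring
    linear_combination h8 + hωe

end Cfsg.Agent.S1494
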