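import Cfsg.Statements.S1495
import Cfsg.Agent.H4.Tools

set_option autoImplicit false
open Cfsg

namespace Cfsg.Agent.S1495

open CfsgH4

/-- Let p be a prime, ε = exp(2πi/p), and n an integer such that n = (1 − ε) * ω for some algebraic integer ω. Then p divides n. -/
theorem result (p : ℕ) (hp : p.Prime) (n : ℤ) (ω : ℂ) (hω : IsIntegral ℤ ω) (h : (n : ℂ) = (1 - Complex.exp (2 * Real.pi * Complex.I / p)) * ω) : (p : ℤ) ∣ n := by
  have hp0 : (p : ℂ) ≠ 0 := by exact_mod_cast hp.ne_zero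
  set ε := Complex.exp (2 * Real.pi * Complex.I / p) with hε
  have h1 : ε ^ p = 1 := by
    rw [hε, ← Complex.exp_nat_mul, mul_div_cancel₀ _ hp0, Complex.exp_two_pi_mul_I]
  have hεi : IsIntegral ℤ ε := isIntegral_of_pow_orderOf hp.pos h1
  haveI := Fact.mk hp
  obtain ⟨r, hr⟩ : ∃ r : ℂ, IsIntegral ℤ r ∧ (1 - ε) ^ p = p * r := by
    obtain ⟨r, hr⟩ := exists_add_pow_prime_eq hp (1 : Cfsg.AlgInt) (⟨-ε, hεi.neg⟩ : Cfsg.AlgInt)
    have h2 : (1 + -ε) ^ p = 1 ^ p + (-ε) ^ p + p * (1 * -ε * (r : ℂ)) := by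
      have := congrArg (fun x : Cfsg.AlgInt => (x : ℂ)) hr
      simpa [mul_assoc] using this
    rw [one_pow] at h2
    rcases hp.eq_two_or_odd' with h3 | h3
    · subst h3
      refine ⟨1 + (-ε * r), ?_, ?_⟩
      · exact IsIntegral.add isIntegral_one (hεi.neg.mul r.2)
      · rw [sub_eq_add_neg, h2, neg_sq, h1]; push_cast; ring
    · refine ⟨-ε * r, hεi.neg.mul r.2, ?_⟩
      rw [sub_eq_add_neg, h2, Odd.neg_pow h3, h1]; ring
  obtain ⟨hri, hre⟩ := hr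
  have h3 : ((n ^ p : ℤ) : ℂ) = p * (r * ω ^ p) := by
    push_cast; rw [h, mul_pow, hre]; ring
  have h4 : IsIntegral ℤ (r * ω ^ p) := hri.mul (hω.pow p)
  have h5 : r * ω ^ p = ((((n ^ p : ℤ) : ℚ) / p : ℚ) : ℂ) := by
    push_cast at h3 ⊢
    rw [h3]; field_simp
  obtain ⟨m, hm⟩ := int_of_isIntegral_rat h4 h5
  have h6 : (p : ℤ) ∣ n ^ p := ⟨m, by
    rw [hm] at h3
    exact_mod_cast h3⟩
  exact Int.Prime.dvd_pow' hp h6

end Cfsg.Agent.S1495
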