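import Cfsg.Statements.S1497
import Cfsg.Agent.H4.Dade2

set_option autoImplicit false
open Cfsg

namespace Cfsg.Agent.S1497

open CfsgH4

/-- Let A be a nonempty subset of the finite group G not containing 1 and L a subgroup. Then A is a TI-subset whose normaliser is L if and only if the Dade hypothesis holds for A, L and the constant choice H(a) = ⊥. -/
theorem result {G : Type*} [Group G] [Finite G] (A : Set G) (hA : A.Nonempty) (h1 : (1 : G) ∉ A) (L : Subgroup G) : (Cfsg.IsTISubset A ∧ Subgroup.normalizer A = L) ↔ Cfsg.DadeHypothesis A L (fun _ => ⊥) := by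
  constructor
  · rintro ⟨hTI, hN⟩
    have hmemL : ∀ g : G, ∀ a ∈ A, g * a * g⁻¹ ∈ A → g ∈ L := by
      intro g a ha hg
      by_contra hgL
      rw [← hN] at hgL
      have := hTI g hgL a ha hg
      exact h1 (this ▸ ha)
    refine ⟨h1, fun a ha => hmemL a a ha (by simpa using ha), fun x hx a ha => ?_, fun a ha g hg =>
      ⟨g, hmemL g a ha hg, rfl⟩, fun a _ => bot_le, fun a _ c _ u hu => ?_, fun a _ => bot_inf_eq _,
      fun a ha => ?_, fun a _ b _ => ?_⟩
    · rw [← hN] at hx
      exact (Subgroup.mem_set_normalizer_iff.1 hx a).1 ha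
    · rw [Subgroup.mem_bot] at hu ⊢
      rw [hu]; group
    · rw [bot_sup_eq]
      refine inf_eq_right.2 fun c hc => ?_
      have h2 := Subgroup.mem_centralizer_singleton_iff.1 hc
      exact hmemL c a ha (by rw [h2]; simpa using ha)
    · rw [Subgroup.card_bot]; exact Nat.coprime_one_left _
  · intro hD
    have hmemL : ∀ g : G, ∀ a ∈ A, g * a * g⁻¹ ∈ A → g ∈ L := by
      intro g a ha hg
      obtain ⟨x, hx, hxe⟩ := hD.fusion a ha g hg
      have h2 : x⁻¹ * g ∈ Subgroup.centralizer ({a} : Set G) := by
        rw [Subgroup.mem_centralizer_singleton_iff]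
        have h3 : g * a = x * a * x⁻¹ * g := by rw [hxe]; group
        calc x⁻¹ * g * a = x⁻¹ * (g * a) := by group
          _ = a * (x⁻¹ * g) := by rw [h3]; group
      rw [← hD.sup_eq a ha, bot_sup_eq] at h2
      have h3 := L.mul_mem hx h2.1
      simpa using h3
    have hN : Subgroup.normalizer A = L := by
      obtain ⟨a, ha⟩ := hA
      apply le_antisymm
      · intro g hg
        exact hmemL g a ha ((Subgroup.mem_set_normalizer_iff.1 hg a).1 ha)
      · intro x hx
        rw [Subgroup.mem_set_normalizer_iff]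
        intro b
        refine ⟨fun hb => hD.conj_mem x hx b hb, fun hb => ?_⟩
        have := hD.conj_mem x⁻¹ (L.inv_mem hx) _ hb
        have e : x⁻¹ * (x * b * x⁻¹) * x⁻¹⁻¹ = b := by group
        rwa [e] at this
    refine ⟨fun g hg a ha hga => ?_, hN⟩
    rw [hN] at hg
    exact absurd (hmemL g a ha hga) hg

end Cfsg.Agent.S1497
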