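import Cfsg.Statements.S1499
import Cfsg.Agent.H4.Dade2

set_option autoImplicit false
open Cfsg

namespace Cfsg.Agent.S1499

open CfsgH4

/-- Under the Dade hypothesis for (A, L, H), let a, b ∈ A. If an element of the coset a·H(a) is conjugate in G to an element of b·H(b), then a and b are conjugate by an element of L. Moreover the set normaliser of the coset a·H(a) is the centraliser of a. -/
theorem result {G : Type*} [Group G] [Finite G] (A : Set G) (L : Subgroup G) (H : G → Subgroup G) (hD : Cfsg.DadeHypothesis A L H) (a b : G) (ha : a ∈ A) (hb : b ∈ A) : ((∃ u ∈ H a, ∃ v ∈ H b, ∃ g : G, g * (a * u) * g⁻¹ = b * v) → ∃ x ∈ L, x * a * x⁻¹ = b) ∧ Subgroup.normalizer ((fun u : G => a * u) '' (H a : Set G)) = Subgroup.centralizer ({a} : Set G) := by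
  refine ⟨?_, ?_⟩
  · rintro ⟨u, hu, v, hv, g, hg⟩
    have h1 := dade_conj hD ha hb hu hv hg
    obtain ⟨x, hx, hxe⟩ := hD.fusion a ha g (by rw [h1]; exact hb)
    exact ⟨x, hx, hxe.trans h1⟩
  · ext g
    rw [Subgroup.mem_set_normalizer_iff]
    constructor
    · intro h
      have h1 : g * (a * 1) * g⁻¹ ∈ (fun u : G => a * u) '' (H a : Set G) :=
        (h (a * 1)).1 ⟨1, (H a).one_mem, rfl⟩
      obtain ⟨v, hv, hve⟩ := h1
      have h2 := dade_conj hD ha ha (H a).one_mem hv hve.symm
      rw [Subgroup.mem_centralizer_singleton_iff]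
      exact mul_inv_eq_iff_eq_mul.1 h2
    · intro hg z
      have key : ∀ c ∈ Subgroup.centralizer ({a} : Set G), ∀ z ∈ (fun u : G => a * u) '' (H a : Set G),
          c * z * c⁻¹ ∈ (fun u : G => a * u) '' (H a : Set G) := by
        rintro c hc _ ⟨u, hu, rfl⟩
        refine ⟨c * u * c⁻¹, hD.conj_mem_H a ha c hc u hu, ?_⟩
        have h3 := Subgroup.mem_centralizer_singleton_iff.1 hc
        show a * (c * u * c⁻¹) = c * (a * u) * c⁻¹
        calc a * (c * u * c⁻¹) = (a * c) * u * c⁻¹ := by group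
          _ = (c * a) * u * c⁻¹ := by rw [h3]
          _ = c * (a * u) * c⁻¹ := by group
      refine ⟨key g hg z, fun h => ?_⟩
      have := key g⁻¹ (Subgroup.inv_mem _ hg) _ h
      have e : g⁻¹ * (g * z * g⁻¹) * g⁻¹⁻¹ = z := by group
      rwa [e] at this

end Cfsg.Agent.S1499
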