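import Cfsg.Statements.S1504
import Cfsg.Agent.H4.Cyc3

set_option autoImplicit false
open Cfsg

namespace Cfsg.Agent.S1504

open CfsgH4 ComplexConjugate

/-- Let W₁, W₂ be subgroups of a finite group with W₁ ⊓ W₂ = ⊥ whose elements commute, and W = W₁ ⊔ W₂. For linear characters φ, ψ of W with φ trivial on W₂ and ψ trivial on W₁, the function (1 − φ)(1 − ψ) vanishes on W₁ ∪ W₂; and the family of these functions, indexed by pairs (φ, ψ) with φ ≠ 1 ≠ ψ, is linearly independent over ℂ. -/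
theorem result {G : Type*} [Group G] [Finite G] (W₁ W₂ : Subgroup G) (hdisj : W₁ ⊓ W₂ = ⊥) (hcomm : ∀ a ∈ W₁, ∀ b ∈ W₂, a * b = b * a) : (∀ φ ψ : ↥(W₁ ⊔ W₂) →* ℂˣ, (∀ w : ↥(W₁ ⊔ W₂), (w : G) ∈ W₂ → φ w = 1) → (∀ w : ↥(W₁ ⊔ W₂), (w : G) ∈ W₁ → ψ w = 1) → ∀ w : ↥(W₁ ⊔ W₂), ((w : G) ∈ W₁ ∨ (w : G) ∈ W₂) → (1 - (φ w : ℂ) - (ψ w : ℂ) + (φ w : ℂ) * (ψ w : ℂ)) = 0) ∧ LinearIndependent ℂ (fun p : {p : (↥(W₁ ⊔ W₂) →* ℂˣ) × (↥(W₁ ⊔ W₂) →* ℂˣ) // p.1 ≠ 1 ∧ p.2 ≠ 1 ∧ (∀ w : ↥(W₁ ⊔ W₂), (w : G) ∈ W₂ → p.1 w = 1) ∧ (∀ w : ↥(W₁ ⊔ W₂), (w : G) ∈ W₁ → p.2 w = 1)} => fun w : ↥(W₁ ⊔ W₂) => 1 - (p.1.1 w : ℂ) - (p.1.2 w : ℂ) + (p.1.1 w : ℂ) * (p.1.2 w : ℂ)) := by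
  classical
  haveI : Fintype ↥(W₁ ⊔ W₂) := Fintype.ofFinite _
  refine ⟨fun φ ψ hφ hψ w hw => alf_zero (W₁ := W₁) (W₂ := W₂) hφ hψ hw, ?_⟩
  rw [linearIndependent_iff']
  intro s g hg p hp
  have h1 : Cfsg.classInner (∑ i ∈ s, g i • alf i.1.1 i.1.2) (lch (p.1.1 * p.1.2)) = 0 := by
    have h2 : (∑ i ∈ s, g i • alf i.1.1 i.1.2 : ↥(W₁ ⊔ W₂) → ℂ) = 0 := hg
    rw [h2, classInner_zero_left]
  rw [classInner_sum_left] at h1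
  rw [Finset.sum_eq_single p] at h1
  · rw [classInner_smul_left, alf_inner hcomm p.2.2.2.1 p.2.2.2.2 p.2.2.2.1 p.2.2.2.2,
      if_neg p.2.1, if_neg p.2.2.1, if_pos rfl, if_pos rfl] at h1
    simpa using h1
  · intro q _ hqp
    rw [classInner_smul_left, alf_inner hcomm q.2.2.2.1 q.2.2.2.2 p.2.2.2.1 p.2.2.2.2,
      if_neg p.2.1, if_neg p.2.2.1]
    by_cases e1 : p.1.1 = q.1.1
    · by_cases e2 : p.1.2 = q.1.2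
      · exact absurd (Subtype.ext (Prod.ext e1 e2)).symm hqp
      · rw [if_neg e2]; ring
    · rw [if_neg e1]; ring
  · intro h; exact absurd hp h

end Cfsg.Agent.S1504
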