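import Cfsg.Statements.S1505
import Cfsg.Agent.H4.Cyc3

set_option autoImplicit false
open Cfsg

namespace Cfsg.Agent.S1505

open CfsgH4 ComplexConjugate

open Classical in
/-- Let W₁, W₂ ≤ G form a self-normalising cyclic subgroup W = W₁ ⊔ W₂. For nontrivial linear characters φ, φ' of W trivial on W₂ and ψ, ψ' trivial on W₁, put α = (1 − φ)(1 − ψ) and α' = (1 − φ')(1 − ψ'). Then the function induced from α to G has inner product 1 with the principal character, and the inner product of the functions induced from α and α' is 1 + a + b + ab where a = 1 if φ = φ' (else 0) and b = 1 if ψ = ψ' (else 0). -/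
theorem result {G : Type*} [Group G] [Fintype G] (W₁ W₂ : Subgroup G) (hW : Cfsg.IsSelfNormalizingCyclic W₁ W₂) (φ φ' ψ ψ' : ↥(W₁ ⊔ W₂) →* ℂˣ) (hφ : φ ≠ 1) (hφ' : φ' ≠ 1) (hψ : ψ ≠ 1) (hψ' : ψ' ≠ 1) (hφ₂ : ∀ w : ↥(W₁ ⊔ W₂), (w : G) ∈ W₂ → φ w = 1 ∧ φ' w = 1) (hψ₁ : ∀ w : ↥(W₁ ⊔ W₂), (w : G) ∈ W₁ → ψ w = 1 ∧ ψ' w = 1) : Cfsg.classInner (Cfsg.indFun (W₁ ⊔ W₂) (fun w => 1 - (φ w : ℂ) - (ψ w : ℂ) + (φ w : ℂ) * (ψ w : ℂ))) (fun _ => 1) = 1 ∧ Cfsg.classInner (Cfsg.indFun (W₁ ⊔ W₂) (fun w => 1 - (φ w : ℂ) - (ψ w : ℂ) + (φ w : ℂ) * (ψ w : ℂ))) (Cfsg.indFun (W₁ ⊔ W₂) (fun w => 1 - (φ' w : ℂ) - (ψ' w : ℂ) + (φ' w : ℂ) * (ψ' w : ℂ))) = 1 + (if φ = φ' then 1 else 0) + (if ψ = ψ' then 1 else 0) + (if φ = φ' then 1 else 0) * (if ψ = ψ' then 1 else 0) := by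
  classical
  haveI : Fintype ↥(W₁ ⊔ W₂) := Fintype.ofFinite _
  have a1 : Tr2 W₁ W₂ φ := fun w hw => (hφ₂ w hw).1
  have a2 : Tr2 W₁ W₂ φ' := fun w hw => (hφ₂ w hw).2
  have b1 : Tr1 W₁ W₂ ψ := fun w hw => (hψ₁ w hw).1
  have b2 : Tr1 W₁ W₂ ψ' := fun w hw => (hψ₁ w hw).2
  constructor
  · show Cfsg.classInner (Cfsg.indFun (W₁ ⊔ W₂) (alf φ ψ)) _ = 1
    rw [CfsgH4.frobenius _ _ isClassFunction_one]
    have h1 := alf_inner hW.2.2.2.1 a1 b1 (Tr2.one (W₁ := W₁) (W₂ := W₂)) (Tr1.one (W₁ := W₁) (W₂ := W₂))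
    rw [mul_one (1 : ↥(W₁ ⊔ W₂) →* ℂˣ), if_pos rfl, if_neg hφ.symm, if_neg hψ.symm] at h1
    have h2 : (lch (1 : ↥(W₁ ⊔ W₂) →* ℂˣ)) = fun _ => 1 := by ext w; simp [lch]
    rw [h2] at h1
    rw [h1]; ring
  · show Cfsg.classInner (Cfsg.indFun (W₁ ⊔ W₂) (alf φ ψ)) (Cfsg.indFun (W₁ ⊔ W₂) (alf φ' ψ')) = _
    rw [classInner_indFun_TI ((↑(W₁ ⊔ W₂) : Set G) \ (↑W₁ ∪ ↑W₂)) (W₁ ⊔ W₂) (tiW' hW) (alf φ ψ) (alf φ' ψ')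
      ?_ (alf_supp a1 b1) (alf_supp a2 b2) ?_]
    · rw [alf_alf hW.2.2.2.1 a1 b1 a2 b2 hφ hφ' hψ hψ']
      congr
    · intro x y
      congr 1
      rw [IsSNC.hab hW y x]; group
    · simp [alf]

end Cfsg.Agent.S1505
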