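import Cfsg.Statements.S1507
import Cfsg.Agent.H4.Cyc3

set_option autoImplicit false
open Cfsg

namespace Cfsg.Agent.S1507

open CfsgH4 ComplexConjugate

open Classical in
/-- Let W₁, W₂ ≤ G form a self-normalising cyclic subgroup W = W₁ ⊔ W₂ of odd order with Nat.card W₁ < Nat.card W₂, and χ an orthonormal family of irreducible characters of G up to sign, indexed by the linear characters ω of W, with χ_1 = 1, χ_ω = ω on W outside W₁ ∪ W₂, and the induction identity for (1 − φ)(1 − ψ). Let θ be a class function of G vanishing on W outside W₁ ∪ W₂, and suppose fewer than 2 · Nat.card W₁ linear characters ω of W have ⟨θ, χ ω⟩ ≠ 0. Then one of: all ⟨θ, χ ω⟩ vanish; or there are ψ₀ and a with ⟨θ, χ ω⟩ = a when ω ψ₀⁻¹ is trivial on W₂ and 0 otherwise; or there are φ₀ and a with ⟨θ, χ ω⟩ = a when ω φ₀⁻¹ is trivial on W₁ and 0 otherwise. -/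
theorem result {G : Type*} [Group G] [Fintype G] (W₁ W₂ : Subgroup G) (hW : Cfsg.IsSelfNormalizingCyclic W₁ W₂) (hodd : Odd (Nat.card ↥(W₁ ⊔ W₂))) (χ : (↥(W₁ ⊔ W₂) →* ℂˣ) → (G → ℂ)) (hχ : Cfsg.IsCyclicTIFamily W₁ W₂ χ) (hlt : Nat.card W₁ < Nat.card W₂) (θ : G → ℂ) (hθ : Cfsg.IsClassFunction G θ) (hθV : ∀ w : ↥(W₁ ⊔ W₂), (w : G) ∉ W₁ → (w : G) ∉ W₂ → θ w = 0) (hfew : Nat.card {ω : ↥(W₁ ⊔ W₂) →* ℂˣ // Cfsg.classInner θ (χ ω) ≠ 0} < 2 * Nat.card W₁) : (∀ ω, Cfsg.classInner θ (χ ω) = 0) ∨ (∃ (ψ₀ : ↥(W₁ ⊔ W₂) →* ℂˣ) (a : ℂ), ∀ ω, Cfsg.classInner θ (χ ω) = if (∀ w : ↥(W₁ ⊔ W₂), (w : G) ∈ W₂ → (ω * ψ₀⁻¹) w = 1) then a else 0) ∨ (∃ (φ₀ : ↥(W₁ ⊔ W₂) →* ℂˣ) (a : ℂ), ∀ ω, Cfsg.classInner θ (χ ω) = if (∀ w : ↥(W₁ ⊔ W₂), (w : G) ∈ W₁ → (ω * φ₀⁻¹) w = 1) then a else 0) := by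
  classical
  have hcomm := hW.2.2.2.1
  have hdisj := hW.2.2.1
  have hab := IsSNC.hab hW
  haveI := finite_hom_units ↥(W₁ ⊔ W₂)
  obtain ⟨c1, c2⟩ := card_Tr hcomm hdisj hab
  haveI : Fintype {φ : ↥(W₁ ⊔ W₂) →* ℂˣ // Tr2 W₁ W₂ φ} := Fintype.ofFinite _
  haveI : Fintype {ψ : ↥(W₁ ⊔ W₂) →* ℂˣ // Tr1 W₁ W₂ ψ} := Fintype.ofFinite _
  rw [Nat.card_eq_fintype_card] at c1 c2
  have t1 : 3 ≤ Nat.card W₁ := three_le_of_odd hW.1 (odd_of_le le_sup_left hodd)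
  have o1 : Odd (Nat.card W₁) := odd_of_le le_sup_left hodd
  have o2 : Odd (Nat.card W₂) := odd_of_le le_sup_right hodd
  have t2 : Nat.card W₁ + 2 ≤ Nat.card W₂ := by
    obtain ⟨k, hk⟩ := o1
    obtain ⟨l, hl⟩ := o2
    omega
  set e := dualEquiv hcomm hdisj with he
  have hrect : ∀ (φ : {φ : ↥(W₁ ⊔ W₂) →* ℂˣ // Tr2 W₁ W₂ φ}) (ψ : {ψ : ↥(W₁ ⊔ W₂) →* ℂˣ // Tr1 W₁ W₂ ψ}),
      Cfsg.classInner θ (χ (φ.1 * ψ.1)) = Cfsg.classInner θ (χ φ.1) +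
        (Cfsg.classInner θ (χ ψ.1) - Cfsg.classInner θ (χ 1)) := by
    intro φ ψ
    rw [cyc_rect hχ hθ hθV φ.2 ψ.2]; ring
  have hcard : (Finset.univ.filter (fun q : {φ : ↥(W₁ ⊔ W₂) →* ℂˣ // Tr2 W₁ W₂ φ} ×
      {ψ : ↥(W₁ ⊔ W₂) →* ℂˣ // Tr1 W₁ W₂ ψ} => Cfsg.classInner θ (χ q.1.1) +
        (Cfsg.classInner θ (χ q.2.1) - Cfsg.classInner θ (χ 1)) ≠ 0)).card =
      Nat.card {ω : ↥(W₁ ⊔ W₂) →* ℂˣ // Cfsg.classInner θ (χ ω) ≠ 0} := by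
    rw [← Fintype.card_subtype, ← Nat.card_eq_fintype_card]
    refine Nat.card_congr (e.subtypeEquiv ?_)
    intro q
    show _ ↔ Cfsg.classInner θ (χ (q.1.1 * q.2.1)) ≠ 0
    rw [hrect q.1 q.2]
  have key := rank_one_classify (I := {φ : ↥(W₁ ⊔ W₂) →* ℂˣ // Tr2 W₁ W₂ φ})
    (J := {ψ : ↥(W₁ ⊔ W₂) →* ℂˣ // Tr1 W₁ W₂ ψ})
    (fun φ => Cfsg.classInner θ (χ φ.1)) (fun ψ => Cfsg.classInner θ (χ ψ.1) - Cfsg.classInner θ (χ 1))
    (by rw [c1]; exact t1) (by rw [c1, c2]; exact t2) (by rw [hcard, c1]; exact hfew)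
  rcases key with key | ⟨ψ₀, a, key⟩ | ⟨φ₀, a, key⟩
  · left
    intro ω
    obtain ⟨φ, ψ, hφ, hψ, rfl⟩ := hom_dec hcomm hdisj ω
    exact (hrect ⟨φ, hφ⟩ ⟨ψ, hψ⟩).trans (key _ _)
  · right; left
    refine ⟨ψ₀.1, a, fun ω => ?_⟩
    obtain ⟨φ, ψ, hφ, hψ, rfl⟩ := hom_dec hcomm hdisj ω
    rw [(hrect ⟨φ, hφ⟩ ⟨ψ, hψ⟩).trans (key _ _)]
    congr 1
    apply propext
    constructor
    · intro h w hw
      have h' : ψ = ψ₀.1 := congrArg Subtype.val h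
      rw [MonoidHom.mul_apply, MonoidHom.mul_apply, MonoidHom.inv_apply, h', hφ w hw, one_mul,
        mul_inv_cancel]
    · intro h
      apply Subtype.ext
      refine hom_ext_W hcomm (fun w hw => by rw [ψ₀.2 w hw]; exact hψ w hw) (fun w hw => ?_)
      have := h w hw
      rw [MonoidHom.mul_apply, MonoidHom.mul_apply, MonoidHom.inv_apply, hφ w hw, one_mul,
        mul_inv_eq_one] at this
      exact this
  · right; right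
    refine ⟨φ₀.1, a, fun ω => ?_⟩
    obtain ⟨φ, ψ, hφ, hψ, rfl⟩ := hom_dec hcomm hdisj ω
    rw [(hrect ⟨φ, hφ⟩ ⟨ψ, hψ⟩).trans (key _ _)]
    congr 1
    apply propext
    constructor
    · intro h w hw
      have h' : φ = φ₀.1 := congrArg Subtype.val h
      rw [MonoidHom.mul_apply, MonoidHom.mul_apply, MonoidHom.inv_apply, h', hψ w hw, mul_one,
        mul_inv_cancel]
    · intro h
      apply Subtype.ext
      refine hom_ext_W hcomm (fun w hw => ?_) (fun w hw => by rw [φ₀.2 w hw]; exact hφ w hw)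
      have := h w hw
      rw [MonoidHom.mul_apply, MonoidHom.mul_apply, MonoidHom.inv_apply, hψ w hw, mul_one,
        mul_inv_eq_one] at this
      exact this

end Cfsg.Agent.S1507
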