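import Cfsg.Statements.S1508
import Cfsg.Agent.H4.Cyc3

set_option autoImplicit false
open Cfsg

namespace Cfsg.Agent.S1508

open CfsgH4 ComplexConjugate

/-- Let W₁, W₂ ≤ G form a self-normalising cyclic subgroup W = W₁ ⊔ W₂ of odd order and χ an orthonormal family of irreducible characters of G up to sign, indexed by the linear characters ω of W, with χ_1 = 1, χ_ω = ω on W outside W₁ ∪ W₂, and the induction identity for (1 − φ)(1 − ψ). Let ω be a linear character of W and g an element of G whose order is coprime to the order of ω. Then χ ω g is an integer. -/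
theorem result {G : Type*} [Group G] [Fintype G] (W₁ W₂ : Subgroup G) (hW : Cfsg.IsSelfNormalizingCyclic W₁ W₂) (hodd : Odd (Nat.card ↥(W₁ ⊔ W₂))) (χ : (↥(W₁ ⊔ W₂) →* ℂˣ) → (G → ℂ)) (hχ : Cfsg.IsCyclicTIFamily W₁ W₂ χ) (ω : ↥(W₁ ⊔ W₂) →* ℂˣ) (g : G) (hg : Nat.Coprime (orderOf g) (orderOf ω)) : ∃ n : ℤ, χ ω g = n := by
  classical
  have hsg : IsSgn (χ ω) := hχ.irr_or_neg ω
  -- values as sums of roots of unity
  have hval : ∃ (s : Multiset ℂ) (ε : ℂ), (ε = 1 ∨ ε = -1) ∧ (∀ z ∈ s, z ^ orderOf g = 1) ∧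
      χ ω g = ε * s.sum := by
    rcases hsg with h | h
    · obtain ⟨s, hs, hs2, -⟩ := CfsgH4.IsCharacter.exists_roots (CfsgH4.IsIrr.isCharacter h) g
      refine ⟨s, 1, Or.inl rfl, hs, ?_⟩
      have := hs2 1
      simpa using this
    · obtain ⟨s, hs, hs2, -⟩ := CfsgH4.IsCharacter.exists_roots (CfsgH4.IsIrr.isCharacter h) g
      refine ⟨s, -1, Or.inr rfl, hs, ?_⟩
      have := hs2 1
      simp only [zpow_one, Pi.neg_apply, Multiset.map_id'] at this
      rw [← this]; ring
  obtain ⟨s, ε, hε, hs, hval⟩ := hval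
  have hint : IsIntegral ℤ (χ ω g) := by
    rw [hval]
    refine IsIntegral.mul ?_ (isIntegral_multiset_sum fun z hz =>
      isIntegral_of_pow_orderOf (orderOf_pos g) (hs z hz))
    rcases hε with rfl | rfl
    · exact isIntegral_one
    · exact isIntegral_one.neg
  have hfix : ∀ σ : ℂ ≃+* ℂ, σ (χ ω g) = χ ω g := by
    intro σ
    haveI := finite_hom_units ↥(W₁ ⊔ W₂)
    have ho : 0 < orderOf g := orderOf_pos g
    have hm : 0 < orderOf ω := orderOf_pos ω
    obtain ⟨k, hk, hkσ⟩ := aut_pow ho σ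
    obtain ⟨k', hk1, hk2⟩ := Nat.chineseRemainder hg k 1
    have hc1 : k'.Coprime (orderOf g) := by
      have := hk1.gcd_eq
      rw [Nat.Coprime, this]; exact hk
    have hc2 : k'.Coprime (orderOf ω) := by
      have := hk2.gcd_eq
      rw [Nat.Coprime, this]; simp
    obtain ⟨τ, hτ⟩ := exists_aut_pow (n := orderOf g * orderOf ω) (k := k') (by positivity)
      (Nat.Coprime.mul_right hc1 hc2)
    have h1 : ∀ w, (ω w : ℂ) = τ (ω w) := by
      intro w
      have h2 : ((ω w : ℂˣ) : ℂ) ^ orderOf ω = 1 := by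
        have h3 := congrArg (fun f : ↥(W₁ ⊔ W₂) →* ℂˣ => ((f w : ℂˣ) : ℂ)) (pow_orderOf_eq_one ω)
        simpa only [MonoidHom.pow_apply, MonoidHom.one_apply, Units.val_pow_eq_pow_val, Units.val_one] using h3
      rw [hτ _ (by rw [mul_comm, pow_mul, h2, one_pow])]
      have h4 : (ω w : ℂ) ^ k' = (ω w : ℂ) ^ (k' % orderOf ω) := by
        conv_lhs => rw [← Nat.div_add_mod k' (orderOf ω), pow_add, pow_mul, h2, one_pow, one_mul]
      have h5 : (ω w : ℂ) ^ 1 = (ω w : ℂ) ^ (1 % orderOf ω) := by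
        conv_lhs => rw [← Nat.div_add_mod 1 (orderOf ω), pow_add, pow_mul, h2, one_pow, one_mul]
      rw [h4, show k' % orderOf ω = 1 % orderOf ω from hk2, ← h5, pow_one]
    have h6 := congrFun (cyc_aut hW hodd hχ τ h1) g
    have h7 : σ (χ ω g) = τ (χ ω g) := by
      rw [hval, map_mul, map_mul]
      have e1 : σ ε = τ ε := by rcases hε with rfl | rfl <;> simp
      rw [e1]
      congr 1
      rw [map_multiset_sum, map_multiset_sum]
      congr 1
      refine Multiset.map_congr rfl fun z hz => ?_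
      have hz1 := hs z hz
      rw [hkσ z hz1, hτ z (by rw [pow_mul, hz1, one_pow])]
      have h4 : z ^ k' = z ^ (k' % orderOf g) := by
        conv_lhs => rw [← Nat.div_add_mod k' (orderOf g), pow_add, pow_mul, hz1, one_pow, one_mul]
      have h5 : z ^ k = z ^ (k % orderOf g) := by
        conv_lhs => rw [← Nat.div_add_mod k (orderOf g), pow_add, pow_mul, hz1, one_pow, one_mul]
      rw [h4, h5, show k' % orderOf g = k % orderOf g from hk1]
    rw [h7]; exact h6
  obtain ⟨q, hq⟩ := rat_of_fixed (hint.tower_top) hfix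
  exact int_of_isIntegral_rat hint hq

end Cfsg.Agent.S1508
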