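import Cfsg.Statements.S1510
import Cfsg.Agent.H4.Pet2
import Cfsg.Agent.H4.Dade3

set_option autoImplicit false
open Cfsg

namespace Cfsg.Agent.S1510

open CfsgH4

/-- Let L be a finite group with a normal subgroup K and a nontrivial cyclic subgroup W₁ of order coprime to its index, K ⊓ W₁ = ⊥ and K ⊔ W₁ = ⊤; let W₂ ≠ ⊥ be a cyclic subgroup of K with K ⊓ C_L(x) = W₂ for every non-identity x ∈ W₁, and suppose W₁ ⊔ W₂ has odd order. Then (W₁, W₂) is a self-normalising cyclic pair in L. -/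
theorem result {L : Type*} [Group L] [Fintype L] (K W₁ W₂ : Subgroup L) [hK : K.Normal] (hKW₁ : K ⊓ W₁ = ⊥) (hKW₁' : K ⊔ W₁ = ⊤) (hW₁ : W₁ ≠ ⊥) (hW₁c : IsCyclic W₁) (hHall : Nat.Coprime (Nat.card W₁) W₁.index) (hW₂ : W₂ ≠ ⊥) (hW₂c : IsCyclic W₂) (hW₂K : W₂ ≤ K) (hC : ∀ x ∈ W₁, x ≠ 1 → K ⊓ Subgroup.centralizer ({x} : Set L) = W₂) (hodd : Odd (Nat.card ↥(W₁ ⊔ W₂))) : Cfsg.IsSelfNormalizingCyclic W₁ W₂ := by
  classical
  have hcommW : ∀ a ∈ W₁, ∀ b ∈ W₂, a * b = b * a := by
    intro a ha b hb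
    by_cases h1 : a = 1
    · subst h1; simp
    · rw [← hC a ha h1] at hb
      exact (Subgroup.mem_centralizer_singleton_iff.1 hb.2).symm
  have hinf : W₁ ⊓ W₂ = ⊥ := by
    rw [eq_bot_iff, ← hKW₁]
    exact fun z hz => ⟨hW₂K hz.2, hz.1⟩
  have hidx : W₁.index = Nat.card K := by
    have h1 := card_sup_disj (N := K) (D := W₁) (by rw [Subgroup.normalizer_eq_top]; exact le_top) hKW₁
    rw [hKW₁', Subgroup.card_top] at h1
    have h2 := Subgroup.card_mul_index W₁
    rw [h1] at h2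
    exact Nat.eq_of_mul_eq_mul_left (Nat.card_pos (α := W₁)) (by rw [h2, mul_comm])
  rw [hidx] at hHall
  have hcop : Nat.Coprime (Nat.card W₁) (Nat.card W₂) :=
    Nat.Coprime.coprime_dvd_right (Subgroup.card_dvd_of_le hW₂K) hHall
  have hnorm : W₂ ≤ Subgroup.normalizer (W₁ : Set L) := by
    intro b hb
    rw [Subgroup.mem_normalizer_iff]
    intro a
    constructor
    · intro ha
      rw [← hcommW a ha b hb]; simpa using ha
    · intro ha
      have h1 := hcommW _ ha b hb
      have : a = b * a * b⁻¹ := by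
        have h2 : b * a * b⁻¹ * b = b * (b * a * b⁻¹) := h1
        have h3 : b * a = b * (b * a * b⁻¹) := by rw [← h2]; group
        exact mul_left_cancel h3
      rw [this]; exact ha
  have hcard : Nat.card ↥(W₁ ⊔ W₂) = Nat.card W₁ * Nat.card W₂ := card_sup_disj hnorm hinf
  have hdec : ∀ z ∈ W₁ ⊔ W₂, ∃ a ∈ W₁, ∃ b ∈ W₂, z = a * b := fun z hz => exists_of_mem_sup hnorm hz
  have hWc : ∀ z ∈ W₁ ⊔ W₂, ∀ w ∈ W₁ ⊔ W₂, z * w = w * z := by
    haveI := hW₁c
    haveI := hW₂c
    have c1 : ∀ a ∈ W₁, ∀ b ∈ W₁, a * b = b * a := fun a ha b hb => by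
      letI := IsCyclic.commGroup (α := W₁)
      exact congrArg Subtype.val (mul_comm (⟨a, ha⟩ : W₁) ⟨b, hb⟩)
    have c2 : ∀ a ∈ W₂, ∀ b ∈ W₂, a * b = b * a := fun a ha b hb => by
      letI := IsCyclic.commGroup (α := W₂)
      exact congrArg Subtype.val (mul_comm (⟨a, ha⟩ : W₂) ⟨b, hb⟩)
    intro z hz w hw
    obtain ⟨a, ha, b, hb, rfl⟩ := hdec z hz
    obtain ⟨c, hc, d, hd, rfl⟩ := hdec w hw
    calc a * b * (c * d) = a * (b * c) * d := by group
      _ = a * (c * b) * d := by rw [hcommW c hc b hb]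
      _ = (a * c) * (b * d) := by group
      _ = (c * a) * (d * b) := by rw [c1 a ha c hc, c2 b hb d hd]
      _ = c * (a * d) * b := by group
      _ = c * (d * a) * b := by rw [hcommW a ha d hd]
      _ = c * d * (a * b) := by group
  refine ⟨hW₁, hW₂, hinf, hcommW, ?_, ?_⟩
  · haveI := hW₁c
    haveI := hW₂c
    obtain ⟨x, hx⟩ := IsCyclic.exists_ofOrder_eq_natCard (α := W₁)
    obtain ⟨y, hy⟩ := IsCyclic.exists_ofOrder_eq_natCard (α := W₂)
    refine isCyclic_of_orderOf_eq_card (⟨(x : L) * y, Subgroup.mul_mem_sup x.2 y.2⟩ : ↥(W₁ ⊔ W₂)) ?_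
    rw [hcard]
    have h1 : Commute (x : L) (y : L) := hcommW x x.2 y y.2
    have h2 : orderOf ((x : L) * y) = orderOf (x : L) * orderOf (y : L) :=
      h1.orderOf_mul_eq_mul_orderOf_of_coprime (by
        rw [Subgroup.orderOf_coe, Subgroup.orderOf_coe, hx, hy]; exact hcop)
    rw [← Subgroup.orderOf_coe]
    show orderOf ((x : L) * y) = _
    rw [h2, Subgroup.orderOf_coe, Subgroup.orderOf_coe, hx, hy]
  · intro X hX hXne
    apply le_antisymm
    · intro g hg
      obtain ⟨x, hx⟩ := hXne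
      have hxW := hX hx
      obtain ⟨a, ha, b, hb, hxe⟩ := hdec x hxW.1
      have ha1 : a ≠ 1 := by
        rintro rfl
        apply hxW.2
        right
        rw [hxe, one_mul]; exact hb
      have hg2 : g ∈ K ⊔ W₁ := by rw [hKW₁']; trivial
      obtain ⟨k, hk, w, hw, hge⟩ := exists_of_mem_sup
        (by rw [Subgroup.normalizer_eq_top]; exact le_top) hg2
      have hgx : g * x * g⁻¹ ∈ X := (Subgroup.mem_set_normalizer_iff.1 hg x).1 hx
      have hwx : w * x * w⁻¹ = x := by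
        rw [hWc w (Subgroup.mem_sup_left hw) x hxW.1]; group
      have h1 : k * x * k⁻¹ ∈ X := by
        have e : g * x * g⁻¹ = k * (w * x * w⁻¹) * k⁻¹ := by rw [hge]; group
        rwa [e, hwx] at hgx
      obtain ⟨c, hc, d, hd, hce⟩ := hdec _ (hX h1).1
      -- `c = a` modulo `K`
      have hca : c = a := by
        have h2 : a⁻¹ * c ∈ K ⊓ W₁ := by
          refine ⟨?_, W₁.mul_mem (W₁.inv_mem ha) hc⟩
          have e : a⁻¹ * c = (a⁻¹ * k * a) * b * k⁻¹ * d⁻¹ := by
            have : c = k * x * k⁻¹ * d⁻¹ := by rw [hce]; group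
            rw [this, hxe]; group
          rw [e]
          refine K.mul_mem (K.mul_mem (K.mul_mem ?_ (hW₂K hb)) (K.inv_mem hk)) (K.inv_mem (hW₂K hd))
          have := hK.conj_mem k hk a⁻¹
          simpa using this
        rw [hKW₁, Subgroup.mem_bot] at h2
        exact (inv_mul_eq_one.1 h2).symm
      have h3 : k * (b * a) * k⁻¹ = d * c := by
        rw [← hcommW a ha b hb, ← hxe, hce, hcommW c hc d hd]
      have h4 := crt_conj (m := Nat.card W₂) (n := Nat.card W₁) hcop.symm (hcommW a ha b hb).symm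
        (hcommW c hc d hd).symm (Subgroup.orderOf_dvd_natCard _ hb)
        (Subgroup.orderOf_dvd_natCard _ ha) (Subgroup.orderOf_dvd_natCard _ hd)
        (Subgroup.orderOf_dvd_natCard _ hc) h3
      rw [hca] at h4
      have h5 : k ∈ W₂ := by
        rw [← hC a ha ha1]
        exact ⟨hk, Subgroup.mem_centralizer_singleton_iff.2 (mul_inv_eq_iff_eq_mul.1 h4)⟩
      rw [hge]
      exact Subgroup.mul_mem _ (Subgroup.mem_sup_right h5) (Subgroup.mem_sup_left hw)
    · intro w hw
      rw [Subgroup.mem_set_normalizer_iff]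
      intro z
      constructor
      · intro hz
        rw [hWc w hw z (hX hz).1]; simpa using hz
      · intro hz
        have h1 := hWc w hw _ (hX hz).1
        have : z = w * z * w⁻¹ := by
          have h3 : w * z = w * (w * z * w⁻¹) := by rw [h1]; group
          exact mul_left_cancel h3
        rw [this]; exact hz

end Cfsg.Agent.S1510
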