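import Cfsg.Statements.S1512
import Cfsg.Agent.H4.Pet2

set_option autoImplicit false
open Cfsg

namespace Cfsg.Agent.S1512

open CfsgH4

/-- Let K be a normal subgroup of the finite group L and x a non-identity element whose order is coprime to the order of K, such that K ⊓ C_L(y) = W₂ for every non-identity element y of the cyclic group generated by x. Then the number of conjugacy classes of K mapped to themselves by conjugation by x is at most Nat.card W₂. -/
theorem result {L : Type*} [Group L] [Finite L] (K W₂ : Subgroup L) [hK : K.Normal] (x : L) (hx1 : x ≠ 1) (hx : Nat.Coprime (orderOf x) (Nat.card K)) (hC : ∀ y ∈ Subgroup.zpowers x, y ≠ 1 → K ⊓ Subgroup.centralizer ({y} : Set L) = W₂) : Nat.card {C : ConjClasses K // ConjClasses.map (MulEquiv.toMonoidHom ((MulAut.conjNormal x : MulAut K))) C = C} ≤ Nat.card W₂ := by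
  classical
  have key : ∀ C : {C : ConjClasses K // ConjClasses.map (MulEquiv.toMonoidHom ((MulAut.conjNormal x : MulAut K))) C = C},
      ∃ w : W₂, ∃ h : (w : L) ∈ K, C.1 = ConjClasses.mk ⟨(w : L), h⟩ := by
    rintro ⟨C, hCf⟩
    obtain ⟨k, rfl⟩ := ConjClasses.exists_rep C
    have h1 : ConjClasses.mk (MulAut.conjNormal x k : K) = ConjClasses.mk k := hCf
    rw [ConjClasses.mk_eq_mk_iff_isConj] at h1
    obtain ⟨m, hm⟩ := isConj_iff.1 h1
    have h2 : (m : L) * (x * k * x⁻¹) * (m : L)⁻¹ = k := by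
      have := congrArg Subtype.val hm
      simpa [MulAut.conjNormal_apply] using this
    have hxN : x ∈ Subgroup.normalizer (K : Set L) := by
      rw [Subgroup.normalizer_eq_top]; trivial
    obtain ⟨y, hy, c, hc, hcx, hyc⟩ := coset_conj K hxN hx m.2
    have h3 : (y * k * y⁻¹) * (c * x) = (c * x) * (y * k * y⁻¹) := by
      rw [← hyc]
      have h4 : (m : L) * x * k = k * ((m : L) * x) := by
        have : (m : L) * x * k = ((m : L) * (x * k * x⁻¹) * (m : L)⁻¹) * ((m : L) * x) := by group
        rw [this, h2]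
      calc (y * k * y⁻¹) * (y * ((m : L) * x) * y⁻¹) = y * (k * ((m : L) * x)) * y⁻¹ := by group
        _ = y * ((m : L) * x * k) * y⁻¹ := by rw [h4]
        _ = _ := by group
    have h5 : (y * (k : L) * y⁻¹) * x * (y * (k : L) * y⁻¹)⁻¹ = x :=
      crt_conj (m := Nat.card K) (n := orderOf x) hx.symm hcx hcx
        (Subgroup.orderOf_dvd_natCard _ hc) dvd_rfl (Subgroup.orderOf_dvd_natCard _ hc) dvd_rfl (by
          rw [h3]; group)
    have h6 : y * (k : L) * y⁻¹ ∈ W₂ := by
      rw [← hC x (Subgroup.mem_zpowers x) hx1]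
      refine ⟨K.mul_mem (K.mul_mem hy k.2) (K.inv_mem hy), ?_⟩
      exact Subgroup.mem_centralizer_singleton_iff.2 (mul_inv_eq_iff_eq_mul.1 h5)
    refine ⟨⟨_, h6⟩, K.mul_mem (K.mul_mem hy k.2) (K.inv_mem hy), ?_⟩
    show ConjClasses.mk k = _
    rw [ConjClasses.mk_eq_mk_iff_isConj]
    exact isConj_iff.2 ⟨⟨y, hy⟩, rfl⟩
  choose f hf hfe using key
  refine Nat.card_le_card_of_injective f fun a b hab => ?_
  apply Subtype.ext
  rw [hfe a, hfe b]
  congr 2
  rw [hab]

end Cfsg.Agent.S1512
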