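import Cfsg.Statements.S1513
import Cfsg.Agent.H4.Cyc6
import Cfsg.Agent.H4.FrobGrp

set_option autoImplicit false
open Cfsg

namespace Cfsg.Agent.S1513

open CfsgH4

/-- Let L be a finite group with K normal with complement W₁ ≠ 1 a cyclic Hall subgroup, and W₂ ≠ 1 a cyclic subgroup of K equal to C_K(x) for every non-identity x ∈ W₁, with W₁W₂ of odd order. For an irreducible character θ of K: if θ is not fixed under conjugation by some element of W₁, then the function induced from θ to L is an irreducible character of L; and the irreducible characters of K fixed by all of W₁ are exactly Nat.card W₂ in number, each inducing to the sum of Nat.card W₁ pairwise distinct irreducible characters of L. -/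
theorem result {L : Type*} [Group L] [Fintype L] (K W₁ W₂ : Subgroup L) [hK : K.Normal] (hKW₁ : K ⊓ W₁ = ⊥) (hKW₁' : K ⊔ W₁ = ⊤) (hW₁ : W₁ ≠ ⊥) (hW₁c : IsCyclic W₁) (hHall : Nat.Coprime (Nat.card W₁) W₁.index) (hW₂ : W₂ ≠ ⊥) (hW₂c : IsCyclic W₂) (hW₂K : W₂ ≤ K) (hC : ∀ x ∈ W₁, x ≠ 1 → K ⊓ Subgroup.centralizer ({x} : Set L) = W₂) (hodd : Odd (Nat.card ↥(W₁ ⊔ W₂))) : (∀ θ : K → ℂ, Cfsg.IsIrrCharacter K θ → (∃ x ∈ W₁, (fun k : K => θ ⟨x * k * x⁻¹, hK.conj_mem (k : L) k.2 x⟩) ≠ θ) → Cfsg.IsIrrCharacter L (Cfsg.indFun K θ)) ∧ Nat.card {θ : Cfsg.IrrCharacter K // ∀ x ∈ W₁, (fun k : K => (θ : K → ℂ) ⟨x * k * x⁻¹, hK.conj_mem (k : L) k.2 x⟩) = θ} = Nat.card W₂ ∧ (∀ θ : K → ℂ, Cfsg.IsIrrCharacter K θ → (∀ x ∈ W₁, (fun k : K => θ ⟨x * k * x⁻¹, hK.conj_mem (k : L) k.2 x⟩) = θ) → ∃ C : Finset (L → ℂ), C.card = Nat.card W₁ ∧ (∀ μ ∈ C, Cfsg.IsIrrCharacter L μ) ∧ Cfsg.indFun K θ = ∑ μ ∈ C, μ) := by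
  classical
  have h : Hyp42 K W₁ W₂ := ⟨hK, hKW₁, hKW₁', hW₁, hW₁c, hHall, hW₂, hW₂c, hW₂K, hC, hodd⟩
  haveI := hW₁c
  haveI : Fintype K := Fintype.ofFinite _
  have hW₂ab : ∀ a ∈ W₂, ∀ b ∈ W₂, a * b = b * a := fun a ha b hb =>
    h.abel a (Subgroup.mem_sup_right ha) b (Subgroup.mem_sup_right hb)
  -- the number of characters fixed by a nontrivial element
  have hfix : ∀ x ∈ W₁, x ≠ 1 → Nat.card {χ : Cfsg.IrrCharacter K //
      CfsgH4.conjFun K (χ : K → ℂ) x = (χ : K → ℂ)} = Nat.card W₂ := by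
    intro x hx hx1
    rw [card_fixed_conj K x]
    refine fixed_classes_card K W₂ x ?_ (hC x hx hx1) hW₂ab
    exact Nat.Coprime.coprime_dvd_left (Subgroup.orderOf_dvd_natCard _ hx) h.cop
  obtain ⟨x₀, hx₀⟩ := IsCyclic.exists_generator (α := W₁)
  have hgen : ∀ y ∈ W₁, y ∈ Subgroup.zpowers (x₀ : L) := by
    intro y hy
    obtain ⟨n, hn⟩ := Subgroup.mem_zpowers_iff.1 (hx₀ ⟨y, hy⟩)
    refine Subgroup.mem_zpowers_iff.2 ⟨n, ?_⟩
    exact congrArg Subtype.val hn
  have hx₀1 : (x₀ : L) ≠ 1 := by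
    intro h1
    apply hW₁
    rw [eq_bot_iff]
    intro y hy
    have := hgen y hy
    rw [h1, Subgroup.zpowers_one_eq_bot] at this
    exact this
  have hinv : ∀ θ : K → ℂ, (∀ x ∈ W₁, CfsgH4.conjFun K θ x = θ) ↔ CfsgH4.conjFun K θ x₀ = θ := by
    intro θ
    constructor
    · intro h1; exact h1 x₀ x₀.2
    · intro h1 x hx
      have h2 : (x₀ : L) ∈ inertia K θ := h1
      exact (Subgroup.zpowers_le.2 h2) (hgen x hx)
  have hcard : Nat.card {θ : Cfsg.IrrCharacter K // ∀ x ∈ W₁, CfsgH4.conjFun K (θ : K → ℂ) x = (θ : K → ℂ)} =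
      Nat.card W₂ := by
    rw [← hfix x₀ x₀.2 hx₀1]
    exact Nat.card_congr (Equiv.subtypeEquivRight fun θ => hinv θ)
  -- fixed by one element implies fixed by all
  have hall : ∀ θ : K → ℂ, Cfsg.IsIrrCharacter K θ → ∀ x ∈ W₁, x ≠ 1 → CfsgH4.conjFun K θ x = θ →
      ∀ y ∈ W₁, CfsgH4.conjFun K θ y = θ := by
    intro θ hθ x hx hx1 hfx
    by_contra hcon
    set A : Set (Cfsg.IrrCharacter K) := {θ | ∀ x ∈ W₁, CfsgH4.conjFun K (θ : K → ℂ) x = (θ : K → ℂ)}
    set B : Set (Cfsg.IrrCharacter K) := {θ | CfsgH4.conjFun K (θ : K → ℂ) x = (θ : K → ℂ)}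
    have hAB : A ⊆ B := fun θ hθ => hθ x hx
    have h1 : A.ncard = B.ncard := by
      have e1 : A.ncard = Nat.card W₂ := hcard
      have e2 : B.ncard = Nat.card W₂ := hfix x hx hx1
      rw [e1, e2]
    have h2 : A = B := Set.eq_of_subset_of_ncard_le hAB h1.symm.le (Set.toFinite B)
    have h3 : (⟨θ, hθ⟩ : Cfsg.IrrCharacter K) ∈ B := hfx
    rw [← h2] at h3
    exact hcon h3
  refine ⟨?_, hcard, ?_⟩
  · intro θ hθ hne
    apply indFun_irr_of_inertia K hθ
    apply le_antisymm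
    · intro g hg
      have hg2 : g ∈ K ⊔ W₁ := by rw [hKW₁']; trivial
      obtain ⟨k, hk, w, hw, rfl⟩ := exists_of_mem_sup
        (by rw [Subgroup.normalizer_eq_top]; exact le_top) hg2
      have hkI : k ∈ inertia K θ := le_inertia K (IsIrr.isClassFunction hθ) hk
      have hwI : w ∈ inertia K θ := by
        have := (inertia K θ).mul_mem ((inertia K θ).inv_mem hkI) hg
        simpa using this
      by_cases hw1 : w = 1
      · rw [hw1, mul_one]; exact hk
      · exfalso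
        obtain ⟨x, hx, hxne⟩ := hne
        exact hxne (hall θ hθ w hw hw1 hwI x hx)
    · exact le_inertia K (IsIrr.isClassFunction hθ)
  · intro θ hθ hθinv
    have hI : inertia K θ = ⊤ := by
      rw [eq_top_iff, ← hKW₁', sup_le_iff]
      exact ⟨le_inertia K (IsIrr.isClassFunction hθ), fun w hw => hθinv w hw⟩
    -- cyclic quotient
    have hcyc : IsCyclic (L ⧸ K) := by
      refine isCyclic_of_surjective ((QuotientGroup.mk' K).comp W₁.subtype) ?_
      intro q
      obtain ⟨g, rfl⟩ := QuotientGroup.mk_surjective q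
      have hg2 : g ∈ K ⊔ W₁ := by rw [hKW₁']; trivial
      obtain ⟨k, hk, w, hw, rfl⟩ := exists_of_mem_sup
        (by rw [Subgroup.normalizer_eq_top]; exact le_top) hg2
      refine ⟨⟨w, hw⟩, ?_⟩
      show (QuotientGroup.mk' K) w = ((k * w : L) : L ⧸ K)
      rw [QuotientGroup.mk'_apply, QuotientGroup.eq]
      have : w⁻¹ * (k * w) = w⁻¹ * k * w⁻¹⁻¹ := by group
      rw [this]; exact hK.conj_mem k hk w⁻¹
    have habL : ∀ x y : L, x * y * x⁻¹ * y⁻¹ ∈ K := by
      intro x y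
      have hc := (IsCyclic.isMulCommutative (α := L ⧸ K)).is_comm.comm (x : L ⧸ K) (y : L ⧸ K)
      rw [← QuotientGroup.eq_one_iff]
      show (x : L ⧸ K) * y * (x : L ⧸ K)⁻¹ * (y : L ⧸ K)⁻¹ = 1
      rw [hc]
      group
    have hinvall : ∀ g : L, CfsgH4.conjFun K θ g = θ := by
      intro g
      have : g ∈ inertia K θ := by rw [hI]; trivial
      exact this
    obtain ⟨χ, hχ, hχK⟩ := extend_cyclic hcyc hθ hinvall
    obtain ⟨e, C, he, hC1, hC2, hC3, -, -⟩ := ab_main K hθ (fun x _ y _ => habL x y)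
    -- `e = 1`
    have he1 : e = 1 := by
      have h1 : Cfsg.classInner (Cfsg.indFun K θ) χ = 1 := by
        rw [CfsgH4.frobenius K θ (IsIrr.isClassFunction hχ)]
        have : (fun k : K => χ k) = θ := by ext k; exact hχK k
        rw [this, classInner_irr_self hθ]
      rw [hC3, classInner_smul_left, classInner_sum_left] at h1
      have h2 : ∑ i ∈ C, Cfsg.classInner i χ = if χ ∈ C then 1 else 0 := by
        rw [← Finset.sum_ite_eq' C χ (fun _ => (1 : ℂ))]
        exact Finset.sum_congr rfl fun i hi => classInner_irr (hC1 i hi) hχ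
      rw [h2] at h1
      by_cases h3 : χ ∈ C
      · rw [if_pos h3, mul_one] at h1
        exact_mod_cast h1
      · rw [if_neg h3, mul_zero] at h1
        norm_num at h1
    refine ⟨C, ?_, hC1, ?_⟩
    · rw [he1, one_pow, one_mul, hI, Subgroup.card_top] at hC2
      have h1 := card_sup_disj (N := K) (D := W₁) (by rw [Subgroup.normalizer_eq_top]; exact le_top) hKW₁
      rw [hKW₁', Subgroup.card_top] at h1
      rw [h1] at hC2
      exact Nat.eq_of_mul_eq_mul_right (Nat.card_pos (α := K)) (by rw [hC2, mul_comm])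
    · rw [hC3, he1, Nat.cast_one, one_smul]

end Cfsg.Agent.S1513
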