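import Cfsg.Statements.S1514
import Cfsg.Agent.H4.Coh2

set_option autoImplicit false
open Cfsg

namespace Cfsg.Agent.S1514

open CfsgH4 ComplexConjugate

/-- Let S be a nonempty set of irreducible characters of the finite group L, closed under complex conjugation and containing no real-valued member, and τ a linear isometry on the integer combinations of S vanishing at 1, with values virtual characters of G vanishing at 1. Then there is a choice R making (S, τ, R) a coherence system. -/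
theorem result {L : Type*} [Group L] [Fintype L] {G : Type*} [Group G] [Fintype G] (S : Set (L → ℂ)) (hS : S.Nonempty) (hirr : ∀ χ ∈ S, Cfsg.IsIrrCharacter L χ) (hconj : ∀ χ ∈ S, Cfsg.conjFun χ ∈ S ∧ Cfsg.conjFun χ ≠ χ) (τ : (L → ℂ) → (G → ℂ)) (hτ : Cfsg.IsLinearIsometryOn (Cfsg.zspanOn S {1}ᶜ) τ) (hτ1 : ∀ α ∈ Cfsg.zspanOn S {1}ᶜ, τ α 1 = 0) : ∃ R : (L → ℂ) → Finset (G → ℂ), Cfsg.IsCoherenceSystem S τ R := by
  classical
  have hdiff : ∀ χ ∈ S, ∃ φ ψ : G → ℂ, Cfsg.IsIrrCharacter G φ ∧ Cfsg.IsIrrCharacter G ψ ∧ φ ≠ ψ ∧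
      τ (χ - Cfsg.conjFun χ) = φ - ψ := by
    intro χ hχ
    obtain ⟨hc1, hc2⟩ := hconj χ hχ
    have hdeg : Cfsg.conjFun χ 1 = χ 1 := by
      obtain ⟨n, hn⟩ := CfsgH4.IsCharacter.one_nat (CfsgH4.IsIrr.isCharacter (hirr χ hχ))
      show conj (χ 1) = χ 1
      rw [hn]; simp
    have hmem : χ - Cfsg.conjFun χ ∈ Cfsg.zspanOn S {1}ᶜ := by
      rw [mem_zspanOn]
      refine ⟨zspan_sub (zspan_self hχ) (zspan_self hc1), ?_⟩
      rw [Pi.sub_apply, hdeg, sub_self]
    apply gen_norm_two_diff (hτ.2.2.2 _ hmem)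
    · rw [hτ.2.2.1 _ hmem _ hmem, classInner_diff (hirr χ hχ) (hirr _ hc1) (hirr χ hχ) (hirr _ hc1),
        if_pos rfl, if_pos rfl, if_neg hc2, if_neg (Ne.symm hc2)]
      norm_num
    · exact hτ1 _ hmem
  choose! a b ha hb hab heq using hdiff
  have hane : ∀ χ ∈ S, a χ ≠ -b χ := by
    intro χ hχ h
    have h1 := one_re_pos (ha χ hχ)
    have h2 := one_re_pos (hb χ hχ)
    rw [h, Pi.neg_apply, Complex.neg_re] at h1
    linarith
  have hIrrneg : ∀ f g : G → ℂ, Cfsg.IsIrrCharacter G f → Cfsg.IsIrrCharacter G g → f ≠ -g := by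
    intro f g hf hg h
    have h1 := one_re_pos hf
    have h2 := one_re_pos hg
    rw [h, Pi.neg_apply, Complex.neg_re] at h1
    linarith
  refine ⟨fun χ => if χ ∈ S then {a χ, -b χ} else ∅, ?_⟩
  refine ⟨hS, fun χ hχ => CfsgH4.IsIrr.isCharacter (hirr χ hχ), fun χ hχ => (hconj χ hχ).1,
    fun χ hχ => (hconj χ hχ).2, hτ, hτ1,
    fun χ hχ φ hφ h => classInner_irr_ne (hirr χ hχ) (hirr φ hφ) h, ?_, ?_, ?_, ?_⟩
  · intro χ hχ α hα β hβ
    rw [if_pos hχ, Finset.mem_insert, Finset.mem_singleton] at hα hβ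
    rcases hα with rfl | rfl <;> rcases hβ with rfl | rfl
    · rw [if_pos rfl, classInner_irr_self (ha χ hχ)]
    · rw [if_neg (hane χ hχ), classInner_neg_right, classInner_irr_ne (ha χ hχ) (hb χ hχ) (hab χ hχ),
        neg_zero]
    · rw [if_neg (Ne.symm (hane χ hχ)), classInner_neg_left,
        classInner_irr_ne (hb χ hχ) (ha χ hχ) (Ne.symm (hab χ hχ)), neg_zero]
    · rw [if_pos rfl, classInner_neg_left, classInner_neg_right, neg_neg,
        classInner_irr_self (hb χ hχ)]
  · intro χ hχ α hα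
    rw [if_pos hχ, Finset.mem_insert, Finset.mem_singleton] at hα
    rcases hα with rfl | rfl
    · exact (show IsSgn (a χ) from Or.inl (ha χ hχ)).gen
    · exact (show IsSgn (b χ) from Or.inl (hb χ hχ)).neg.gen
  · intro χ hχ
    rw [if_pos hχ, heq χ hχ, Finset.sum_pair (hane χ hχ), sub_eq_add_neg]
  · intro χ hχ φ hφ h1 h2
    obtain ⟨hc1, hc2⟩ := hconj χ hχ
    obtain ⟨hd1, hd2⟩ := hconj φ hφ
    have hdegχ : Cfsg.conjFun χ 1 = χ 1 := by
      obtain ⟨n, hn⟩ := CfsgH4.IsCharacter.one_nat (CfsgH4.IsIrr.isCharacter (hirr χ hχ))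
      show conj (χ 1) = χ 1
      rw [hn]; simp
    have hdegφ : Cfsg.conjFun φ 1 = φ 1 := by
      obtain ⟨n, hn⟩ := CfsgH4.IsCharacter.one_nat (CfsgH4.IsIrr.isCharacter (hirr φ hφ))
      show conj (φ 1) = φ 1
      rw [hn]; simp
    have hmem : χ - Cfsg.conjFun χ ∈ Cfsg.zspanOn S {1}ᶜ := by
      rw [mem_zspanOn]
      refine ⟨zspan_sub (zspan_self hχ) (zspan_self hc1), ?_⟩
      rw [Pi.sub_apply, hdegχ, sub_self]
    have hmem' : φ - Cfsg.conjFun φ ∈ Cfsg.zspanOn S {1}ᶜ := by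
      rw [mem_zspanOn]
      refine ⟨zspan_sub (zspan_self hφ) (zspan_self hd1), ?_⟩
      rw [Pi.sub_apply, hdegφ, sub_self]
    have h3 : Cfsg.classInner (Cfsg.conjFun φ) χ = 0 := by
      have := conjFun_inner φ (Cfsg.conjFun χ)
      rw [conjFun_conjFun, h2, map_zero] at this
      exact this
    have h4 : Cfsg.classInner (Cfsg.conjFun φ) (Cfsg.conjFun χ) = 0 := by
      rw [conjFun_inner, h1, map_zero]
    have h5 := hτ.2.2.1 _ hmem' _ hmem
    rw [classInner_sub_left φ, classInner_sub_right, classInner_sub_right, h1, h2, h3, h4,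
      heq χ hχ, heq φ hφ, classInner_diff (ha φ hφ) (hb φ hφ) (ha χ hχ) (hb χ hχ)] at h5
    -- all four are distinct
    have hneφ := hab φ hφ
    have hneχ := hab χ hχ
    have key : a φ ≠ a χ ∧ a φ ≠ b χ ∧ b φ ≠ a χ ∧ b φ ≠ b χ := by
      by_cases e1 : a φ = a χ
      · have e2 : a φ ≠ b χ := fun h => hneχ (e1.symm.trans h)
        have e3 : b φ ≠ a χ := fun h => hneφ (e1.trans h.symm)
        rw [if_pos e1, if_neg e2, if_neg e3] at h5
        exfalso
        by_cases e4 : b φ = b χ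
        · rw [if_pos e4] at h5; norm_num at h5
        · rw [if_neg e4] at h5; norm_num at h5
      · by_cases e4 : b φ = b χ
        · have e2 : a φ ≠ b χ := fun h => hneφ (h.trans e4.symm)
          have e3 : b φ ≠ a χ := fun h => hneχ (h.symm.trans e4)
          rw [if_neg e1, if_neg e2, if_neg e3, if_pos e4] at h5
          norm_num at h5
        · rw [if_neg e1, if_neg e4] at h5
          by_cases e2 : a φ = b χ
          · rw [if_pos e2] at h5
            by_cases e3 : b φ = a χ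
            · rw [if_pos e3] at h5; norm_num at h5
            · rw [if_neg e3] at h5; norm_num at h5
          · rw [if_neg e2] at h5
            by_cases e3 : b φ = a χ
            · rw [if_pos e3] at h5; norm_num at h5
            · exact ⟨e1, e2, e3, e4⟩
    obtain ⟨k1, k2, k3, k4⟩ := key
    intro α hα β hβ
    rw [if_pos hφ, Finset.mem_insert, Finset.mem_singleton] at hα
    rw [if_pos hχ, Finset.mem_insert, Finset.mem_singleton] at hβ
    rcases hα with rfl | rfl <;> rcases hβ with rfl | rfl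
    · exact classInner_irr_ne (ha φ hφ) (ha χ hχ) k1
    · rw [classInner_neg_right, classInner_irr_ne (ha φ hφ) (hb χ hχ) k2, neg_zero]
    · rw [classInner_neg_left, classInner_irr_ne (hb φ hφ) (ha χ hχ) k3, neg_zero]
    · rw [classInner_neg_left, classInner_neg_right, classInner_irr_ne (hb φ hφ) (hb χ hχ) k4, neg_zero,
        neg_zero]

end Cfsg.Agent.S1514
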