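import Cfsg.Statements.S1518
import Cfsg.Agent.H4.Dade4

set_option autoImplicit false
open Cfsg

namespace Cfsg.Agent.S1518

open CfsgH4 ComplexConjugate

/-- Under the Dade hypothesis for (A, L, H): if χ is an irreducible character of L vanishing at every non-identity element of L outside A, then the Dade image of χ − conj χ equals μ − conj μ for some irreducible character μ of G. -/
theorem result {G : Type*} [Group G] [Fintype G] (A : Set G) (L : Subgroup G) [Fintype L] (H : G → Subgroup G) (hD : Cfsg.DadeHypothesis A L H) (χ : L → ℂ) (hχ : Cfsg.IsIrrCharacter L χ) (hsupp : ∀ x : L, x ≠ 1 → (x : G) ∉ A → χ x = 0) : ∃ μ : G → ℂ, Cfsg.IsIrrCharacter G μ ∧ Cfsg.dadeIsometry A L H (χ - Cfsg.conjFun χ) = μ - Cfsg.conjFun μ := by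
  classical
  have hχc := IsIrr.isCharacter hχ
  have hconj : IsIrrCharacter L (Cfsg.conjFun χ) := isIrrCharacter_conj hχ
  by_cases hr : Cfsg.conjFun χ = χ
  · refine ⟨fun _ => 1, isIrrCharacter_one, ?_⟩
    rw [hr, sub_self]
    ext g
    rcases dade_dich hD g with ⟨a, u, x, ha, hu, hx⟩ | h
    · rw [dade_value hD isClassFunction_zero ha hu hx]
      simp [Cfsg.conjFun]
    · rw [dade_zero h]; simp [Cfsg.conjFun]
  set ψ := χ - Cfsg.conjFun χ with hψ
  have hψg : IsGeneralizedCharacter L ψ := isGen_sub (IsCharacter.isGen hχc)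
    (IsCharacter.isGen (IsIrr.isCharacter hconj))
  have hψA : ∀ x : L, (x : G) ∉ A → ψ x = 0 := by
    intro x hx
    by_cases h1 : x = 1
    · subst h1
      rw [hψ]
      show χ 1 - conj (χ 1) = 0
      obtain ⟨n, hn⟩ := IsCharacter.one_nat hχc
      rw [hn, Complex.conj_natCast, sub_self]
    · rw [hψ]
      show χ x - conj (χ x) = 0
      rw [hsupp x h1 hx, map_zero, sub_self]
  have hψc := IsGen.isClassFunction hψg
  set θ := Cfsg.dadeIsometry A L H ψ with hθ
  have hθg : IsGeneralizedCharacter G θ := dade_gen hD hψg hψA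
  have hθ2 : classInner θ θ = 2 := by
    rw [hθ, dade_isom hD hψc hψA hψc, hψ, classInner_diff hχ hconj hχ hconj]
    rw [if_pos rfl, if_neg (fun h => hr h.symm), if_neg hr, if_pos rfl]
    norm_num
  have hθ1 : θ 1 = 0 := by
    rw [hθ]
    refine dade_zero fun a ha u hu x hx => ?_
    have h1 : (a : G) * u = 1 := by rw [← hx]; group
    have h2 : (a : G) ∈ H (a : G) ⊓ (L ⊓ Subgroup.centralizer ({(a : G)} : Set G)) := by
      refine ⟨?_, hD.subset ha, Subgroup.mem_centralizer_singleton_iff.2 rfl⟩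
      have h3 : (a : G) = u⁻¹ := eq_inv_of_mul_eq_one_left h1
      have h4 := (H (a : G)).inv_mem hu
      rw [← h3] at h4
      exact h4
    rw [hD.inf_eq_bot _ ha, Subgroup.mem_bot] at h2
    exact hD.one_not_mem (h2 ▸ ha)
  obtain ⟨μ, ν, hμ, hν, hne, he⟩ := gen_norm_two_diff hθg hθ2 hθ1
  have hcθ : ∀ g, conj (θ g) = - θ g := by
    intro g
    rw [hθ]
    rcases dade_dich hD g with ⟨a, u, x, ha, hu, hx⟩ | h
    · rw [dade_value hD hψc ha hu hx, hψ]
      show conj (χ a - conj (χ a)) = -(χ a - conj (χ a))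
      rw [map_sub, Complex.conj_conj]; ring
    · rw [dade_zero h]; simp
  have hcμ : IsIrrCharacter G (Cfsg.conjFun μ) := isIrrCharacter_conj hμ
  have hcν : IsIrrCharacter G (Cfsg.conjFun ν) := isIrrCharacter_conj hν
  have h3 : Cfsg.conjFun μ - Cfsg.conjFun ν = ν - μ := by
    ext g
    have h4 := hcθ g
    rw [he] at h4
    show conj (μ g) - conj (ν g) = ν g - μ g
    have h5 : conj (μ g - ν g) = -(μ g - ν g) := h4
    rw [map_sub] at h5
    rw [h5]; ring
  refine ⟨μ, hμ, ?_⟩
  have h4 : classInner (Cfsg.conjFun μ - Cfsg.conjFun ν) ν = 1 := by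
    rw [h3, classInner_sub_left, classInner_irr_self hν, classInner_irr_ne hμ hν hne, sub_zero]
  have h5 : Cfsg.conjFun μ = ν := by
    by_contra hcne
    rw [classInner_sub_left, classInner_irr_ne hcμ hν hcne, zero_sub] at h4
    by_cases h6 : Cfsg.conjFun ν = ν
    · rw [h6, classInner_irr_self hν] at h4; norm_num at h4
    · rw [classInner_irr_ne hcν hν h6] at h4; norm_num at h4
  rw [he, h5]

end Cfsg.Agent.S1518
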