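import Cfsg.Statements.S1525
import Cfsg.Agent.H4.Dade2

set_option autoImplicit false
open Cfsg

namespace Cfsg.Agent.S1525

open CfsgH4 ComplexConjugate

/-- Under the Dade hypothesis for (A, L, H), let χ be a class function of G and let ψ be a function on L whose value at each a ∈ A is the average of χ over the coset a·H(a). Then (1/|G|) Σ |χ g|² over the elements g of G conjugate into some coset a·H(a) with a ∈ A is at least (1/|L|) Σ_{a ∈ A ∩ L} |ψ a|². -/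
theorem result {G : Type*} [Group G] [Fintype G] (A : Set G) (L : Subgroup G) [Fintype L] (H : G → Subgroup G) (hD : Cfsg.DadeHypothesis A L H) (χ : G → ℂ) (hχ : Cfsg.IsClassFunction G χ) (ψ : L → ℂ) (hψ : ∀ a : L, (a : G) ∈ A → ψ a = (Nat.card (H a) : ℂ)⁻¹ * ∑ᶠ u ∈ (H a : Set G), χ (a * u)) : (Nat.card L : ℝ)⁻¹ * ∑ᶠ a ∈ {a : L | (a : G) ∈ A}, ‖ψ a‖ ^ 2 ≤ (Nat.card G : ℝ)⁻¹ * ∑ᶠ g ∈ {g : G | ∃ a ∈ A, ∃ u ∈ H a, ∃ x : G, x * g * x⁻¹ = a * u}, ‖χ g‖ ^ 2 := by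
  classical
  set α : L → ℂ := fun a => if (a : G) ∈ A then 1 else 0 with hα
  have hAc : ∀ (x : L) (a : L), ((x * a * x⁻¹ : L) : G) ∈ A ↔ (a : G) ∈ A := by
    intro x a
    refine ⟨fun h => ?_, fun h => hD.conj_mem x x.2 a h⟩
    have := hD.conj_mem (x : G)⁻¹ (L.inv_mem x.2) _ h
    have e : (x : G)⁻¹ * ((x * a * x⁻¹ : L) : G) * (x : G)⁻¹⁻¹ = a := by push_cast; group
    rwa [e] at this
  have hαc : IsClassFunction L α := by
    intro a x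
    show (if ((x * a * x⁻¹ : L) : G) ∈ A then (1 : ℂ) else 0) = if (a : G) ∈ A then 1 else 0
    simp only [hAc]
  have hαA : ∀ x : L, (x : G) ∉ A → α x = 0 := fun x hx => if_neg hx
  have hfc : IsClassFunction G (fun g => ((‖χ g‖ ^ 2 : ℝ) : ℂ)) := fun g x => by
    show ((‖χ (x * g * x⁻¹)‖ ^ 2 : ℝ) : ℂ) = ((‖χ g‖ ^ 2 : ℝ) : ℂ)
    rw [hχ]
  have h1 := dade_sum hD hαc hαA hfc
    (ψ := fun a => (Nat.card (H a) : ℂ)⁻¹ * ∑ᶠ u ∈ (H (a : G) : Set G), ((‖χ (a * u)‖ ^ 2 : ℝ) : ℂ))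
    (fun a _ => rfl)
  set S : Set G := {g : G | ∃ a ∈ A, ∃ u ∈ H a, ∃ x : G, x * g * x⁻¹ = a * u} with hS
  have hdv : ∀ g : G, Cfsg.dadeIsometry A L H α g = if g ∈ S then 1 else 0 := by
    intro g
    by_cases hg : g ∈ S
    · rw [if_pos hg]
      obtain ⟨a, ha, u, hu, x, hx⟩ := hg
      rw [dade_value hD hαc (a := ⟨a, hD.subset ha⟩) ha hu hx]
      exact if_pos ha
    · rw [if_neg hg]
      exact dade_zero fun a ha u hu x hx => hg ⟨a, ha, u, hu, x, hx⟩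
  have hsumS : ∑ᶠ g ∈ S, ‖χ g‖ ^ 2 = ∑ g : G, if g ∈ S then ‖χ g‖ ^ 2 else 0 :=
    fsum_ite S _ _
  have hsumL : ∑ᶠ a ∈ {a : L | (a : G) ∈ A}, ‖ψ a‖ ^ 2 = ∑ a : L, if (a : G) ∈ A then ‖ψ a‖ ^ 2 else 0 :=
    fsum_ite _ _ _
  rw [hsumS, hsumL]
  have h2 : (Nat.card G : ℝ)⁻¹ * (∑ g : G, if g ∈ S then ‖χ g‖ ^ 2 else 0) =
      (Nat.card L : ℝ)⁻¹ * ∑ a : L, if (a : G) ∈ A then
        (Nat.card (H a) : ℝ)⁻¹ * ∑ᶠ u ∈ (H (a : G) : Set G), ‖χ (a * u)‖ ^ 2 else 0 := by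
    have e1 : ((((Nat.card G : ℝ)⁻¹ * (∑ g : G, if g ∈ S then ‖χ g‖ ^ 2 else 0) : ℝ)) : ℂ) =
        (Nat.card G : ℂ)⁻¹ * ∑ g : G, Cfsg.dadeIsometry A L H α g * ((‖χ g‖ ^ 2 : ℝ) : ℂ) := by
      push_cast
      congr 1
      refine Finset.sum_congr rfl fun g _ => ?_
      rw [hdv]
      by_cases hg : g ∈ S
      · rw [if_pos hg, if_pos hg]; push_cast; ring
      · rw [if_neg hg, if_neg hg]; push_cast; ring
    have e2 : ((((Nat.card L : ℝ)⁻¹ * ∑ a : L, if (a : G) ∈ A then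
        (Nat.card (H a) : ℝ)⁻¹ * ∑ᶠ u ∈ (H (a : G) : Set G), ‖χ (a * u)‖ ^ 2 else 0 : ℝ)) : ℂ) =
        (Nat.card L : ℂ)⁻¹ * ∑ a : L, α a * ((Nat.card (H a) : ℂ)⁻¹ *
          ∑ᶠ u ∈ (H (a : G) : Set G), ((‖χ (a * u)‖ ^ 2 : ℝ) : ℂ)) := by
      rw [Complex.ofReal_mul, Complex.ofReal_inv, Complex.ofReal_natCast, Complex.ofReal_sum]
      congr 1
      refine Finset.sum_congr rfl fun a _ => ?_
      by_cases ha : (a : G) ∈ A
      · rw [if_pos ha, hα]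
        simp only [if_pos ha, one_mul]
        haveI : Fintype (H (a : G)) := Fintype.ofFinite _
        have h3 : ∑ᶠ u ∈ (H (a : G) : Set G), ‖χ (a * u)‖ ^ 2 = ∑ u : H (a : G), ‖χ (a * u)‖ ^ 2 := by
          rw [← finsum_set_coe_eq_finsum_mem, finsum_eq_sum_of_fintype]
          rfl
        have h4 : ∑ᶠ u ∈ (H (a : G) : Set G), ((‖χ (a * u)‖ ^ 2 : ℝ) : ℂ) =
            ∑ u : H (a : G), ((‖χ (a * u)‖ ^ 2 : ℝ) : ℂ) := by
          rw [← finsum_set_coe_eq_finsum_mem, finsum_eq_sum_of_fintype]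
          rfl
        rw [h3, h4]
        push_cast
        rfl
      · rw [if_neg ha, hα]
        simp only [if_neg ha]
        simp
    have := e1.trans (h1.trans e2.symm)
    exact_mod_cast this
  rw [h2]
  have hL : (0 : ℝ) ≤ (Nat.card L : ℝ)⁻¹ := by positivity
  refine mul_le_mul_of_nonneg_left (Finset.sum_le_sum fun a _ => ?_) hL
  by_cases ha : (a : G) ∈ A
  · rw [if_pos ha, if_pos ha, hψ a ha]
    haveI : Fintype (H (a : G)) := Fintype.ofFinite _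
    have h3 : ∑ᶠ u ∈ (H (a : G) : Set G), ‖χ (a * u)‖ ^ 2 = ∑ u : H (a : G), ‖χ (a * u)‖ ^ 2 := by
      rw [← finsum_set_coe_eq_finsum_mem, finsum_eq_sum_of_fintype]
      rfl
    have h4 : ∑ᶠ u ∈ (H (a : G) : Set G), χ (a * u) = ∑ u : H (a : G), χ (a * u) := by
      rw [← finsum_set_coe_eq_finsum_mem, finsum_eq_sum_of_fintype]
      rfl
    rw [h3, h4, norm_mul, mul_pow, norm_inv]
    have h5 : ‖(Nat.card (H (a : G)) : ℂ)‖ = Nat.card (H (a : G)) := by simp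
    rw [h5]
    have h6 : ‖∑ u : H (a : G), χ (a * u)‖ ^ 2 ≤
        (Nat.card (H (a : G)) : ℝ) * ∑ u : H (a : G), ‖χ (a * u)‖ ^ 2 := by
      calc ‖∑ u : H (a : G), χ (a * u)‖ ^ 2 ≤ (∑ u : H (a : G), ‖χ (a * u)‖) ^ 2 := by
            gcongr; exact norm_sum_le _ _
        _ ≤ _ := by
            have := sq_sum_le_card_mul_sum_sq (s := (Finset.univ : Finset (H (a : G))))
              (f := fun u => ‖χ (a * u)‖)
            rw [Finset.card_univ, ← Nat.card_eq_fintype_card] at this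
            exact this
    have h7 : (0 : ℝ) < Nat.card (H (a : G)) := by exact_mod_cast Nat.card_pos
    calc ((Nat.card (H (a : G)) : ℝ)⁻¹) ^ 2 * ‖∑ u : H (a : G), χ (a * u)‖ ^ 2
        ≤ ((Nat.card (H (a : G)) : ℝ)⁻¹) ^ 2 *
          ((Nat.card (H (a : G)) : ℝ) * ∑ u : H (a : G), ‖χ (a * u)‖ ^ 2) := by gcongr
      _ = _ := by field_simp
  · rw [if_neg ha, if_neg ha]

end Cfsg.Agent.S1525
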