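import Cfsg.Statements.S1527
import Cfsg.Agent.H4.TIcount

set_option autoImplicit false
open Cfsg

namespace Cfsg.Agent.S1527

open CfsgH4

/-- Let G be a finite group and H i (i in a finite index type) subgroups of pairwise coprime orders, each of whose underlying sets is a TI-subset of G, such that every non-identity element of G is conjugate to an element of some H i. Then Nat.card G − 1 = Σ_i [G : N_G(H i)] · (Nat.card (H i) − 1). -/
theorem result {G : Type*} [Group G] [Finite G] {ι : Type*} [Fintype ι] (H : ι → Subgroup G) (hcop : ∀ i j, i ≠ j → Nat.Coprime (Nat.card (H i)) (Nat.card (H j))) (hTI : ∀ i, Cfsg.IsTISubset (H i : Set G)) (hcover : ∀ g : G, g ≠ 1 → ∃ i, ∃ x : G, x * g * x⁻¹ ∈ H i) : Nat.card G - 1 = ∑ i, (Subgroup.normalizer (H i : Set G)).index * (Nat.card (H i) - 1) := by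
  classical
  haveI := Fintype.ofFinite G
  have h1 : ∀ i, (Subgroup.normalizer (H i : Set G)).index * (Nat.card (H i) - 1) =
      (Finset.univ.filter (fun g : G => g ≠ 1 ∧ ∃ x : G, x * g * x⁻¹ ∈ H i)).card := by
    intro i
    rw [← ti_count (H i) (hTI i), Nat.card_eq_fintype_card, Fintype.card_subtype]
  rw [Finset.sum_congr rfl (fun i _ => h1 i), ← Finset.card_biUnion]
  · rw [Nat.card_eq_fintype_card, ← Finset.card_univ, ← Finset.card_erase_of_mem (Finset.mem_univ (1 : G))]
    congr 1
    ext g
    simp only [Finset.mem_erase, Finset.mem_univ, and_true, Finset.mem_biUnion, Finset.mem_filter,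
      true_and]
    constructor
    · intro hg
      obtain ⟨i, x, hx⟩ := hcover g hg
      exact ⟨i, hg, x, hx⟩
    · rintro ⟨i, hg, -⟩
      exact hg
  · intro i _ j _ hij
    rw [Function.onFun, Finset.disjoint_left]
    intro g hgi hgj
    obtain ⟨hg1, x, hx⟩ := (Finset.mem_filter.1 hgi).2
    obtain ⟨-, y, hy⟩ := (Finset.mem_filter.1 hgj).2
    have ho : ∀ z : G, orderOf (z * g * z⁻¹) = orderOf g := by
      intro z
      rw [show z * g * z⁻¹ = MulAut.conj z g from rfl]
      exact orderOf_injective (MulAut.conj z).toMonoidHom (MulAut.conj z).injective g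
    have d1 : orderOf g ∣ Nat.card (H i) := by
      rw [← ho x]; exact Subgroup.orderOf_dvd_natCard _ hx
    have d2 : orderOf g ∣ Nat.card (H j) := by
      rw [← ho y]; exact Subgroup.orderOf_dvd_natCard _ hy
    have := Nat.eq_one_of_dvd_coprimes (hcop i j hij) d1 d2
    exact hg1 (orderOf_eq_one_iff.1 this)

end Cfsg.Agent.S1527
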