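import Cfsg.Statements.S1528
import Cfsg.Agent.H4.Pet2

set_option autoImplicit false
open Cfsg

namespace Cfsg.Agent.S1528

open CfsgH4

/-- Let N be a normal subgroup of the finite group G such that every element of G commuting with a non-identity element of N lies in N. If χ is an irreducible character of G with χ n ≠ χ 1 for some n ∈ N, then χ is the function induced from some irreducible character of N. -/
theorem result {G : Type*} [Group G] [Fintype G] (N : Subgroup G) [N.Normal] (hC : ∀ n ∈ N, n ≠ 1 → Subgroup.centralizer ({n} : Set G) ≤ N) (χ : G → ℂ) (hχ : Cfsg.IsIrrCharacter G χ) (hker : ∃ n ∈ N, χ n ≠ χ 1) : ∃ φ : N → ℂ, Cfsg.IsIrrCharacter N φ ∧ χ = Cfsg.indFun N φ := by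
  classical
  haveI : Fintype N := Fintype.ofFinite _
  have hχc := IsIrr.isCharacter hχ
  obtain ⟨n, hn, hne⟩ := hker
  obtain ⟨θ, hθ, hθn, hθ1⟩ : ∃ θ : N → ℂ, IsIrrCharacter N θ ∧
      classInner (fun m : N => χ m) θ ≠ 0 ∧ θ ⟨n, hn⟩ ≠ θ 1 := by
    by_contra hcon
    push Not at hcon
    apply hne
    have := ker_of_forall (isCharacter_restrict N hχc) (g := (⟨n, hn⟩ : N)) (fun ψ hψ h => hcon ψ hψ h)
    exact this
  have hθne : θ ≠ fun _ => 1 := by
    rintro rfl
    exact hθ1 rfl
  have hT := inertia_of_cent N hC hθ hθne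
  have hirr := indFun_irr_of_inertia N hθ hT
  refine ⟨θ, hθ, ?_⟩
  by_contra hne2
  have h3 := classInner_irr_ne hirr hχ (fun h => hne2 h.symm)
  rw [CfsgH4.frobenius N _ (IsIrr.isClassFunction hχ)] at h3
  exact hθn (inner_symm_zero h3)

end Cfsg.Agent.S1528
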