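import Cfsg.Statements.S1529
import Cfsg.Agent.H4.Pet2

set_option autoImplicit false
open Cfsg

namespace Cfsg.Agent.S1529

open CfsgH4 ComplexConjugate

/-- Let N be a subgroup of the finite group G, S a set of irreducible characters of N with at least two members, and τ₁ a linear isometry on the integer combinations of S with virtual-character values such that τ₁ α vanishes at 1 whenever α ∈ ℤ[S] does. Then there is ε ∈ {1, −1} such that ε • τ₁ χ is an irreducible character of G for every χ ∈ S, and distinct members of S give distinct characters. -/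
theorem result {G : Type*} [Group G] [Fintype G] (N : Subgroup G) [Fintype N] (S : Set (N → ℂ)) (hirr : ∀ χ ∈ S, Cfsg.IsIrrCharacter N χ) (htwo : ∃ χ ∈ S, ∃ ψ ∈ S, χ ≠ ψ) (τ₁ : (N → ℂ) → (G → ℂ)) (hτ₁ : Cfsg.IsLinearIsometryOn (Cfsg.zspan S) τ₁) (h0 : ∀ α ∈ Cfsg.zspan S, α 1 = 0 → τ₁ α 1 = 0) : ∃ ε : ℂ, (ε = 1 ∨ ε = -1) ∧ (∀ χ ∈ S, Cfsg.IsIrrCharacter G (ε • τ₁ χ)) ∧ (∀ χ ∈ S, ∀ ψ ∈ S, τ₁ χ = τ₁ ψ → χ = ψ) := by
  classical
  have hz : ∀ χ ∈ S, χ ∈ Cfsg.zspan S := fun χ hχ => Submodule.subset_span hχ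
  have hsgn : ∀ χ ∈ S, IsSgn (τ₁ χ) := fun χ hχ => isSgn_of_norm_one (hτ₁.2.2.2 χ (hz χ hχ))
    (by rw [hτ₁.2.2.1 χ (hz χ hχ) χ (hz χ hχ)]; exact classInner_irr_self (hirr χ hχ))
  have hdeg : ∀ χ ∈ S, ∃ n : ℕ, 0 < n ∧ χ 1 = n := fun χ hχ => by
    obtain ⟨n, hn⟩ := IsCharacter.one_nat (IsIrr.isCharacter (hirr χ hχ))
    refine ⟨n, Nat.pos_of_ne_zero ?_, hn⟩
    rintro rfl
    exact IsIrr.one_ne_zero (hirr χ hχ) (by simpa using hn)
  have hprop : ∀ χ ∈ S, ∀ ψ ∈ S, ψ 1 * τ₁ χ 1 = χ 1 * τ₁ ψ 1 := by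
    intro χ hχ ψ hψ
    obtain ⟨n, hn0, hn⟩ := hdeg χ hχ
    obtain ⟨m, hm0, hm⟩ := hdeg ψ hψ
    have h1 : (m : ℤ) • χ ∈ Cfsg.zspan S := Submodule.smul_mem _ _ (hz χ hχ)
    have h2 : (-(n : ℤ)) • ψ ∈ Cfsg.zspan S := Submodule.smul_mem _ _ (hz ψ hψ)
    have h3 := hτ₁.1 _ h1 _ h2
    rw [hτ₁.2.1 χ (hz χ hχ), hτ₁.2.1 ψ (hz ψ hψ)] at h3
    have h4 := h0 ((m : ℤ) • χ + (-(n : ℤ)) • ψ) (Submodule.add_mem _ h1 h2) (by
      rw [Pi.add_apply, zs_apply, zs_apply, hn, hm]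
      push_cast; ring)
    rw [h3] at h4
    rw [Pi.add_apply, zs_apply, zs_apply] at h4
    push_cast at h4
    rw [hn, hm]
    linear_combination h4
  obtain ⟨χ₀, hχ₀, -⟩ := htwo
  have hpos : ∀ f : G → ℂ, IsIrrCharacter G f → 0 < (f 1).re := fun f hf => one_re_pos hf
  have key : ∀ ε : ℂ, (ε = 1 ∨ ε = -1) → IsIrrCharacter G (ε • τ₁ χ₀) →
      ∀ χ ∈ S, IsIrrCharacter G (ε • τ₁ χ) := by
    intro ε hε h χ hχ
    obtain ⟨n, hn0, hn⟩ := hdeg χ hχ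
    obtain ⟨m, hm0, hm⟩ := hdeg χ₀ hχ₀
    have h1 := hprop χ hχ χ₀ hχ₀
    rw [hn, hm] at h1
    have h2 : (m : ℂ) * (ε • τ₁ χ) 1 = (n : ℂ) * (ε • τ₁ χ₀) 1 := by
      simp only [Pi.smul_apply, smul_eq_mul]
      linear_combination ε * h1
    have h3 := hpos _ h
    have h4 : 0 < ((ε • τ₁ χ) 1).re := by
      have h5 := congrArg Complex.re h2
      simp only [Complex.mul_re, Complex.natCast_re, Complex.natCast_im, zero_mul, sub_zero] at h5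
      have hm' : (0 : ℝ) < m := by exact_mod_cast hm0
      have hn' : (0 : ℝ) < n := by exact_mod_cast hn0
      have : 0 < (m : ℝ) * ((ε • τ₁ χ) 1).re := by rw [h5]; positivity
      exact (mul_pos_iff_of_pos_left hm').1 this
    have h5 : IsSgn (ε • τ₁ χ) := by
      rcases hε with rfl | rfl
      · rw [one_smul]; exact hsgn χ hχ
      · rw [neg_smul, one_smul]; exact (hsgn χ hχ).neg
    rcases h5 with h5 | h5
    · exact h5
    · have := hpos _ h5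
      simp only [Pi.neg_apply, Complex.neg_re] at this
      linarith
  have hinj : ∀ χ ∈ S, ∀ ψ ∈ S, τ₁ χ = τ₁ ψ → χ = ψ := by
    intro χ hχ ψ hψ h
    by_contra hne
    have h1 := hτ₁.2.2.1 χ (hz χ hχ) ψ (hz ψ hψ)
    rw [h, (hsgn ψ hψ).self, classInner_irr_ne (hirr χ hχ) (hirr ψ hψ) hne] at h1
    exact one_ne_zero h1
  rcases hsgn χ₀ hχ₀ with h | h
  · exact ⟨1, Or.inl rfl, key 1 (Or.inl rfl) (by rwa [one_smul]), hinj⟩
  · exact ⟨-1, Or.inr rfl, key (-1) (Or.inr rfl) (by rwa [neg_smul, one_smul]), hinj⟩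

end Cfsg.Agent.S1529
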