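import Cfsg.Statements.S1536
import Cfsg.Agent.H4.Pet2

set_option autoImplicit false
open Cfsg

namespace Cfsg.Agent.S1536

open CfsgH4

/-- Let H be a normal subgroup of the finite group M whose order is coprime to its index. For x ∈ M: some non-principal irreducible character of H is unchanged under h ↦ θ(x h x⁻¹) if and only if some non-identity element of H commutes with x. -/
theorem result {M : Type*} [Group M] [Finite M] (H : Subgroup M) [hN : H.Normal] (hHall : Nat.Coprime (Nat.card H) H.index) (x : M) : (∃ θ : H → ℂ, Cfsg.IsIrrCharacter H θ ∧ θ ≠ (fun _ => 1) ∧ (fun h : H => θ ⟨x * h * x⁻¹, hN.conj_mem h h.2 x⟩) = θ) ↔ ∃ h ∈ H, h ≠ 1 ∧ x * h = h * x := by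
  classical
  haveI := Fintype.ofFinite M
  haveI : Fintype H := Fintype.ofFinite _
  have hcount := card_fixed_conj H x
  have hxN : x ∈ Subgroup.normalizer (H : Set M) := by rw [Subgroup.normalizer_eq_top]; trivial
  constructor
  · rintro ⟨θ, hθ, hθ1, hθx⟩
    by_contra hcon
    push Not at hcon
    -- only one fixed class
    have hinj : Function.Injective (fun m : H => (⟨(m : M) * x * (m : M)⁻¹ * x⁻¹, by
        have e : (m : M) * x * (m : M)⁻¹ * x⁻¹ = (m : M) * (x * (m : M)⁻¹ * x⁻¹) := by group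
        rw [e]
        exact H.mul_mem m.2 (hN.conj_mem _ (H.inv_mem m.2) x)⟩ : H)) := by
      intro a b hab
      have h1 : (a : M) * x * (a : M)⁻¹ * x⁻¹ = (b : M) * x * (b : M)⁻¹ * x⁻¹ := congrArg Subtype.val hab
      have h2 : (a : M) * x * (a : M)⁻¹ = (b : M) * x * (b : M)⁻¹ := mul_right_cancel h1
      by_contra hne
      refine hcon ((b : M)⁻¹ * a) (H.mul_mem (H.inv_mem b.2) a.2) ?_ ?_
      · intro h
        exact hne (Subtype.ext (inv_mul_eq_one.1 h).symm)
      · calc x * ((b : M)⁻¹ * a) = (b : M)⁻¹ * ((b : M) * x * (b : M)⁻¹) * a := by group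
          _ = (b : M)⁻¹ * ((a : M) * x * (a : M)⁻¹) * a := by rw [h2]
          _ = (b : M)⁻¹ * a * x := by group
    have hsurj := Finite.surjective_of_injective hinj
    have hone : Nat.card {C : ConjClasses H // ∀ k : H, ConjClasses.mk k = C →
        IsConj (⟨x * k * x⁻¹, hN.conj_mem k k.2 x⟩ : H) k} = 1 := by
      rw [Nat.card_eq_one_iff_unique]
      have key : ∀ a : {C : ConjClasses H // ∀ k : H, ConjClasses.mk k = C →
          IsConj (⟨x * k * x⁻¹, hN.conj_mem k k.2 x⟩ : H) k}, a.1 = ConjClasses.mk 1 := by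
        rintro ⟨C, hC'⟩
        obtain ⟨k, rfl⟩ := ConjClasses.exists_rep C
        obtain ⟨c, hc⟩ := isConj_iff.1 (hC' k rfl)
        have h3 : (c : M) * (x * k * x⁻¹) * (c : M)⁻¹ = k := congrArg Subtype.val hc
        obtain ⟨m, hm⟩ := hsurj c
        have h4 : (m : M) * x * (m : M)⁻¹ * x⁻¹ = c := congrArg Subtype.val hm
        have h5 : k = 1 := by
          by_contra hk1
          refine hcon ((m : M)⁻¹ * k * m) ?_ ?_ ?_
          · exact H.mul_mem (H.mul_mem (H.inv_mem m.2) k.2) m.2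
          · intro h
            apply hk1
            apply Subtype.ext
            have : (k : M) = m * ((m : M)⁻¹ * k * m) * (m : M)⁻¹ := by group
            rw [this, h]; simp
          · have h6 : (c : M) * x = (m : M) * x * (m : M)⁻¹ := by rw [← h4]; group
            have h7 : (c : M) * x * k = k * ((c : M) * x) := by
              have : (c : M) * x * k = ((c : M) * (x * k * x⁻¹) * (c : M)⁻¹) * ((c : M) * x) := by group
              rw [this, h3]
            rw [h6] at h7
            calc x * ((m : M)⁻¹ * k * m) = (m : M)⁻¹ * ((m : M) * x * (m : M)⁻¹ * k) * m := by group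
              _ = (m : M)⁻¹ * (k * ((m : M) * x * (m : M)⁻¹)) * m := by rw [h7]
              _ = (m : M)⁻¹ * k * m * x := by group
        show ConjClasses.mk k = ConjClasses.mk 1
        rw [h5]
      refine ⟨⟨fun a b => Subtype.ext ((key a).trans (key b).symm)⟩, ⟨⟨ConjClasses.mk 1, ?_⟩⟩⟩
      intro k hk
      have : k = 1 := by
        rw [ConjClasses.mk_eq_mk_iff_isConj] at hk
        exact isConj_one_left.1 hk
      subst this
      have : (⟨x * ((1 : H) : M) * x⁻¹, hN.conj_mem _ (1 : H).2 x⟩ : H) = 1 := by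
        apply Subtype.ext; simp
      rw [this]
    rw [hone, Nat.card_eq_one_iff_unique] at hcount
    have h3 := hcount.1.elim (⟨⟨θ, hθ⟩, hθx⟩ : {χ : IrrCharacter H //
        CfsgH4.conjFun H (χ : H → ℂ) x = (χ : H → ℂ)})
      ⟨⟨fun _ => 1, isIrrCharacter_one⟩, rfl⟩
    exact hθ1 (congrArg Subtype.val (congrArg Subtype.val h3))
  · rintro ⟨h, hh, h1, hc⟩
    by_contra hcon
    push Not at hcon
    have hone : Nat.card {χ : IrrCharacter H // CfsgH4.conjFun H (χ : H → ℂ) x = (χ : H → ℂ)} = 1 := by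
      rw [Nat.card_eq_one_iff_unique]
      have key : ∀ a : {χ : IrrCharacter H // CfsgH4.conjFun H (χ : H → ℂ) x = (χ : H → ℂ)},
          (a.1 : H → ℂ) = fun _ => 1 := by
        rintro ⟨χ, hχ⟩
        by_contra hne
        exact hcon χ χ.2 hne hχ
      exact ⟨⟨fun a b => Subtype.ext (Subtype.ext ((key a).trans (key b).symm))⟩,
        ⟨⟨⟨fun _ => 1, isIrrCharacter_one⟩, rfl⟩⟩⟩
    rw [hone] at hcount
    have hu := (Nat.card_eq_one_iff_unique.1 hcount.symm).1
    have c1 : ∀ k : H, ConjClasses.mk k = ConjClasses.mk (⟨h, hh⟩ : H) →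
        IsConj (⟨x * k * x⁻¹, hN.conj_mem k k.2 x⟩ : H) k := by
      intro k hk
      rw [ConjClasses.mk_eq_mk_iff_isConj] at hk
      obtain ⟨c, hce⟩ := isConj_iff.1 hk
      have h2 : (c : M) * k * (c : M)⁻¹ = h := congrArg Subtype.val hce
      have hkc : (k : M) = (c : M)⁻¹ * h * c := by rw [← h2]; group
      refine isConj_iff.2 ⟨⟨(c : M)⁻¹ * (x * c * x⁻¹), H.mul_mem (H.inv_mem c.2) (hN.conj_mem _ c.2 x)⟩, ?_⟩
      apply Subtype.ext
      show (c : M)⁻¹ * (x * c * x⁻¹) * (x * k * x⁻¹) * ((c : M)⁻¹ * (x * c * x⁻¹))⁻¹ = k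
      rw [hkc]
      calc (c : M)⁻¹ * (x * c * x⁻¹) * (x * ((c : M)⁻¹ * h * c) * x⁻¹) * ((c : M)⁻¹ * (x * c * x⁻¹))⁻¹
          = (c : M)⁻¹ * (x * h * x⁻¹) * c := by group
        _ = (c : M)⁻¹ * (h * x * x⁻¹) * c := by rw [hc]
        _ = (c : M)⁻¹ * h * c := by group
    have c2 : ∀ k : H, ConjClasses.mk k = ConjClasses.mk (1 : H) →
        IsConj (⟨x * k * x⁻¹, hN.conj_mem k k.2 x⟩ : H) k := by
      intro k hk
      have : k = 1 := by
        rw [ConjClasses.mk_eq_mk_iff_isConj] at hk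
        exact isConj_one_left.1 hk
      subst this
      have : (⟨x * ((1 : H) : M) * x⁻¹, hN.conj_mem _ (1 : H).2 x⟩ : H) = 1 := by
        apply Subtype.ext; simp
      rw [this]
    have h2 := hu.elim ⟨ConjClasses.mk (⟨h, hh⟩ : H), c1⟩ ⟨ConjClasses.mk (1 : H), c2⟩
    have h3 := congrArg Subtype.val h2
    have h4 : ConjClasses.mk (⟨h, hh⟩ : H) = ConjClasses.mk 1 := h3
    rw [ConjClasses.mk_eq_mk_iff_isConj] at h4
    have h5 := isConj_one_left.1 h4
    exact h1 (congrArg Subtype.val h5)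

end Cfsg.Agent.S1536
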