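import Cfsg.Statements.S1546

set_option autoImplicit false
open Cfsg

namespace Cfsg.Agent.S1546

/-- Let p and q be odd primes and N = (p ^ q − 1) / (p − 1) = 1 + p + ⋯ + p^(q−1). Then N is odd; if p ≡ 1 (mod q) then q ∣ N; and if p is not ≡ 1 (mod q) then N is coprime to p − 1 and every divisor of N is ≡ 1 (mod q). -/
theorem result (p q : ℕ) (hp : p.Prime) (hq : q.Prime) (hp2 : p ≠ 2) (hq2 : q ≠ 2) : Odd ((p ^ q - 1) / (p - 1)) ∧ (p % q = 1 → q ∣ (p ^ q - 1) / (p - 1)) ∧ (p % q ≠ 1 → Nat.Coprime ((p ^ q - 1) / (p - 1)) (p - 1) ∧ ∀ x : ℕ, x ∣ (p ^ q - 1) / (p - 1) → x % q = 1) := by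
  have hp1 : 1 < p := hp.one_lt
  have hsum : (p ^ q - 1) / (p - 1) = ∑ i ∈ Finset.range q, p ^ i := (Nat.geomSum_eq hp.two_le q).symm
  rw [hsum]
  have hpodd : Odd p := hp.odd_of_ne_two hp2
  have hqodd : Odd q := hq.odd_of_ne_two hq2
  have hq3 : 3 ≤ q := by
    have := hq.two_le
    rcases Nat.lt_or_ge q 3 with h | h
    · exact absurd (by omega) hq2
    · exact h
  have h1q : 1 % q = 1 := Nat.mod_eq_of_lt (by omega)
  refine ⟨?_, ?_, ?_⟩
  · rw [Nat.odd_iff, Finset.sum_nat_mod]
    rw [Finset.sum_congr rfl (fun i _ => Nat.odd_iff.1 (hpodd.pow (n := i)))]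
    simpa using Nat.odd_iff.1 hqodd
  · intro h
    rw [Nat.dvd_iff_mod_eq_zero, Finset.sum_nat_mod]
    have h2 : ∀ i ∈ Finset.range q, p ^ i % q = 1 := by
      intro i _
      rw [Nat.pow_mod, h, one_pow, h1q]
    rw [Finset.sum_congr rfl h2]
    simp
  · intro h
    have hmod : ∀ r : ℕ, p ≡ 1 [MOD r] → (∑ i ∈ Finset.range q, p ^ i) ≡ q [MOD r] := by
      intro r hr
      have h2 : ∀ n : ℕ, (∑ i ∈ Finset.range n, p ^ i) ≡ n [MOD r] := by
        intro n
        induction n with
        | zero => simp; rfl
        | succ n ih =>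
          rw [Finset.sum_range_succ]
          have := (hr.pow n)
          rw [one_pow] at this
          exact ih.add this
      exact h2 q
    have hnq : ¬ p ≡ 1 [MOD q] := by
      intro h2
      apply h
      have h3 : p % q = 1 % q := h2
      rw [h3, h1q]
    refine ⟨?_, ?_⟩
    · have h2 : p ≡ 1 [MOD (p - 1)] := by
        have := (Nat.modEq_iff_dvd' (by omega : 1 ≤ p)).2 (dvd_refl (p - 1))
        exact this.symm
      have h3 := hmod _ h2
      unfold Nat.Coprime
      rw [h3.gcd_eq]
      rw [← Nat.Coprime, hq.coprime_iff_not_dvd]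
      intro h4
      exact hnq ((Nat.modEq_iff_dvd' (by omega : 1 ≤ p)).2 h4).symm
    · have hpr : ∀ r : ℕ, r.Prime → r ∣ (∑ i ∈ Finset.range q, p ^ i) → r % q = 1 := by
        intro r hr hrd
        haveI := Fact.mk hr
        have h2 : (p : ZMod r) ^ q = 1 := by
          have h3 : (∑ i ∈ Finset.range q, p ^ i) * (p - 1) + 1 = p ^ q := by
            obtain ⟨m, rfl⟩ : ∃ m, p = m + 1 := ⟨p - 1, by omega⟩
            simpa using geom_sum_mul_add m q
          have h4 := congrArg (Nat.cast : ℕ → ZMod r) h3
          rw [Nat.cast_add, Nat.cast_mul, (ZMod.natCast_eq_zero_iff _ _).2 hrd, zero_mul, zero_add] at h4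
          rw [Nat.cast_one, Nat.cast_pow] at h4
          exact h4.symm
        have h3 := orderOf_dvd_of_pow_eq_one h2
        rcases (Nat.dvd_prime hq).1 h3 with h4 | h4
        · rw [orderOf_eq_one_iff] at h4
          have h5 : p ≡ 1 [MOD r] := by
            have : ((p : ℕ) : ZMod r) = ((1 : ℕ) : ZMod r) := by rw [h4, Nat.cast_one]
            exact (ZMod.natCast_eq_natCast_iff _ _ _).1 this
          have h6 := hmod r h5
          have h7 : r ∣ q := (h6.dvd_iff (dvd_refl r)).1 hrd
          have h8 : r = q := (Nat.prime_dvd_prime_iff_eq hr hq).1 h7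
          rw [h8] at h5
          exact absurd h5 hnq
        · have h5 : (p : ZMod r) ≠ 0 := by
            intro h6
            rw [h6, zero_pow hq.ne_zero] at h2
            exact zero_ne_one h2
          have h6 := ZMod.orderOf_dvd_card_sub_one h5
          rw [h4] at h6
          obtain ⟨k, hk⟩ := h6
          have h7 : r = q * k + 1 := by have := hr.two_le; omega
          rw [h7, Nat.mul_add_mod, h1q]
      intro x
      induction x using Nat.strong_induction_on with
      | _ x ih =>
        intro hx
        have hN0 : 0 < (∑ i ∈ Finset.range q, p ^ i) := by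
          apply Finset.sum_pos
          · intro i _; positivity
          · exact ⟨0, by simp; omega⟩
        have hx0 : 0 < x := Nat.pos_of_dvd_of_pos hx hN0
        rcases Nat.lt_or_ge 1 x with h1 | h1
        · obtain ⟨y, hy⟩ := Nat.minFac_dvd x
          have hm := Nat.minFac_prime (show x ≠ 1 by omega)
          have e1 := hpr _ hm ((Nat.minFac_dvd x).trans hx)
          have hylt : y < x := by
            have := hm.two_le
            rcases Nat.eq_zero_or_pos y with h0 | h0
            · omega
            · calc y < x.minFac * y := by nlinarith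
                _ = x := hy.symm
          have e2 := ih y hylt ((Dvd.intro_left _ hy.symm).trans hx)
          rw [hy, Nat.mul_mod, e1, e2, Nat.mul_one, h1q]
        · have : x = 1 := by omega
          rw [this, h1q]

end Cfsg.Agent.S1546
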