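import Cfsg.Statements.S1552
import Cfsg.Agent.L.Orb.Use

set_option autoImplicit false
open scoped Pointwise
open Cfsg

namespace Cfsg.Agent.S1552
open CfsgL.Orb

/-- A sextet stabiliser has four orbits on the 1771 sextets, of sizes 1, 90, 240, 1440; and the stabiliser is a maximal proper subgroup. -/
theorem result (S : Finset (Finset Cfsg.GolayPt)) (hS : S ∈ Cfsg.sextets) : ∃ X₁ ∈ Cfsg.sextets, ∃ X₂ ∈ Cfsg.sextets, ∃ X₃ ∈ Cfsg.sextets, (MulAction.orbit ↥(MulAction.stabilizer Cfsg.M24 S) X₁).ncard = 90 ∧ (MulAction.orbit ↥(MulAction.stabilizer Cfsg.M24 S) X₂).ncard = 240 ∧ (MulAction.orbit ↥(MulAction.stabilizer Cfsg.M24 S) X₃).ncard = 1440 ∧ Cfsg.sextets = {S} ∪ MulAction.orbit ↥(MulAction.stabilizer Cfsg.M24 S) X₁ ∪ MulAction.orbit ↥(MulAction.stabilizer Cfsg.M24 S) X₂ ∪ MulAction.orbit ↥(MulAction.stabilizer Cfsg.M24 S) X₃ ∧ IsCoatom (MulAction.stabilizer Cfsg.M24 S) := by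
  have h0 : ∀ a ∈ sextets, find [96, 48, 36, 32] (isum (id a) (id a)) = 0 := fun a ha => by
    rw [id, isum_sext ha]; decide
  obtain ⟨X1, h1, X2, h2, X3, h3, s1, s2, s3, e⟩ :=
    orbs_sext_sext.four_self h0 (by decide) (by decide) hS
  refine ⟨X1, h1, X2, h2, X3, h3, s1, s2, s3, e, ?_⟩
  exact orbs_sext_sext.coatom (by decide) h0 (by decide) (by decide) (trans_of_base base_sext)
    sextets_ncard (by decide +kernel) hS

end Cfsg.Agent.S1552
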