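import Cfsg.Statements.S1559
import Cfsg.Agent.L.Orb.Use

set_option autoImplicit false
open scoped Pointwise
open Cfsg

namespace Cfsg.Agent.S1559
open CfsgL.Orb

/-- A trio stabiliser has five orbits on the 3795 trios, of sizes 1, 42, 56, 1008, 2688; and the stabiliser is a maximal proper subgroup. -/
theorem result (T : Finset (Finset Cfsg.GolayPt)) (hT : T ∈ Cfsg.trios) : ∃ X₁ ∈ Cfsg.trios, ∃ X₂ ∈ Cfsg.trios, ∃ X₃ ∈ Cfsg.trios, ∃ X₄ ∈ Cfsg.trios, (MulAction.orbit ↥(MulAction.stabilizer Cfsg.M24 T) X₁).ncard = 42 ∧ (MulAction.orbit ↥(MulAction.stabilizer Cfsg.M24 T) X₂).ncard = 56 ∧ (MulAction.orbit ↥(MulAction.stabilizer Cfsg.M24 T) X₃).ncard = 1008 ∧ (MulAction.orbit ↥(MulAction.stabilizer Cfsg.M24 T) X₄).ncard = 2688 ∧ Cfsg.trios = {T} ∪ MulAction.orbit ↥(MulAction.stabilizer Cfsg.M24 T) X₁ ∪ MulAction.orbit ↥(MulAction.stabilizer Cfsg.M24 T) X₂ ∪ MulAction.orbit ↥(MulAction.stabilizer Cfsg.M24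 T) X₃ ∪ MulAction.orbit ↥(MulAction.stabilizer Cfsg.M24 T) X₄ ∧ IsCoatom (MulAction.stabilizer Cfsg.M24 T) := by
  have h0 : ∀ a ∈ trios, find [192, 128, 96, 80, 72] (isum (id a) (id a)) = 0 := fun a ha => by
    rw [id, isum_trio ha]; decide
  obtain ⟨X1, h1, X2, h2, X3, h3, X4, h4, s1, s2, s3, s4, e⟩ :=
    orbs_trio_trio.five_self h0 (by decide) (by decide) hT
  refine ⟨X1, h1, X2, h2, X3, h3, X4, h4, s1, s2, s3, s4, e, ?_⟩
  exact orbs_trio_trio.coatom (by decide) h0 (by decide) (by decide) (trans_of_base base_trio)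
    trios_ncard (by decide +kernel) hT

end Cfsg.Agent.S1559
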