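import Cfsg.Statements.S1560
import Cfsg.Agent.L.Orb.Cnt
import Cfsg.Agent.L.Orb.O_dod_dod

set_option autoImplicit false
open scoped Pointwise
open Cfsg

namespace Cfsg.Agent.S1560
open CfsgL.Orb

/-- Intersection numbers of dodecads: a dodecad meets every other dodecad in 0, 4, 6 or 8 points, meeting 495 of them in 4 points, 1584 in 6 points and 495 in 8 points. -/
theorem result (d : Finset Cfsg.GolayPt) (hd : d ∈ Cfsg.dodecads) : (∀ d' ∈ Cfsg.dodecads, d' ≠ d → (d ∩ d').card = 0 ∨ (d ∩ d').card = 4 ∨ (d ∩ d').card = 6 ∨ (d ∩ d').card = 8) ∧ {d' : Finset Cfsg.GolayPt | d' ∈ Cfsg.dodecads ∧ (d ∩ d').card = 4}.ncard = 495 ∧ {d' : Finset Cfsg.GolayPt | d' ∈ Cfsg.dodecads ∧ (d ∩ d').card = 6}.ncard = 1584 ∧ {d' : Finset Cfsg.GolayPt | d' ∈ Cfsg.dodecads ∧ (d ∩ d').card = 8}.ncard = 495 := by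
  have hc := fun k => orbs_dod_dod.count_card' (f := fun a => a) rfl hd k
  refine ⟨?_, hc 4 (by decide), hc 6 (by decide), hc 8 (by decide)⟩
  intro d' hd' hne
  have h1 := orbs_dod_dod.lt d hd d' hd'
  beta_reduce at h1
  rw [isum_sg] at h1
  have h2 := find_spec [0, 144, 16, 64, 36] ((d ∩ d').card ^ 2) h1
  have h3 : (d ∩ d').card ≤ 12 := by
    rw [← hd.2]; exact Finset.card_le_card Finset.inter_subset_left
  have h4 : (d ∩ d').card ≠ 12 := by
    intro h
    apply hne
    have e1 : d ∩ d' = d := Finset.eq_of_subset_of_card_le Finset.inter_subset_left (by rw [h, hd.2])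
    have e2 : d ∩ d' = d' := Finset.eq_of_subset_of_card_le Finset.inter_subset_right (by rw [h, hd'.2])
    rw [← e2, e1]
  generalize (d ∩ d').card = n at *
  interval_cases n <;> first | (exfalso; revert h1; decide) | omega

end Cfsg.Agent.S1560
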