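import Cfsg.Statements.S1562
import Cfsg.Agent.L.Orb.O3
import Cfsg.Agent.L.Orb.Misc

set_option autoImplicit false
open scoped Pointwise
open Cfsg

namespace Cfsg.Agent.S1562
open CfsgL.Orb

/-- Orbits of a triad stabiliser on the triads disjoint from it: the 210 triads inside a common octad with it form one orbit and the remaining 1120 another. -/
theorem result (T : Finset Cfsg.GolayPt) (hT : T.card = 3) : {U : Finset Cfsg.GolayPt | U.card = 3 ∧ Disjoint T U ∧ (∃ o ∈ Cfsg.octads, T ∪ U ⊆ o)}.ncard = 210 ∧ {U : Finset Cfsg.GolayPt | U.card = 3 ∧ Disjoint T U ∧ ¬ (∃ o ∈ Cfsg.octads, T ∪ U ⊆ o)}.ncard = 1120 ∧ ∀ U U' : Finset Cfsg.GolayPt, U.card = 3 → U'.card = 3 → Disjoint T U → Disjoint T U' → ((∃ o ∈ Cfsg.octads, T ∪ U ⊆ o) ↔ (∃ o ∈ Cfsg.octads, T ∪ U' ⊆ o)) → ∃ g : Equiv.Perm Cfsg.GolayPt, g ∈ Cfsg.M24 ∧ g • T = T ∧ g • U = U' := by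
  have hd : ∀ U : Finset GolayPt, Disjoint T U ↔ (T ∩ U).card = 0 := fun U => by
    rw [Finset.card_eq_zero, Finset.disjoint_iff_inter_eq_empty]
  refine ⟨?_, ?_, ?_⟩
  · rw [← show szf [1, 63, 210, 630, 1120] 2 = 210 by decide, ← orbs_T.count T hT 2 (by decide)]
    congr 1
    ext U
    simp only [Set.mem_ofPred_eq, and_congr_right_iff]
    intro _
    rw [hd]
    unfold cT
    constructor
    · rintro ⟨h1, h2⟩
      rw [h1, ind_pos h2]; decide
    · intro h
      have h1 := find_spec [7, 5, 1, 3, 0] (2 * (T ∩ U).card + ind (T ∪ U)) (by rw [h]; decide)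
      rw [h] at h1
      have h2 : 2 * (T ∩ U).card + ind (T ∪ U) = 1 := h1.symm
      by_cases h3 : ∃ o ∈ octads, T ∪ U ⊆ o
      · exact ⟨by rw [ind_pos h3] at h2; omega, h3⟩
      · rw [ind_neg h3] at h2; omega
  · rw [← show szf [1, 63, 210, 630, 1120] 4 = 1120 by decide, ← orbs_T.count T hT 4 (by decide)]
    congr 1
    ext U
    simp only [Set.mem_ofPred_eq, and_congr_right_iff]
    intro _
    rw [hd]
    unfold cT
    constructor
    · rintro ⟨h1, h2⟩
      rw [h1, ind_neg h2]; decide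
    · intro h
      have h1 := find_spec [7, 5, 1, 3, 0] (2 * (T ∩ U).card + ind (T ∪ U)) (by rw [h]; decide)
      rw [h] at h1
      have h2 : 2 * (T ∩ U).card + ind (T ∪ U) = 0 := h1.symm
      refine ⟨by omega, fun h3 => ?_⟩
      rw [ind_pos h3] at h2; omega
  · intro U U' hU hU' h h' hiff
    refine orbs_T.trans T hT U hU U' hU' ?_
    rw [hd] at h h'
    unfold cT
    rw [h, h']
    congr 2
    by_cases h3 : ∃ o ∈ octads, T ∪ U ⊆ o
    · rw [ind_pos h3, ind_pos (hiff.1 h3)]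
    · rw [ind_neg h3, ind_neg (fun h4 => h3 (hiff.2 h4))]

end Cfsg.Agent.S1562
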