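import Cfsg.Statements.S1563
import Cfsg.Agent.L.Orb.Use
import Cfsg.Agent.L.Orb.O_duad_duad

set_option autoImplicit false
open scoped Pointwise
open Cfsg

namespace Cfsg.Agent.S1563
open CfsgL.Orb

/-- The stabiliser of a pair of points (setwise) is a maximal proper subgroup of the group of the length-24 code. -/
theorem result (s : Finset Cfsg.GolayPt) (hs : s.card = 2) : IsCoatom (MulAction.stabilizer Cfsg.M24 s) := by
  have h0 : ∀ a ∈ {s : Finset GolayPt | s.card = 2}, find [4, 1, 0] (isum (sg a) (sg a)) = 0 := fun a ha => by
    rw [isum_sg, Finset.inter_self, show a.card = 2 from ha]; decide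
  exact orbs_duad_duad.coatom (N := 276) (by decide) h0 (by decide) (by decide) (trans_of_base base_duad)
    (by rw [ncard_card]; decide +kernel) (by decide +kernel) hs

end Cfsg.Agent.S1563
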