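import Cfsg.Statements.S1564
import Cfsg.Agent.L.Orb.O3
import Cfsg.Agent.L.Orb.Misc

set_option autoImplicit false
open scoped Pointwise
open Cfsg

namespace Cfsg.Agent.S1564
open CfsgL.Orb

/-- The stabiliser of a set of three points (setwise) is a maximal proper subgroup of the group of the length-24 code. -/
theorem result (s : Finset Cfsg.GolayPt) (hs : s.card = 3) : IsCoatom (MulAction.stabilizer Cfsg.M24 s) := by
  have h0 : ∀ a ∈ {s : Finset GolayPt | s.card = 3}, cT a a = 0 := fun a ha => by
    unfold cT
    rw [Finset.inter_self, Finset.union_self, show a.card = 3 from ha]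
    obtain ⟨O, hO, h1, _⟩ := CfsgL.Golay.exists_octad a ∅ (Finset.disjoint_empty_right _)
      (by rw [show a.card = 3 from ha]; simp)
    rw [ind_pos ⟨O, hO, h1⟩]
    decide
  exact orbs_T.coatom (N := 2024) (by decide) h0 (by decide) (by decide) (trans_of_base base_triad)
    (by rw [ncard_card]; decide +kernel) (by decide +kernel) hs

end Cfsg.Agent.S1564
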