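import Cfsg.Statements.S1565
import Cfsg.Agent.L.Orb.Use

set_option autoImplicit false
open scoped Pointwise
open Cfsg

namespace Cfsg.Agent.S1565
open CfsgL.Orb

/-- The stabiliser of an octad is a maximal proper subgroup of the group of the length-24 code. -/
theorem result (o : Finset Cfsg.GolayPt) (ho : o ∈ Cfsg.octads) : IsCoatom (MulAction.stabilizer Cfsg.M24 o) := by
  have h0 : ∀ a ∈ octads, find [64, 0, 16, 4] (isum (sg a) (sg a)) = 0 := fun a ha => by
    rw [isum_sg, Finset.inter_self, ha.2]; decide
  exact orbs_oct_oct.coatom (by decide) h0 (by decide) (by decide) (trans_of_base base_oct)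
    CfsgL.Golay.octads_ncard (by decide +kernel) ho

end Cfsg.Agent.S1565
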