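import Cfsg.Statements.S1566
import Cfsg.Agent.L.Orb.Use
import Cfsg.Agent.L.Orb.O_dpair_dpair

set_option autoImplicit false
open scoped Pointwise
open Cfsg

namespace Cfsg.Agent.S1566
open CfsgL.Orb

/-- The setwise stabiliser of a dodecad together with its complement is a maximal proper subgroup of the group of the length-24 code. -/
theorem result (d : Finset Cfsg.GolayPt) (hd : d ∈ Cfsg.dodecads) : IsCoatom (MulAction.stabilizer Cfsg.M24 ({d, dᶜ} : Finset (Finset Cfsg.GolayPt))) := by
  have h0 : ∀ a ∈ dpairs, find [288, 160, 144] (isum (id a) (id a)) = 0 := fun a ha => by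
    rw [id, isum_dpair ha]; decide
  exact orbs_dpair_dpair.coatom (by decide) h0 (by decide) (by decide) (trans_of_base base_dpair)
    dpairs_ncard (by decide +kernel) ⟨d, hd, rfl⟩

end Cfsg.Agent.S1566
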