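import Cfsg.Statements.S1569
import Cfsg.Agent.L.Lat.Co2

set_option autoImplicit false
open scoped Pointwise
open Cfsg

namespace Cfsg.Agent.S1569
open CfsgL.Lat
open Finset

/-- The cross through a lattice vector of customary norm 8 has exactly 48 members. -/
theorem result (x : Cfsg.GolayPt → ℤ) (hx : x ∈ Cfsg.leechLattice) (hxn : Cfsg.sqNorm x = 64) : (Cfsg.cross x).ncard = 48 := by
  have h0 := bb_self ⟨x, hx⟩
  change 8 * bb ⟨x, hx⟩ ⟨x, hx⟩ = Cfsg.sqNorm x at h0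
  have h1 := class48 rl (x := ⟨x, hx⟩) (by omega)
  rw [← h1, ← Set.ncard_image_of_injective _ Subtype.val_injective]
  congr 1
  ext y
  constructor
  · rintro ⟨hy, hn, z, hz, hyz⟩
    refine ⟨⟨y, hy⟩, ⟨?_, ⟨z, hz⟩, ?_⟩, rfl⟩
    · have h2 := bb_self ⟨y, hy⟩
      change 8 * bb ⟨y, hy⟩ ⟨y, hy⟩ = Cfsg.sqNorm y at h2
      omega
    · apply Subtype.ext
      change x - y = z + z
      rw [hyz, two_smul]
  · rintro ⟨y', ⟨hy, z, hz⟩, rfl⟩
    refine ⟨y'.2, ?_, z.1, z.2, ?_⟩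
    · rw [← bb_self, hy, hxn]; norm_num
    · have h2 := congrArg Subtype.val hz
      change x - y'.1 = z.1 + z.1 at h2
      rw [h2, two_smul]

end Cfsg.Agent.S1569
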