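import Cfsg.Statements.S1570
import Cfsg.Agent.L.Lat.Co2

set_option autoImplicit false
open Cfsg

namespace Cfsg.Agent.S1570
open CfsgL.Lat
open Finset

/-- Every congruence class of the lattice modulo twice the lattice contains a vector of customary norm at most 8. -/
theorem result (x : Cfsg.GolayPt → ℤ) (hx : x ∈ Cfsg.leechLattice) : ∃ y ∈ Cfsg.leechLattice, Cfsg.sqNorm y ≤ 64 ∧ ∃ z ∈ Cfsg.leechLattice, x - y = 2 • z := by
  obtain ⟨y, z, h1, h2⟩ := short_rep rl ⟨x, hx⟩
  refine ⟨y.1, y.2, ?_, z.1, z.2, ?_⟩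
  · rw [← bb_self]; omega
  · have h3 := congrArg Subtype.val h1
    change x - y.1 = z.1 + z.1 at h3
    rw [h3, two_smul]

end Cfsg.Agent.S1570
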