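import Cfsg.Statements.S1571
import Cfsg.Agent.L.Lat.Co2

set_option autoImplicit false
open scoped Pointwise
open Cfsg

namespace Cfsg.Agent.S1571
open CfsgL.Lat
open Finset
open CfsgL.Golay
open CfsgL.Leech

/-- The stabiliser of the standard cross in the automorphism group of the lattice is the monomial group of the code: each of its elements acts as a signed permutation with permutation part in the code's group and sign set a codeword, and it has order 4096 · 244823040. -/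
theorem result : (∀ g : ↥Cfsg.Co0, (∀ v : ↥Cfsg.leechLattice, (v : Cfsg.GolayPt → ℤ) ∈ Cfsg.stdCross → ((g • v : ↥Cfsg.leechLattice) : Cfsg.GolayPt → ℤ) ∈ Cfsg.stdCross) → ∃ f ∈ Cfsg.golayMonomialMaps, ∀ v : ↥Cfsg.leechLattice, ((g • v : ↥Cfsg.leechLattice) : Cfsg.GolayPt → ℤ) = f (v : Cfsg.GolayPt → ℤ)) ∧ Nat.card {g : ↥Cfsg.Co0 // (∀ v : ↥Cfsg.leechLattice, (v : Cfsg.GolayPt → ℤ) ∈ Cfsg.stdCross → ((g • v : ↥Cfsg.leechLattice) : Cfsg.GolayPt → ℤ) ∈ Cfsg.stdCross)} = 4096 * 244823040 := by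
  refine ⟨?_, ?_⟩
  · intro g hg
    obtain ⟨σ, c, rfl⟩ := mono_of hg
    exact ⟨Cfsg.signedPerm σ.1 c.1, ⟨σ.1, σ.2, c.1, c.2, rfl⟩, fun v => rfl⟩
  · rw [← card_Sup, ← card_M24, mul_comm, ← Nat.card_prod]
    symm
    apply Nat.card_congr
    refine Equiv.ofBijective (fun x => ⟨mono x.1 x.2, ?_⟩) ⟨?_, ?_⟩
    · intro v hv
      exact mono_std _ _ v hv
    · intro x y hxy
      have h1 : mono x.1 x.2 = mono y.1 y.2 := congrArg Subtype.val hxy
      obtain ⟨h2, h3⟩ := mono_inj h1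
      exact Prod.ext h2 h3
    · rintro ⟨g, hg⟩
      obtain ⟨σ, c, rfl⟩ := mono_of hg
      exact ⟨(σ, c), rfl⟩

end Cfsg.Agent.S1571
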