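import Cfsg.Statements.S1574
import Cfsg.Agent.L.Lat.Pairs

set_option autoImplicit false
open Cfsg

namespace Cfsg.Agent.S1574
open CfsgL.Lat
open Finset

/-- The stabiliser of a minimal vector is transitive on the minimal vectors of customary inner product −2 with it. -/
theorem result (v w w' : ↥Cfsg.leechLattice) (hv : Cfsg.sqNorm (v : Cfsg.GolayPt → ℤ) = 32) (hw : Cfsg.sqNorm (w : Cfsg.GolayPt → ℤ) = 32) (hw' : Cfsg.sqNorm (w' : Cfsg.GolayPt → ℤ) = 32) (hd : Cfsg.dotInt (v : Cfsg.GolayPt → ℤ) (w : Cfsg.GolayPt → ℤ) = -16) (hd' : Cfsg.dotInt (v : Cfsg.GolayPt → ℤ) (w' : Cfsg.GolayPt → ℤ) = -16) : ∃ g : ↥Cfsg.Co0, g • v = v ∧ g • w = w' := by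
  obtain ⟨p, q, r, hpq, hpr, hqr⟩ := two_pts'
  exact trans_of_nf2 (nf16 hv hw hd hpq hpr hqr) (nf16 hv hw' hd' hpq hpr hqr)

end Cfsg.Agent.S1574
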