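import Cfsg.Statements.S1578
import Cfsg.Agent.L.Lat.McL

set_option autoImplicit false
open Cfsg

namespace Cfsg.Agent.S1578
open CfsgL.Lat
open Finset

/-- A lattice vector of customary norm 6 is the sum of an unordered pair of minimal vectors in exactly 276 ways (552 ordered summands). -/
theorem result (u : ↥Cfsg.leechLattice) (hu : Cfsg.sqNorm (u : Cfsg.GolayPt → ℤ) = 48) : {v : ↥Cfsg.leechLattice | Cfsg.sqNorm (v : Cfsg.GolayPt → ℤ) = 32 ∧ Cfsg.sqNorm ((u - v) : Cfsg.GolayPt → ℤ) = 32}.ncard = 552 := by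
  obtain ⟨g, hg⟩ := nf48 u hu none
  rw [ncard_transfer g (T := {x : Cfsg.leechLattice | Cfsg.sqNorm x.1 = 32 ∧ ∑ i, x.1 i + 4 * x.1 none = 24})]
  · rw [ncard_coe (fun x => Cfsg.sqNorm x = 32 ∧ ∑ i, x i + 4 * x none = 24)]
    exact card552 none
  · intro x
    show (Cfsg.sqNorm x.1 = 32 ∧ Cfsg.sqNorm (u.1 - x.1) = 32) ↔ (Cfsg.sqNorm (g • x).1 = 32 ∧ ∑ i, (g • x).1 i + 4 * (g • x).1 none = 24)
    rw [norm_sub_iff hu, co_norm, ← dot_v1_5]
    have h1 := co_dot g u x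
    rw [hg, dot_comm] at h1
    have h2 : Cfsg.dotInt (g • x).1 (v1 none 5) = Cfsg.dotInt u.1 x.1 := h1
    rw [h2]

end Cfsg.Agent.S1578
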