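import Cfsg.Statements.S1579
import Cfsg.Agent.L.Lat.Pairs

set_option autoImplicit false
open Cfsg

namespace Cfsg.Agent.S1579
open CfsgL.Lat
open Finset

/-- The stabiliser of a vector of customary norm 6 is transitive on the 552 minimal vectors that complete it to a sum of two minimal vectors. -/
theorem result (u v v' : ↥Cfsg.leechLattice) (hu : Cfsg.sqNorm (u : Cfsg.GolayPt → ℤ) = 48) (hv : Cfsg.sqNorm (v : Cfsg.GolayPt → ℤ) = 32 ∧ Cfsg.sqNorm ((u - v) : Cfsg.GolayPt → ℤ) = 32) (hv' : Cfsg.sqNorm (v' : Cfsg.GolayPt → ℤ) = 32 ∧ Cfsg.sqNorm ((u - v') : Cfsg.GolayPt → ℤ) = 32) : ∃ g : ↥Cfsg.Co0, g • u = u ∧ g • v = v' := by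
  obtain ⟨p, q, r, hpq, hpr, hqr⟩ := two_pts'
  have key : ∀ v : Cfsg.leechLattice, Cfsg.sqNorm (v : Cfsg.GolayPt → ℤ) = 32 → Cfsg.sqNorm ((u - v) : Cfsg.GolayPt → ℤ) = 32 →
      Cfsg.dotInt v.1 (u - v).1 = -8 := by
    intro v h1 h2
    rw [norm_sub, hu, h1, dot_comm] at h2
    rw [coe_sub', dot_sub_r, ← sqNorm_eq_dot, h1]
    omega
  obtain ⟨g, h1, h2⟩ := trans_of_nf2 (nf8 (w := u - v) hv.1 hv.2 (key v hv.1 hv.2) hpq)
    (nf8 (w := u - v') hv'.1 hv'.2 (key v' hv'.1 hv'.2) hpq)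
  refine ⟨g, ?_, h1⟩
  rw [co_sub, h1] at h2
  exact sub_left_inj.1 h2

end Cfsg.Agent.S1579
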