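import Cfsg.Statements.S1580
import Cfsg.Agent.L.Lat.McL

set_option autoImplicit false
open Cfsg

namespace Cfsg.Agent.S1580
open CfsgL.Lat
open Finset

/-- The McLaughlin configuration: for u of customary norm 6 and v minimal with u − v minimal, there are 275 further such summands x of customary inner product 2 with v, permuted transitively by the stabiliser of u and v. -/
theorem result (u v : ↥Cfsg.leechLattice) (hu : Cfsg.sqNorm (u : Cfsg.GolayPt → ℤ) = 48) (hv : Cfsg.sqNorm (v : Cfsg.GolayPt → ℤ) = 32 ∧ Cfsg.sqNorm ((u - v) : Cfsg.GolayPt → ℤ) = 32) : {x : ↥Cfsg.leechLattice | Cfsg.sqNorm (x : Cfsg.GolayPt → ℤ) = 32 ∧ Cfsg.sqNorm ((u - x) : Cfsg.GolayPt → ℤ) = 32 ∧ Cfsg.dotInt (v : Cfsg.GolayPt → ℤ) (x : Cfsg.GolayPt → ℤ) = 16}.ncard = 275 ∧ ∀ x ∈ {x : ↥Cfsg.leechLattice | Cfsg.sqNorm (x : Cfsg.GolayPt → ℤ) = 32 ∧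 Cfsg.sqNorm ((u - x) : Cfsg.GolayPt → ℤ) = 32 ∧ Cfsg.dotInt (v : Cfsg.GolayPt → ℤ) (x : Cfsg.GolayPt → ℤ) = 16}, ∀ x' ∈ {x : ↥Cfsg.leechLattice | Cfsg.sqNorm (x : Cfsg.GolayPt → ℤ) = 32 ∧ Cfsg.sqNorm ((u - x) : Cfsg.GolayPt → ℤ) = 32 ∧ Cfsg.dotInt (v : Cfsg.GolayPt → ℤ) (x : Cfsg.GolayPt → ℤ) = 16}, ∃ g : ↥Cfsg.Co0, g • u = u ∧ g • v = v ∧ g • x = x' := by
  obtain ⟨p, q, r, hpq, hpr, hqr⟩ := two_pts'
  have hv' := (norm_sub_iff hu).1 hv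
  obtain ⟨g, hg1, hg2⟩ := nfU hu hv'.1 hv'.2 hpq
  refine ⟨?_, ?_⟩
  · rw [ncard_transfer g (T := {x : Cfsg.leechLattice | Cfsg.sqNorm x.1 = 32 ∧ ∑ i, x.1 i + 4 * x.1 q = 24 ∧ x.1 p + x.1 q = 4})]
    · rw [ncard_coe (fun x => Cfsg.sqNorm x = 32 ∧ ∑ i, x i + 4 * x q = 24 ∧ x p + x q = 4)]
      exact card275 hpq
    · intro x
      show (Cfsg.sqNorm x.1 = 32 ∧ Cfsg.sqNorm (u.1 - x.1) = 32 ∧ Cfsg.dotInt v.1 x.1 = 16) ↔ (Cfsg.sqNorm (g • x).1 = 32 ∧ ∑ i, (g • x).1 i + 4 * (g • x).1 q = 24 ∧ (g • x).1 p + (g • x).1 q = 4)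
      rw [← and_assoc, norm_sub_iff hu, co_norm, ← dot_v1_5]
      have h1 := co_dot g u x
      rw [hg1, dot_comm] at h1
      have h2 := co_dot g v x
      rw [hg2, dot_v2'] at h2
      rw [h1, ← h2, and_assoc]
      constructor
      · rintro ⟨a, b, c⟩; exact ⟨a, b, by linarith⟩
      · rintro ⟨a, b, c⟩; exact ⟨a, b, by linarith⟩
  · rintro x ⟨hx1, hx2, hx3⟩ x' ⟨hx1', hx2', hx3'⟩
    have a1 := (norm_sub_iff hu).1 ⟨hx1, hx2⟩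
    have a2 := (norm_sub_iff hu).1 ⟨hx1', hx2'⟩
    exact trans_of_nf3 (nf275 hu hv'.1 a1.1 hv'.2 a1.2 hx3 hpq hpr hqr)
      (nf275 hu hv'.1 a2.1 hv'.2 a2.2 hx3' hpq hpr hqr)

end Cfsg.Agent.S1580
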