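import Cfsg.Statements.S1581
import Cfsg.Agent.L.Lat.McL2

set_option autoImplicit false
open Cfsg

namespace Cfsg.Agent.S1581
open CfsgL.Lat
open Finset

/-- The McLaughlin group acts with rank 3 and subdegrees 1, 112, 162 on its 275 points: the point stabiliser has two orbits on the remaining points, distinguished by customary inner product 1 or 2 with the fixed point. -/
theorem result (u v x : ↥Cfsg.leechLattice) (hu : Cfsg.sqNorm (u : Cfsg.GolayPt → ℤ) = 48) (hv : Cfsg.sqNorm (v : Cfsg.GolayPt → ℤ) = 32 ∧ Cfsg.sqNorm ((u - v) : Cfsg.GolayPt → ℤ) = 32) (hx : x ∈ {x : ↥Cfsg.leechLattice | Cfsg.sqNorm (x : Cfsg.GolayPt → ℤ) = 32 ∧ Cfsg.sqNorm ((u - x) : Cfsg.GolayPt → ℤ) = 32 ∧ Cfsg.dotInt (v : Cfsg.GolayPt → ℤ) (x : Cfsg.GolayPt → ℤ) = 16}) : {y : ↥Cfsg.leechLattice | y ∈ {x : ↥Cfsg.leechLattice | Cfsg.sqNorm (x : Cfsg.GolayPt → ℤ) = 32 ∧ Cfsg.sqNorm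 ((u - x) : Cfsg.GolayPt → ℤ) = 32 ∧ Cfsg.dotInt (v : Cfsg.GolayPt → ℤ) (x : Cfsg.GolayPt → ℤ) = 16} ∧ Cfsg.dotInt (x : Cfsg.GolayPt → ℤ) (y : Cfsg.GolayPt → ℤ) = 8}.ncard = 112 ∧ {y : ↥Cfsg.leechLattice | y ∈ {x : ↥Cfsg.leechLattice | Cfsg.sqNorm (x : Cfsg.GolayPt → ℤ) = 32 ∧ Cfsg.sqNorm ((u - x) : Cfsg.GolayPt → ℤ) = 32 ∧ Cfsg.dotInt (v : Cfsg.GolayPt → ℤ) (x : Cfsg.GolayPt → ℤ) = 16} ∧ y ≠ x ∧ Cfsg.dotInt (x : Cfsg.GolayPt → ℤ) (y : Cfsg.GolayPt → ℤ) = 16}.ncard = 162 ∧ ∀ y ∈ {x : ↥Cfsg.leechLattice | Cfsg.sqNorm (x : Cfsg.GolayPt → ℤ) = 32 ∧ Cfsg.sqNorm ((u - x) : Cfsg.GolayPt → ℤ) = 32 ∧ Cfsg.dotInt (v : Cfsg.GolayPt → ℤ) (x : Cfsg.GolayPt → ℤ) = 16}, ∀ y' ∈ {x : ↥Cfsg.leechLattice | Cfsg.sqNorm (x : Cfsg.GolayPt → ℤ) = 32 ∧ Cfsg.sqNorm ((u - x) : Cfsg.GolayPt → ℤ) = 32 ∧ Cfsg.dotInt (v : Cfsg.GolayPt → ℤ) (x : Cfsg.GolayPt → ℤ) = 16}, y ≠ x → y' ≠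 x → Cfsg.dotInt (x : Cfsg.GolayPt → ℤ) (y : Cfsg.GolayPt → ℤ) = Cfsg.dotInt (x : Cfsg.GolayPt → ℤ) (y' : Cfsg.GolayPt → ℤ) → ∃ g : ↥Cfsg.Co0, g • u = u ∧ g • v = v ∧ g • x = x ∧ g • y = y' := by
  obtain ⟨p, q, r, hpq, hpr, hqr⟩ := two_pts'
  have hv' := (norm_sub_iff hu).1 hv
  obtain ⟨hx1, hx2, hx3⟩ := hx
  have hx' := (norm_sub_iff hu).1 ⟨hx1, hx2⟩
  obtain ⟨g, hg1, hg2, hg3⟩ := nf275 hu hv'.1 hx'.1 hv'.2 hx'.2 hx3 hpq hpr hqr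
  have hU : ∀ y : Cfsg.leechLattice, ∑ i, (g • y).1 i + 4 * (g • y).1 q = Cfsg.dotInt u.1 y.1 := by
    intro y
    have h1 := co_dot g u y
    rw [hg1, dot_comm, dot_v1_5] at h1
    exact h1
  have hV : ∀ y : Cfsg.leechLattice, Cfsg.dotInt v.1 y.1 = 4 * (g • y).1 p + 4 * (g • y).1 q := by
    intro y
    have h1 := co_dot g v y
    rw [hg2, dot_v2'] at h1
    exact h1.symm
  have hX : ∀ y : Cfsg.leechLattice, Cfsg.dotInt x.1 y.1 = 4 * (g • y).1 q + 4 * (g • y).1 r := by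
    intro y
    have h1 := co_dot g x y
    rw [hg3, dot_v2'] at h1
    exact h1.symm
  refine ⟨?_, ?_, ?_⟩
  · rw [ncard_transfer g (T := {x : Cfsg.leechLattice | Cfsg.sqNorm x.1 = 32 ∧ ∑ i, x.1 i + 4 * x.1 q = 24 ∧ (x.1 p + x.1 q = 4 ∧ x.1 q + x.1 r = 2)})]
    · rw [ncard_coe (fun x => Cfsg.sqNorm x = 32 ∧ ∑ i, x i + 4 * x q = 24 ∧ (x p + x q = 4 ∧ x q + x r = 2))]
      exact card112 hpq hpr hqr
    · intro y
      show ((Cfsg.sqNorm y.1 = 32 ∧ Cfsg.sqNorm (u.1 - y.1) = 32 ∧ Cfsg.dotInt v.1 y.1 = 16) ∧ Cfsg.dotInt x.1 y.1 = 8) ↔ (Cfsg.sqNorm (g • y).1 = 32 ∧ ∑ i, (g • y).1 i + 4 * (g • y).1 q = 24 ∧ ((g • y).1 p + (g • y).1 q = 4 ∧ (g • y).1 q + (g • y).1 r = 2))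
      constructor
      · rintro ⟨⟨a, b, c⟩, d⟩
        obtain ⟨a', b'⟩ := (norm_sub_iff hu).1 ⟨a, b⟩
        rw [hV] at c
        rw [hX] at d
        exact ⟨by rw [co_norm]; exact a, by rw [hU]; exact b', by linarith, by linarith⟩
      · rintro ⟨a, b, c, d⟩
        rw [co_norm] at a
        rw [hU] at b
        obtain ⟨a', b'⟩ := (norm_sub_iff hu).2 ⟨a, b⟩
        exact ⟨⟨a', b', by rw [hV]; linarith⟩, by rw [hX]; linarith⟩
  · rw [ncard_transfer g (T := {x : Cfsg.leechLattice | Cfsg.sqNorm x.1 = 32 ∧ ∑ i, x.1 i + 4 * x.1 q = 24 ∧ (x.1 p + x.1 q = 4 ∧ x.1 ≠ v2 q r 4 4 ∧ x.1 q + x.1 r = 4)})]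
    · rw [ncard_coe (fun x => Cfsg.sqNorm x = 32 ∧ ∑ i, x i + 4 * x q = 24 ∧ (x p + x q = 4 ∧ x ≠ v2 q r 4 4 ∧ x q + x r = 4))]
      exact card162 hpq hpr hqr
    · intro y
      show ((Cfsg.sqNorm y.1 = 32 ∧ Cfsg.sqNorm (u.1 - y.1) = 32 ∧ Cfsg.dotInt v.1 y.1 = 16) ∧ y ≠ x ∧ Cfsg.dotInt x.1 y.1 = 16) ↔ (Cfsg.sqNorm (g • y).1 = 32 ∧ ∑ i, (g • y).1 i + 4 * (g • y).1 q = 24 ∧ ((g • y).1 p + (g • y).1 q = 4 ∧ (g • y).1 ≠ v2 q r 4 4 ∧ (g • y).1 q + (g • y).1 r = 4))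
      have hne : y ≠ x ↔ (g • y).1 ≠ v2 q r 4 4 := by
        rw [← hg3, not_iff_not]
        constructor
        · rintro rfl; rfl
        · intro h; exact MulAction.injective g (Subtype.ext h)
      constructor
      · rintro ⟨⟨a, b, c⟩, e, d⟩
        obtain ⟨a', b'⟩ := (norm_sub_iff hu).1 ⟨a, b⟩
        rw [hV] at c
        rw [hX] at d
        exact ⟨by rw [co_norm]; exact a, by rw [hU]; exact b', by linarith, hne.1 e, by linarith⟩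
      · rintro ⟨a, b, c, e, d⟩
        rw [co_norm] at a
        rw [hU] at b
        obtain ⟨a', b'⟩ := (norm_sub_iff hu).2 ⟨a, b⟩
        exact ⟨⟨a', b', by rw [hV]; linarith⟩, hne.2 e, by rw [hX]; linarith⟩
  · rintro y ⟨hy1, hy2, hy3⟩ y' ⟨hy1', hy2', hy3'⟩ hne hne' hd
    have a1 := (norm_sub_iff hu).1 ⟨hy1, hy2⟩
    have a2 := (norm_sub_iff hu).1 ⟨hy1', hy2'⟩
    have hcases : ∀ y : Cfsg.leechLattice, Cfsg.sqNorm y.1 = 32 → Cfsg.dotInt u.1 y.1 = 24 → Cfsg.dotInt v.1 y.1 = 16 → y ≠ x →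
        Cfsg.dotInt x.1 y.1 = 16 ∨ Cfsg.dotInt x.1 y.1 = 8 := by
      intro y b1 b2 b3 b4
      rw [hV] at b3
      rw [hX]
      have b5 := hU y
      rw [b2] at b5
      rcases cls552 (g • y).2 (by rw [co_norm, b1]) q b5 with ⟨j, hj, h⟩ | ⟨O, hO, hq, h⟩ | ⟨j, hj, h⟩ | ⟨O, hO, hq, h⟩
      · left
        rw [h, v2_apply hj.symm, v2_apply hj.symm, if_pos rfl, if_neg hqr.symm, if_neg]
        · norm_num
        · rintro rfl
          exact b4 (MulAction.injective g (Subtype.ext (h.trans hg3.symm)))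
      · rw [h, cv0, cv0, if_pos hq]
        by_cases hr : r ∈ O
        · rw [if_pos hr]; left; norm_num
        · rw [if_neg hr]; right; norm_num
      · exfalso
        rw [h] at b3
        unfold v1 at b3
        rw [if_neg (Ne.symm hj)] at b3
        split_ifs at b3 <;> omega
      · have e2 : vD q O q = 3 := by unfold vD; rw [if_pos rfl]
        have e3 : vD q O r = if r ∈ O then -1 else 1 := by unfold vD; rw [if_neg hqr.symm]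
        rw [h, e2, e3]
        by_cases hr : r ∈ O
        · rw [if_pos hr]; right; norm_num
        · rw [if_neg hr]; left; norm_num
    rcases hcases y a1.1 a1.2 hy3 hne with h16 | h8
    · have h16' : Cfsg.dotInt x.1 y'.1 = 16 := by rw [← hd]; exact h16
      obtain ⟨s, hs⟩ : ∃ s : Cfsg.GolayPt, s ∉ ({p, q, r} : Finset Cfsg.GolayPt) := by
        by_contra hno
        push Not at hno
        have h1 : (Finset.univ : Finset Cfsg.GolayPt) ⊆ {p, q, r} := fun x _ => hno x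
        have h2 := Finset.card_le_card h1
        rw [Finset.card_univ, CfsgL.Leech.card_pt] at h2
        have h3 := Finset.card_le_three (a := p) (b := q) (c := r)
        omega
      rw [Finset.mem_insert, Finset.mem_insert, Finset.mem_singleton, not_or, not_or] at hs
      exact trans_of_nf4 (nf162 hu hv'.1 hx'.1 a1.1 hv'.2 hx'.2 a1.2 hx3 hy3 h16 hpq hpr hqr (Ne.symm hs.1) (Ne.symm hs.2.1) (Ne.symm hs.2.2))
        (nf162 hu hv'.1 hx'.1 a2.1 hv'.2 hx'.2 a2.2 hx3 hy3' h16' hpq hpr hqr (Ne.symm hs.1) (Ne.symm hs.2.1) (Ne.symm hs.2.2))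
    · have h8' : Cfsg.dotInt x.1 y'.1 = 8 := by rw [← hd]; exact h8
      obtain ⟨O, hO, hsub, hdis⟩ := CfsgL.Golay.exists_octad {p, q} {r} (by
        rw [Finset.disjoint_singleton_right, Finset.mem_insert, Finset.mem_singleton, not_or]
        exact ⟨hpr.symm, hqr.symm⟩) (by rw [Finset.card_pair hpq]; simp)
      rw [Finset.disjoint_singleton_left] at hdis
      exact trans_of_nf4 (nf112 hu hv'.1 hx'.1 a1.1 hv'.2 hx'.2 a1.2 hx3 hy3 h8 hpq hpr hqr hO (hsub (by simp)) (hsub (by simp)) hdis)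
        (nf112 hu hv'.1 hx'.1 a2.1 hv'.2 hx'.2 a2.2 hx3 hy3' h8' hpq hpr hqr hO (hsub (by simp)) (hsub (by simp)) hdis)

end Cfsg.Agent.S1581
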