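import Cfsg.Statements.S1583
import Cfsg.Agent.L.Lat.HS2

set_option autoImplicit false
open Cfsg

namespace Cfsg.Agent.S1583
open CfsgL.Lat
open Finset

/-- The Higman–Sims configuration: for two vectors of customary norm 6 with inner product −4, exactly 100 minimal vectors have customary inner products 3 and −3 with them, and the joint stabiliser permutes these transitively. -/
theorem result (v w : ↥Cfsg.leechLattice) (hv : Cfsg.sqNorm (v : Cfsg.GolayPt → ℤ) = 48) (hw : Cfsg.sqNorm (w : Cfsg.GolayPt → ℤ) = 48) (hvw : Cfsg.dotInt (v : Cfsg.GolayPt → ℤ) (w : Cfsg.GolayPt → ℤ) = -32) : {x : ↥Cfsg.leechLattice | Cfsg.sqNorm (x : Cfsg.GolayPt → ℤ) = 32 ∧ Cfsg.dotInt (v : Cfsg.GolayPt → ℤ) (x : Cfsg.GolayPt → ℤ) = 24 ∧ Cfsg.dotInt (w : Cfsg.GolayPt → ℤ) (x : Cfsg.GolayPt → ℤ) = -24}.ncard = 100 ∧ ∀ x ∈ {x :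 ↥Cfsg.leechLattice | Cfsg.sqNorm (x : Cfsg.GolayPt → ℤ) = 32 ∧ Cfsg.dotInt (v : Cfsg.GolayPt → ℤ) (x : Cfsg.GolayPt → ℤ) = 24 ∧ Cfsg.dotInt (w : Cfsg.GolayPt → ℤ) (x : Cfsg.GolayPt → ℤ) = -24}, ∀ x' ∈ {x : ↥Cfsg.leechLattice | Cfsg.sqNorm (x : Cfsg.GolayPt → ℤ) = 32 ∧ Cfsg.dotInt (v : Cfsg.GolayPt → ℤ) (x : Cfsg.GolayPt → ℤ) = 24 ∧ Cfsg.dotInt (w : Cfsg.GolayPt → ℤ) (x : Cfsg.GolayPt → ℤ) = -24}, ∃ g : ↥Cfsg.Co0, g • v = v ∧ g • w = w ∧ g • x = x' := by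
  obtain ⟨p, q, r, hpq, hpr, hqr⟩ := two_pts'
  obtain ⟨g, h1, h2⟩ := nfHS2 hv hw hvw hpq
  refine ⟨?_, ?_⟩
  · rw [ncard_transfer g (T := {x : Cfsg.leechLattice | Cfsg.sqNorm x.1 = 32 ∧ ∑ i, x.1 i + 4 * x.1 p = 24 ∧ x.1 p = x.1 q})]
    · rw [ncard_coe (fun x => Cfsg.sqNorm x = 32 ∧ ∑ i, x i + 4 * x p = 24 ∧ x p = x q)]
      exact card100 hpq
    · intro x
      show (Cfsg.sqNorm x.1 = 32 ∧ Cfsg.dotInt v.1 x.1 = 24 ∧ Cfsg.dotInt w.1 x.1 = -24) ↔ (Cfsg.sqNorm (g • x).1 = 32 ∧ ∑ i, (g • x).1 i + 4 * (g • x).1 p = 24 ∧ (g • x).1 p = (g • x).1 q)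
      rw [hs_cond h1 h2, co_norm]
  · rintro x ⟨hx1, hx2, hx3⟩ x' ⟨hx1', hx2', hx3'⟩
    obtain ⟨k, k1, k2, k3⟩ := trans_of_nf3 (nfHS hv hw hvw hx1 hx2 hx3 hpq) (nfHS hv hw hvw hx1' hx2' hx3' hpq)
    refine ⟨k, k1, ?_, k3⟩
    rw [co_add, k1] at k2
    exact add_left_cancel k2

end Cfsg.Agent.S1583
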