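import Cfsg.Statements.S1584
import Cfsg.Agent.L.Lat.HS2

set_option autoImplicit false
open Cfsg

namespace Cfsg.Agent.S1584
open CfsgL.Lat
open Finset

/-- The Higman–Sims group acts with rank 3 and subdegrees 1, 22, 77 on its 100 points, the orbits of a point stabiliser being distinguished by customary inner product 1 with the fixed point. -/
theorem result (v w x : ↥Cfsg.leechLattice) (hv : Cfsg.sqNorm (v : Cfsg.GolayPt → ℤ) = 48) (hw : Cfsg.sqNorm (w : Cfsg.GolayPt → ℤ) = 48) (hvw : Cfsg.dotInt (v : Cfsg.GolayPt → ℤ) (w : Cfsg.GolayPt → ℤ) = -32) (hx : x ∈ {x : ↥Cfsg.leechLattice | Cfsg.sqNorm (x : Cfsg.GolayPt → ℤ) = 32 ∧ Cfsg.dotInt (v : Cfsg.GolayPt → ℤ) (x : Cfsg.GolayPt → ℤ) = 24 ∧ Cfsg.dotInt (w : Cfsg.GolayPt → ℤ) (x : Cfsg.GolayPt → ℤ) = -24}) : {y : ↥Cfsg.leechLattice | y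 ∈ {x : ↥Cfsg.leechLattice | Cfsg.sqNorm (x : Cfsg.GolayPt → ℤ) = 32 ∧ Cfsg.dotInt (v : Cfsg.GolayPt → ℤ) (x : Cfsg.GolayPt → ℤ) = 24 ∧ Cfsg.dotInt (w : Cfsg.GolayPt → ℤ) (x : Cfsg.GolayPt → ℤ) = -24} ∧ Cfsg.dotInt (x : Cfsg.GolayPt → ℤ) (y : Cfsg.GolayPt → ℤ) = 8}.ncard = 22 ∧ {y : ↥Cfsg.leechLattice | y ∈ {x : ↥Cfsg.leechLattice | Cfsg.sqNorm (x : Cfsg.GolayPt → ℤ) = 32 ∧ Cfsg.dotInt (v : Cfsg.GolayPt → ℤ) (x : Cfsg.GolayPt → ℤ) = 24 ∧ Cfsg.dotInt (w : Cfsg.GolayPt → ℤ) (x : Cfsg.GolayPt → ℤ) = -24} ∧ y ≠ x ∧ Cfsg.dotInt (x : Cfsg.GolayPt → ℤ) (y : Cfsg.GolayPt → ℤ) ≠ 8}.ncard = 77 ∧ ∀ y ∈ {x : ↥Cfsg.leechLattice | Cfsg.sqNorm (x : Cfsg.GolayPt → ℤ) = 32 ∧ Cfsg.dotInt (v : Cfsg.GolayPt → ℤ) (x : Cfsg.GolayPt → ℤ) = 24 ∧ Cfsg.dotInt (w : Cfsg.GolayPt → ℤ) (x : Cfsg.GolayPt → ℤ) = -24},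 ∀ y' ∈ {x : ↥Cfsg.leechLattice | Cfsg.sqNorm (x : Cfsg.GolayPt → ℤ) = 32 ∧ Cfsg.dotInt (v : Cfsg.GolayPt → ℤ) (x : Cfsg.GolayPt → ℤ) = 24 ∧ Cfsg.dotInt (w : Cfsg.GolayPt → ℤ) (x : Cfsg.GolayPt → ℤ) = -24}, y ≠ x → y' ≠ x → (Cfsg.dotInt (x : Cfsg.GolayPt → ℤ) (y : Cfsg.GolayPt → ℤ) = 8 ↔ Cfsg.dotInt (x : Cfsg.GolayPt → ℤ) (y' : Cfsg.GolayPt → ℤ) = 8) → ∃ g : ↥Cfsg.Co0, g • v = v ∧ g • w = w ∧ g • x = x ∧ g • y = y' := by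
  obtain ⟨p, q, r, hpq, hpr, hqr⟩ := two_pts'
  obtain ⟨hx1, hx2, hx3⟩ := hx
  obtain ⟨g, h1, h2, h3⟩ := nfHS hv hw hvw hx1 hx2 hx3 hpq
  have hX : ∀ y : Cfsg.leechLattice, Cfsg.dotInt x.1 y.1 = 4 * (g • y).1 p + 4 * (g • y).1 q := by
    intro y
    have h1 := co_dot g x y
    rw [h3, dot_v2'] at h1
    exact h1.symm
  refine ⟨?_, ?_, ?_⟩
  · rw [ncard_transfer g (T := {x : Cfsg.leechLattice | Cfsg.sqNorm x.1 = 32 ∧ ∑ i, x.1 i + 4 * x.1 p = 24 ∧ (x.1 p = x.1 q ∧ x.1 p + x.1 q = 2)})]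
    · rw [ncard_coe (fun x => Cfsg.sqNorm x = 32 ∧ ∑ i, x i + 4 * x p = 24 ∧ (x p = x q ∧ x p + x q = 2))]
      exact card22 hpq
    · intro y
      show ((Cfsg.sqNorm y.1 = 32 ∧ Cfsg.dotInt v.1 y.1 = 24 ∧ Cfsg.dotInt w.1 y.1 = -24) ∧ Cfsg.dotInt x.1 y.1 = 8) ↔ (Cfsg.sqNorm (g • y).1 = 32 ∧ ∑ i, (g • y).1 i + 4 * (g • y).1 p = 24 ∧ ((g • y).1 p = (g • y).1 q ∧ (g • y).1 p + (g • y).1 q = 2))
      rw [hs_cond h1 h2, co_norm, hX]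
      constructor
      · rintro ⟨⟨a, b, c⟩, d⟩; exact ⟨a, b, c, by linarith⟩
      · rintro ⟨a, b, c, d⟩; exact ⟨⟨a, b, c⟩, by linarith⟩
  · rw [ncard_transfer g (T := {x : Cfsg.leechLattice | Cfsg.sqNorm x.1 = 32 ∧ ∑ i, x.1 i + 4 * x.1 p = 24 ∧ (x.1 p = x.1 q ∧ x.1 ≠ v2 p q 4 4 ∧ x.1 p + x.1 q ≠ 2)})]
    · rw [ncard_coe (fun x => Cfsg.sqNorm x = 32 ∧ ∑ i, x i + 4 * x p = 24 ∧ (x p = x q ∧ x ≠ v2 p q 4 4 ∧ x p + x q ≠ 2))]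
      exact card77 hpq
    · intro y
      show ((Cfsg.sqNorm y.1 = 32 ∧ Cfsg.dotInt v.1 y.1 = 24 ∧ Cfsg.dotInt w.1 y.1 = -24) ∧ y ≠ x ∧ Cfsg.dotInt x.1 y.1 ≠ 8) ↔ (Cfsg.sqNorm (g • y).1 = 32 ∧ ∑ i, (g • y).1 i + 4 * (g • y).1 p = 24 ∧ ((g • y).1 p = (g • y).1 q ∧ (g • y).1 ≠ v2 p q 4 4 ∧ (g • y).1 p + (g • y).1 q ≠ 2))
      have hne : y ≠ x ↔ (g • y).1 ≠ v2 p q 4 4 := by
        rw [← h3, not_iff_not]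
        constructor
        · rintro rfl; rfl
        · intro h; exact MulAction.injective g (Subtype.ext h)
      rw [hs_cond h1 h2, co_norm, hX, hne]
      constructor
      · rintro ⟨⟨a, b, c⟩, e, d⟩; exact ⟨a, b, c, e, fun h => d (by linarith)⟩
      · rintro ⟨a, b, c, e, d⟩; exact ⟨⟨a, b, c⟩, e, fun h => d (by linarith)⟩
  · rintro y ⟨hy1, hy2, hy3⟩ y' ⟨hy1', hy2', hy3'⟩ hne hne' hd
    by_cases h8 : Cfsg.dotInt x.1 y.1 = 8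
    · obtain ⟨k, k1, k2, k3, k4⟩ := trans_of_nf4 (nf22 hv hw hvw hx1 hx2 hx3 hy1 hy2 hy3 h8 hpq hpr hqr)
        (nf22 hv hw hvw hx1 hx2 hx3 hy1' hy2' hy3' (hd.1 h8) hpq hpr hqr)
      refine ⟨k, k1, ?_, k3, k4⟩
      rw [co_add, k1] at k2
      exact add_left_cancel k2
    · obtain ⟨O, hO, hsub, hdis⟩ := CfsgL.Golay.exists_octad {p, q} ∅ (by simp) (by rw [Finset.card_pair hpq]; simp)
      obtain ⟨k, k1, k2, k3, k4⟩ := trans_of_nf4 (nf77 hv hw hvw hx1 hx2 hx3 hy1 hy2 hy3 h8 hne hpq hO (hsub (by simp)) (hsub (by simp)))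
        (nf77 hv hw hvw hx1 hx2 hx3 hy1' hy2' hy3' (fun h => h8 (hd.2 h)) hne' hpq hO (hsub (by simp)) (hsub (by simp)))
      refine ⟨k, k1, ?_, k3, k4⟩
      rw [co_add, k1] at k2
      exact add_left_cancel k2

end Cfsg.Agent.S1584
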