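import Cfsg.Statements.S1585
import Cfsg.Agent.L.Lat.HS2

set_option autoImplicit false
open Cfsg

namespace Cfsg.Agent.S1585
open CfsgL.Lat
open Finset

/-- Two vectors of customary norm 6 with inner product −4 are exchanged by some automorphism of the lattice. -/
theorem result (v w : ↥Cfsg.leechLattice) (hv : Cfsg.sqNorm (v : Cfsg.GolayPt → ℤ) = 48) (hw : Cfsg.sqNorm (w : Cfsg.GolayPt → ℤ) = 48) (hvw : Cfsg.dotInt (v : Cfsg.GolayPt → ℤ) (w : Cfsg.GolayPt → ℤ) = -32) : ∃ g : ↥Cfsg.Co0, g • v = w ∧ g • w = v := by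
  obtain ⟨p, q, r, hpq, hpr, hqr⟩ := two_pts'
  obtain ⟨g, h1, h2⟩ := trans_of_nf2 (nfHS2 hv hw hvw hpq) (nfHS2 hw hv (by rw [dot_comm]; exact hvw) hpq)
  refine ⟨g, h1, ?_⟩
  rw [co_add, h1, add_comm w v] at h2
  have h3 : g • w + w = v + w := by rw [add_comm]; exact h2
  exact add_right_cancel h3

end Cfsg.Agent.S1585
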