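import Cfsg.Statements.S1587
import Cfsg.Agent.L.Lat.Mat

set_option autoImplicit false
open Matrix
open Cfsg

namespace Cfsg.Agent.S1587
open CfsgL.Lat
open Finset
open Matrix

/-- First step of the characterisation of the rank-24 lattice: in an even lattice without roots, norm-8 vectors congruent modulo 2 are equal, opposite or orthogonal. -/
theorem result (B : Matrix (Fin 24) (Fin 24) ℤ) (hsymm : B.IsSymm) (hpos : ∀ x : Fin 24 → ℤ, x ≠ 0 → 0 < x ⬝ᵥ (B *ᵥ x)) (heven : ∀ x : Fin 24 → ℤ, (2 : ℤ) ∣ x ⬝ᵥ (B *ᵥ x)) (h2 : ∀ x : Fin 24 → ℤ, x ⬝ᵥ (B *ᵥ x) ≠ 2) (x y : Fin 24 → ℤ) (hx : x ⬝ᵥ (B *ᵥ x) = 8) (hy : y ⬝ᵥ (B *ᵥ y) = 8) (hc : ∀ i, (2 : ℤ) ∣ (x - y) i) : y = x ∨ y = -x ∨ x ⬝ᵥ (B *ᵥ y) = 0 := by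
  choose z hz using hc
  have hs := form_symm hsymm x y
  by_cases h1 : x - y = 0
  · left; exact (sub_eq_zero.1 h1).symm
  by_cases h3 : x + y = 0
  · right; left; exact (neg_eq_of_add_eq_zero_right h3).symm
  right; right
  have hz1 : x - y = z + z := by funext i; rw [hz, Pi.add_apply]; ring
  have hz2 : x + y = (z + y) + (z + y) := by
    have : x = z + z + y := by rw [← hz1]; abel
    rw [this]; abel
  have e1 : ∀ u : Fin 24 → ℤ, (u + u) ⬝ᵥ (B *ᵥ (u + u)) = 4 * (u ⬝ᵥ (B *ᵥ u)) := by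
    intro u
    rw [mulVec_add, dotProduct_add, add_dotProduct]; ring
  have e2 : (x - y) ⬝ᵥ (B *ᵥ (x - y)) = 16 - 2 * (x ⬝ᵥ (B *ᵥ y)) := by
    rw [mulVec_sub, dotProduct_sub, sub_dotProduct, sub_dotProduct, hx, hy, ← hs]; ring
  have e3 : (x + y) ⬝ᵥ (B *ᵥ (x + y)) = 16 + 2 * (x ⬝ᵥ (B *ᵥ y)) := by
    rw [mulVec_add, dotProduct_add, add_dotProduct, add_dotProduct, hx, hy, ← hs]; ring
  have hm : ∀ u : Fin 24 → ℤ, u ≠ 0 → 4 ≤ u ⬝ᵥ (B *ᵥ u) := by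
    intro u hu
    have a1 := hpos u hu
    have a2 := heven u
    have a3 := h2 u
    omega
  have hz0 : z ≠ 0 := by
    rintro rfl
    apply h1; rw [hz1, add_zero]
  have hzy : z + y ≠ 0 := by
    intro e
    apply h3; rw [hz2, e, add_zero]
  have f1 := hm z hz0
  have f2 := hm (z + y) hzy
  rw [hz1, e1] at e2
  rw [hz2, e1] at e3
  omega

end Cfsg.Agent.S1587
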