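import Cfsg.Statements.S1588
import Cfsg.Agent.L.Lat.Mat

set_option autoImplicit false
open Matrix
open Cfsg

namespace Cfsg.Agent.S1588
open CfsgL.Lat
open Finset

/-- Second step of the characterisation: under the vector counts of the rank-24 lattice, the norm-8 vectors fall into congruence classes of exactly 48 modulo twice the lattice. -/
theorem result (B : Matrix (Fin 24) (Fin 24) ℤ) (hsymm : B.IsSymm) (hpos : ∀ x : Fin 24 → ℤ, x ≠ 0 → 0 < x ⬝ᵥ (B *ᵥ x)) (heven : ∀ x : Fin 24 → ℤ, (2 : ℤ) ∣ x ⬝ᵥ (B *ᵥ x)) (h2 : ∀ x : Fin 24 → ℤ, x ⬝ᵥ (B *ᵥ x) ≠ 2) (h4 : {x : Fin 24 → ℤ | x ⬝ᵥ (B *ᵥ x) = 4}.ncard = 196560) (h6 : {x : Fin 24 → ℤ | x ⬝ᵥ (B *ᵥ x) = 6}.ncard = 16773120) (h8 : {x : Fin 24 → ℤ | x ⬝ᵥ (B *ᵥ x) = 8}.ncard = 398034000) (x : Fin 24 → ℤ) (hx : x ⬝ᵥ (B *ᵥ x) = 8) : {y : Fin 24 → ℤ | y ⬝ᵥ (B *ᵥ y) = 8 ∧ ∀ i, (2 : ℤ) ∣ (x - y)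 i}.ncard = 48 := by
  have h := rl_bm hsymm hpos heven h2 h4 h6 h8
  have h1 := class48 h (x := ⟨x, trivial⟩) hx
  rw [← h1, ← Set.ncard_image_of_injective _ Subtype.val_injective]
  congr 1
  ext y
  constructor
  · rintro ⟨hy, hd⟩
    refine ⟨⟨y, trivial⟩, ⟨hy, ?_⟩, rfl⟩
    choose z hz using hd
    refine ⟨⟨z, trivial⟩, ?_⟩
    apply Subtype.ext
    funext i
    change (x - y) i = z i + z i
    rw [hz]; ring
  · rintro ⟨y', ⟨hy, z, hz⟩, rfl⟩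
    refine ⟨hy, fun i => ⟨z.1 i, ?_⟩⟩
    have h2 := congrFun (congrArg Subtype.val hz) i
    change (x - y'.1) i = z.1 i + z.1 i at h2
    rw [h2]; ring

end Cfsg.Agent.S1588
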