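import Cfsg.Statements.S1591
import Mathlib

set_option autoImplicit false
open Cfsg

namespace Cfsg.Agent.S1591

theorem sum3 (f : ZMod 3 → ZMod 3) : ∑ r : ZMod 3, f r = f 0 + f 1 + f 2 := Fin.sum_univ_three f
theorem memt (a b : ZMod 3) : (a • ![0, 1, 1, 1] + b • ![1, 0, 1, 2] : Fin 4 → ZMod 3) ∈ Cfsg.tetracode :=
  Submodule.mem_span_pair.2 ⟨a, b, rfl⟩

/-- Any two words of the length-12 ternary code have dot product zero. -/
theorem result (x y : Cfsg.ArrayPt → ZMod 3) (hx : x ∈ Cfsg.ternaryGolayCode) (hy : y ∈ Cfsg.ternaryGolayCode) : ∑ p, x p * y p = 0 := by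
  obtain ⟨sx, hx, hx'⟩ := hx
  obtain ⟨sy, hy, hy'⟩ := hy
  have h3 : (3 : ZMod 3) = 0 := by decide
  have c0x : x (0, 0) + x (0, 1) + x (0, 2) = -sx := by have h := hx 0; rw [sum3] at h; exact h
  have c1x : x (1, 0) + x (1, 1) + x (1, 2) = -sx := by have h := hx 1; rw [sum3] at h; exact h
  have c2x : x (2, 0) + x (2, 1) + x (2, 2) = -sx := by have h := hx 2; rw [sum3] at h; exact h
  have c3x : x (3, 0) + x (3, 1) + x (3, 2) = -sx := by have h := hx 3; rw [sum3] at h; exact h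
  have t00x : x (0, 0) + x (1, 0) + x (2, 0) + x (3, 0) = sx := by have h := hx' _ (memt 0 0); rw [Fin.sum_univ_four] at h; exact h
  have t01x : x (0, 1) + x (1, 0) + x (2, 1) + x (3, 2) = sx := by have h := hx' _ (memt 0 1); rw [Fin.sum_univ_four] at h; exact h
  have t02x : x (0, 2) + x (1, 0) + x (2, 2) + x (3, 1) = sx := by have h := hx' _ (memt 0 2); rw [Fin.sum_univ_four] at h; exact h
  have t10x : x (0, 0) + x (1, 1) + x (2, 1) + x (3, 1) = sx := by have h := hx' _ (memt 1 0); rw [Fin.sum_univ_four] at h; exact h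
  have t11x : x (0, 1) + x (1, 1) + x (2, 2) + x (3, 0) = sx := by have h := hx' _ (memt 1 1); rw [Fin.sum_univ_four] at h; exact h
  have t12x : x (0, 2) + x (1, 1) + x (2, 0) + x (3, 2) = sx := by have h := hx' _ (memt 1 2); rw [Fin.sum_univ_four] at h; exact h
  have t20x : x (0, 0) + x (1, 2) + x (2, 2) + x (3, 2) = sx := by have h := hx' _ (memt 2 0); rw [Fin.sum_univ_four] at h; exact h
  have t21x : x (0, 1) + x (1, 2) + x (2, 0) + x (3, 1) = sx := by have h := hx' _ (memt 2 1); rw [Fin.sum_univ_four] at h; exact h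
  have t22x : x (0, 2) + x (1, 2) + x (2, 1) + x (3, 0) = sx := by have h := hx' _ (memt 2 2); rw [Fin.sum_univ_four] at h; exact h
  have c0y : y (0, 0) + y (0, 1) + y (0, 2) = -sy := by have h := hy 0; rw [sum3] at h; exact h
  have c1y : y (1, 0) + y (1, 1) + y (1, 2) = -sy := by have h := hy 1; rw [sum3] at h; exact h
  have c2y : y (2, 0) + y (2, 1) + y (2, 2) = -sy := by have h := hy 2; rw [sum3] at h; exact h
  have c3y : y (3, 0) + y (3, 1) + y (3, 2) = -sy := by have h := hy 3; rw [sum3] at h; exact h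
  have t00y : y (0, 0) + y (1, 0) + y (2, 0) + y (3, 0) = sy := by have h := hy' _ (memt 0 0); rw [Fin.sum_univ_four] at h; exact h
  have t01y : y (0, 1) + y (1, 0) + y (2, 1) + y (3, 2) = sy := by have h := hy' _ (memt 0 1); rw [Fin.sum_univ_four] at h; exact h
  have t02y : y (0, 2) + y (1, 0) + y (2, 2) + y (3, 1) = sy := by have h := hy' _ (memt 0 2); rw [Fin.sum_univ_four] at h; exact h
  have t10y : y (0, 0) + y (1, 1) + y (2, 1) + y (3, 1) = sy := by have h := hy' _ (memt 1 0); rw [Fin.sum_univ_four] at h; exact h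
  have t11y : y (0, 1) + y (1, 1) + y (2, 2) + y (3, 0) = sy := by have h := hy' _ (memt 1 1); rw [Fin.sum_univ_four] at h; exact h
  have t12y : y (0, 2) + y (1, 1) + y (2, 0) + y (3, 2) = sy := by have h := hy' _ (memt 1 2); rw [Fin.sum_univ_four] at h; exact h
  have t20y : y (0, 0) + y (1, 2) + y (2, 2) + y (3, 2) = sy := by have h := hy' _ (memt 2 0); rw [Fin.sum_univ_four] at h; exact h
  have t21y : y (0, 1) + y (1, 2) + y (2, 0) + y (3, 1) = sy := by have h := hy' _ (memt 2 1); rw [Fin.sum_univ_four] at h; exact h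
  have t22y : y (0, 2) + y (1, 2) + y (2, 1) + y (3, 0) = sy := by have h := hy' _ (memt 2 2); rw [Fin.sum_univ_four] at h; exact h
  rw [Fintype.sum_prod_type]
  simp only [sum3, Fin.sum_univ_four]
  linear_combination ((1) * y (0, 0) + (-1) * y (0, 1) + (-1) * y (0, 2) + (1) * y (1, 1) + (1) * y (2, 0)) * c0x + ((1) * y (0, 0) + (1) * y (0, 1) + (1) * y (0, 2) + (-1) * y (1, 0) + (-1) * y (1, 1)) * c1x + ((-1) * y (0, 0) + (1) * y (0, 1) + (1) * y (0, 2) + (1) * y (1, 0) + (-1) * y (2, 0)) * c2x + ((1) * y (0, 0) + (-1) * y (0, 1) + (-1) * y (0, 2) + (-1) * y (1, 0) + (-1) * y (2, 0)) * t00x + ((-1) * y (0, 0) + (-1) * y (0, 1) + (1) * y (0, 2) + (-1) * y (1, 1) + (-1) * y (2, 0)) * t01x + ((-1) * y (0, 0) + (1) * y (0, 1) + (-1) * y (0, 2) + (-1) * y (1, 1) + (-1) * y (2, 0)) * t02x + ((-1) * y (0, 0) + (-1) * y (0, 1) + (-1) * y (0, 2) + (1) * y (1, 0) + (-1) * y (1, 1)) * t10x + ((-1) * x (1, 2) + (1) * x (2, 1) +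 (1) * x (2, 2) + (1) * x (3, 0)) * c0y + ((1) * x (1, 2)) * c1y + ((-1) * x (2, 1) + (-1) * x (2, 2) + (1) * x (3, 1) + (1) * x (3, 2)) * c2y + ((1) * x (3, 0)) * t00y + ((1) * x (3, 2)) * t01y + ((1) * x (2, 1) + (-1) * x (2, 2) + (-1) * x (3, 1) + (-1) * x (3, 2)) * t02y + ((-1) * x (2, 1) + (1) * x (2, 2) + (-1) * x (3, 1) + (1) * x (3, 2)) * t10y + ((1) * x (0, 1) * y (0, 1) + (1) * x (0, 2) * y (0, 2) + (1) * x (1, 0) * y (1, 0) + (1) * x (1, 1) * y (1, 1) + (1) * x (2, 0) * y (2, 0) + (1) * x (2, 1) * y (2, 1) + (1) * x (2, 2) * y (2, 2) + (1) * x (3, 1) * y (3, 1) + (-1) * sx * y (0, 0) + (1) * x (0, 0) * y (0, 1) + (-1) * sx * y (0, 1) + (1) * x (0, 0) * y (0, 2) + (-1) * sx * y (0, 2) + (-1) * sx * y (1, 1) + (-1) * sx * y (2, 0) + (1) * x (1, 0) * y (1, 1) + (1) * x (2, 1) * y (0, 0) + (-1) * x (2, 2) * y (0, 1) + (-1) * x (2, 1) * y (0, 2) + (-1) * x (2, 1) * y (1, 0) + (1) * x (2, 1) * y (2, 0) + (1) * x (2,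 2) * y (2, 0) + (-1) * x (3, 0) * y (0, 0) + (1) * x (1, 0) * y (2, 0) + (1) * x (2, 1) * y (1, 1) + (1) * x (3, 1) * y (0, 0) + (1) * x (3, 1) * y (0, 2) + (1) * x (3, 1) * y (1, 1) + (-1) * x (3, 1) * sy + (-1) * x (3, 2) * y (2, 1)) * h3

end Cfsg.Agent.S1591
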