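import Cfsg.Statements.S1604
import Cfsg.Agent.L.Orb.Cnt
import Cfsg.Agent.L.Orb.O2

set_option autoImplicit false
open scoped Pointwise
open Cfsg

namespace Cfsg.Agent.S1604
open CfsgL.Orb

/-- A hexad stabiliser in the two-point stabiliser has orbits of sizes 1, 16, 60 on the 77 hexads: the 16 hexads disjoint from it and the 60 meeting it in two points. -/
theorem result (p q : Cfsg.GolayPt) (hpq : p ≠ q) (o o' o'' : Finset Cfsg.GolayPt) (ho : o ∈ Cfsg.octads) (ho' : o' ∈ Cfsg.octads) (ho'' : o'' ∈ Cfsg.octads) (hp : p ∈ o ∧ p ∈ o' ∧ p ∈ o'') (hq : q ∈ o ∧ q ∈ o' ∧ q ∈ o'') (h : (o ∩ o').card = (o ∩ o'').card) : {x : Finset Cfsg.GolayPt | x ∈ Cfsg.octads ∧ p ∈ x ∧ q ∈ x ∧ (o ∩ x).card = 2}.ncard = 16 ∧ {x : Finset Cfsg.GolayPt | x ∈ Cfsg.octads ∧ p ∈ x ∧ q ∈ x ∧ (o ∩ x).card = 4}.ncard = 60 ∧ ∃ g : Equiv.Perm Cfsg.GolayPt, g ∈ Cfsg.M24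 ∧ g p = p ∧ g q = q ∧ g • o = o ∧ g • o' = o'' := by
  have ha : (p, q, o) ∈ {a : GolayPt × GolayPt × Finset GolayPt | a.2.2 ∈ octads ∧ a.1 ∈ a.2.2 ∧
      a.2.1 ∈ a.2.2 ∧ a.1 ≠ a.2.1} := ⟨ho, hp.1, hq.1, hpq⟩
  have hc := fun k => orbs_pqo.count_card rfl ha k
  refine ⟨?_, ?_, ?_⟩
  · rw [← show szf [1, 16, 60] (find [64, 4, 16] (2 ^ 2)) = 16 by decide, ← hc 2 (by decide)]
    congr 1; ext x; simp only [Set.mem_ofPred_eq]; tauto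
  · rw [← show szf [1, 16, 60] (find [64, 4, 16] (4 ^ 2)) = 60 by decide, ← hc 4 (by decide)]
    congr 1; ext x; simp only [Set.mem_ofPred_eq]; tauto
  · obtain ⟨g, hg, h1, h2⟩ := orbs_pqo.trans _ ha o' ⟨ho', hp.2.1, hq.2.1⟩ o'' ⟨ho'', hp.2.2, hq.2.2⟩
      (by beta_reduce; rw [jsum_sg, jsum_sg, h])
    have e := Prod.mk.inj h1
    have e2 := Prod.mk.inj e.2
    exact ⟨g, hg, e.1, e2.1, e2.2, h2⟩

end Cfsg.Agent.S1604
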