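import Cfsg.Statements.S1605
import Cfsg.Agent.L.Orb.Cnt
import Cfsg.Agent.L.Orb.O2

set_option autoImplicit false
open scoped Pointwise
open Cfsg

namespace Cfsg.Agent.S1605
open CfsgL.Orb

/-- The two-point stabiliser acts on the 176 octads through the first point avoiding the second with rank 3 and subdegrees 1, 70, 105 (intersections 8, 2, 4). -/
theorem result (p q : Cfsg.GolayPt) (hpq : p ≠ q) : {x : Finset Cfsg.GolayPt | (x ∈ Cfsg.octads ∧ p ∈ x ∧ q ∉ x)}.ncard = 176 ∧ (∀ o o' : Finset Cfsg.GolayPt, (o ∈ Cfsg.octads ∧ p ∈ o ∧ q ∉ o) → (o' ∈ Cfsg.octads ∧ p ∈ o' ∧ q ∉ o') → ∃ g : Equiv.Perm Cfsg.GolayPt, g ∈ Cfsg.M24 ∧ g p = p ∧ g q = q ∧ g • o = o') ∧ ∀ o : Finset Cfsg.GolayPt, (o ∈ Cfsg.octads ∧ p ∈ o ∧ q ∉ o) → {x : Finset Cfsg.GolayPt | (x ∈ Cfsg.octads ∧ p ∈ x ∧ q ∉ x) ∧ (o ∩ x).card = 2}.ncard = 70 ∧ {x : Finset Cfsg.GolayPt |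 (x ∈ Cfsg.octads ∧ p ∈ x ∧ q ∉ x) ∧ (o ∩ x).card = 4}.ncard = 105 ∧ ∀ o' o'' : Finset Cfsg.GolayPt, (o' ∈ Cfsg.octads ∧ p ∈ o' ∧ q ∉ o') → (o'' ∈ Cfsg.octads ∧ p ∈ o'' ∧ q ∉ o'') → (o ∩ o').card = (o ∩ o'').card → ∃ g : Equiv.Perm Cfsg.GolayPt, g ∈ Cfsg.M24 ∧ g p = p ∧ g q = q ∧ g • o = o ∧ g • o' = o'' := by
  have ha : (p, q) ∈ {a : GolayPt × GolayPt | a.1 ≠ a.2} := hpq
  have hz : ∀ b : Finset GolayPt, find [0] (jsum 2 ∅ (sg b)) = 0 := fun b => by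
    have : jsum 2 ∅ (sg b) = 0 := by unfold jsum; simp
    rw [this]; decide
  refine ⟨?_, ?_, ?_⟩
  · have h1 := orbs_pQ.count _ ha 0 (by decide)
    rw [← show szf [176] 0 = 176 by decide, ← h1]
    congr 1; ext x; simp only [Set.mem_ofPred_eq, hz, and_true]
  · intro o o' h h'
    obtain ⟨g, hg, h1, h2⟩ := orbs_pQ.trans _ ha o h o' h' (by beta_reduce; rw [hz, hz])
    have e := Prod.mk.inj h1
    exact ⟨g, hg, e.1, e.2, h2⟩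
  · intro o ho
    have hb : (p, q, o) ∈ {a : GolayPt × GolayPt × Finset GolayPt | a.2.2 ∈ octads ∧ a.1 ∈ a.2.2 ∧
      a.2.1 ∉ a.2.2} := ho
    have hc := fun k => orbs_pQo.count_card rfl hb k
    refine ⟨hc 2 (by decide), hc 4 (by decide), ?_⟩
    intro o' o'' h' h'' hcc
    obtain ⟨g, hg, h1, h2⟩ := orbs_pQo.trans _ hb o' h' o'' h'' (by beta_reduce; rw [jsum_sg, jsum_sg, hcc])
    have e := Prod.mk.inj h1
    have e2 := Prod.mk.inj e.2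
    exact ⟨g, hg, e.1, e2.1, e2.2, h2⟩

end Cfsg.Agent.S1605
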