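import Cfsg.Statements.S1608
import Cfsg.Agent.L.Orb.Cnt
import Cfsg.Agent.L.Orb.O2

set_option autoImplicit false
open scoped Pointwise
open Cfsg

namespace Cfsg.Agent.S1608
open CfsgL.Orb

/-- The point stabiliser acts on the 506 octads avoiding the point with rank 4 and subdegrees 1, 15, 210, 280, the suborbits being given by intersection size with the fixed octad. -/
theorem result (x : Cfsg.GolayPt) (o : Finset Cfsg.GolayPt) (ho : o ∈ Cfsg.octads) (hx : x ∉ o) : {o' : Finset Cfsg.GolayPt | o' ∈ Cfsg.octads ∧ x ∉ o' ∧ (o ∩ o').card = 0}.ncard = 15 ∧ {o' : Finset Cfsg.GolayPt | o' ∈ Cfsg.octads ∧ x ∉ o' ∧ (o ∩ o').card = 4}.ncard = 210 ∧ {o' : Finset Cfsg.GolayPt | o' ∈ Cfsg.octads ∧ x ∉ o' ∧ (o ∩ o').card = 2}.ncard = 280 ∧ ∀ o' o'' : Finset Cfsg.GolayPt, o' ∈ Cfsg.octads → o'' ∈ Cfsg.octads → x ∉ o' → x ∉ o'' → (o ∩ o').card = (o ∩ o'').card → ∃ g : Equiv.Perm Cfsg.GolayPt, g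 ∈ Cfsg.M24 ∧ g x = x ∧ g • o = o ∧ g • o' = o'' := by
  have ha : (x, o) ∈ {a : GolayPt × Finset GolayPt | a.2 ∈ octads ∧ a.1 ∉ a.2} := ⟨ho, hx⟩
  have hc := fun k => orbs_xO.count_card rfl ha k
  refine ⟨?_, ?_, ?_, ?_⟩
  · rw [← show szf [1, 15, 210, 280] (find [64, 0, 16, 4] (0 ^ 2)) = 15 by decide, ← hc 0 (by decide)]
    congr 1; ext x; simp only [Set.mem_ofPred_eq]; tauto
  · rw [← show szf [1, 15, 210, 280] (find [64, 0, 16, 4] (4 ^ 2)) = 210 by decide, ← hc 4 (by decide)]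
    congr 1; ext x; simp only [Set.mem_ofPred_eq]; tauto
  · rw [← show szf [1, 15, 210, 280] (find [64, 0, 16, 4] (2 ^ 2)) = 280 by decide, ← hc 2 (by decide)]
    congr 1; ext x; simp only [Set.mem_ofPred_eq]; tauto
  · intro o' o'' ho' ho'' hx' hx'' h
    obtain ⟨g, hg, h1, h2⟩ := orbs_xO.trans _ ha o' ⟨ho', hx'⟩ o'' ⟨ho'', hx''⟩
      (by beta_reduce; rw [jsum_sg, jsum_sg, h])
    have e := Prod.mk.inj h1
    exact ⟨g, hg, e.1, e.2, h2⟩

end Cfsg.Agent.S1608
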