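import Cfsg.Statements.S1618
import Cfsg.Agent.H5.FischerP

set_option autoImplicit false
open Cfsg

namespace Cfsg.Agent.S1618

open CfsgH5

/-- A group generated by a class of involutions whose pairwise products (of distinct members) have p-power order for a fixed odd prime p has nilpotent derived subgroup. -/
theorem result {G : Type*} [Group G] [Finite G] (p : ℕ) (hp : p.Prime) (hodd : p ≠ 2) {D : Set G} (hinv : ∀ d ∈ D, orderOf d = 2) (hconj : ∃ d ∈ D, D = conjugatesOf d) (hgen : Subgroup.closure D = ⊤) (hprod : ∀ x ∈ D, ∀ y ∈ D, x ≠ y → ∃ k : ℕ, orderOf (x * y) = p ^ k) : Group.IsNilpotent ↥(commutator G) := by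
  obtain ⟨d, hdD, hD⟩ := hconj
  haveI : Fact p.Prime := ⟨hp⟩
  have hd := hinv d hdD
  have h1 : ∀ g : G, ∃ k : ℕ, orderOf (d * (g * d * g⁻¹)) = p ^ k := by
    intro g
    have hg : g * d * g⁻¹ ∈ D := by rw [hD]; exact isConj_iff.2 ⟨g, rfl⟩
    by_cases h : d = g * d * g⁻¹
    · refine ⟨0, ?_⟩
      rw [← h, CfsgH3.mul_self_of_orderOf_two hd, orderOf_one, pow_zero]
    · exact hprod d hdD _ hg h
  have h2 := tt68 hp hodd hd h1
  haveI hN : (pCore p G).Normal := inferInstance
  have h3 : ∀ x : G, (x : G ⧸ pCore p G) ∈ Subgroup.zpowers (d : G ⧸ pCore p G) := by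
    intro x
    have hx : x ∈ Subgroup.closure D := by rw [hgen]; trivial
    have h4 : Subgroup.closure D ≤ (Subgroup.zpowers (d : G ⧸ pCore p G)).comap (QuotientGroup.mk' (pCore p G)) := by
      rw [Subgroup.closure_le]
      intro y hy
      rw [hD] at hy
      obtain ⟨g, rfl⟩ := isConj_iff.1 (show IsConj d y from hy)
      show ((g * d * g⁻¹ : G) : G ⧸ pCore p G) ∈ Subgroup.zpowers (d : G ⧸ pCore p G)
      have h5 : ((d⁻¹ : G) : G ⧸ pCore p G) = ((g * d * g⁻¹ : G) : G ⧸ pCore p G) := by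
        rw [QuotientGroup.eq, inv_inv]; exact h2 g
      rw [← h5, QuotientGroup.mk_inv]
      exact Subgroup.inv_mem _ (Subgroup.mem_zpowers _)
    exact h4 hx
  have h6 : commutator G ≤ pCore p G := by
    rw [commutator_def, Subgroup.commutator_le]
    intro x _ y _
    rw [← QuotientGroup.eq_one_iff]
    obtain ⟨a, ha⟩ := Subgroup.mem_zpowers_iff.1 (h3 x)
    obtain ⟨b, hb⟩ := Subgroup.mem_zpowers_iff.1 (h3 y)
    rw [commutatorElement_def, QuotientGroup.mk_mul, QuotientGroup.mk_mul, QuotientGroup.mk_mul, QuotientGroup.mk_inv, QuotientGroup.mk_inv, ← ha, ← hb]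
    group
  exact ((CfsgH2.isPGroup_pCore p).to_le h6).isNilpotent

end Cfsg.Agent.S1618
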