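import Cfsg.Statements.S1638
import Cfsg.Agent.L.Orb.O3
import Cfsg.Agent.L.Orb.Misc

set_option autoImplicit false
open scoped Pointwise
open Cfsg

namespace Cfsg.Agent.S1638
open CfsgL.Orb

/-- Fix two points p ≠ q and a pair s of two further points. Among the pairs avoiding p, q and disjoint from s, exactly 30 lie in an octad together with p, q and s and exactly 160 do not; and any two pairs other than s that meet s in equally many points and agree on that octad property are carried to one another by an element of the group of the length-24 code fixing p, q and s. -/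
theorem result (p q : Cfsg.GolayPt) (hpq : p ≠ q) (s : Finset Cfsg.GolayPt) (hs : (s.card = 2 ∧ p ∉ s ∧ q ∉ s)) : {t : Finset Cfsg.GolayPt | (t.card = 2 ∧ p ∉ t ∧ q ∉ t) ∧ Disjoint s t ∧ (∃ o ∈ Cfsg.octads, p ∈ o ∧ q ∈ o ∧ s ∪ t ⊆ o)}.ncard = 30 ∧ {t : Finset Cfsg.GolayPt | (t.card = 2 ∧ p ∉ t ∧ q ∉ t) ∧ Disjoint s t ∧ ¬ (∃ o ∈ Cfsg.octads, p ∈ o ∧ q ∈ o ∧ s ∪ t ⊆ o)}.ncard = 160 ∧ ∀ t t' : Finset Cfsg.GolayPt, (t.card = 2 ∧ p ∉ t ∧ q ∉ t) → (t'.card = 2 ∧ p ∉ t' ∧ q ∉ t') → t ≠ s → t' ≠ s → (s ∩ t).card = (s ∩ t').card → ((∃ o ∈ Cfsg.octads, p ∈ o ∧ q ∈ o ∧ s ∪ t ⊆ o) ↔ (∃ o ∈ Cfsg.octads, p ∈ o ∧ q ∈ o ∧ s ∪ t' ⊆ o)) → ∃ g : Equiv.Perm Cfsg.GolayPt, g ∈ Cfsg.M24 ∧ g p = p ∧ g q = q ∧ g • s = s ∧ g • t = t' := by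
  have hd : ∀ U : Finset GolayPt, Disjoint s U ↔ (s ∩ U).card = 0 := fun U => by
    rw [Finset.card_eq_zero, Finset.disjoint_iff_inter_eq_empty]
  have ha : (p, q, s) ∈ {a : GolayPt × GolayPt × Finset GolayPt | a.1 ≠ a.2.1 ∧ a.2.2.card = 2 ∧
      a.1 ∉ a.2.2 ∧ a.2.1 ∉ a.2.2} := ⟨hpq, hs⟩
  have hx : ∀ t : Finset GolayPt, (∃ o ∈ octads, p ∈ o ∧ q ∈ o ∧ s ∪ t ⊆ o) ↔
      ∃ o ∈ octads, ({p, q} ∪ s) ∪ t ⊆ o := by
    intro t
    constructor
    · rintro ⟨o, ho, h1, h2, h3⟩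
      refine ⟨o, ho, ?_⟩
      rw [Finset.union_subset_iff] at h3 ⊢
      refine ⟨?_, h3.2⟩
      rw [Finset.union_subset_iff, Finset.insert_subset_iff, Finset.singleton_subset_iff]
      exact ⟨⟨h1, h2⟩, h3.1⟩
    · rintro ⟨o, ho, h⟩
      rw [Finset.union_subset_iff, Finset.union_subset_iff, Finset.insert_subset_iff,
        Finset.singleton_subset_iff] at h
      exact ⟨o, ho, h.1.1.1, h.1.1.2, Finset.union_subset h.1.2 h.2⟩
  have hcP : ∀ t : Finset GolayPt, cP (p, q, s) t = find [5, 1, 3, 0] (2 * (s ∩ t).card +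
    ind (({p, q} ∪ s) ∪ t)) := fun t => rfl
  refine ⟨?_, ?_, ?_⟩
  · rw [← show szf [1, 30, 40, 160] 1 = 30 by decide, ← orbs_pqs.count _ ha 1 (by decide)]
    congr 1
    ext U
    simp only [Set.mem_ofPred_eq, and_congr_right_iff]
    intro _
    rw [hd, hx, hcP]
    constructor
    · rintro ⟨h1, h2⟩
      rw [h1, ind_pos h2]; decide
    · intro h
      have h1 := find_spec [5, 1, 3, 0] (2 * (s ∩ U).card + ind (({p, q} ∪ s) ∪ U)) (by rw [h]; decide)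
      rw [h] at h1
      have h2 : 2 * (s ∩ U).card + ind (({p, q} ∪ s) ∪ U) = 1 := h1.symm
      by_cases h3 : ∃ o ∈ octads, ({p, q} ∪ s) ∪ U ⊆ o
      · exact ⟨by rw [ind_pos h3] at h2; omega, h3⟩
      · rw [ind_neg h3] at h2; omega
  · rw [← show szf [1, 30, 40, 160] 3 = 160 by decide, ← orbs_pqs.count _ ha 3 (by decide)]
    congr 1
    ext U
    simp only [Set.mem_ofPred_eq, and_congr_right_iff]
    intro _
    rw [hd, hx, hcP]
    constructor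
    · rintro ⟨h1, h2⟩
      rw [h1, ind_neg h2]; decide
    · intro h
      have h1 := find_spec [5, 1, 3, 0] (2 * (s ∩ U).card + ind (({p, q} ∪ s) ∪ U)) (by rw [h]; decide)
      rw [h] at h1
      have h2 : 2 * (s ∩ U).card + ind (({p, q} ∪ s) ∪ U) = 0 := h1.symm
      refine ⟨by omega, fun h3 => ?_⟩
      rw [ind_pos h3] at h2; omega
  · intro t t' ht ht' _ _ hc hiff
    obtain ⟨g, hg, h1, h2⟩ := orbs_pqs.trans _ ha t ht t' ht' (by
      rw [hcP, hcP, hc]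
      congr 2
      rw [hx, hx] at hiff
      by_cases h3 : ∃ o ∈ octads, ({p, q} ∪ s) ∪ t ⊆ o
      · rw [ind_pos h3, ind_pos (hiff.1 h3)]
      · rw [ind_neg h3, ind_neg (fun h4 => h3 (hiff.2 h4))])
    have e := Prod.mk.inj h1
    have e2 := Prod.mk.inj e.2
    exact ⟨g, hg, e.1, e2.1, e2.2, h2⟩

end Cfsg.Agent.S1638
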