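import Cfsg.Statements.S1639
import Cfsg.Agent.L.Orb.Cnt
import Cfsg.Agent.L.Orb.O2

set_option autoImplicit false
open scoped Pointwise
open Cfsg

namespace Cfsg.Agent.S1639
open CfsgL.Orb

/-- The point stabiliser acts on the 1288 dodecads through the point with rank 4 and subdegrees 1, 165, 330, 792, distinguished by intersection 4, 8, 6 with the fixed dodecad. -/
theorem result (x : Cfsg.GolayPt) (d : Finset Cfsg.GolayPt) (hd : d ∈ Cfsg.dodecads) (hx : x ∈ d) : {d' : Finset Cfsg.GolayPt | d' ∈ Cfsg.dodecads ∧ x ∈ d' ∧ (d ∩ d').card = 4}.ncard = 165 ∧ {d' : Finset Cfsg.GolayPt | d' ∈ Cfsg.dodecads ∧ x ∈ d' ∧ (d ∩ d').card = 8}.ncard = 330 ∧ {d' : Finset Cfsg.GolayPt | d' ∈ Cfsg.dodecads ∧ x ∈ d' ∧ (d ∩ d').card = 6}.ncard = 792 ∧ ∀ d' d'' : Finset Cfsg.GolayPt, d' ∈ Cfsg.dodecads → d'' ∈ Cfsg.dodecads → x ∈ d' → x ∈ d'' → (d ∩ d').card = (d ∩ d'').card → ∃ g : Equiv.Perm Cfsg.GolayPt,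 g ∈ Cfsg.M24 ∧ g x = x ∧ g • d = d ∧ g • d' = d'' := by
  have ha : (x, d) ∈ {a : GolayPt × Finset GolayPt | a.2 ∈ dodecads ∧ a.1 ∈ a.2} := ⟨hd, hx⟩
  have hc := fun k => orbs_xd.count_card rfl ha k
  refine ⟨?_, ?_, ?_, ?_⟩
  · rw [← show szf [1, 165, 330, 792] (find [144, 16, 64, 36] (4 ^ 2)) = 165 by decide, ← hc 4 (by decide)]
    congr 1; ext x; simp only [Set.mem_ofPred_eq]; tauto
  · rw [← show szf [1, 165, 330, 792] (find [144, 16, 64, 36] (8 ^ 2)) = 330 by decide, ← hc 8 (by decide)]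
    congr 1; ext x; simp only [Set.mem_ofPred_eq]; tauto
  · rw [← show szf [1, 165, 330, 792] (find [144, 16, 64, 36] (6 ^ 2)) = 792 by decide, ← hc 6 (by decide)]
    congr 1; ext x; simp only [Set.mem_ofPred_eq]; tauto
  · intro o' o'' ho' ho'' hx' hx'' h
    obtain ⟨g, hg, h1, h2⟩ := orbs_xd.trans _ ha o' ⟨ho', hx'⟩ o'' ⟨ho'', hx''⟩
      (by beta_reduce; rw [jsum_sg, jsum_sg, h])
    have e := Prod.mk.inj h1
    exact ⟨g, hg, e.1, e.2, h2⟩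

end Cfsg.Agent.S1639
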