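import Cfsg.Statements.S1691
import Mathlib

set_option autoImplicit false
open Cfsg

namespace Cfsg.Agent.S1691

open Cfsg.Spor Cfsg.Spor.Fi24

/-- the sign character -/
def sgn : Cfsg.Spor.Fi24 →* Multiplicative (ZMod 2) :=
  PresentedGroup.toGroup (f := fun _ => Multiplicative.ofAdd (1 : ZMod 2)) (by
    have key : ∀ z : Multiplicative (ZMod 2), z * z = 1 := by decide
    rintro r (⟨x, _, y, _, rfl⟩ | hr)
    · rw [map_pow, map_mul, FreeGroup.lift_apply_of, FreeGroup.lift_apply_of, key, one_pow]
    · have hr' : r ∈ Cfsg.Spor.Fi24.extra := hr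
      simp only [Cfsg.Spor.Fi24.extra, List.mem_cons, List.not_mem_nil, or_false] at hr'
      rcases hr' with rfl | rfl
      · simp only [map_mul, map_inv, map_pow, FreeGroup.lift_apply_of]; decide
      · simp only [map_mul, map_inv, map_pow, FreeGroup.lift_apply_of]; decide)

theorem sgn_of (x : Gen) : sgn (PresentedGroup.of x) = Multiplicative.ofAdd (1 : ZMod 2) := by
  rw [sgn, PresentedGroup.toGroup.of]

/-- image of a generator in the abelianization -/
def ab (x : Gen) : Abelianization Cfsg.Spor.Fi24 := Abelianization.of (PresentedGroup.of x)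

theorem ab_rel {x y : Gen} (hx : x ∈ coxNodes edges) (hy : y ∈ coxNodes edges) : (ab x * ab y) ^ coxLabel edges x y = 1 := by
  have h : (PresentedGroup.mk (coxRelators edges ∪ {r | r ∈ Cfsg.Spor.Fi24.extra}) ((FreeGroup.of x * FreeGroup.of y) ^ coxLabel edges x y)) = 1 :=
    PresentedGroup.one_of_mem (Or.inl ⟨x, hx, y, hy, rfl⟩)
  have h2 := congrArg Abelianization.of h
  rw [map_one, map_pow, map_mul, map_pow, map_mul] at h2
  exact h2

theorem ab_edge {x y : Gen} (hx : x ∈ coxNodes edges) (hy : y ∈ coxNodes edges) (h3 : coxLabel edges x y = 3)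
    (h1 : coxLabel edges x x = 1) (h2 : coxLabel edges y y = 1) : ab x = ab y := by
  have e1 := ab_rel hx hx
  have e2 := ab_rel hy hy
  have e3 := ab_rel hx hy
  rw [h1, pow_one] at e1
  rw [h2, pow_one] at e2
  rw [h3] at e3
  have e4 : ab x * ab y = 1 := by
    have e5 : (ab x * ab y) ^ 3 = (ab x * ab x) * (ab y * ab y) * (ab x * ab y) := by
      rw [mul_pow]; simp only [pow_succ, pow_zero, one_mul]
      ac_rfl
    rw [e5, e1, e2, one_mul, one_mul] at e3
    exact e3
  calc ab x = ab x * (ab y * ab y) := by rw [e2, mul_one]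
    _ = (ab x * ab y) * ab y := by rw [mul_assoc]
    _ = ab y := by rw [e4, one_mul]

theorem ab_all (x : Gen) : ab x = ab Gen.d := by
  have hc : ab .c = ab .d := ab_edge (by decide) (by decide) (by decide) (by decide) (by decide)
  have hb : ab .b = ab .c := ab_edge (by decide) (by decide) (by decide) (by decide) (by decide)
  have ha : ab .a = ab .b := ab_edge (by decide) (by decide) (by decide) (by decide) (by decide)
  have hk : ab .k = ab .a := ab_edge (by decide) (by decide) (by decide) (by decide) (by decide)
  have hl : ab .l = ab .k := ab_edge (by decide) (by decide) (by decide) (by decide) (by decide)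
  have he : ab .d = ab .e := ab_edge (by decide) (by decide) (by decide) (by decide) (by decide)
  have hf : ab .e = ab .f := ab_edge (by decide) (by decide) (by decide) (by decide) (by decide)
  have hg : ab .f = ab .g := ab_edge (by decide) (by decide) (by decide) (by decide) (by decide)
  have hj : ab .g = ab .j := ab_edge (by decide) (by decide) (by decide) (by decide) (by decide)
  have hh : ab .d = ab .h := ab_edge (by decide) (by decide) (by decide) (by decide) (by decide)
  have hi : ab .h = ab .i := ab_edge (by decide) (by decide) (by decide) (by decide) (by decide)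
  cases x
  · exact hl.trans (hk.trans (ha.trans (hb.trans hc)))
  · exact hk.trans (ha.trans (hb.trans hc))
  · exact ha.trans (hb.trans hc)
  · exact hb.trans hc
  · exact hc
  · rfl
  · exact he.symm
  · exact (he.trans hf).symm
  · exact (he.trans (hf.trans hg)).symm
  · exact (he.trans (hf.trans (hg.trans hj))).symm
  · exact hh.symm
  · exact (hh.trans hi).symm

theorem ab_sq : ab Gen.d * ab Gen.d = 1 := by
  have e1 := ab_rel (x := .d) (y := .d) (by decide) (by decide)
  have h1 : coxLabel edges .d .d = 1 := by decide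
  rw [h1, pow_one] at e1
  exact e1

theorem ab_mem (a : Abelianization Cfsg.Spor.Fi24) : a = 1 ∨ a = ab Gen.d := by
  obtain ⟨g, rfl⟩ := QuotientGroup.mk_surjective a
  have h1 : (⊤ : Subgroup Cfsg.Spor.Fi24) ≤ (Subgroup.zpowers (ab Gen.d)).comap Abelianization.of := by
    rw [← PresentedGroup.closure_range_of, Subgroup.closure_le]
    rintro _ ⟨x, rfl⟩
    show Abelianization.of (PresentedGroup.of x) ∈ Subgroup.zpowers (ab Gen.d)
    have h := ab_all x
    rw [ab] at h
    rw [h]; exact Subgroup.mem_zpowers _
  obtain ⟨n, hn⟩ := Subgroup.mem_zpowers_iff.1 (h1 (Subgroup.mem_top g))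
  have hn' : (ab Gen.d) ^ n = (QuotientGroup.mk g : Abelianization Cfsg.Spor.Fi24) := hn
  rw [← hn']
  rcases Int.even_or_odd' n with ⟨k, rfl | rfl⟩
  · left
    rw [zpow_mul, zpow_ofNat, sq, ab_sq, one_zpow]
  · right
    rw [zpow_add, zpow_mul, zpow_ofNat, sq, ab_sq, one_zpow, one_mul, zpow_one]

/-- The commutator subgroup of the presented group Fi₂₄ has index 2 (the presented group is Fi₂₄′:2 with Fi₂₄′ its derived subgroup). -/
theorem result : (commutator Cfsg.Spor.Fi24).index = 2 := by
  have hs : Abelianization.lift sgn (ab Gen.d) = Multiplicative.ofAdd (1 : ZMod 2) := by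
    rw [ab, Abelianization.lift_apply_of, sgn_of]
  have hne : ab Gen.d ≠ 1 := by
    intro h
    rw [h, map_one] at hs
    exact absurd hs (by decide)
  rw [Subgroup.index]
  show Nat.card (Abelianization Cfsg.Spor.Fi24) = 2
  rw [Nat.card_eq_two_iff]
  refine ⟨1, ab Gen.d, hne.symm, ?_⟩
  rw [Set.eq_univ_iff_forall]
  intro a
  rcases ab_mem a with h | h
  · exact Or.inl h
  · exact Or.inr h

end Cfsg.Agent.S1691
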