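import Mathlib
import Cfsg.Statements.S1753

set_option autoImplicit false
universe u
open Cfsg

namespace Cfsg.Agent.S1753

open Cfsg in
theorem key (K : ∀ (X : Type u) [Group X], Prop) (G : Type u) [Group G] [Finite G]
    (h : ∀ (X : Type u) [Group X] [Finite X], IsSimpleGroup X → ¬ IsMulCommutative X → Nat.card X < Nat.card G → K X) :
    Cfsg.IsKProperWith K G := by
  intro H hH H' N hN hs hc
  apply h _ hs hc
  have h1 : Nat.card (H' ⧸ N) ≤ Nat.card H' := Nat.le_of_dvd Nat.card_pos (Subgroup.card_quotient_dvd_card N)
  have h2 : Nat.card H' ≤ Nat.card H := Subgroup.card_le_card_group H'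
  have h3 : Nat.card H < Nat.card G := by
    refine lt_of_le_of_ne (Subgroup.card_le_card_group H) ?_
    intro e
    exact hH (Subgroup.eq_top_of_card_eq H e)
  omega

/-- Let K be any property of groups. (1) If G is a minimal counterexample relative to K — a finite non-abelian simple group not satisfying K such that every finite non-abelian simple group of smaller order satisfies K — then every proper subgroup of G is a K-group (all its non-abelian simple sections satisfy K), since such sections have smaller order than G. (2) Consequently (induction on the order), if every finite non-abelian simple group all of whose proper subgroups are K-groups satisfies K, then every finite non-abelian simple group satisfies K. -/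
theorem result (K : ∀ (X : Type u) [Group X], Prop) :
    (∀ (G : Type u) [Group G], Cfsg.IsMinCounterexampleWith K G → Cfsg.IsKProperWith K G) ∧
      ((∀ (X : Type u) [Group X] [Finite X], IsSimpleGroup X → ¬ IsMulCommutative X → Cfsg.IsKProperWith K X → K X) →
        ∀ (G : Type u) [Group G] [Finite G], IsSimpleGroup G → ¬ IsMulCommutative G → K G) := by
  refine ⟨?_, ?_⟩
  · intro G _ hG
    obtain ⟨hfin, hs, hc, hK, hmin⟩ := hG
    haveI := hfin
    exact key K G (fun X _ _ h1 h2 h3 => hmin X h1 h2 h3)
  · intro h
    have main : ∀ (n : ℕ) (G : Type u) [Group G] [Finite G], Nat.card G = n → IsSimpleGroup G → ¬ IsMulCommutative G → K G := by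
      intro n
      induction n using Nat.strong_induction_on with
      | _ n ih =>
        intro G _ _ hn hs hc
        apply h G hs hc
        apply key K G
        intro X _ _ h1 h2 h3
        exact ih _ (hn ▸ h3) X rfl h1 h2
    intro G _ _ hs hc
    exact main _ G rfl hs hc

end Cfsg.Agent.S1753
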