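import Mathlib
import Cfsg.Agent.H7.Syl
import Cfsg.Agent.H2.Component
import Cfsg.Statements.S1754

set_option autoImplicit false
open Cfsg

namespace Cfsg.Agent.S1754

/-- Let A be a standard subgroup of the finite group G (A quasisimple, C_G(A) tightly embedded of even order, A commuting elementwise with no other conjugate of itself, and N_G(A) = N_G(C_G(A))), and let t be an involution of G centralizing A. Then the centralizer of t lies in the normalizer of A; in particular A, viewed inside C_G(t), is a component of C_G(t). -/
theorem result {G : Type*} [Group G] [Finite G]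
    (A : Subgroup G) (hA : Cfsg.IsStandardSubgroup A) (t : G) (ht : orderOf t = 2) (htA : t ∈ Subgroup.centralizer (A : Set G)) :
    Subgroup.centralizer ({t} : Set G) ≤ Subgroup.normalizer (A : Set G) ∧
      Cfsg.IsComponent (A.subgroupOf (Subgroup.centralizer ({t} : Set G))) := by
  classical
  have hle : Subgroup.centralizer ({t} : Set G) ≤ Subgroup.normalizer (A : Set G) := by
    intro g hg
    rw [hA.2.2.2]
    by_contra hgN
    have h1 := hA.2.1.2 g hgN
    have h2 : t ∈ Subgroup.centralizer (A : Set G) ⊓ (Subgroup.centralizer (A : Set G)).map (MulAut.conj g).toMonoidHom := by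
      have h3 : t ∈ (Subgroup.centralizer (A : Set G)).map (MulAut.conj g).toMonoidHom := by
        refine ⟨t, htA, ?_⟩
        have h4 := Subgroup.mem_centralizer_singleton_iff.1 hg
        simp [MulAut.conj_apply, h4]
      exact ⟨htA, h3⟩
    have h3 := Subgroup.orderOf_dvd_natCard _ h2
    rw [ht] at h3
    exact (Nat.not_even_iff_odd.2 h1) (even_iff_two_dvd.2 h3)
  have hAC : A ≤ Subgroup.centralizer ({t} : Set G) := by
    intro a ha
    rw [Subgroup.mem_centralizer_singleton_iff]
    exact Subgroup.mem_centralizer_iff.1 htA a ha
  refine ⟨hle, ?_, (CfsgH2.isQuasisimple_subgroupOf hAC).2 hA.1⟩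
  apply Subgroup.Normal.isSubnormal
  exact Subgroup.normal_subgroupOf_of_le_normalizer hle

end Cfsg.Agent.S1754
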