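import Mathlib
import Cfsg.Agent.H7.Syl
import Cfsg.Agent.H2.GenFitting
import Cfsg.Statements.S1755

set_option autoImplicit false
open Cfsg

namespace Cfsg.Agent.S1755

theorem inv_unique {X : Type*} [Group X] [Finite X] (hc : IsCyclic X) (x y : X) (hx : orderOf x = 2) (hy : orderOf y = 2) : x = y := by
  classical
  haveI := Fintype.ofFinite X
  by_contra hne
  have h1 := IsCyclic.card_pow_eq_one_le (α := X) (n := 2) (by norm_num)
  have hx1 : x ≠ 1 := by rintro rfl; simp at hx
  have hy1 : y ≠ 1 := by rintro rfl; simp at hy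
  have h2 : ({1, x, y} : Finset X) ⊆ Finset.univ.filter (fun a => a ^ 2 = 1) := by
    intro a ha
    simp only [Finset.mem_insert, Finset.mem_singleton] at ha
    simp only [Finset.mem_filter, Finset.mem_univ, true_and]
    rcases ha with rfl | rfl | rfl
    · simp
    · rw [← hx, pow_orderOf_eq_one]
    · rw [← hy, pow_orderOf_eq_one]
  have h3 := Finset.card_le_card h2
  have h4 : ({1, x, y} : Finset X).card = 3 := Finset.card_eq_three.2 ⟨1, x, y, hx1.symm, hy1.symm, hne, rfl⟩
  omega

theorem main {G : Type*} [Group G] [Finite G] (z : G) (hz : orderOf z = 2) (C : Subgroup G) (hC : C = Subgroup.centralizer ({z} : Set G))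
    (Q : Subgroup C) (hQd : Q = Cfsg.generalizedFittingSubgroup ↥C) (hQ : Cfsg.IsOfSymplecticType ↥Q)
    (B : Subgroup Q) (hBc : B.Characteristic) (hBa : IsMulCommutative ↥B) (g : G) :
    CfsgH7.cj g ((B.map Q.subtype).map C.subtype) = (B.map Q.subtype).map C.subtype ∨
      CfsgH7.cj g ((B.map Q.subtype).map C.subtype) ⊓ (B.map Q.subtype).map C.subtype = ⊥ := by
  classical
  set D := (B.map Q.subtype).map C.subtype with hD
  have hmemD : ∀ x : G, x ∈ D ↔ ∃ b ∈ B, (((b : Q) : C) : G) = x := by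
    intro x
    constructor
    · rintro ⟨_, ⟨b, hb, rfl⟩, rfl⟩
      exact ⟨b, hb, rfl⟩
    · rintro ⟨b, hb, rfl⟩
      exact ⟨_, ⟨b, hb, rfl⟩, rfl⟩
  have hzC : z ∈ C := by rw [hC, Subgroup.mem_centralizer_singleton_iff]
  have hzQ : (⟨z, hzC⟩ : C) ∈ Q := by
    rw [hQd]
    apply CfsgH2.centralizer_generalizedFittingSubgroup_le
    rw [Subgroup.mem_centralizer_iff]
    intro c _
    apply Subtype.ext
    exact Subgroup.mem_centralizer_singleton_iff.1 (hC ▸ c.2)
  let z' : Q := ⟨⟨z, hzC⟩, hzQ⟩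
  have hz' : orderOf z' = 2 := by
    rw [← Subgroup.orderOf_coe, ← Subgroup.orderOf_coe]; exact hz
  have hz'c : ∀ x : Q, x * z' = z' * x := by
    intro x
    apply Subtype.ext
    apply Subtype.ext
    exact Subgroup.mem_centralizer_singleton_iff.1 (hC ▸ (x : C).2)
  have hBcyc := hQ.2 B hBc hBa
  have hZcyc : IsCyclic (Subgroup.center Q) := hQ.2 _ inferInstance inferInstance
  -- involutions of B are z'
  have hinv : ∀ b ∈ B, orderOf b = 2 → b = z' := by
    intro b hb hb2
    have hbz : b ∈ Subgroup.center Q := by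
      rw [Subgroup.mem_center_iff]
      intro x
      have h1 : x * b * x⁻¹ ∈ B := (Subgroup.normal_of_characteristic B).conj_mem b hb x
      have h2 : orderOf (⟨x * b * x⁻¹, h1⟩ : B) = 2 := by
        rw [← Subgroup.orderOf_coe]
        change orderOf (x * b * x⁻¹) = 2
        rw [← hb2]
        exact orderOf_injective (MulAut.conj x).toMonoidHom (MulAut.conj x).injective b
      have h3 : orderOf (⟨b, hb⟩ : B) = 2 := by rw [← Subgroup.orderOf_coe]; exact hb2
      have h4 := congrArg Subtype.val (inv_unique hBcyc _ _ h2 h3)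
      exact mul_inv_eq_iff_eq_mul.1 h4
    have hz'z : z' ∈ Subgroup.center Q := Subgroup.mem_center_iff.2 hz'c
    have h5 : orderOf (⟨b, hbz⟩ : Subgroup.center Q) = 2 := by rw [← Subgroup.orderOf_coe]; exact hb2
    have h6 : orderOf (⟨z', hz'z⟩ : Subgroup.center Q) = 2 := by rw [← Subgroup.orderOf_coe]; exact hz'
    exact congrArg Subtype.val (inv_unique hZcyc _ _ h5 h6)
  have hinvD : ∀ x ∈ D, orderOf x = 2 → x = z := by
    intro x hx hx2
    obtain ⟨b, hb, rfl⟩ := (hmemD x).1 hx
    have h1 : orderOf b = 2 := by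
      rw [← Subgroup.orderOf_coe, ← Subgroup.orderOf_coe]; exact hx2
    rw [hinv b hb h1]
  have hDp : ∀ x ∈ D, ∃ k : ℕ, x ^ 2 ^ k = 1 := by
    intro x hx
    obtain ⟨b, hb, rfl⟩ := (hmemD x).1 hx
    obtain ⟨k, hk⟩ := hQ.1 b
    refine ⟨k, ?_⟩
    have := congrArg (fun y : Q => ((y : C) : G)) hk
    simpa using this
  have hCD : ∀ g ∈ C, CfsgH7.cj g D ≤ D := by
    intro g hg x hx
    rw [CfsgH7.mem_cj] at hx
    obtain ⟨b, hb, hbx⟩ := (hmemD _).1 hx
    haveI : Q.Normal := by rw [hQd]; infer_instance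
    let φ : MulAut Q := MulAut.conjNormal (⟨g, hg⟩ : C)
    have h1 : φ b ∈ B := by
      have h2 := (Subgroup.characteristic_iff_map_eq.1 hBc) φ
      rw [← h2]
      exact ⟨b, hb, rfl⟩
    rw [hmemD]
    refine ⟨φ b, h1, ?_⟩
    have h3 : ((φ b : Q) : C) = (⟨g, hg⟩ : C) * (b : C) * (⟨g, hg⟩ : C)⁻¹ := MulAut.conjNormal_apply _ _
    rw [h3]
    change g * (((b : Q) : C) : G) * g⁻¹ = x
    rw [hbx]; group
  change CfsgH7.cj g D = D ∨ CfsgH7.cj g D ⊓ D = ⊥
  by_cases hbot : CfsgH7.cj g D ⊓ D = ⊥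
  · right; exact hbot
  left
  -- an involution in the intersection
  obtain ⟨w, hw, hw1⟩ : ∃ w : G, w ∈ CfsgH7.cj g D ⊓ D ∧ w ≠ 1 := by
    by_contra hcon
    push Not at hcon
    apply hbot
    rw [eq_bot_iff]
    intro w hw
    exact hcon w hw
  obtain ⟨k, hk⟩ := hDp w hw.2
  have hpow : ∃ v ∈ CfsgH7.cj g D ⊓ D, orderOf v = 2 := by
    have h2 : orderOf w ∣ 2 ^ k := orderOf_dvd_of_pow_eq_one hk
    obtain ⟨j, hj, hj2⟩ := (Nat.dvd_prime_pow Nat.prime_two).1 h2
    have hj0 : j ≠ 0 := by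
      rintro rfl
      rw [pow_zero, orderOf_eq_one_iff] at hj2
      exact hw1 hj2
    obtain ⟨i, rfl⟩ := Nat.exists_eq_succ_of_ne_zero hj0
    refine ⟨w ^ 2 ^ i, Subgroup.pow_mem _ hw _, ?_⟩
    rw [orderOf_pow_of_dvd (by positivity) (by rw [hj2, pow_succ]; exact Dvd.intro _ rfl), hj2, pow_succ]
    exact Nat.mul_div_cancel_left _ (by positivity)
  obtain ⟨v, hv, hv2⟩ := hpow
  have hv1 : v = z := hinvD v hv.2 hv2
  have hv3 : g⁻¹ * v * g ∈ D := CfsgH7.mem_cj.1 hv.1
  have hv4 : orderOf (g⁻¹ * v * g) = 2 := by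
    rw [← hv2]
    have := orderOf_injective (MulAut.conj g⁻¹).toMonoidHom (MulAut.conj g⁻¹).injective v
    simpa [MulAut.conj_apply] using this
  have hv5 := hinvD _ hv3 hv4
  rw [hv1] at hv5
  have hgC : g ∈ C := by
    rw [hC, Subgroup.mem_centralizer_singleton_iff]
    calc g * z = g * (g⁻¹ * z * g) := by rw [hv5]
      _ = z * g := by group
  apply le_antisymm (hCD g hgC)
  have h1 := hCD g⁻¹ (C.inv_mem hgC)
  have h2 := CfsgH7.cj_mono (g := g) h1
  rwa [CfsgH7.cj_cj_inv] at h2


/-- Let G be a finite group and let z be an involution of G such that Q, the generalized Fitting subgroup of the centralizer C of z, is a 2-group of symplectic type (every characteristic abelian subgroup of Q is cyclic). Let B be a characteristic abelian subgroup of Q, viewed as a subgroup of G. Then for every g in G, the conjugate of B by g either equals B or meets B trivially. -/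
theorem result {G : Type*} [Group G] [Finite G] (z : G) (hz : orderOf z = 2) (hQ : Cfsg.IsOfSymplecticType ↥(Cfsg.generalizedFittingSubgroup ↥(Subgroup.centralizer ({z} : Set G))))
    (B : Subgroup ↥(Cfsg.generalizedFittingSubgroup ↥(Subgroup.centralizer ({z} : Set G)))) (hBc : B.Characteristic) (hBa : IsMulCommutative ↥B) (g : G) :
    ((B.map (Cfsg.generalizedFittingSubgroup ↥(Subgroup.centralizer ({z} : Set G))).subtype).map (Subgroup.centralizer ({z} : Set G)).subtype).map (MulAut.conj g).toMonoidHom =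
        (B.map (Cfsg.generalizedFittingSubgroup ↥(Subgroup.centralizer ({z} : Set G))).subtype).map (Subgroup.centralizer ({z} : Set G)).subtype ∨
      ((B.map (Cfsg.generalizedFittingSubgroup ↥(Subgroup.centralizer ({z} : Set G))).subtype).map (Subgroup.centralizer ({z} : Set G)).subtype).map (MulAut.conj g).toMonoidHom ⊓
        (B.map (Cfsg.generalizedFittingSubgroup ↥(Subgroup.centralizer ({z} : Set G))).subtype).map (Subgroup.centralizer ({z} : Set G)).subtype = ⊥ := by
  exact main z hz _ rfl _ rfl hQ B hBc hBa g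

end Cfsg.Agent.S1755
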