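import Mathlib
import Cfsg.Agent.H7.Syl
import Cfsg.Statements.S1757

set_option autoImplicit false
open Cfsg

namespace Cfsg.Agent.S1757

theorem main {G : Type*} [Group G] [Finite G] (A B : Subgroup G)
    (hBti : ∀ g : G, B.map (MulAut.conj g).toMonoidHom = B ∨ B.map (MulAut.conj g).toMonoidHom ⊓ B = ⊥)
    (hle : Nat.card ↥A ≤ Nat.card ↥B) (hAB : A ⊓ B = ⊥) (hN : B ≤ Subgroup.normalizer (A : Set G)) : ⁅A, B⁆ = ⊥ := by
  rw [Subgroup.commutator_eq_bot_iff_le_centralizer]
  intro a ha
  by_contra hac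
  -- the map b ↦ b a b⁻¹ is injective
  have hcent : ∀ b ∈ B, b ≠ 1 → b * a ≠ a * b := by
    intro b hb hb1 hcomm
    apply hac
    have h1 : CfsgH7.cj a B = B := by
      rcases hBti a with h | h
      · exact h
      · exfalso
        apply hb1
        have hbc : b ∈ CfsgH7.cj a B := by
          rw [CfsgH7.mem_cj]
          have : a⁻¹ * b * a = b := by rw [mul_assoc, hcomm, inv_mul_cancel_left]
          rw [this]; exact hb
        have h2 : b ∈ CfsgH7.cj a B ⊓ B := ⟨hbc, hb⟩
        rw [show CfsgH7.cj a B ⊓ B = ⊥ from h] at h2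
        exact h2
    rw [Subgroup.mem_centralizer_iff]
    intro c hc
    have h2 : c * a * c⁻¹ * a⁻¹ ∈ A ⊓ B := by
      refine ⟨A.mul_mem ((Subgroup.mem_normalizer_iff.1 (hN hc) a).1 ha) (A.inv_mem ha), ?_⟩
      have h3 : a * c⁻¹ * a⁻¹ ∈ B := by
        have := CfsgH7.conj_mem_cj (g := a) (B.inv_mem hc)
        rwa [h1] at this
      have h4 := B.mul_mem hc h3
      simpa [mul_assoc] using h4
    rw [hAB] at h2
    have h3 : c * a * c⁻¹ * a⁻¹ = 1 := h2
    rw [mul_inv_eq_one, mul_inv_eq_iff_eq_mul] at h3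
    exact h3
  have ha1 : a ≠ 1 := by
    rintro rfl
    exact hac (Subgroup.one_mem _)
  have hinj : Function.Injective (fun b : B => (⟨⟨(b : G) * a * (b : G)⁻¹, (Subgroup.mem_normalizer_iff.1 (hN b.2) a).1 ha⟩, by
      intro h
      apply ha1
      have h1 : (b : G) * a * (b : G)⁻¹ = 1 := congrArg Subtype.val h
      calc a = (b : G)⁻¹ * ((b : G) * a * (b : G)⁻¹) * b := by group
        _ = 1 := by rw [h1]; group⟩ : {x : A // x ≠ 1})) := by
    intro b c hbc
    have h1 : (b : G) * a * (b : G)⁻¹ = (c : G) * a * (c : G)⁻¹ := congrArg (fun x : {x : A // x ≠ 1} => ((x.1 : A) : G)) hbc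
    by_contra hne
    apply hcent ((c : G)⁻¹ * b) (B.mul_mem (B.inv_mem c.2) b.2)
    · intro h
      exact hne (Subtype.ext (inv_mul_eq_one.1 h).symm)
    · calc (c : G)⁻¹ * b * a = (c : G)⁻¹ * ((b : G) * a * (b : G)⁻¹) * b := by group
        _ = (c : G)⁻¹ * ((c : G) * a * (c : G)⁻¹) * b := by rw [h1]
        _ = a * ((c : G)⁻¹ * b) := by group
  have h1 := Nat.card_le_card_of_injective _ hinj
  have h2 : Nat.card {x : A // x ≠ 1} < Nat.card A := by
    haveI := Fintype.ofFinite A
    classical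
    rw [Nat.card_eq_fintype_card, Nat.card_eq_fintype_card]
    exact Fintype.card_subtype_lt (x := (1 : A)) (by simp)
  omega

/-- Let p be a prime and A, B p-subgroups of the finite group G, each of which meets every conjugate of itself other than itself trivially. Suppose the order of A is at most that of B, A and B intersect trivially, and B normalizes A. Then A and B commute elementwise. -/
theorem result {G : Type*} [Group G] [Finite G] (p : ℕ) [Fact p.Prime] (A B : Subgroup G)
    (hA : IsPGroup p ↥A) (hB : IsPGroup p ↥B)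
    (hAti : ∀ g : G, A.map (MulAut.conj g).toMonoidHom = A ∨ A.map (MulAut.conj g).toMonoidHom ⊓ A = ⊥)
    (hBti : ∀ g : G, B.map (MulAut.conj g).toMonoidHom = B ∨ B.map (MulAut.conj g).toMonoidHom ⊓ B = ⊥)
    (hle : Nat.card ↥A ≤ Nat.card ↥B) (hAB : A ⊓ B = ⊥) (hN : B ≤ Subgroup.normalizer (A : Set G)) : ⁅A, B⁆ = ⊥ := by
  exact main A B hBti hle hAB hN

end Cfsg.Agent.S1757
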