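import Mathlib
import Cfsg.Statements.S1780

set_option autoImplicit false
open Cfsg

namespace Cfsg.Agent.S1780

theorem main {A : Type*} [CommGroup A] (hA : ∀ a : A, ∃ k : ℕ, a ^ 2 ^ k = 1) (t : A →* A) (k : ℕ) (hk : ∀ a, (t^[2 ^ k]) a = a)
    (hC : ∀ a : A, t (t a) = a → t a = a) : ∀ a : A, t a = a := by
  -- c a = a⁻¹ t a
  let c : A →* A := { toFun := fun a => a⁻¹ * t a, map_one' := by simp, map_mul' := fun a b => by rw [map_mul, mul_inv]; exact mul_mul_mul_comm _ _ _ _ }
  have hc : ∀ a, c a = a⁻¹ * t a := fun a => rfl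
  -- c (c a) = 1 → c a = 1
  have hcc : ∀ a, c (c a) = 1 → c a = 1 := by
    -- by induction on the order of c a
    have aux : ∀ n : ℕ, ∀ a, c (c a) = 1 → (c a) ^ 2 ^ n = 1 → c a = 1 := by
      intro n
      induction n with
      | zero => intro a _ h; simpa using h
      | succ n ih =>
        intro a h1 h2
        -- b = a ^ 2^n: c b has square 1
        have h3 : c (a ^ 2 ^ n) * c (a ^ 2 ^ n) = 1 := by
          rw [map_pow, ← pow_two, ← pow_mul, ← pow_succ]; exact h2
        have h4 : t (c (a ^ 2 ^ n)) = c (a ^ 2 ^ n) := by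
          have h5 : c (c (a ^ 2 ^ n)) = 1 := by rw [map_pow, map_pow, h1, one_pow]
          rw [hc] at h5
          exact (inv_mul_eq_one.1 h5).symm
        have h5 : t (a ^ 2 ^ n) = a ^ 2 ^ n * c (a ^ 2 ^ n) := by rw [hc]; group
        have h6 : t (t (a ^ 2 ^ n)) = a ^ 2 ^ n := by
          rw [h5, map_mul, h4, h5, mul_assoc, h3, mul_one]
        have h7 := hC _ h6
        have h8 : c (a ^ 2 ^ n) = 1 := by rw [hc, h7, inv_mul_cancel]
        rw [map_pow] at h8
        exact ih a h1 h8
    intro a h
    obtain ⟨n, hn⟩ := hA (c a)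
    exact aux n a h hn
  -- c is nilpotent on elements of order two
  have hiter : ∀ i : ℕ, ∀ b : A, b * b = 1 → (c^[2 ^ i]) b = b * (t^[2 ^ i]) b := by
    intro i
    induction i with
    | zero =>
      intro b hb
      have : b⁻¹ = b := inv_eq_of_mul_eq_one_left hb
      simp [hc, this]
    | succ i ih =>
      intro b hb
      have ht2 : (t^[2 ^ i]) b * (t^[2 ^ i]) b = 1 := by
        have hh : ∀ m : ℕ, (t^[m]) b * (t^[m]) b = 1 := by
          intro m
          induction m with
          | zero => simpa using hb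
          | succ m ihm => rw [Function.iterate_succ_apply', ← map_mul, ihm, map_one]
        exact hh _
      have hmul : ∀ (m : ℕ) (x y : A), (t^[m]) (x * y) = (t^[m]) x * (t^[m]) y := by
        intro m
        induction m with
        | zero => intro x y; rfl
        | succ m ihm => intro x y; rw [Function.iterate_succ_apply', ihm, map_mul, Function.iterate_succ_apply', Function.iterate_succ_apply']
      rw [pow_succ, mul_two, Function.iterate_add_apply, ih b hb, ih _ (by
        rw [mul_mul_mul_comm, hb, ht2, one_mul]), hmul, Function.iterate_add_apply]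
      calc b * (t^[2 ^ i]) b * ((t^[2 ^ i]) b * (t^[2 ^ i]) ((t^[2 ^ i]) b)) = b * ((t^[2 ^ i]) b * (t^[2 ^ i]) b) * (t^[2 ^ i]) ((t^[2 ^ i]) b) := by
            simp only [mul_assoc]
        _ = _ := by rw [ht2, mul_one]
  have hiter1 : ∀ b : A, b * b = 1 → (c^[2 ^ k]) b = 1 := by
    intro b hb
    rw [hiter k b hb, hk b, hb]
  -- if c^[m+1] b = 1 then c b = 1
  have hdown : ∀ m : ℕ, ∀ b : A, (c^[m + 1]) b = 1 → c b = 1 := by
    intro m
    induction m with
    | zero => intro b h; simpa using h
    | succ m ih =>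
      intro b h
      rw [Function.iterate_succ_apply] at h
      have h1 := ih (c b) h
      exact hcc b h1
  have hinv : ∀ b : A, b * b = 1 → c b = 1 := by
    intro b hb
    obtain ⟨m, hm⟩ := Nat.exists_eq_succ_of_ne_zero (show (2 : ℕ) ^ k ≠ 0 by positivity)
    have := hiter1 b hb
    rw [hm] at this
    exact hdown m b this
  -- c a is 2-element; if c a ≠ 1 take power of order two, in the image of c
  intro a
  have hfin : ∀ n : ℕ, ∀ a : A, (c a) ^ 2 ^ n = 1 → c a = 1 := by
    intro n
    induction n with
    | zero => intro a h; simpa using h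
    | succ n ih =>
      intro a h
      have h3 : c (a ^ 2 ^ n) * c (a ^ 2 ^ n) = 1 := by
        rw [map_pow, ← pow_two, ← pow_mul, ← pow_succ]; exact h
      have h4 := hcc _ (hinv _ h3)
      rw [map_pow] at h4
      exact ih a h4
  obtain ⟨n, hn⟩ := hA (c a)
  have h1 := hfin n a hn
  rw [hc] at h1
  exact (inv_mul_eq_one.1 h1).symm

/-- Let A be a finite abelian 2-group and t an automorphism of A whose order is a power of 2. If every element of A fixed by t² is fixed by t, then t fixes every element of A. -/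
theorem result {A : Type*} [CommGroup A] [Finite A]
    (hA : IsPGroup 2 A) (t : MulAut A) (ht : ∃ k : ℕ, orderOf t = 2 ^ k) (hC : ∀ a : A, t (t a) = a → t a = a) :
    ∀ a : A, t a = a := by
  obtain ⟨k, hk⟩ := ht
  apply main (fun a => hA a) t.toMonoidHom k _ hC
  intro a
  have h1 : ∀ m : ℕ, (t.toMonoidHom^[m]) a = (t ^ m) a := by
    intro m
    induction m with
    | zero => rfl
    | succ m ih => rw [Function.iterate_succ_apply', ih, pow_succ', MulAut.mul_apply]; rfl
  rw [h1, ← hk, pow_orderOf_eq_one]; rfl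

end Cfsg.Agent.S1780
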