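import Mathlib
import Cfsg.Agent.H7.Syl
import Cfsg.Agent.S1757
import Cfsg.Agent.S1780
import Cfsg.Statements.S1781

set_option autoImplicit false
open Cfsg

namespace Cfsg.Agent.S1781

/-- Let A be an abelian 2-subgroup of the finite group G such that every conjugate of A equals A or meets A trivially, and let g ∈ G with g A g⁻¹ ≠ A. Then either the subgroup of those elements of A that normalize g A g⁻¹ is an elementary abelian 2-group, or A and g A g⁻¹ commute elementwise. -/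
theorem result {G : Type*} [Group G] [Finite G] (A : Subgroup G)
    (hA2 : IsPGroup 2 ↥A) (hAa : IsMulCommutative ↥A)
    (hti : ∀ h : G, A.map (MulAut.conj h).toMonoidHom = A ∨ A.map (MulAut.conj h).toMonoidHom ⊓ A = ⊥)
    (g : G) (hg : A.map (MulAut.conj g).toMonoidHom ≠ A) :
    Cfsg.IsElementaryAbelian 2 (A ⊓ Subgroup.normalizer ((A.map (MulAut.conj g).toMonoidHom : Subgroup G) : Set G)) ∨
      ⁅A, A.map (MulAut.conj g).toMonoidHom⁆ = ⊥ := by
  classical
  set B : Subgroup G := CfsgH7.cj g A with hB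
  change Cfsg.IsElementaryAbelian 2 (A ⊓ Subgroup.normalizer (B : Set G)) ∨ ⁅A, B⁆ = ⊥
  have hcommA : ∀ a ∈ A, ∀ b ∈ A, a * b = b * a := fun a ha b hb =>
    congrArg Subtype.val (hAa.is_comm.comm (⟨a, ha⟩ : A) ⟨b, hb⟩)
  have hAB : B ⊓ A = ⊥ := (hti g).resolve_left hg
  by_cases hall : ∀ d ∈ A ⊓ Subgroup.normalizer (B : Set G), d ^ 2 = 1
  · left
    refine ⟨⟨⟨?_⟩⟩, hall⟩
    rintro ⟨a, ha⟩ ⟨b, hb⟩
    exact Subtype.ext (hcommA a ha.1 b hb.1)
  right
  push Not at hall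
  obtain ⟨d, ⟨hdA, hdN⟩, hd2⟩ := hall
  have hdN' : d ∈ Subgroup.normalizer (B : Set G) := hdN
  -- an element commuting with a nontrivial element of A normalizes A
  have htiN : ∀ a ∈ A, a ≠ 1 → ∀ x : G, x * a = a * x → CfsgH7.cj x A = A := by
    intro a ha ha1 x hxa
    rcases hti x with h | h
    · exact h
    · exfalso
      apply ha1
      have h1 : a ∈ CfsgH7.cj x A := by
        rw [CfsgH7.mem_cj]
        have : x⁻¹ * a * x = a := by rw [mul_assoc, ← hxa, inv_mul_cancel_left]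
        rw [this]; exact ha
      have h2 : a ∈ CfsgH7.cj x A ⊓ A := ⟨h1, ha⟩
      rw [show CfsgH7.cj x A ⊓ A = ⊥ from h] at h2
      exact h2
  -- x in B commuting with d^2 commutes with d
  have hBd : ∀ x ∈ B, x * d ^ 2 = d ^ 2 * x → x * d = d * x := by
    intro x hx hxd
    have h1 := htiN _ (A.pow_mem hdA 2) hd2 x hxd
    have h2 : x * d * x⁻¹ * d⁻¹ ∈ B ⊓ A := by
      have h3 : x * d * x⁻¹ * d⁻¹ ∈ A := by
        have h4 := CfsgH7.conj_mem_cj (g := x) hdA
        rw [h1] at h4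
        exact A.mul_mem h4 (A.inv_mem hdA)
      have h5 : x * d * x⁻¹ * d⁻¹ ∈ B := by
        have h6 := (Subgroup.mem_normalizer_iff.1 hdN' x⁻¹).1 (B.inv_mem hx)
        have h7 := B.mul_mem hx h6
        simpa [mul_assoc] using h7
      exact ⟨h5, h3⟩
    rw [hAB] at h2
    have h3 : x * d * x⁻¹ * d⁻¹ = 1 := h2
    rw [mul_inv_eq_one, mul_inv_eq_iff_eq_mul] at h3
    exact h3
  have hcommB : ∀ a ∈ B, ∀ b ∈ B, a * b = b * a := by
    intro a ha b hb
    rw [hB, CfsgH7.mem_cj] at ha hb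
    have h1 := hcommA _ ha _ hb
    calc a * b = g * ((g⁻¹ * a * g) * (g⁻¹ * b * g)) * g⁻¹ := by group
      _ = g * ((g⁻¹ * b * g) * (g⁻¹ * a * g)) * g⁻¹ := by rw [h1]
      _ = b * a := by group
  letI : CommGroup B := { (inferInstance : Group B) with mul_comm := fun a b => Subtype.ext (hcommB a a.2 b b.2) }
  have hB2 : ∀ a : B, ∃ k : ℕ, a ^ 2 ^ k = 1 := by
    intro a
    have ha : g⁻¹ * (a : G) * g ∈ A := CfsgH7.mem_cj.1 (show (a : G) ∈ CfsgH7.cj g A from a.2)
    obtain ⟨k, hk⟩ := hA2 ⟨_, ha⟩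
    refine ⟨k, Subtype.ext ?_⟩
    have h1 : (g⁻¹ * (a : G) * g) ^ 2 ^ k = 1 := congrArg Subtype.val hk
    have h2 : g⁻¹ * (a : G) ^ 2 ^ k * g = 1 := by
      rw [← h1]
      have := conj_pow (i := 2 ^ k) (a := g⁻¹) (b := (a : G))
      rw [inv_inv] at this
      exact this.symm
    have h3 : (a : G) ^ 2 ^ k = 1 := by
      calc (a : G) ^ 2 ^ k = g * (g⁻¹ * (a : G) ^ 2 ^ k * g) * g⁻¹ := by group
        _ = 1 := by rw [h2]; group
    exact h3
  let t : B →* B := { toFun := fun a => ⟨d * a * d⁻¹, (Subgroup.mem_normalizer_iff.1 hdN' a).1 a.2⟩, map_one' := Subtype.ext (by simp), map_mul' := fun a b => Subtype.ext (by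
      change d * ((a : G) * b) * d⁻¹ = (d * a * d⁻¹) * (d * b * d⁻¹)
      group) }
  have ht : ∀ a : B, ((t a : B) : G) = d * a * d⁻¹ := fun a => rfl
  obtain ⟨k, hk⟩ := hA2 ⟨d, hdA⟩
  have hk' : d ^ 2 ^ k = 1 := congrArg Subtype.val hk
  have hiter : ∀ (m : ℕ) (a : B), ((t^[m] a : B) : G) = d ^ m * a * (d ^ m)⁻¹ := by
    intro m
    induction m with
    | zero => intro a; simp
    | succ m ih =>
      intro a
      rw [Function.iterate_succ_apply', ht, ih, pow_succ']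
      group
  have hfix := Cfsg.Agent.S1780.main hB2 t k (fun a => Subtype.ext (by rw [hiter, hk']; simp)) (by
    intro a ha
    have h1 : d * (d * (a : G) * d⁻¹) * d⁻¹ = a := congrArg Subtype.val ha
    have h2 : (a : G) * d ^ 2 = d ^ 2 * a := by
      calc (a : G) * d ^ 2 = (d * (d * (a : G) * d⁻¹) * d⁻¹) * d ^ 2 := by rw [h1]
        _ = d ^ 2 * a := by rw [pow_two]; group
    have h3 := hBd a a.2 h2
    apply Subtype.ext
    rw [ht, ← h3, mul_inv_cancel_right])
  have hdcomm : ∀ x ∈ B, x * d = d * x := by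
    intro x hx
    have h1 : d * x * d⁻¹ = x := congrArg Subtype.val (hfix ⟨x, hx⟩)
    rw [mul_inv_eq_iff_eq_mul] at h1
    exact h1.symm
  have hd1 : d ≠ 1 := by
    rintro rfl
    exact hd2 (one_pow 2)
  have hBN : B ≤ Subgroup.normalizer (A : Set G) := by
    intro x hx
    rw [CfsgH7.mem_normalizer_iff_cj]
    exact htiN d hdA hd1 x (hdcomm x hx)
  apply Cfsg.Agent.S1757.main A B _ _ _ hBN
  · intro h
    rcases hti (g⁻¹ * h * g) with h1 | h1
    · left
      change CfsgH7.cj h B = B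
      rw [hB, ← CfsgH7.cj_mul, show h * g = g * (g⁻¹ * h * g) by group, CfsgH7.cj_mul]
      rw [show CfsgH7.cj (g⁻¹ * h * g) A = A from h1]
    · right
      change CfsgH7.cj h B ⊓ B = ⊥
      rw [hB, ← CfsgH7.cj_mul, show h * g = g * (g⁻¹ * h * g) by group, CfsgH7.cj_mul]
      rw [eq_bot_iff]
      intro x hx
      have hx1 := hx.1
      have hx2 := hx.2
      have hx1' : g⁻¹ * x * g ∈ CfsgH7.cj (g⁻¹ * h * g) A := CfsgH7.mem_cj.1 hx1
      have hx2' : g⁻¹ * x * g ∈ A := CfsgH7.mem_cj.1 hx2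
      have h2 : g⁻¹ * x * g ∈ CfsgH7.cj (g⁻¹ * h * g) A ⊓ A := ⟨hx1', hx2'⟩
      rw [show CfsgH7.cj (g⁻¹ * h * g) A ⊓ A = ⊥ from h1] at h2
      have h3 : g⁻¹ * x * g = 1 := h2
      rw [Subgroup.mem_bot]
      calc x = g * (g⁻¹ * x * g) * g⁻¹ := by group
        _ = 1 := by rw [h3]; group
  · rw [hB]
    exact (Subgroup.card_map_of_injective (MulAut.conj g).injective).symm.le
  · rw [inf_comm]; exact hAB

end Cfsg.Agent.S1781
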