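import Cfsg.Statements.S1966
import Cfsg.Agent.H7.WellPlaced
import Cfsg.Agent.H2.Cores

set_option autoImplicit false
open Cfsg

namespace Cfsg.Agent.S1966

/-- Let p be a prime, G a finite group with Sylow p-subgroup S and 𝓕 a conjugation family for S in G. Then the members of 𝓕 containing O_p(G) still form a conjugation family for S in G. -/
theorem result {G : Type*} [Group G] [Finite G] {p : ℕ} [Fact p.Prime] (S : Sylow p G) (𝓕 : Set (Subgroup G)) (h : Cfsg.IsConjugationFamily 𝓕 (S : Subgroup G)) : Cfsg.IsConjugationFamily {T : Subgroup G | T ∈ 𝓕 ∧ Cfsg.pCore p G ≤ T} (S : Subgroup G) := by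
  have hchar := CfsgH2.pCore_characteristic (G := G) p
  have hP : Cfsg.pCore p G ≤ (S : Subgroup G) :=
    (CfsgH2.isPGroup_pCore (G := G) p).le_sylow_of_normal S
  refine ⟨fun T hT => h.1 T hT.1, fun A g _ hA hgA => ?_⟩
  have h1 : CfsgH7.AChain 𝓕 (Subgroup.closure A ⊔ Cfsg.pCore p G) g⁻¹ := by
    refine CfsgH7.achain_of_isConjugationFamily h _ _ (sup_le ((Subgroup.closure_le _).mpr hA) hP) ?_
    rw [CfsgH7.cj_sup, CfsgH7.cj_of_normal _ (Cfsg.pCore p G)]
    exact sup_le (CfsgH7.conj_image_subset_iff'.mp hgA) hP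
  have h2 : ∀ y, CfsgH7.AChain 𝓕 (Subgroup.closure A ⊔ Cfsg.pCore p G) y →
      CfsgH7.AChain {T : Subgroup G | T ∈ 𝓕 ∧ Cfsg.pCore p G ≤ T} (Subgroup.closure A ⊔ Cfsg.pCore p G) y := by
    intro y h1
    induction h1 with
    | one => exact CfsgH7.AChain.one
    | @step c x U hc hU hx hcA ih =>
      refine CfsgH7.AChain.step ih ⟨hU, ?_⟩ hx hcA
      rw [CfsgH7.cj_sup, CfsgH7.cj_of_normal _ (Cfsg.pCore p G)] at hcA
      exact le_sup_right.trans hcA
  obtain ⟨n, T, x, h3, h4, h5, h6⟩ := CfsgH7.list_of_achain ((h2 _ h1).mono (le_sup_left : Subgroup.closure A ≤ _))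
  refine ⟨n, T, x, by rw [h3, inv_inv], h4, h5, fun hn => ?_, fun i hi => h6 ⟨i.val + 1, hi⟩⟩
  have := h6 ⟨0, hn⟩
  simpa using this

end Cfsg.Agent.S1966
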