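import Cfsg.Statements.S1971
import Cfsg.Agent.H7.FusionCor

set_option autoImplicit false
universe u
open Cfsg

namespace Cfsg.Agent.S1971

open CfsgH7 in
open scoped commutatorElement in
/-- A Sylow subgroup is not in the derived group if `N(S) / C(S)` is a `p`-group and functorial transfer control holds. -/
theorem aux {p : ℕ} [Fact p.Prime] (W : ∀ (Q : Type u) [Group Q], Subgroup Q) (hW : Cfsg.IsCharPFunctor.{u} p W) (n : ℕ) :
    ∀ (G : Type u) [Group G] [Finite G], Nat.card G = n →
    (∀ (H : Type u) [Group H] [Finite H], Cfsg.Involves H G → CfsgH7.TRc p {W} H) →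
    ∀ (S : Sylow p G), (S : Subgroup G) ≠ ⊥ →
    (∀ g ∈ Subgroup.normalizer ((S : Subgroup G) : Set G), (orderOf g).Coprime p → g ∈ Subgroup.centralizer ((S : Subgroup G) : Set G)) →
    ¬ (S : Subgroup G) ≤ commutator G := by
  induction n using Nat.strong_induction_on with
  | _ n ih =>
  intro G _ _ hcard hctl S hS hN hcon
  have hSp := S.isPGroup'
  set W1 := Cfsg.inducedFunctor (G := G) W (S : Subgroup G) with hW1
  have hcf := isConjugacyFunctor_induced hW (G := G)
  set N1 := Subgroup.normalizer (W1 : Set G) with hN1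
  have hSN : (S : Subgroup G) ≤ N1 := le_normalizer_induced hW hSp
  have htr := trD_all (𝓦 := {W}) (by rintro W' rfl; exact hW) (hctl G (involves_refl G)) (isSyl_of_sylow S)
  simp only [ind, Set.image_singleton] at htr
  rw [trD_singleton, top_inf_eq, inf_eq_left.mpr hcon] at htr
  have hSN1 : (S : Subgroup G) ≤ ⁅N1, N1⁆ := htr.trans inf_le_right
  have hW1ne : W1 ≠ ⊥ := cf_ne_bot hcf hSp hS
  -- the Sylow subgroup of `N1`
  have hWS : W1 ≤ (S : Subgroup G) := inducedFunctor_le _
  by_cases hWS2 : W1 = S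
  · -- then `S` is normal in `N1`
    have hN1S : N1 = Subgroup.normalizer ((S : Subgroup G) : Set G) := by rw [hN1, hWS2]
    -- `N1 = S * C`
    obtain ⟨P, hP1, hP2⟩ := ((isSyl_of_sylow S).mono hSN le_top).exists_sylow
    have hPn : (P : Subgroup ↥N1).Normal := by
      rw [hP1]
      refine ⟨fun x hx y => ?_⟩
      rw [Subgroup.mem_subgroupOf] at hx ⊢
      have hy : (y : G) ∈ Subgroup.normalizer ((S : Subgroup G) : Set G) := by rw [← hN1S]; exact y.2
      exact (Subgroup.mem_normalizer_iff.mp hy _).mp hx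
    -- the centralizer contains all `p'`-elements
    have hCn : ((Subgroup.centralizer ((S : Subgroup G) : Set G)).subgroupOf N1).Normal := by
      refine ⟨fun x hx y => ?_⟩
      rw [Subgroup.mem_subgroupOf] at hx ⊢
      have hy : (y : G) ∈ Subgroup.normalizer ((S : Subgroup G) : Set G) := by rw [← hN1S]; exact y.2
      have h1 := conj_mem_cj (g := (y : G)) hx
      rw [← centralizer_cj, cj_of_mem_normalizer hy] at h1
      exact h1
    have hpp : ∀ g : ↥N1, (orderOf g).Coprime p → g ∈ (Subgroup.centralizer ((S : Subgroup G) : Set G)).subgroupOf N1 := by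
      intro g hg
      rw [Subgroup.mem_subgroupOf]
      refine hN g (by rw [← hN1S]; exact g.2) ?_
      rwa [Subgroup.orderOf_coe]
    have htop := CfsgH3.sylow_sup_eq_top _ hpp P
    -- focal subgroup of `S` in `N1`
    have hfoc : (S : Subgroup G) ⊓ ⁅N1, N1⁆ ≤ ⁅(S : Subgroup G), (S : Subgroup G)⁆ := by
      refine focal_le ((isSyl_of_sylow S).mono hSN le_top) fun x hx u hu _ => ?_
      have h1 : (⟨u, hu⟩ : ↥N1) ∈ (P : Subgroup ↥N1) ⊔ (Subgroup.centralizer ((S : Subgroup G) : Set G)).subgroupOf N1 := by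
        rw [htop]; trivial
      obtain ⟨s, hs, c, hc, hsc⟩ := Subgroup.mem_sup_of_normal_right.mp h1
      have hs' : (s : G) ∈ (S : Subgroup G) := by rw [hP1] at hs; exact hs
      have e : u = s * c := (congrArg Subtype.val hsc).symm
      have hcx := Subgroup.mem_centralizer_iff.mp (Subgroup.mem_subgroupOf.mp hc) x hx
      have e2 : x⁻¹ * (u * x * u⁻¹) = ⁅x⁻¹, (s : G)⁆ := by
        rw [e, commutatorElement_def]
        calc x⁻¹ * ((s : G) * c * x * ((s : G) * c)⁻¹) = x⁻¹ * (s * (c * x) * (c : G)⁻¹ * (s : G)⁻¹) := by group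
          _ = x⁻¹ * (s * (x * c) * (c : G)⁻¹ * (s : G)⁻¹) := by rw [hcx]
          _ = _ := by group
      rw [e2]
      exact Subgroup.commutator_mem_commutator (inv_mem hx) hs'
    have h2 : (S : Subgroup G) ≤ ⁅(S : Subgroup G), (S : Subgroup G)⁆ := (le_inf le_rfl hSN1).trans hfoc
    have hnil := hSp.isNilpotent
    exact hS (CfsgH3.eq_bot_of_le_commutator (P := (S : Subgroup G)) le_rfl h2)
  · -- pass to `N1 / W1`
    have hnorm : (W1.subgroupOf N1).Normal := by
      rw [Subgroup.normal_subgroupOf_iff_le_normalizer (hWS.trans hSN)]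
    let f := QuotientGroup.mk' (W1.subgroupOf N1)
    have hf : Function.Surjective f := QuotientGroup.mk'_surjective _
    have hker : f.ker = W1.subgroupOf N1 := QuotientGroup.ker_mk' _
    obtain ⟨P, hP1, hP2⟩ := ((isSyl_of_sylow S).mono hSN le_top).exists_sylow
    obtain ⟨Q, hQ⟩ := exists_sylow_of_isSyl ((isSyl_of_sylow P).map_top f hf)
    have hlt : Nat.card (↥N1 ⧸ W1.subgroupOf N1) < n := by
      have h1 := Subgroup.card_eq_card_quotient_mul_card_subgroup (W1.subgroupOf N1)
      have h2 : Nat.card ↥N1 ≤ Nat.card G := Subgroup.card_le_card_group _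
      have h3 : W1.subgroupOf N1 ≠ ⊥ := by
        intro h0
        rw [Subgroup.subgroupOf_eq_bot] at h0
        exact hW1ne (le_bot_iff.mp (h0 le_rfl (hWS.trans hSN)))
      have h4 : 1 < Nat.card ↥(W1.subgroupOf N1) := (Subgroup.one_lt_card_iff_ne_bot _).mpr h3
      have h5 : 0 < Nat.card (↥N1 ⧸ W1.subgroupOf N1) := Nat.card_pos
      rw [← hcard]
      nlinarith
    have hPW : ∀ x : ↥N1, f x ∈ (Q : Subgroup (↥N1 ⧸ W1.subgroupOf N1)) → (x : G) ∈ (S : Subgroup G) := by
      intro x hx
      rw [hQ] at hx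
      obtain ⟨y, hy, hyx⟩ := hx
      have h1 : y⁻¹ * x ∈ W1.subgroupOf N1 := by
        rw [← hker, MonoidHom.mem_ker, map_mul, map_inv, hyx, inv_mul_cancel]
      rw [hP1] at hy
      have h2 : ((y⁻¹ * x : ↥N1) : G) ∈ (S : Subgroup G) := hWS h1
      have h3 := mul_mem (show (y : G) ∈ (S : Subgroup G) from hy) h2
      simpa using h3
    refine ih _ hlt (↥N1 ⧸ W1.subgroupOf N1) rfl (fun H _ _ hH => hctl H (Involves.trans' hH (involves_section N1 W1))) Q ?_ ?_ ?_
    · intro h0
      apply hWS2
      refine le_antisymm hWS fun s hs => ?_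
      have h1 : f ⟨s, hSN hs⟩ ∈ (Q : Subgroup (↥N1 ⧸ W1.subgroupOf N1)) := by
        rw [hQ]; exact ⟨_, by rw [hP1]; exact hs, rfl⟩
      rw [h0, Subgroup.mem_bot, ← MonoidHom.mem_ker, hker] at h1
      exact h1
    · intro g hg hgo
      obtain ⟨x, rfl⟩ := hf g
      -- replace `x` by its `p'`-part
      obtain ⟨a, ha, b, hb, hab, hao, k, hk⟩ := CfsgH3.exists_pPart (p := p) x (orderOf_pos x).ne'
      have hfb : f b = 1 := by
        have h1 : f b ∈ Subgroup.zpowers (f x) := by
          obtain ⟨m, rfl⟩ := hb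
          exact ⟨m, (map_zpow f x m).symm⟩
        refine CfsgH3.eq_one_of_coprime_of_pow (p := p) (k := k) ?_ (by rw [← map_pow, hk, map_one])
        exact Nat.Coprime.coprime_dvd_left (orderOf_dvd_of_mem_zpowers h1) hgo
      have hfx : f x = f a := by rw [hab, map_mul, hfb, mul_one]
      rw [hfx] at hg ⊢
      have haN : (a : G) ∈ Subgroup.normalizer ((S : Subgroup G) : Set G) := by
        apply mem_normalizer_of_cj_le
        rintro _ ⟨s, hs, rfl⟩
        simp only [MulEquiv.coe_toMonoidHom, MulAut.conj_apply]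
        have h1 : f ⟨s, hSN hs⟩ ∈ (Q : Subgroup (↥N1 ⧸ W1.subgroupOf N1)) := by
          rw [hQ]; exact ⟨_, by rw [hP1]; exact hs, rfl⟩
        have h2 := (Subgroup.mem_normalizer_iff.mp hg _).mp h1
        rw [← map_inv, ← map_mul, ← map_mul] at h2
        exact hPW _ h2
      have haC := hN _ haN (by rwa [Subgroup.orderOf_coe])
      rw [Subgroup.mem_centralizer_iff]
      intro q hq
      obtain ⟨y, rfl⟩ := hf q
      have hy := hPW y hq
      have h3 := Subgroup.mem_centralizer_iff.mp haC _ hy
      rw [← map_mul, ← map_mul]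
      congr 1
      exact Subtype.ext h3
    · rw [hQ]
      have h1 : (P : Subgroup ↥N1) ≤ commutator ↥N1 := by
        rw [← Subgroup.map_le_map_iff_of_injective N1.subtype_injective, hP2, map_subtype_commutator_top]
        exact hSN1
      have h2 : commutator (↥N1 ⧸ W1.subgroupOf N1) = (commutator ↥N1).map f := by
        rw [commutator_def, commutator_def, Subgroup.map_commutator, Subgroup.map_top_of_surjective f hf]
      rw [h2]
      exact Subgroup.map_mono h1


/-- Let p be a prime, G a finite group with nontrivial Sylow p-subgroup S, and W an isomorphism-invariant p-group functor (W assigns to every group Q a subgroup W(Q), nontrivial whenever Q is a nontrivial finite p-group, and every isomorphism from a finite p-group Q onto a group R carries W(Q) onto W(R)) that controls transfer in every section of G. If N_G(S)/C_G(S) is a p-group (every element of N_G(S) of order prime to p centralizes S), then G has a normal subgroup of index p. -/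
theorem result {G : Type u} [Group G] [Finite G] {p : ℕ} [Fact p.Prime] (W : ∀ (Q : Type u) [Group Q], Subgroup Q) (hW : Cfsg.IsCharPFunctor.{u} p W) (hctl : ∀ (K R : Subgroup G) [hR : (R.subgroupOf K).Normal], Cfsg.ControlsTransferIn p (Cfsg.inducedFunctor (G := (↥K ⧸ R.subgroupOf K)) W) ⊤) (S : Sylow p G) (hS : (S : Subgroup G) ≠ ⊥) (hN : ∀ g ∈ Subgroup.normalizer (((S : Subgroup G) : Subgroup G) : Set G), (orderOf g).Coprime p → g ∈ Subgroup.centralizer ((S : Subgroup G) : Set G)) : ∃ N : Subgroup G, N.Normal ∧ N.index = p := by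
  refine CfsgH7.exists_normal_index_p S (aux W hW _ G rfl (fun H _ _ hH => ?_) S hS hN)
  obtain ⟨K, R, hR, ⟨e⟩⟩ := hH
  refine CfsgH7.tr_equiv (𝓦 := {W}) (by rintro W' rfl; exact hW) e ?_
  have := CfsgH7.transfer_iff_family.mp (hctl K R)
  simpa only [CfsgH7.TRc, CfsgH7.ind, Set.image_singleton] using this

end Cfsg.Agent.S1971
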