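import Cfsg.Statements.S1985
import Cfsg.Agent.H7.WCKInf

set_option autoImplicit false
universe u
open Cfsg

namespace Cfsg.Agent.S1985

/-- Let p be an odd prime and G a finite group. Then the lower K-infinity subgroup controls weak closure of elements in G: the lower K-infinity subgroup of every p-subgroup P of G contains Z(P), and for some (equivalently, every) Sylow p-subgroup S of G, with K the lower K-infinity subgroup of S, every element of S commuting with all of N_G(K) is weakly closed in S with respect to G (every G-conjugate of it lying in S equals it). -/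
theorem result {G : Type u} [Group G] [Finite G] {p : ℕ} [Fact p.Prime] (hp : p ≠ 2) : Cfsg.ControlsWeakClosureOfElementsIn p (Cfsg.inducedFunctor (G := G) Cfsg.kInfLower) ⊤ := by
  have hWZ : ∀ P : Subgroup G, IsPGroup p ↥P → P ⊓ Subgroup.centralizer (P : Set G) ≤ Cfsg.inducedFunctor Cfsg.kInfLower P :=
    fun P hP => CfsgH7.center_le_induced_kInfLower hP
  refine ⟨hWZ, ?_⟩
  obtain ⟨T, hT⟩ := CfsgH7.exists_isSyl p (⊤ : Subgroup G)
  refine ⟨T, hT.le, hT.isPGroup, hT.not_dvd, fun x hx h hh hhT => ?_⟩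
  obtain ⟨hx1, hx2⟩ := Subgroup.mem_inf.mp hx
  refine CfsgH7.wc_elements (CfsgH7.isConjugacyFunctor_induced (CfsgH7.isCharPFunctor_kInfLower p)) hWZ ?_ hT hx1 hx2 hh hhT
  intro H T hTH hTp hTd hn
  obtain ⟨g, h1, h2, h3⟩ := CfsgH7.kInf_quad_sub (Or.inl rfl) (⟨hTH, hTp, hTd⟩ : CfsgH7.IsSyl p T H) hn
  refine ⟨g, h1, h2, fun U V hUV hU => ?_⟩
  have hgH : g ∈ H := hTH h1
  have hVn := hUV.2.2.1
  have e : Cfsg.iterCommutator (U.map H.subtype) (Subgroup.zpowers g) (p - 1) =
      (Cfsg.iterCommutator U (Subgroup.zpowers (⟨g, hgH⟩ : ↥H)) (p - 1)).map H.subtype := by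
    rw [CfsgH7.map_iterCommutator, CfsgH7.map_zpowers_subtype]
  rw [e, Subgroup.map_le_map_iff_of_injective H.subtype_injective]
  have hp2 := (Fact.out : p.Prime).two_le
  refine CfsgH7.iterCommutator_le_of_le (m := 2) (by omega) ?_
  rw [← Subgroup.map_le_map_iff_of_injective H.subtype_injective, CfsgH7.map_iterCommutator, CfsgH7.map_zpowers_subtype]
  refine (CfsgH7.iterCommutator_mono hU le_rfl 2).trans ?_
  exact (le_bot_iff.mpr h3).trans bot_le

end Cfsg.Agent.S1985
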