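import Cfsg.Statements.S1986
import Cfsg.Agent.H7.WCKInf

set_option autoImplicit false
universe u
open Cfsg

namespace Cfsg.Agent.S1986

/-- Let p be a prime, G a finite group with Sylow p-subgroup S, K the lower K-infinity subgroup of S, and Z the subgroup of p-th powers of elements of Z(S). Then every element of Z commuting with all of N_G(K) is weakly closed in S with respect to G, and every subgroup of Z that is normal in N_G(K) is weakly closed in S with respect to G. -/
theorem result {G : Type u} [Group G] [Finite G] {p : ℕ} [Fact p.Prime] (S : Sylow p G) (Z : Subgroup G) (hZ : Z = Subgroup.closure ((fun z : G => z ^ p) '' (((S : Subgroup G) ⊓ Subgroup.centralizer (((S : Subgroup G) : Subgroup G) : Set G) : Subgroup G) : Set G))) : (∀ x ∈ Z ⊓ Subgroup.centralizer ((Subgroup.normalizer ((Cfsg.inducedFunctor Cfsg.kInfLower (S : Subgroup G) : Subgroup G) : Set G) : Subgroup G) : Set G), ∀ g : G, g * x * g⁻¹ ∈ (S : Subgroup G) → g * x * g⁻¹ = x) ∧ ∀ A : Subgroup G, A ≤ Z → Subgroup.normalizer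 ((Cfsg.inducedFunctor Cfsg.kInfLower (S : Subgroup G) : Subgroup G) : Set G) ≤ Subgroup.normalizer ((A : Subgroup G) : Set G) → Cfsg.IsWeaklyClosed A (S : Subgroup G) := by
  have hWZ : ∀ P : Subgroup G, IsPGroup p ↥P → P ⊓ Subgroup.centralizer (P : Set G) ≤ Cfsg.inducedFunctor Cfsg.kInfLower P :=
    fun P hP => CfsgH7.center_le_induced_kInfLower hP
  have hW := CfsgH7.isConjugacyFunctor_induced (CfsgH7.isCharPFunctor_kInfLower.{u} p) (G := G)
  have hloc : ∀ (H T : Subgroup G), T ≤ H → IsPGroup p ↥T → ¬ p ∣ (T).relIndex (H) →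
      ¬ H ≤ Subgroup.normalizer ((Cfsg.inducedFunctor Cfsg.kInfLower T : Subgroup G) : Set G) →
      ∃ g : G, g ∈ T ∧ g ∉ Cfsg.pCoreOf p H ∧
        ⁅⁅Cfsg.pCoreOf p H ⊓ Subgroup.centralizer ((Cfsg.pCoreOf p H : Subgroup G) : Set G), Subgroup.zpowers g⁆, Subgroup.zpowers g⁆ = ⊥ :=
    fun H T hTH hTp hTd hn => CfsgH7.kInf_quad_sub (Or.inl rfl) (⟨hTH, hTp, hTd⟩ : CfsgH7.IsSyl p T H) hn
  have hT := CfsgH7.isSyl_of_sylow S
  subst hZ
  constructor
  · intro x hx g hg
    obtain ⟨hx1, hx2⟩ := Subgroup.mem_inf.mp hx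
    have hc : Subgroup.centralizer ((Subgroup.zpowers x : Subgroup G) : Set G) ≤ Subgroup.centralizer ({x} : Set G) :=
      Subgroup.centralizer_le (by
        rw [Set.singleton_subset_iff]; exact Subgroup.mem_zpowers x)
    have hM : Subgroup.centralizer ({x} : Set G) ≤ Subgroup.normalizer ((Subgroup.zpowers x : Subgroup G) : Set G) := by
      refine le_trans ?_ (Subgroup.centralizer_le_normalizer _)
      rw [Subgroup.le_centralizer_iff, Subgroup.zpowers_le, Subgroup.mem_centralizer_iff]
      intro y hy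
      exact Subgroup.mem_centralizer_singleton_iff.mp hy
    have h1 := CfsgH7.wc_quad hW hWZ hloc hc hM hT (Subgroup.zpowers_le.mpr hx1) (by
      rw [top_inf_eq]
      intro y hy
      rw [Subgroup.mem_centralizer_singleton_iff]
      exact Subgroup.mem_centralizer_iff.mp hx2 y hy) (Subgroup.mem_top g) (by
      rw [CfsgH7.cj_zpowers]; exact Subgroup.zpowers_le.mpr hg)
    rw [Subgroup.mem_centralizer_singleton_iff] at h1
    rw [h1]; group
  · intro A hA hN
    have hAS : A ≤ (S : Subgroup G) := by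
      refine hA.trans ?_
      rw [Subgroup.closure_le]
      rintro _ ⟨z, hz, rfl⟩
      exact pow_mem (Subgroup.mem_inf.mp hz).1 p
    refine ⟨hAS, fun g hg => ?_⟩
    refine CfsgH7.cj_of_mem_normalizer ?_
    exact CfsgH7.wc_quad hW hWZ hloc (Subgroup.centralizer_le_normalizer _) le_rfl hT hA (by rw [top_inf_eq]; exact hN)
      (Subgroup.mem_top g) hg

end Cfsg.Agent.S1986
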