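import Cfsg.Statements.S1988
import Cfsg.Agent.H7.NPCrit3

set_option autoImplicit false
universe u
open Cfsg

namespace Cfsg.Agent.S1988

/-- Let p be an odd prime, G a finite group with Sylow p-subgroup S and K the lower K-infinity subgroup of S. If N_G(K) has a normal p-complement, or if N_G(K)/C_G(K) is a p-group (every element of N_G(K) of order prime to p centralizes K), then G has a normal p-complement. -/
theorem result {G : Type u} [Group G] [Finite G] {p : ℕ} [Fact p.Prime] (hp : p ≠ 2) (S : Sylow p G) (h : Cfsg.HasNormalPComplement p ↥(Subgroup.normalizer ((Cfsg.inducedFunctor Cfsg.kInfLower (S : Subgroup G) : Subgroup G) : Set G)) ∨ ∀ g ∈ Subgroup.normalizer ((Cfsg.inducedFunctor Cfsg.kInfLower (S : Subgroup G) : Subgroup G) : Set G), (orderOf g).Coprime p → g ∈ Subgroup.centralizer ((Cfsg.inducedFunctor Cfsg.kInfLower (S : Subgroup G) : Subgroup G) : Set G)) : Cfsg.HasNormalPComplement p G := by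
  rw [CfsgH3.hasNPC_iff]
  refine CfsgH7.kInf_npc (W := Cfsg.kInfLower) hp (Or.inl rfl) (CfsgH7.isSyl_of_sylow S) ?_
  rcases h with h | h
  · rwa [CfsgH3.hasNPC_iff] at h
  · have hcf := CfsgH7.isConjugacyFunctor_induced (G := G) (CfsgH7.isCharPFunctor_kInfLower.{u} p)
    refine CfsgH7.npc_normalizer (CfsgH7.isSyl_of_sylow S) (CfsgH7.inducedFunctor_le _)
      (Subgroup.le_normalizer.trans (CfsgH7.cf_normalizer hcf S.isPGroup')) ?_ h
    intro x hx
    obtain ⟨hx1, hx2⟩ := Subgroup.mem_inf.mp hx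
    have hnil : Group.IsNilpotent ↥(S : Subgroup G) := S.isPGroup'.isNilpotent
    refine ⟨⟨x, hx1⟩, CfsgH7.kInf_centralizer.1 ?_, rfl⟩
    rw [Subgroup.mem_centralizer_iff]
    intro y hy
    exact Subtype.ext (Subgroup.mem_centralizer_iff.mp hx2 _ ⟨y, hy, rfl⟩)

end Cfsg.Agent.S1988
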