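import Cfsg.Statements.S1996
import Cfsg.Agent.H7.FusionCor

set_option autoImplicit false
universe u
open Cfsg

namespace Cfsg.Agent.S1996

/-- Let p be a prime, G a finite group and W₁, W₂ two isomorphism-invariant p-group functors (W assigns to every group Q a subgroup W(Q), nontrivial whenever Q is a nontrivial finite p-group, and every isomorphism from a finite p-group Q onto a group R carries W(Q) onto W(R)). Suppose that G* = N_{G*}(W₁(S*)) N_{G*}(W₂(S*)) whenever G* = K/R is a section of G with C_{G*}(O_p(G*)) ≤ O_p(G*) and S* is a Sylow p-subgroup of G*. Then the pair {W₁, W₂} controls strong fusion in G. -/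
theorem result {G : Type u} [Group G] [Finite G] {p : ℕ} [Fact p.Prime] (W₁ W₂ : ∀ (Q : Type u) [Group Q], Subgroup Q) (hW₁ : Cfsg.IsCharPFunctor.{u} p W₁) (hW₂ : Cfsg.IsCharPFunctor.{u} p W₂) (hfac : ∀ (K R : Subgroup G) [hR : (R.subgroupOf K).Normal], Subgroup.centralizer ((Cfsg.pCore p (↥K ⧸ R.subgroupOf K) : Subgroup (↥K ⧸ R.subgroupOf K)) : Set (↥K ⧸ R.subgroupOf K)) ≤ Cfsg.pCore p (↥K ⧸ R.subgroupOf K) → ∀ T : Sylow p (↥K ⧸ R.subgroupOf K), ∀ x : (↥K ⧸ R.subgroupOf K), ∃ a ∈ Subgroup.normalizer ((Cfsg.inducedFunctor (G := (↥K ⧸ R.subgroupOf K)) W₁ (T : Subgroup (↥K ⧸ R.subgroupOf K)) : Subgroup (↥K ⧸ R.subgroupOf K)) : Set (↥K ⧸ R.subgroupOf K)), ∃ b ∈ Subgroup.normalizer ((Cfsg.inducedFunctor (G := (↥K ⧸ R.subgroupOf K)) W₂ (T : Subgroup (↥K ⧸ R.subgroupOf K)) : Subgroup (↥K ⧸ R.subgroupOf K)) : Set (↥K ⧸ R.subgroupOf K)), x = a * b) : Cfsg.FamilyControlsStrongFusionIn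 p {Cfsg.inducedFunctor (G := G) W₁, Cfsg.inducedFunctor (G := G) W₂} ⊤ := by
  have h : CfsgH7.SFc p {W₁, W₂} G := by
    refine CfsgH7.sf_of_sections (𝓦 := {W₁, W₂}) ?_ (fun K R _ hc => ?_) G (CfsgH7.involves_refl G)
    · rintro W' (rfl | rfl)
      · exact hW₁
      · exact hW₂
    · obtain ⟨T⟩ : Nonempty (Sylow p (↥K ⧸ R.subgroupOf K)) := inferInstance
      refine CfsgH7.sfc_of_reach T fun A g hA hg => ?_
      have h1 := CfsgH7.le_normalizer_induced hW₁ T.isPGroup'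
      have h2 := CfsgH7.le_normalizer_induced hW₂ T.isPGroup'
      refine CfsgH7.reach_of_factorization (𝓝 := CfsgH7.ctl (CfsgH7.ind {W₁, W₂} (↥K ⧸ R.subgroupOf K)) ⊤ (T : Subgroup (↥K ⧸ R.subgroupOf K))) T
        (N₁ := ⊤ ⊓ Subgroup.normalizer ((Cfsg.inducedFunctor (G := (↥K ⧸ R.subgroupOf K)) W₁ (T : Subgroup (↥K ⧸ R.subgroupOf K)) : Subgroup (↥K ⧸ R.subgroupOf K)) : Set (↥K ⧸ R.subgroupOf K)))
        (N₂ := ⊤ ⊓ Subgroup.normalizer ((Cfsg.inducedFunctor (G := (↥K ⧸ R.subgroupOf K)) W₂ (T : Subgroup (↥K ⧸ R.subgroupOf K)) : Subgroup (↥K ⧸ R.subgroupOf K)) : Set (↥K ⧸ R.subgroupOf K)))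
        ⟨_, ⟨W₁, Or.inl rfl, rfl⟩, rfl⟩ ⟨_, ⟨W₂, Or.inr rfl, rfl⟩, rfl⟩ (le_inf le_top h1) (le_inf le_top h2) ?_ hA hg
      obtain ⟨a, ha, b, hb, rfl⟩ := hfac K R hc T g
      exact ⟨a, Subgroup.mem_inf.mpr ⟨Subgroup.mem_top _, ha⟩, b, Subgroup.mem_inf.mpr ⟨Subgroup.mem_top _, hb⟩, rfl⟩
  have h2 : CfsgH7.ind {W₁, W₂} G = {Cfsg.inducedFunctor (G := G) W₁, Cfsg.inducedFunctor (G := G) W₂} := by
    rw [CfsgH7.ind, Set.image_insert_eq, Set.image_singleton]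
  unfold CfsgH7.SFc at h
  rwa [h2] at h

end Cfsg.Agent.S1996
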