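import Cfsg.Statements.S1998
import Cfsg.Agent.H7.SecInduct

set_option autoImplicit false
universe u
open Cfsg

namespace Cfsg.Agent.S1998

/-- Let p be a prime, G a finite group with Sylow p-subgroup S, and 𝓦 a nonempty set of isomorphism-invariant p-group functors (W assigns to every group Q a subgroup W(Q), nontrivial whenever Q is a nontrivial finite p-group, and every isomorphism from a finite p-group Q onto a group R carries W(Q) onto W(R)). Suppose the induced conjugacy functors control transfer in every section of G other than G itself, but not in G. Let T be the subgroup generated by the S ∩ (N_G(W(S)))', W ∈ 𝓦, and M = N_G(T ∩ O_p(G)). Then: C_G(O_p(G)) ≤ O_p(G); M is a proper subgroup of G containing every proper subgroup of G that contains S (the unique maximal subgroup over S); [O_p(G), M] ≤ O_p(G) ∩ M' ≤ O_p(G) ∩ T; and every element u of S outside O_p(G) satisfies [X, u, …, u]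 ≰ Y with p − 1 entries u, for some chief factor X/Y of G with X ≤ O_p(G). -/
theorem result {G : Type u} [Group G] [Finite G] {p : ℕ} [Fact p.Prime] (S : Sylow p G) (𝓦 : Set (∀ (Q : Type u) [Group Q], Subgroup Q)) (h𝓦 : ∀ W ∈ 𝓦, Cfsg.IsCharPFunctor.{u} p W) (hne : 𝓦.Nonempty) (hsec : ∀ (K R : Subgroup G) [hR : (R.subgroupOf K).Normal], (K = ⊤ → R ≠ ⊥) → Cfsg.FamilyControlsTransferIn p ((fun W => Cfsg.inducedFunctor (G := (↥K ⧸ R.subgroupOf K)) W) '' 𝓦) ⊤) (hG : ¬ Cfsg.FamilyControlsTransferIn p ((fun W => Cfsg.inducedFunctor (G := G) W) '' 𝓦) ⊤) (T M : Subgroup G) (hT : T = (⨆ W ∈ 𝓦, (S : Subgroup G) ⊓ ⁅Subgroup.normalizer ((Cfsg.inducedFunctor (G := G) W (S : Subgroup G) : Subgroup G) : Set G), Subgroup.normalizer ((Cfsg.inducedFunctor (G := G) W (S : Subgroup G) : Subgroup G) : Set G)⁆)) (hM : M = Subgroup.normalizer ((T ⊓ Cfsg.pCore p G : Subgroup G) : Set G)) : Subgroup.centralizer ((Cfsg.pCore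 p G : Subgroup G) : Set G) ≤ Cfsg.pCore p G ∧ (M ≠ ⊤ ∧ ∀ H : Subgroup G, (S : Subgroup G) ≤ H → H ≠ ⊤ → H ≤ M) ∧ (⁅Cfsg.pCore p G, M⁆ ≤ Cfsg.pCore p G ⊓ ⁅M, M⁆ ∧ Cfsg.pCore p G ⊓ ⁅M, M⁆ ≤ Cfsg.pCore p G ⊓ T) ∧ ∀ u : G, u ∈ (S : Subgroup G) → u ∉ Cfsg.pCore p G → ∃ U V : Subgroup G, Cfsg.IsChiefFactor U V ∧ U ≤ Cfsg.pCore p G ∧ ¬ Cfsg.iterCommutator U (Subgroup.zpowers u) (p - 1) ≤ V := by
  have hsub : ∀ K : Subgroup G, K ≠ ⊤ → CfsgH7.TRc p 𝓦 ↥K := by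
    intro K hK
    obtain ⟨hn, ⟨e⟩⟩ := CfsgH7.quotient_subgroupOf_bot K
    exact CfsgH7.tr_equiv h𝓦 e (hsec K ⊥ fun h => absurd h hK)
  have hquot : ∀ (N : Subgroup G) [N.Normal], N ≠ ⊥ → CfsgH7.TRc p 𝓦 (G ⧸ N) := by
    intro N _ hN
    obtain ⟨hn, ⟨e⟩⟩ := CfsgH7.quotient_subgroupOf_top N
    exact CfsgH7.tr_equiv h𝓦 e (hsec ⊤ N fun _ => hN)
  have hT' : T = CfsgH7.trD (CfsgH7.ind 𝓦 G) ⊤ (S : Subgroup G) := by
    rw [hT]
    apply le_antisymm
    · refine iSup₂_le fun W hW => ?_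
      have h1 := CfsgH7.le_trD (𝓦 := CfsgH7.ind 𝓦 G) ⟨W, hW, rfl⟩ ⊤ (S : Subgroup G)
      rwa [top_inf_eq] at h1
    · refine iSup₂_le fun W' hW' => ?_
      obtain ⟨W, hW, rfl⟩ := hW'
      beta_reduce
      rw [top_inf_eq]
      exact le_iSup₂ (f := fun (W : ∀ (Q : Type u) [Group Q], Subgroup Q) (_ : W ∈ 𝓦) => (S : Subgroup G) ⊓ ⁅Subgroup.normalizer ((Cfsg.inducedFunctor (G := G) W (S : Subgroup G) : Subgroup G) : Set G), Subgroup.normalizer ((Cfsg.inducedFunctor (G := G) W (S : Subgroup G) : Subgroup G) : Set G)⁆) W hW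
  have hMtop : M ≠ ⊤ := by
    rw [hM, hT']
    exact CfsgH7.min_normalizer_ne_top h𝓦 hsub hquot hG S hne
  have hHM : ∀ H : Subgroup G, (S : Subgroup G) ≤ H → H ≠ ⊤ → H ≤ M := by
    intro H h1 h2
    rw [hM, hT']
    exact CfsgH7.min_le_normalizer h𝓦 hsub S h1 h2
  have hSM : (S : Subgroup G) ≤ M := by
    obtain ⟨W, hW⟩ := hne
    exact (CfsgH7.le_normalizer_induced' h𝓦 hW S).trans
      (hHM _ (CfsgH7.le_normalizer_induced' h𝓦 hW S) (CfsgH7.min_normalizer_ne h𝓦 hsub hG S hW))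
  refine ⟨CfsgH7.min_constr h𝓦 hsub hquot hG, ⟨hMtop, hHM⟩, ?_, ?_⟩
  · have h1 := CfsgH7.min_commutator_le h𝓦 hsub S hSM hMtop
    rw [hT']
    exact h1
  · intro u hu1 hu2
    exact CfsgH7.min_fourth h𝓦 hsub hquot hG S hne hu1 hu2

end Cfsg.Agent.S1998
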