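import Cfsg.Statements.S2126
import Cfsg.Agent.L.Sz.Aut2
import Cfsg.Agent.L.Sz.Bridge

set_option autoImplicit false
open Cfsg

namespace Cfsg.Agent.S2126
open CfsgL.Sz

/-- Outer automorphisms of the Suzuki groups: for q = 2^(2m+1) with m ≥ 1 the outer automorphism group of Sz(q) has order 2m + 1 (field automorphisms only). -/
theorem result {F : Type*} [Field F] [Fintype F] {m : ℕ} (hm : 1 ≤ m) (hF : Fintype.card F = 2 ^ (2 * m + 1)) : Nat.card (Cfsg.Out ↥(Cfsg.Lie.Sz F (2 ^ (m + 1)))) = 2 * m + 1 := by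
  haveI := CfsgL.Sz.char_two hF
  haveI : Fact (Fintype.card F = 2 ^ (2 * m + 1)) := ⟨hF⟩
  haveI : Fact (1 ≤ m) := ⟨hm⟩
  -- number of field automorphisms
  have hcardF : Nat.card (RingAut F) = 2 * m + 1 := by
    letI : Algebra (ZMod 2) F := ZMod.algebra F 2
    have h1 : Nat.card (F ≃ₐ[ZMod 2] F) = Module.finrank (ZMod 2) F := IsGalois.card_aut_eq_finrank _ _
    have h2 : Module.finrank (ZMod 2) F = 2 * m + 1 := by
      have h3 := Module.card_eq_pow_finrank (K := ZMod 2) (V := F)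
      rw [hF, ZMod.card] at h3
      exact (Nat.pow_right_injective (le_refl 2) h3).symm
    rw [← h2, ← h1]
    apply Nat.card_congr
    refine ⟨fun τ => AlgEquiv.ofRingEquiv (f := τ) (fun r => ?_), fun τ => τ.toRingEquiv, fun τ => rfl, fun τ => rfl⟩
    exact congrFun (congrArg DFunLike.coe (Subsingleton.elim ((τ : F →+* F).comp (algebraMap (ZMod 2) F))
      (algebraMap (ZMod 2) F))) r
  have key : Nat.card (Cfsg.Out (Gz F m)) = 2 * m + 1 := by
    rw [← hcardF]
    apply Nat.card_congr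
    refine (Equiv.ofBijective (fun τ : RingAut F => (QuotientGroup.mk (fa m τ) : Cfsg.Out (Gz F m))) ⟨?_, ?_⟩).symm
    · intro τ ρ h
      obtain ⟨x, hx⟩ := QuotientGroup.eq.1 h
      have h1 : ∀ g, fa m (τ⁻¹ * ρ : RingAut F) g = x * g * x⁻¹ := by
        intro g
        have h2 := congrArg (fun (β : MulAut (Gz F m)) => β g) hx
        exact h2.symm
      have h3 := fa_inner (τ := (τ⁻¹ * ρ : RingAut F)) h1
      exact inv_mul_eq_one.1 h3
    · intro q
      induction q using QuotientGroup.induction_on with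
      | H α =>
        obtain ⟨x, τ, hx⟩ := aut_decomp α
        refine ⟨τ, ?_⟩
        change (QuotientGroup.mk (fa m τ) : Cfsg.Out (Gz F m)) = QuotientGroup.mk α
        rw [← hx, QuotientGroup.mk_mul]
        have : (QuotientGroup.mk (MulAut.conj x) : Cfsg.Out (Gz F m)) = 1 := (QuotientGroup.eq_one_iff _).2 ⟨x, rfl⟩
        rw [this, one_mul]
  -- transport
  rw [← key]
  let e := bridge F m
  let E : MulAut ↥(Cfsg.Lie.Sz F (2 ^ (m + 1))) ≃* MulAut (Gz F m) := MulAut.congr e.symm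
  apply Nat.card_congr
  refine (QuotientGroup.congr _ _ E ?_).toEquiv
  ext α
  constructor
  · rintro ⟨_, ⟨x, rfl⟩, rfl⟩
    refine ⟨e.symm x, ?_⟩
    apply MulEquiv.ext
    intro g
    change e.symm x * g * (e.symm x)⁻¹ = e.symm (x * e g * x⁻¹)
    rw [map_mul, map_mul, map_inv, e.symm_apply_apply]
  · rintro ⟨x, rfl⟩
    refine ⟨MulAut.conj (e x), ⟨e x, rfl⟩, ?_⟩
    apply MulEquiv.ext
    intro g
    change e.symm (e x * e g * (e x)⁻¹) = x * g * x⁻¹
    rw [← map_inv, ← map_mul, ← map_mul, e.symm_apply_apply]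

end Cfsg.Agent.S2126
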