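import Cfsg.Statements.S2159
import Cfsg.Agent.H6.ChY17

set_option autoImplicit false
open Cfsg

namespace Cfsg.Agent.S2159

open CfsgH6.Chv Cfsg.Lie

theorem aux {F : Type*} [Field F] [Finite F] {D : Cfsg.Lie.ChevalleyDatum} {gd : Good D} (P : Pk gd) (hdec : decChk D gd.N = true)
    {B : List (List ℕ)} (hB : tabOK D B = true) (hlen : (extL D.rank (bT B) D.rank).length ≤ 2)
    (Dbar Fbar : Subgroup (Cfsg.Out ↥(D.group F)))
    (hDbar : Dbar = (Subgroup.closure {φ : MulAut ↥(D.group F) | D.IsDiagonalAut φ}).map (QuotientGroup.mk' (Cfsg.Inn ↥(D.group F))))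
    (hFbar : Fbar = (Subgroup.closure {φ : MulAut ↥(D.group F) | D.IsFieldAut φ}).map (QuotientGroup.mk' (Cfsg.Inn ↥(D.group F)))) :
    Dbar.Normal ∧ IsMulCommutative ↥Dbar ∧ IsCyclic ↥Fbar ∧ (Dbar ⊔ Fbar).Normal ∧
      ((Dbar ⊔ Fbar).index = 1 ∨ (Dbar ⊔ Fbar).index = 2 ∨
        ((Dbar ⊔ Fbar).index = 6 ∧ ¬ commutator (Cfsg.Out ↥(D.group F)) ≤ Dbar ⊔ Fbar)) := by
  obtain ⟨γ, hγ⟩ := exists_cinv gd (F := F) P.hD P.ng
  obtain ⟨h1, h2, h3, h4, h5, -⟩ := out_struct (γ := γ) hγ P hdec gd.group_eq Dbar Fbar hDbar hFbar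
  refine ⟨h1, h2, h3, h4, ?_⟩
  rcases idx_two (γ := γ) hγ P hB hlen h5 with h | h
  · exact Or.inl h
  · exact Or.inr (Or.inl h)

/-- Structure of the outer automorphism group of the Chevalley group `G` of type G₂, B₂, D₄, F₄, E₆, E₇ or E₈ over a finite field. Let `D̄` be the image in `Out(G)` of the subgroup generated by the diagonal automorphisms and `F̄` the image of the subgroup generated by the field automorphisms. Then `D̄` is a normal abelian subgroup of `Out(G)`, `F̄` is cyclic, `D̄F̄` is a normal subgroup, and the quotient of `Out(G)` by `D̄F̄` is trivial, of order 2, or non-abelian of order 6 (so isomorphic to the symmetric group on three letters): its index is 1 or 2, or it is 6 with the commutator subgroup of `Out(G)` not inside `D̄F̄`. -/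
theorem result {F : Type*} [Field F] [Finite F] (D : Cfsg.Lie.ChevalleyDatum) (hD : D ∈ [Cfsg.Lie.chevG2, Cfsg.Lie.chevB2, Cfsg.Lie.chevD4, Cfsg.Lie.chevF4, Cfsg.Lie.chevE6, Cfsg.Lie.chevE7, Cfsg.Lie.chevE8])
    (Dbar Fbar : Subgroup (Cfsg.Out ↥(D.group F)))
    (hDbar : Dbar = (Subgroup.closure {φ : MulAut ↥(D.group F) | D.IsDiagonalAut φ}).map (QuotientGroup.mk' (Cfsg.Inn ↥(D.group F))))
    (hFbar : Fbar = (Subgroup.closure {φ : MulAut ↥(D.group F) | D.IsFieldAut φ}).map (QuotientGroup.mk' (Cfsg.Inn ↥(D.group F)))) :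
    Dbar.Normal ∧ IsMulCommutative ↥Dbar ∧ IsCyclic ↥Fbar ∧ (Dbar ⊔ Fbar).Normal ∧
      ((Dbar ⊔ Fbar).index = 1 ∨ (Dbar ⊔ Fbar).index = 2 ∨
        ((Dbar ⊔ Fbar).index = 6 ∧ ¬ commutator (Cfsg.Out ↥(D.group F)) ≤ Dbar ⊔ Fbar)) := by
  simp only [List.mem_cons, List.not_mem_nil, or_false] at hD
  rcases hD with rfl | rfl | rfl | rfl | rfl | rfl | rfl
  · exact aux pkG2 decG2 tbG2_ok (by rw [extG2]; simp) Dbar Fbar hDbar hFbar
  · exact aux pkB2 decB2 tbB2_ok (by rw [extB2]; simp) Dbar Fbar hDbar hFbar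
  · obtain ⟨γ, hγ⟩ := exists_cinv goodD4 (F := F) cmD4 negD4
    obtain ⟨h1, h2, h3, h4, h5, h6⟩ := out_struct (γ := γ) hγ pkD4 decD4 goodD4.group_eq Dbar Fbar hDbar hFbar
    obtain ⟨h7, h8⟩ := pim_D4 (γ := γ) hγ
    exact ⟨h1, h2, h3, h4, Or.inr (Or.inr ⟨h5.trans h7, h6 h8⟩)⟩
  · exact aux pkF4 decF4 tbF4_ok (by rw [extF4]; simp) Dbar Fbar hDbar hFbar
  · exact aux pkE6 decE6 tbE6_ok (by rw [extE6]; simp) Dbar Fbar hDbar hFbar
  · exact aux pkE7 decE7 tbE7_ok (by rw [extE7]; simp) Dbar Fbar hDbar hFbar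
  · exact aux pkE8 decE8 tbE8_ok (by rw [extE8]; simp) Dbar Fbar hDbar hFbar

end Cfsg.Agent.S2159
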