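import Cfsg.Statements.S2160
import Cfsg.Agent.H6.ChX5

set_option autoImplicit false
open Cfsg

namespace Cfsg.Agent.S2160

open CfsgH6.Chv Cfsg.Lie

theorem aux {F : Type*} [Field F] {D : Cfsg.Lie.ChevalleyDatum} (gd : Good D) (f g : ↥(D.group F) ≃* ↥(D.group F))
    (hf : D.IsFieldAut f) (hg : D.IsGraphAut g) (y : ↥(D.group F)) : f (g y) = g (f y) := by
  obtain ⟨σ, hσ⟩ := hf
  obtain ⟨π, _, hπ⟩ := hg
  have key : f.toMonoidHom.comp g.toMonoidHom = g.toMonoidHom.comp f.toMonoidHom := by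
    apply hom_eq_simple' gd
    intro x i hi t
    have hneg : D.neg (D.simple i) < D.nroots := gd.neg_lt (gd.simple_lt i hi)
    have hneg' : D.neg (D.simple (π ⟨i, hi⟩)) < D.nroots := gd.neg_lt (gd.simple_lt _ (π ⟨i, hi⟩).2)
    constructor
    · intro hx
      apply Subtype.ext
      apply Units.ext
      have h1 := (hπ x ⟨i, hi⟩ t).1 hx
      have h2 := hσ (g x) _ _ (gd.simple_lt _ (π ⟨i, hi⟩).2) h1
      have h3 := hσ x _ _ (gd.simple_lt _ hi) hx
      have h4 := (hπ (f x) ⟨i, hi⟩ (σ t)).1 h3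
      show (((f (g x)) : GL D.Idx F) : Matrix D.Idx D.Idx F) = (((g (f x)) : GL D.Idx F) : Matrix D.Idx D.Idx F)
      rw [h2, h4, map_pow]
    · intro hx
      apply Subtype.ext
      apply Units.ext
      have h1 := (hπ x ⟨i, hi⟩ t).2 hx
      have h2 := hσ (g x) _ _ hneg' h1
      have h3 := hσ x _ _ hneg hx
      have h4 := (hπ (f x) ⟨i, hi⟩ (σ t)).2 h3
      show (((f (g x)) : GL D.Idx F) : Matrix D.Idx D.Idx F) = (((g (f x)) : GL D.Idx F) : Matrix D.Idx D.Idx F)
      rw [h2, h4, map_pow]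
  exact DFunLike.congr_fun key y

/-- In a Chevalley group of type G₂, B₂, D₄, F₄, E₆, E₇ or E₈ over a finite field, every field automorphism commutes with every graph automorphism. -/
theorem result {F : Type*} [Field F] [Finite F] (D : Cfsg.Lie.ChevalleyDatum) (hD : D ∈ [Cfsg.Lie.chevG2, Cfsg.Lie.chevB2, Cfsg.Lie.chevD4, Cfsg.Lie.chevF4, Cfsg.Lie.chevE6, Cfsg.Lie.chevE7, Cfsg.Lie.chevE8]) (f g : ↥(D.group F) ≃* ↥(D.group F))
    (hf : D.IsFieldAut f) (hg : D.IsGraphAut g) (y : ↥(D.group F)) : f (g y) = g (f y) := by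
  simp only [List.mem_cons, List.not_mem_nil, or_false] at hD
  rcases hD with rfl | rfl | rfl | rfl | rfl | rfl | rfl
  · exact aux goodG2 f g hf hg y
  · exact aux goodB2 f g hf hg y
  · exact aux goodD4 f g hf hg y
  · exact aux goodF4 f g hf hg y
  · exact aux goodE6 f g hf hg y
  · exact aux goodE7 f g hf hg y
  · exact aux goodE8 f g hf hg y

end Cfsg.Agent.S2160
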