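import Cfsg.Statements.S2161
import Cfsg.Agent.H6.ChX5

set_option autoImplicit false
open Cfsg

namespace Cfsg.Agent.S2161

open CfsgH6.Chv Cfsg.Lie

theorem aux {F : Type*} [Field F] {D : Cfsg.Lie.ChevalleyDatum} (gd : Good D) (hsym : symB D = true)
    (π : Equiv.Perm (Fin D.rank)) (hπ : D.IsDiagramSymmetry π) (φ : ↥(D.group F) ≃* ↥(D.group F))
    (hφ : ∀ (g : ↥(D.group F)) (i : Fin D.rank) (t : F),
      (((g : GL D.Idx F) : Matrix D.Idx D.Idx F) = D.x F (D.simple i) t →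
        ((φ g : GL D.Idx F) : Matrix D.Idx D.Idx F) = D.x F (D.simple (π i)) t) ∧
      (((g : GL D.Idx F) : Matrix D.Idx D.Idx F) = D.x F (D.neg (D.simple i)) t →
        ((φ g : GL D.Idx F) : Matrix D.Idx D.Idx F) = D.x F (D.neg (D.simple (π i))) t))
    (r : ℕ) (hr : r < D.nroots) :
    ∃ ε : F, (ε = 1 ∨ ε = -1) ∧ ∀ (g : ↥(D.group F)) (t : F),
      ((g : GL D.Idx F) : Matrix D.Idx D.Idx F) = D.x F r t →
        ((φ g : GL D.Idx F) : Matrix D.Idx D.Idx F) = D.x F (D.permRoot π r) (ε * t) := by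
  have hGG : D.group F = gd.GG F := gd.group_eq
  let c := MulEquiv.subgroupCongr hGG
  let ψ : ↥(gd.GG F) →* ↥(gd.GG F) := (c.toMonoidHom.comp φ.toMonoidHom).comp c.symm.toMonoidHom
  have hψ : ∀ x : ↥(D.group F), ((ψ (c x) : ↥(gd.GG F)) : GL D.Idx F) = (φ x : GL D.Idx F) := by
    intro x
    show ((c (φ (c.symm (c x))) : ↥(gd.GG F)) : GL D.Idx F) = _
    rw [MulEquiv.symm_apply_apply]
    rfl
  have h1 : ∀ (i : Fin D.rank) (t : F), ψ ⟨gd.xg (D.simple i) t, gd.xg_mem_GG _ _⟩ = ⟨gd.xg (D.simple (π i)) t, gd.xg_mem_GG _ _⟩ := by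
    intro i t
    have hm : gd.xg (D.simple i) t ∈ D.group F := by rw [hGG]; exact gd.xg_mem_GG _ _
    have h2 := hψ ⟨gd.xg (D.simple i) t, hm⟩
    apply Subtype.ext
    refine Eq.trans h2 ?_
    apply Units.ext
    rw [(hφ ⟨gd.xg (D.simple i) t, hm⟩ i t).1 (by rw [gd.x_eq_xg]), gd.x_eq_xg]
  have h2 : ∀ (i : Fin D.rank) (t : F), ψ ⟨gd.xg (D.neg (D.simple i)) t, gd.xg_mem_GG _ _⟩ = ⟨gd.xg (D.neg (D.simple (π i))) t, gd.xg_mem_GG _ _⟩ := by
    intro i t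
    have hm : gd.xg (D.neg (D.simple i)) t ∈ D.group F := by rw [hGG]; exact gd.xg_mem_GG _ _
    have h2 := hψ ⟨gd.xg (D.neg (D.simple i)) t, hm⟩
    apply Subtype.ext
    refine Eq.trans h2 ?_
    apply Units.ext
    rw [(hφ ⟨gd.xg (D.neg (D.simple i)) t, hm⟩ i t).2 (by rw [gd.x_eq_xg]), gd.x_eq_xg]
  obtain ⟨ε, hε, h⟩ := graph_signs gd hsym hπ h1 h2 r hr
  refine ⟨ε, hε, fun x t hx => ?_⟩
  have h3 : c x = ⟨gd.xg r t, gd.xg_mem_GG _ _⟩ := by
    apply Subtype.ext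
    apply Units.ext
    show ((x : GL D.Idx F) : Matrix D.Idx D.Idx F) = _
    rw [hx, gd.x_eq_xg]
  have h4 := hψ x
  rw [h3, h t] at h4
  rw [← h4, gd.x_eq_xg]

/-- For the Chevalley groups of types D₄ and E₆ (one root length) over any field: if `π` is a symmetry of the Dynkin diagram and `φ` is an automorphism sending `x_{p_i}(t)` to `x_{p_{π i}}(t)` and `x_{-p_i}(t)` to `x_{-p_{π i}}(t)` for every fundamental root `p_i`, then for every root `r` there is a sign `ε = ±1` with `φ(x_r(t)) = x_{π·r}(ε t)` for all `t`, where `π·r` is the root whose coefficients are those of `r` permuted by `π`. -/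
theorem result {F : Type*} [Field F] (D : Cfsg.Lie.ChevalleyDatum) (hD : D ∈ [Cfsg.Lie.chevD4, Cfsg.Lie.chevE6])
    (π : Equiv.Perm (Fin D.rank)) (hπ : D.IsDiagramSymmetry π) (φ : ↥(D.group F) ≃* ↥(D.group F))
    (hφ : ∀ (g : ↥(D.group F)) (i : Fin D.rank) (t : F),
      (((g : GL D.Idx F) : Matrix D.Idx D.Idx F) = D.x F (D.simple i) t →
        ((φ g : GL D.Idx F) : Matrix D.Idx D.Idx F) = D.x F (D.simple (π i)) t) ∧
      (((g : GL D.Idx F) : Matrix D.Idx D.Idx F) = D.x F (D.neg (D.simple i)) t →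
        ((φ g : GL D.Idx F) : Matrix D.Idx D.Idx F) = D.x F (D.neg (D.simple (π i))) t))
    (r : ℕ) (hr : r < D.nroots) :
    ∃ ε : F, (ε = 1 ∨ ε = -1) ∧ ∀ (g : ↥(D.group F)) (t : F),
      ((g : GL D.Idx F) : Matrix D.Idx D.Idx F) = D.x F r t →
        ((φ g : GL D.Idx F) : Matrix D.Idx D.Idx F) = D.x F (D.permRoot π r) (ε * t) := by
  simp only [List.mem_cons, List.not_mem_nil, or_false] at hD
  rcases hD with rfl | rfl
  · exact aux goodD4 symD4 π hπ φ hφ r hr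
  · exact aux goodE6 symE6 π hπ φ hφ r hr

end Cfsg.Agent.S2161
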