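import Cfsg.Statements.S2298
import Cfsg.Agent.H6.Sl9

set_option autoImplicit false
open Cfsg

namespace Cfsg.Agent.S2298

open CfsgH6 CfsgH4

/-- Over a finite field F with q elements, every irreducible complex character of GL₂ has degree 1, q − 1, q or q + 1; and when q ≥ 3 (so that these four numbers are distinct) there are exactly q − 1 irreducible characters of degree 1, exactly q − 1 of degree q, exactly (q − 1)(q − 2)/2 of degree q + 1 and exactly q(q − 1)/2 of degree q − 1. -/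
theorem result {F : Type*} [Field F] [Fintype F] :
    (∀ χ : Matrix.GeneralLinearGroup (Fin 2) F → ℂ, Cfsg.IsIrrCharacter (Matrix.GeneralLinearGroup (Fin 2) F) χ →
      χ 1 = 1 ∨ χ 1 = (Fintype.card F : ℂ) - 1 ∨ χ 1 = (Fintype.card F : ℂ) ∨ χ 1 = (Fintype.card F : ℂ) + 1) ∧
    (3 ≤ Fintype.card F →
      Nat.card {χ : Cfsg.IrrCharacter (Matrix.GeneralLinearGroup (Fin 2) F) // (χ : Matrix.GeneralLinearGroup (Fin 2) F → ℂ) 1 = 1} = Fintype.card F - 1 ∧
      Nat.card {χ : Cfsg.IrrCharacter (Matrix.GeneralLinearGroup (Fin 2) F) // (χ : Matrix.GeneralLinearGroup (Fin 2) F → ℂ) 1 = (Fintype.card F : ℂ)} = Fintype.card F - 1 ∧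
      Nat.card {χ : Cfsg.IrrCharacter (Matrix.GeneralLinearGroup (Fin 2) F) // (χ : Matrix.GeneralLinearGroup (Fin 2) F → ℂ) 1 = (Fintype.card F : ℂ) + 1} = (Fintype.card F - 1) * (Fintype.card F - 2) / 2 ∧
      Nat.card {χ : Cfsg.IrrCharacter (Matrix.GeneralLinearGroup (Fin 2) F) // (χ : Matrix.GeneralLinearGroup (Fin 2) F → ℂ) 1 = (Fintype.card F : ℂ) - 1} = Fintype.card F * (Fintype.card F - 1) / 2) := by
  classical
  have hM := isGL_mGL (F := F)
  refine ⟨fun χ hχ => ?_, fun hq => ⟨?_, ?_, ?_, ?_⟩⟩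
  · rcases (mGL (F := F)).irr_GL hM hχ with ⟨α, rfl⟩ | ⟨α, rfl⟩ | ⟨α, β, _, rfl⟩ | ⟨_, h2, _⟩
    · exact Or.inl (MG.lin_one _ α)
    · exact Or.inr (Or.inr (Or.inl (MG.sta_one _ α)))
    · exact Or.inr (Or.inr (Or.inr (MG.ps_one _ α β)))
    · exact Or.inr (Or.inl h2)
  · rw [← (mGL (F := F)).card_A1 hM]
    refine Nat.card_congr (Equiv.subtypeEquivRight fun χ => ⟨fun h => (mGL (F := F)).deg_GL_1 hM hq χ.2 h, ?_⟩)
    rintro ⟨α, h⟩; rw [h]; exact MG.lin_one _ α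
  · rw [← (mGL (F := F)).card_A2 hM]
    refine Nat.card_congr (Equiv.subtypeEquivRight fun χ => ⟨fun h => (mGL (F := F)).deg_GL_q hM χ.2 h, ?_⟩)
    rintro ⟨α, h⟩; rw [h]; exact MG.sta_one _ α
  · rw [show (Fintype.card F - 1) * (Fintype.card F - 2) / 2 = (Fintype.card F - 1).choose 2 by
      rw [Nat.choose_two_right]; rfl, ← (mGL (F := F)).card_A3 hM]
    refine Nat.card_congr (Equiv.subtypeEquivRight fun χ => ⟨fun h => (mGL (F := F)).deg_GL_q1 hM χ.2 h, ?_⟩)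
    rintro ⟨α, β, _, h⟩; rw [h]; exact MG.ps_one _ α β
  · have h1 := (MG.count_GL (mGL (F := F)) hM).2
    rw [← h1, Nat.mul_div_cancel_left _ (by norm_num)]
    refine Nat.card_congr (Equiv.subtypeEquivRight fun χ => ⟨fun h => ((mGL (F := F)).deg_GL_c hM hq χ.2 h).1, fun h => ?_⟩)
    exact ((MG.count_GL (mGL (F := F)) hM).1 χ.1 χ.2 h).1

end Cfsg.Agent.S2298
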