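import Cfsg.Statements.S2299
import Cfsg.Agent.H6.Sl15

set_option autoImplicit false
open Cfsg

namespace Cfsg.Agent.S2299

open CfsgH6 CfsgH4

/-- Over a finite field F with q elements, q odd, every irreducible complex character of SL₂ has degree 1, q, q + 1, q − 1, (q + 1)/2 or (q − 1)/2; and when q ≥ 5 (so that these six numbers are distinct) there are exactly one irreducible character of degree 1, one of degree q, (q − 3)/2 of degree q + 1, (q − 1)/2 of degree q − 1, two of degree (q + 1)/2 and two of degree (q − 1)/2. -/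
theorem result {F : Type*} [Field F] [Fintype F] (hodd : Odd (Fintype.card F)) :
    (∀ χ : Matrix.SpecialLinearGroup (Fin 2) F → ℂ, Cfsg.IsIrrCharacter (Matrix.SpecialLinearGroup (Fin 2) F) χ →
      χ 1 = 1 ∨ χ 1 = (Fintype.card F : ℂ) ∨ χ 1 = (Fintype.card F : ℂ) + 1 ∨ χ 1 = (Fintype.card F : ℂ) - 1 ∨
        χ 1 = (((Fintype.card F + 1) / 2 : ℕ) : ℂ) ∨ χ 1 = (((Fintype.card F - 1) / 2 : ℕ) : ℂ)) ∧
    (5 ≤ Fintype.card F →
      Nat.card {χ : Cfsg.IrrCharacter (Matrix.SpecialLinearGroup (Fin 2) F) // (χ : Matrix.SpecialLinearGroup (Fin 2) F → ℂ) 1 = 1} = 1 ∧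
      Nat.card {χ : Cfsg.IrrCharacter (Matrix.SpecialLinearGroup (Fin 2) F) // (χ : Matrix.SpecialLinearGroup (Fin 2) F → ℂ) 1 = (Fintype.card F : ℂ)} = 1 ∧
      Nat.card {χ : Cfsg.IrrCharacter (Matrix.SpecialLinearGroup (Fin 2) F) // (χ : Matrix.SpecialLinearGroup (Fin 2) F → ℂ) 1 = (Fintype.card F : ℂ) + 1} = (Fintype.card F - 3) / 2 ∧
      Nat.card {χ : Cfsg.IrrCharacter (Matrix.SpecialLinearGroup (Fin 2) F) // (χ : Matrix.SpecialLinearGroup (Fin 2) F → ℂ) 1 = (Fintype.card F : ℂ) - 1} = (Fintype.card F - 1) / 2 ∧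
      Nat.card {χ : Cfsg.IrrCharacter (Matrix.SpecialLinearGroup (Fin 2) F) // (χ : Matrix.SpecialLinearGroup (Fin 2) F → ℂ) 1 = (((Fintype.card F + 1) / 2 : ℕ) : ℂ)} = 2 ∧
      Nat.card {χ : Cfsg.IrrCharacter (Matrix.SpecialLinearGroup (Fin 2) F) // (χ : Matrix.SpecialLinearGroup (Fin 2) F → ℂ) 1 = (((Fintype.card F - 1) / 2 : ℕ) : ℂ)} = 2) := by
  classical
  have hM := isSL_mSL (F := F)
  obtain ⟨e, he⟩ := exists_nonsq hodd
  refine ⟨fun χ hχ => ?_, fun hq => ?_⟩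
  · rcases (mSL (F := F)).irr_SL_odd he hodd hM hχ with ⟨_, h⟩ | ⟨_, h⟩ | ⟨_, h⟩ | ⟨_, h⟩ | ⟨_, h⟩ | ⟨_, h⟩
    · exact Or.inl (by rw [h]; simp)
    · exact Or.inr (Or.inl h)
    · exact Or.inr (Or.inr (Or.inl (by rw [h]; push_cast; ring)))
    · exact Or.inr (Or.inr (Or.inr (Or.inr (Or.inl h))))
    · exact Or.inr (Or.inr (Or.inr (Or.inl (by rw [h, MG.sub_cast]))))
    · exact Or.inr (Or.inr (Or.inr (Or.inr (Or.inr h))))
  have hD := fun (χ : Cfsg.IrrCharacter (Matrix.SpecialLinearGroup (Fin 2) F)) (d : ℕ) (h : (χ : Matrix.SpecialLinearGroup (Fin 2) F → ℂ) 1 = (d : ℂ)) =>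
    (mSL (F := F)).deg_SL_odd he hodd hM hq χ.2 h
  have hC := MG.count_SL_odd (mSL (F := F)) he hodd hM
  have hA := MG.card_A3_SL (mSL (F := F)) hM
  rw [MG.card_mc_sq_ne hodd] at hA
  have e1 : ((Fintype.card F : ℂ) + 1) = ((Fintype.card F + 1 : ℕ) : ℂ) := by push_cast; ring
  have e2 : ((Fintype.card F : ℂ) - 1) = ((Fintype.card F - 1 : ℕ) : ℂ) := by rw [MG.sub_cast]
  have e0 : (1 : ℂ) = ((1 : ℕ) : ℂ) := by simp
  have ecusp : ∀ {χ : Matrix.SpecialLinearGroup (Fin 2) F → ℂ}, Cfsg.IsIrrCharacter (Matrix.SpecialLinearGroup (Fin 2) F) χ → (mSL (F := F)).Cusp χ → χ 1 = ((Fintype.card F : ℂ) - 1) / 2 * ((mSL (F := F)).hat χ 1 + (mSL (F := F)).hat χ e) := by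
    intro χ hχ hc
    rw [(mSL (F := F)).hat_F2 he hodd (IsIrr.isClassFunction hχ), ((mSL (F := F)).cusp_iff χ).1 hc, zero_add]
  refine ⟨?_, ?_, ?_, ?_, ?_, ?_⟩
  · rw [Nat.card_eq_one_iff_unique]
    refine ⟨⟨fun a b => ?_⟩, ⟨⟨⟨(mSL (F := F)).lin 1, MG.isIrr_lin _ 1⟩, MG.lin_one _ 1⟩⟩⟩
    have hh : ∀ a : {χ : Cfsg.IrrCharacter (Matrix.SpecialLinearGroup (Fin 2) F) // (χ : Matrix.SpecialLinearGroup (Fin 2) F → ℂ) 1 = 1},
        (a.1 : Matrix.SpecialLinearGroup (Fin 2) F → ℂ) = (mSL (F := F)).lin 1 := fun a => (hD a.1 1 (a.2.trans e0)).1 rfl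
    exact Subtype.ext (Subtype.ext ((hh a).trans (hh b).symm))
  · rw [Nat.card_eq_one_iff_unique]
    refine ⟨⟨fun a b => ?_⟩, ⟨⟨⟨(mSL (F := F)).sta 1, MG.isIrr_sta_SL _ hM⟩, MG.sta_one _ 1⟩⟩⟩
    have hh : ∀ a : {χ : Cfsg.IrrCharacter (Matrix.SpecialLinearGroup (Fin 2) F) // (χ : Matrix.SpecialLinearGroup (Fin 2) F → ℂ) 1 = (Fintype.card F : ℂ)},
        (a.1 : Matrix.SpecialLinearGroup (Fin 2) F → ℂ) = (mSL (F := F)).sta 1 := fun a => (hD a.1 _ a.2).2.1 rfl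
    exact Subtype.ext (Subtype.ext ((hh a).trans (hh b).symm))
  · have h4 : Nat.card {χ : Cfsg.IrrCharacter (Matrix.SpecialLinearGroup (Fin 2) F) // (χ : Matrix.SpecialLinearGroup (Fin 2) F → ℂ) 1 = (Fintype.card F : ℂ) + 1} =
        Nat.card {χ : Cfsg.IrrCharacter (Matrix.SpecialLinearGroup (Fin 2) F) // ∃ γ : MulChar F ℂ, γ ^ 2 ≠ 1 ∧ (χ : Matrix.SpecialLinearGroup (Fin 2) F → ℂ) = (mSL (F := F)).ps γ 1} := by
      refine Nat.card_congr (Equiv.subtypeEquivRight fun χ => ⟨fun ha => (hD χ _ (ha.trans e1)).2.2.1 rfl, ?_⟩)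
      rintro ⟨γ, _, h⟩; rw [h]; exact MG.ps_one _ γ 1
    rw [h4]; omega
  · have h4 : Nat.card {χ : Cfsg.IrrCharacter (Matrix.SpecialLinearGroup (Fin 2) F) // (χ : Matrix.SpecialLinearGroup (Fin 2) F → ℂ) 1 = (Fintype.card F : ℂ) - 1} =
        Nat.card {χ : Cfsg.IrrCharacter (Matrix.SpecialLinearGroup (Fin 2) F) // (mSL (F := F)).Cusp (χ : Matrix.SpecialLinearGroup (Fin 2) F → ℂ) ∧ (mSL (F := F)).hat (χ : Matrix.SpecialLinearGroup (Fin 2) F → ℂ) 1 = (mSL (F := F)).hat (χ : Matrix.SpecialLinearGroup (Fin 2) F → ℂ) e} := by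
      refine Nat.card_congr (Equiv.subtypeEquivRight fun χ => ⟨fun ha => ?_, ?_⟩)
      · obtain ⟨h1, h2, h3⟩ := (hD χ _ (ha.trans e2)).2.2.2.2.1 rfl
        exact ⟨h1, by rw [h2, h3]⟩
      · rintro ⟨h1, h2⟩
        rw [ecusp χ.2 h1]
        rcases hC.1 χ.1 χ.2 h1 with ⟨h3, h4⟩ | ⟨h3, h4⟩ | ⟨h3, h4⟩
        · rw [h3, h4]; ring
        · rw [h3, h4] at h2; norm_num at h2
        · rw [h3, h4] at h2; norm_num at h2
    rw [h4]; omega
  · obtain ⟨φ, hφ, hφH⟩ := (mSL (F := F)).exists_half he hodd hM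
    obtain ⟨hd, _, _, _, he0, i1, i2, i3, i4⟩ := (mSL (F := F)).half_props he hodd hM hφ hφH
    have hH2 : (mSL (F := F)).Half (fun g => φ ((mSL (F := F)).phi he0 g)) := by
      rw [MG.Half, i3, classInner_add_right, classInner_irr_self i1, classInner_irr_ne i1 hφ i2, zero_add]
      exact one_ne_zero
    rw [Nat.card_eq_two_iff]
    refine ⟨⟨⟨φ, hφ⟩, hd⟩, ⟨⟨_, i1⟩, ((mSL (F := F)).half_props he hodd hM i1 hH2).1⟩, fun h => i2 (congrArg (fun z => z.1.1) h).symm, ?_⟩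
    rw [Set.eq_univ_iff_forall]
    intro a
    have ha := (hD a.1 _ a.2).2.2.2.1 rfl
    by_cases h : (a.1 : Matrix.SpecialLinearGroup (Fin 2) F → ℂ) = φ
    · exact Or.inl (Subtype.ext (Subtype.ext h))
    · exact Or.inr (Subtype.ext (Subtype.ext (i4 _ a.1.2 ha h)))
  · have h4 : Nat.card {χ : Cfsg.IrrCharacter (Matrix.SpecialLinearGroup (Fin 2) F) // (χ : Matrix.SpecialLinearGroup (Fin 2) F → ℂ) 1 = (((Fintype.card F - 1) / 2 : ℕ) : ℂ)} =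
        Nat.card {χ : Cfsg.IrrCharacter (Matrix.SpecialLinearGroup (Fin 2) F) // (mSL (F := F)).Cusp (χ : Matrix.SpecialLinearGroup (Fin 2) F → ℂ) ∧ (mSL (F := F)).hat (χ : Matrix.SpecialLinearGroup (Fin 2) F → ℂ) 1 ≠ (mSL (F := F)).hat (χ : Matrix.SpecialLinearGroup (Fin 2) F → ℂ) e} := by
      refine Nat.card_congr (Equiv.subtypeEquivRight fun χ => ⟨fun ha => ?_, ?_⟩)
      · obtain ⟨h1, h2⟩ := (hD χ _ ha).2.2.2.2.2 rfl
        refine ⟨h1, ?_⟩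
        rcases h2 with ⟨h3, h4⟩ | ⟨h3, h4⟩ <;> rw [h3, h4] <;> norm_num
      · rintro ⟨h1, h2⟩
        rw [ecusp χ.2 h1, MG.half_sub hodd]
        rcases hC.1 χ.1 χ.2 h1 with ⟨h3, h4⟩ | ⟨h3, h4⟩ | ⟨h3, h4⟩
        · rw [h3, h4] at h2; exact absurd rfl h2
        · rw [h3, h4]; ring
        · rw [h3, h4]; ring
    rw [h4]; exact hC.2.2

end Cfsg.Agent.S2299
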