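import Cfsg.Statements.S2301
import Cfsg.Agent.H6.Sl6

set_option autoImplicit false
open Cfsg

namespace Cfsg.Agent.S2301

open CfsgH6 CfsgH4

/-- Over a finite field with q elements of odd characteristic p, the elements of order p of SL₂ (the non-identity unipotent elements) fall into exactly two conjugacy classes, each of size (q² − 1)/2; two upper unitriangular matrices with non-zero off-diagonal entries b and b′ are conjugate exactly when bb′ is a square. -/
theorem result {F : Type*} [Field F] [Fintype F] (p : ℕ) [Fact p.Prime] [CharP F p] (hp : p ≠ 2) :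
    Nat.card {C : ConjClasses (Matrix.SpecialLinearGroup (Fin 2) F) // ∃ g : Matrix.SpecialLinearGroup (Fin 2) F, orderOf g = p ∧ ConjClasses.mk g = C} = 2 ∧
    (∀ g : Matrix.SpecialLinearGroup (Fin 2) F, orderOf g = p → Nat.card (ConjClasses.mk g).carrier = (Fintype.card F ^ 2 - 1) / 2) ∧
    ∀ g h : Matrix.SpecialLinearGroup (Fin 2) F, (g : Matrix (Fin 2) (Fin 2) F) 0 0 = 1 → (g : Matrix (Fin 2) (Fin 2) F) 1 1 = 1 → (g : Matrix (Fin 2) (Fin 2) F) 1 0 = 0 → (g : Matrix (Fin 2) (Fin 2) F) 0 1 ≠ 0 →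
      (h : Matrix (Fin 2) (Fin 2) F) 0 0 = 1 → (h : Matrix (Fin 2) (Fin 2) F) 1 1 = 1 → (h : Matrix (Fin 2) (Fin 2) F) 1 0 = 0 → (h : Matrix (Fin 2) (Fin 2) F) 0 1 ≠ 0 →
      (IsConj g h ↔ IsSquare ((g : Matrix (Fin 2) (Fin 2) F) 0 1 * (h : Matrix (Fin 2) (Fin 2) F) 0 1)) := by
  classical
  have hodd : Odd (Fintype.card F) := by
    rw [← Nat.not_even_iff_odd]
    intro h
    have h1 := FiniteField.even_card_iff_char_two (F := F)
    rw [ringChar.eq F p] at h1
    exact hp (h1.2 (Nat.even_iff.1 h))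
  obtain ⟨ε, hε⟩ := exists_nonsq hodd
  have hε0 : ε ≠ 0 := fun h => hε (by rw [h]; exact IsSquare.zero)
  have hu : ∀ g : Matrix.SpecialLinearGroup (Fin 2) F, (g : Matrix (Fin 2) (Fin 2) F) 0 0 = 1 → (g : Matrix (Fin 2) (Fin 2) F) 1 1 = 1 → (g : Matrix (Fin 2) (Fin 2) F) 1 0 = 0 →
      (mSL (F := F)).u ((g : Matrix (Fin 2) (Fin 2) F) 0 1) = g := by
    intro g h00 h11 h10
    exact (mSL (F := F)).ext (by rw [MG.u00]; exact h00.symm) (by rw [MG.u01]; rfl) (by rw [MG.u10]; exact h10.symm)
      (by rw [MG.u11]; exact h11.symm)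
  refine ⟨?_, ?_, ?_⟩
  · let xs : Bool → F := fun b => if b then ε else 1
    have hxs0 : ∀ b, xs b ≠ 0 := by
      intro b; cases b
      · exact one_ne_zero
      · exact hε0
    have hb : Function.Bijective (fun b : Bool => (⟨ConjClasses.mk ((mSL (F := F)).u (xs b)),
        ⟨_, (mSL (F := F)).orderOf_u p (hxs0 b), rfl⟩⟩ :
        {C : ConjClasses (Matrix.SpecialLinearGroup (Fin 2) F) // ∃ g : Matrix.SpecialLinearGroup (Fin 2) F, orderOf g = p ∧ ConjClasses.mk g = C})) := by
      constructor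
      · intro b b' h
        simp only [Subtype.mk.injEq] at h
        rw [ConjClasses.mk_eq_mk_iff_isConj, (mSL (F := F)).conj_u_iff_sq isSL_mSL (hxs0 _) (hxs0 _)] at h
        cases b <;> cases b' <;> first | rfl | skip
        · exact absurd (by simpa [xs] using h) hε
        · exact absurd (by simpa [xs] using h) hε
      · rintro ⟨C, g, hg, rfl⟩
        obtain ⟨h1, h2, h3⟩ := (mSL (F := F)).of_order p hg
        obtain ⟨x, hx, hc⟩ := (mSL (F := F)).unip_conj_ne h2 h1 h3
        by_cases hs : IsSquare x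
        · refine ⟨false, Subtype.ext ?_⟩
          show ConjClasses.mk _ = ConjClasses.mk _
          rw [ConjClasses.mk_eq_mk_iff_isConj]
          exact (((mSL (F := F)).conj_u_iff_sq isSL_mSL (hxs0 _) hx).2 (by simpa [xs] using hs)).trans hc
        · obtain ⟨a, ha, ha2⟩ := nonsq_ratio hε hs
          refine ⟨true, Subtype.ext ?_⟩
          show ConjClasses.mk _ = ConjClasses.mk _
          rw [ConjClasses.mk_eq_mk_iff_isConj]
          exact ((mSL (F := F)).conj_u_of ha (by simpa [xs] using ha2)).trans hc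
    rw [← Nat.card_congr (Equiv.ofBijective _ hb)]
    simp
  · intro g hg
    have h1 := (mSL (F := F)).of_order p hg
    exact (mSL (F := F)).card_class_unip_odd isSL_mSL hodd h1.1 h1.2.2
  · intro g h g00 g11 g10 g01 h00 h11 h10 h01
    have e1 := hu g g00 g11 g10
    have e2 := hu h h00 h11 h10
    have e3 := (mSL (F := F)).conj_u_iff_sq isSL_mSL g01 h01
    rw [e1, e2] at e3
    exact e3

end Cfsg.Agent.S2301
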