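import Cfsg.Statements.S2302
import Cfsg.Agent.H6.Sl6

set_option autoImplicit false
open Cfsg

namespace Cfsg.Agent.S2302

open CfsgH6 CfsgH4

/-- Over a finite field with q elements of characteristic 2, the involutions of SL₂ (the non-identity unipotent elements) form a single conjugacy class, of size q² − 1. -/
theorem result {F : Type*} [Field F] [Fintype F] [CharP F 2] (g h : Matrix.SpecialLinearGroup (Fin 2) F) (hg : orderOf g = 2) (hh : orderOf h = 2) :
    IsConj g h ∧ Nat.card (ConjClasses.mk g).carrier = Fintype.card F ^ 2 - 1 := by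
  classical
  haveI : Fact (Nat.Prime 2) := ⟨Nat.prime_two⟩
  have h1 := (mSL (F := F)).of_order 2 hg
  have h2 := (mSL (F := F)).of_order 2 hh
  exact ⟨(mSL (F := F)).conj_unip_even isSL_mSL h1.1 h1.2.2 h2.1 h2.2.2,
    (mSL (F := F)).card_class_unip_even isSL_mSL h1.1 h1.2.2⟩

end Cfsg.Agent.S2302
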