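import Cfsg.Statements.S2305
import Cfsg.Agent.H6.Sl3

set_option autoImplicit false
open Cfsg

namespace Cfsg.Agent.S2305

open CfsgH6 CfsgH4

/-- Over a finite field F, for multiplicative characters α, β, α′, β′ of F, the characters of GL₂ induced from the linear characters b ↦ α(b₁₁) β(b₂₂) and b ↦ α′(b₁₁) β′(b₂₂) of the upper triangular subgroup coincide exactly when {α, β} = {α′, β′} as unordered pairs. -/
theorem result {F : Type*} [Field F] [Fintype F] [DecidableEq F] (α β α' β' : MulChar F ℂ) :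
    Cfsg.indFun (Cfsg.upperTriangularGL 2 F) (fun b => α (((b : Matrix.GeneralLinearGroup (Fin 2) F) : Matrix (Fin 2) (Fin 2) F) 0 0) * β (((b : Matrix.GeneralLinearGroup (Fin 2) F) : Matrix (Fin 2) (Fin 2) F) 1 1)) = Cfsg.indFun (Cfsg.upperTriangularGL 2 F) (fun b => α' (((b : Matrix.GeneralLinearGroup (Fin 2) F) : Matrix (Fin 2) (Fin 2) F) 0 0) * β' (((b : Matrix.GeneralLinearGroup (Fin 2) F) : Matrix (Fin 2) (Fin 2) F) 1 1)) ↔
      (α = α' ∧ β = β') ∨ (α = β' ∧ β = α') := by
  classical
  rw [ind_GL, ind_GL]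
  constructor
  · intro h
    have h1 := (mGL (F := F)).inner_ps_GL isGL_mGL α β α' β'
    have h2 := (mGL (F := F)).inner_ps_GL isGL_mGL α β α β
    rw [← h, h2] at h1
    rw [if_pos rfl, if_pos rfl] at h1
    by_contra hc
    push Not at hc
    have e1 : (if α = α' then (1 : ℂ) else 0) * (if β = β' then 1 else 0) = 0 := by
      by_cases h3 : α = α'
      · rw [if_neg (hc.1 h3), mul_zero]
      · rw [if_neg h3, zero_mul]
    have e2 : (if α = β' then (1 : ℂ) else 0) * (if β = α' then 1 else 0) = 0 := by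
      by_cases h3 : α = β'
      · rw [if_neg (hc.2 h3), mul_zero]
      · rw [if_neg h3, zero_mul]
    rw [e1, e2] at h1
    split_ifs at h1 <;> norm_num at h1
  · rintro (⟨rfl, rfl⟩ | ⟨rfl, rfl⟩)
    · rfl
    · funext g
      exact ((mGL (F := F)).ps_swap α β g).symm

end Cfsg.Agent.S2305
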