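import Cfsg.Statements.S2306
import Cfsg.Agent.H6.Sl3

set_option autoImplicit false
open Cfsg

namespace Cfsg.Agent.S2306

open CfsgH6 CfsgH4

/-- Over a finite field F, for a multiplicative character α of F, the function induced to SL₂ from the linear character b ↦ α(b₁₁) of the upper triangular subgroup is an irreducible character if and only if α² ≠ 1. -/
theorem result {F : Type*} [Field F] [Fintype F] [DecidableEq F] (α : MulChar F ℂ) :
    Cfsg.IsIrrCharacter (Matrix.SpecialLinearGroup (Fin 2) F) (Cfsg.indFun ((Cfsg.upperTriangularGL 2 F).comap Matrix.SpecialLinearGroup.toGL) (fun b => α (((b : Matrix.SpecialLinearGroup (Fin 2) F) : Matrix (Fin 2) (Fin 2) F) 0 0))) ↔ α ^ 2 ≠ 1 := by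
  classical
  have h1 := (mSL (F := F)).inner_ps_SL isSL_mSL α 1 α 1
  have h4 : α = α⁻¹ ↔ α ^ 2 = 1 := by
    rw [sq]; exact (mul_eq_one_iff_eq_inv).symm
  have h5 : (α * 1⁻¹ = 1 * α⁻¹) ↔ α ^ 2 = 1 := by rw [← h4, inv_one, mul_one, one_mul]
  rw [if_pos rfl] at h1
  rw [ind_SL]
  constructor
  · intro h h2
    have h3 := classInner_irr_self h
    rw [h1, if_pos (h5.2 h2)] at h3
    norm_num at h3
  · intro h
    refine isIrr_of_norm_one ((mSL (F := F)).isCharacter_ps α 1) ?_
    rw [h1, if_neg (fun h2 => h (h5.1 h2)), add_zero]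

end Cfsg.Agent.S2306
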