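import Cfsg.Statements.S2307
import Cfsg.Agent.H6.Sl12

set_option autoImplicit false
open Cfsg

namespace Cfsg.Agent.S2307

open CfsgH6 CfsgH4

/-- Over a finite field F with q elements, q odd, let α be the multiplicative character of F of order 2. The character of SL₂ induced from the linear character b ↦ α(b₁₁) of the upper triangular subgroup is the sum of two distinct irreducible characters, each of degree (q + 1)/2, which are conjugate under GL₂: some fixed element of GL₂ conjugates the one into the other. -/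
theorem result {F : Type*} [Field F] [Fintype F] [DecidableEq F] (hodd : Odd (Fintype.card F)) (α : MulChar F ℂ)
    (hα : α ^ 2 = 1) (hα1 : α ≠ 1) :
    ∃ χ₁ χ₂ : Matrix.SpecialLinearGroup (Fin 2) F → ℂ, Cfsg.IsIrrCharacter (Matrix.SpecialLinearGroup (Fin 2) F) χ₁ ∧ Cfsg.IsIrrCharacter (Matrix.SpecialLinearGroup (Fin 2) F) χ₂ ∧ χ₁ ≠ χ₂ ∧
      Cfsg.indFun ((Cfsg.upperTriangularGL 2 F).comap Matrix.SpecialLinearGroup.toGL) (fun b => α (((b : Matrix.SpecialLinearGroup (Fin 2) F) : Matrix (Fin 2) (Fin 2) F) 0 0)) = χ₁ + χ₂ ∧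
      χ₁ 1 = (((Fintype.card F + 1) / 2 : ℕ) : ℂ) ∧ χ₂ 1 = (((Fintype.card F + 1) / 2 : ℕ) : ℂ) ∧
      ∃ x : Matrix.GeneralLinearGroup (Fin 2) F, ∀ g h : Matrix.SpecialLinearGroup (Fin 2) F,
        Matrix.SpecialLinearGroup.toGL h = x * Matrix.SpecialLinearGroup.toGL g * x⁻¹ → χ₂ h = χ₁ g := by
  classical
  have hM := isSL_mSL (F := F)
  obtain ⟨e, he⟩ := exists_nonsq hodd
  have he0 : e ≠ 0 := fun h => he (by rw [h]; exact IsSquare.zero)
  obtain ⟨φ, ψ, hφ, hψ, hne, hsum, a1, a2, hh⟩ := (mSL (F := F)).split_qc he hodd hM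
  have hα' := eq_qc hodd hα hα1
  have hhe : (mSL (F := F)).hat φ 1 ≠ (mSL (F := F)).hat φ e := by
    rcases hh with ⟨h1, h2, _, _⟩ | ⟨h1, h2, _, _⟩ <;> rw [h1, h2] <;> norm_num
  have hc := (mSL (F := F)).split_conj he hodd hφ hψ hne hsum hhe he0
  have hdeg : (((Fintype.card F + 1) / 2 : ℕ) : ℂ) = ((Fintype.card F : ℂ) + 1) / 2 := by
    obtain ⟨k, hk⟩ := hodd
    rw [hk, show (2 * k + 1 + 1) / 2 = k + 1 by omega]
    push_cast; ring
  refine ⟨φ, ψ, hφ, hψ, hne, ?_, ?_, ?_, ?_⟩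
  · rw [ind_SL, hα']; exact hsum
  · rw [(mSL (F := F)).hat_F2 he hodd (IsIrr.isClassFunction hφ), hdeg, a1]
    rcases hh with ⟨h1, h2, _, _⟩ | ⟨h1, h2, _, _⟩ <;> rw [h1, h2] <;> ring
  · rw [(mSL (F := F)).hat_F2 he hodd (IsIrr.isClassFunction hψ), hdeg, a2]
    rcases hh with ⟨_, _, h1, h2⟩ | ⟨_, _, h1, h2⟩ <;> rw [h1, h2] <;> ring
  · refine ⟨(Matrix.GeneralLinearGroup.mkOfDetNeZero !![e⁻¹, 0; 0, 1] (by rw [Matrix.det_fin_two]; simpa using he0)), fun g h hgh => ?_⟩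
    have h1 : (mSL (F := F)).phi he0 h = g := by
      have h2 : (Matrix.SpecialLinearGroup.toGL h : Matrix (Fin 2) (Fin 2) F) * !![e⁻¹, 0; 0, 1] = !![e⁻¹, 0; 0, 1] * (Matrix.SpecialLinearGroup.toGL g : Matrix (Fin 2) (Fin 2) F) := by
        have h3 := congrArg (fun z : Matrix.GeneralLinearGroup (Fin 2) F => z * Matrix.GeneralLinearGroup.mkOfDetNeZero !![e⁻¹, 0; 0, 1] (by rw [Matrix.det_fin_two]; simpa using he0)) hgh
        simp only [inv_mul_cancel_right] at h3
        exact congrArg (fun z : Matrix.GeneralLinearGroup (Fin 2) F => (z : Matrix (Fin 2) (Fin 2) F)) h3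
      have h4 : ∀ i j, ((mSL (F := F)).m h * !![e⁻¹, 0; 0, 1]) i j = (!![e⁻¹, 0; 0, 1] * (mSL (F := F)).m g) i j := fun i j =>
        congrFun (congrFun h2 i) j
      have e00 := h4 0 0
      have e01 := h4 0 1
      have e10 := h4 1 0
      have e11 := h4 1 1
      simp only [Matrix.mul_apply, Fin.sum_univ_two, Matrix.of_apply, Matrix.cons_val', Matrix.cons_val_zero, Matrix.cons_val_one,
        Matrix.cons_val_fin_one, mul_zero, add_zero, zero_add, mul_one, zero_mul, one_mul] at e00 e01 e10 e11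
      refine (mSL (F := F)).ext ?_ ?_ ?_ ?_
      · rw [MG.phi00]; field_simp at e00; exact e00
      · rw [MG.phi01, e01]; field_simp
      · rw [MG.phi10, ← e10]; ring
      · rw [MG.phi11]; exact e11
    rw [← h1]
    exact (congrFun hc h).symm

end Cfsg.Agent.S2307
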