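import Cfsg.Statements.S2308
import Cfsg.Agent.H6.Sl3
import Cfsg.Agent.H4.BrauerA

set_option autoImplicit false
open Cfsg

namespace Cfsg.Agent.S2308

open CfsgH6 CfsgH4

/-- Values of the permutation character of GL₂ over a finite field F with q elements on the cosets of its upper triangular subgroup (equivalently, the number of lines of F² that an element maps to themselves): q + 1 at a scalar matrix, 2 at a diagonal matrix with two different diagonal entries, 0 at an element with no eigenvector in F², and 1 at an upper triangular matrix with equal diagonal entries and non-zero upper right entry. -/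
theorem result {F : Type*} [Field F] [Fintype F] (g : Matrix.GeneralLinearGroup (Fin 2) F) :
    ((∃ a : F, (g : Matrix (Fin 2) (Fin 2) F) = a • (1 : Matrix (Fin 2) (Fin 2) F)) → Cfsg.fixedPointCharacter (Cfsg.upperTriangularGL 2 F) g = Fintype.card F + 1) ∧
    ((g : Matrix (Fin 2) (Fin 2) F) 0 1 = 0 → (g : Matrix (Fin 2) (Fin 2) F) 1 0 = 0 → (g : Matrix (Fin 2) (Fin 2) F) 0 0 ≠ (g : Matrix (Fin 2) (Fin 2) F) 1 1 →
      Cfsg.fixedPointCharacter (Cfsg.upperTriangularGL 2 F) g = 2) ∧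
    ((∀ (c : F) (v : Fin 2 → F), v ≠ 0 → (g : Matrix (Fin 2) (Fin 2) F).mulVec v ≠ c • v) → Cfsg.fixedPointCharacter (Cfsg.upperTriangularGL 2 F) g = 0) ∧
    ((g : Matrix (Fin 2) (Fin 2) F) 1 0 = 0 → (g : Matrix (Fin 2) (Fin 2) F) 0 0 = (g : Matrix (Fin 2) (Fin 2) F) 1 1 → (g : Matrix (Fin 2) (Fin 2) F) 0 1 ≠ 0 →
      Cfsg.fixedPointCharacter (Cfsg.upperTriangularGL 2 F) g = 1) := by
  classical
  have h0 : Cfsg.fixedPointCharacter (Cfsg.upperTriangularGL 2 F) = (mGL (F := F)).ps 1 1 := by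
    rw [← ind_GL]
    have h1 := indFun_one_eq_perm (Cfsg.upperTriangularGL 2 F)
    refine h1.symm.trans ?_
    congr 1
    funext b
    have hb := (mGL (F := F)).B_ne (g := b.1) (by rw [← B_GL]; exact b.2)
    have e1 : (1 : MulChar F ℂ) (((b : Matrix.GeneralLinearGroup (Fin 2) F) : Matrix (Fin 2) (Fin 2) F) 0 0) = 1 :=
      MulChar.one_apply hb.1.isUnit
    have e2 : (1 : MulChar F ℂ) (((b : Matrix.GeneralLinearGroup (Fin 2) F) : Matrix (Fin 2) (Fin 2) F) 1 1) = 1 :=
      MulChar.one_apply hb.2.isUnit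
    rw [e1, e2, mul_one]
  rw [h0]
  refine ⟨?_, fun h01 h10 h => ?_, fun h => (mGL (F := F)).ps_ell 1 1 h, fun h10 h00 h01 => ?_⟩
  · rintro ⟨a, ha⟩
    have h01 : (mGL (F := F)).m g 0 1 = 0 := by rw [mGL_m, ha]; simp
    have h10 : (mGL (F := F)).m g 1 0 = 0 := by rw [mGL_m, ha]; simp
    have hb := (mGL (F := F)).B_ne (g := g) h10
    rw [(mGL (F := F)).ps_scalar 1 1 h01 h10 (by rw [mGL_m, mGL_m, ha]; simp), MulChar.one_apply hb.1.isUnit]
    ring
  · have hb := (mGL (F := F)).B_ne (g := g) h10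
    rw [(mGL (F := F)).ps_split 1 1 h01 h10 h, MulChar.one_apply hb.1.isUnit, MulChar.one_apply hb.2.isUnit]
    ring
  · have hb := (mGL (F := F)).B_ne (g := g) h10
    rw [(mGL (F := F)).ps_unip 1 1 h01 h10 h00, MulChar.one_apply hb.1.isUnit]
    ring

end Cfsg.Agent.S2308
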