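import Cfsg.Statements.S2309
import Cfsg.Agent.H6.Sl9

set_option autoImplicit false
open Cfsg

namespace Cfsg.Agent.S2309

open CfsgH6 CfsgH4

/-- Over a finite field F with q elements: every irreducible complex character of GL₂ of degree q − 1 vanishes at every diagonal matrix with two distinct entries, and every irreducible complex character of degree q + 1 vanishes at every element with no eigenvector in F². -/
theorem result {F : Type*} [Field F] [Fintype F] (χ : Matrix.GeneralLinearGroup (Fin 2) F → ℂ) (hχ : Cfsg.IsIrrCharacter (Matrix.GeneralLinearGroup (Fin 2) F) χ) (g : Matrix.GeneralLinearGroup (Fin 2) F) :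
    (χ 1 = (Fintype.card F : ℂ) - 1 → (g : Matrix (Fin 2) (Fin 2) F) 0 1 = 0 → (g : Matrix (Fin 2) (Fin 2) F) 1 0 = 0 → (g : Matrix (Fin 2) (Fin 2) F) 0 0 ≠ (g : Matrix (Fin 2) (Fin 2) F) 1 1 → χ g = 0) ∧
    (χ 1 = (Fintype.card F : ℂ) + 1 → (∀ (c : F) (v : Fin 2 → F), v ≠ 0 → (g : Matrix (Fin 2) (Fin 2) F).mulVec v ≠ c • v) → χ g = 0) := by
  classical
  have hM := isGL_mGL (F := F)
  refine ⟨fun h h01 h10 hne => ?_, fun h hell => ?_⟩
  · have hq : 3 ≤ Fintype.card F := by
      have hb := (mGL (F := F)).B_ne (g := g) h10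
      have h3 : ({0, (mGL (F := F)).m g 0 0, (mGL (F := F)).m g 1 1} : Finset F).card = 3 := by
        rw [Finset.card_eq_three]
        exact ⟨_, _, _, hb.1.symm, hb.2.symm, hne, rfl⟩
      rw [← h3]; exact Finset.card_le_univ _
    exact (mGL (F := F)).cusp_split (IsIrr.isCharacter hχ) ((mGL (F := F)).deg_GL_c hM hq hχ h).1 h01 h10 hne
  · obtain ⟨α, β, _, rfl⟩ := (mGL (F := F)).deg_GL_q1 hM hχ h
    exact (mGL (F := F)).ps_ell α β hell

end Cfsg.Agent.S2309
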