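import Cfsg.Statements.S2310
import Cfsg.Agent.H6.Sl9

set_option autoImplicit false
open Cfsg

namespace Cfsg.Agent.S2310

open CfsgH6 CfsgH4

/-- Over a finite field F with q ≥ 3 elements, let u be the upper unitriangular matrix of GL₂ with off-diagonal entry 1. An irreducible complex character χ of GL₂ takes at u the value 1 if χ has degree 1 or q + 1, the value −1 if χ has degree q − 1, and the value 0 if χ has degree q. -/
theorem result {F : Type*} [Field F] [Fintype F] (hq : 3 ≤ Fintype.card F) (χ : Matrix.GeneralLinearGroup (Fin 2) F → ℂ) (hχ : Cfsg.IsIrrCharacter (Matrix.GeneralLinearGroup (Fin 2) F) χ)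
    (u : Matrix.GeneralLinearGroup (Fin 2) F) (hu : (u : Matrix (Fin 2) (Fin 2) F) = !![1, 1; 0, 1]) :
    (χ 1 = 1 → χ u = 1) ∧ (χ 1 = (Fintype.card F : ℂ) + 1 → χ u = 1) ∧
    (χ 1 = (Fintype.card F : ℂ) - 1 → χ u = -1) ∧ (χ 1 = (Fintype.card F : ℂ) → χ u = 0) := by
  classical
  have hM := isGL_mGL (F := F)
  have e : u = (mGL (F := F)).u 1 :=
    (mGL (F := F)).ext (by rw [MG.u00, mGL_m, hu]; rfl) (by rw [MG.u01, mGL_m, hu]; rfl)
      (by rw [MG.u10, mGL_m, hu]; rfl) (by rw [MG.u11, mGL_m, hu]; rfl)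
  subst e
  refine ⟨fun h => ?_, fun h => ?_, fun h => ?_, fun h => ?_⟩
  · obtain ⟨α, rfl⟩ := (mGL (F := F)).deg_GL_1 hM hq hχ h
    exact MG.lin_u _ α 1
  · obtain ⟨α, β, _, rfl⟩ := (mGL (F := F)).deg_GL_q1 hM hχ h
    exact MG.ps_u _ α β one_ne_zero
  · exact ((mGL (F := F)).deg_GL_c hM hq hχ h).2
  · obtain ⟨α, rfl⟩ := (mGL (F := F)).deg_GL_q hM hχ h
    rw [MG.sta, MG.ps_u _ α α one_ne_zero, MG.lin_u, sub_self]

end Cfsg.Agent.S2310
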