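import Cfsg.Statements.S2313
import Cfsg.Agent.H6.St4

set_option autoImplicit false
open Cfsg

namespace Cfsg.Agent.S2313

/-- In a Chevalley group of type G₂, B₂, D₄, F₄, E₆, E₇ or E₈ over a finite field, the restriction of the Steinberg character to the subgroup B = UH is the permutation character of B on the cosets of the diagonal subgroup H: at b ∈ B its value is the number of cosets xH, x ∈ B, with bxH = xH. -/
theorem result {F : Type*} [Field F] [Fintype F] (D : Cfsg.Lie.ChevalleyDatum) (hD : D ∈ [Cfsg.Lie.chevG2, Cfsg.Lie.chevB2, Cfsg.Lie.chevD4, Cfsg.Lie.chevF4, Cfsg.Lie.chevE6, Cfsg.Lie.chevE7, Cfsg.Lie.chevE8]) (b : ↥((D.borelSubgroup F).subgroupOf (D.group F))) :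
    D.steinbergCharacter F ((((D.borelSubgroup F).subgroupOf (D.group F)).subtype) b) =
      Cfsg.fixedPointCharacter (((D.diagonalSubgroup F).subgroupOf (D.group F)).subgroupOf ((D.borelSubgroup F).subgroupOf (D.group F))) b := by
  simp only [List.mem_cons, List.not_mem_nil, or_false] at hD
  rcases hD with rfl | rfl | rfl | rfl | rfl | rfl | rfl
  · exact CfsgH6.Chv.goodG2.stmt_2313 b
  · exact CfsgH6.Chv.goodB2.stmt_2313 b
  · exact CfsgH6.Chv.goodD4.stmt_2313 b
  · exact CfsgH6.Chv.goodF4.stmt_2313 b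
  · exact CfsgH6.Chv.goodE6.stmt_2313 b
  · exact CfsgH6.Chv.goodE7.stmt_2313 b
  · exact CfsgH6.Chv.goodE8.stmt_2313 b

end Cfsg.Agent.S2313
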