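import Cfsg.Statements.S2318
import Cfsg.Agent.H6.St22
import Cfsg.Agent.H6.ChY9

set_option autoImplicit false
open Cfsg

namespace Cfsg.Agent.S2318

open CfsgH6.Chv

theorem aux {F : Type*} [Field F] [Fintype F] (p : ℕ) [Fact p.Prime] [CharP F p] {D : Cfsg.Lie.ChevalleyDatum} {gd : Good D} (P : Pk gd)
    (χ : ↥(D.group F) → ℂ) (hχ : Cfsg.IsIrrCharacter ↥(D.group F) χ)
    (hdeg : ∃ d : ℕ, χ 1 = (d : ℂ) ∧ p ^ (Nat.card ↥(D.group F)).factorization p ∣ d) :
    χ = D.steinbergCharacter F := by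
  obtain ⟨γ, hγ⟩ := exists_cinv gd (F := F) P.hD P.ng
  exact gd.stmt_2318 (Good.sylU_of (γ := γ) hγ inferInstance) χ hχ hdeg

/-- In a Chevalley group of type G₂, B₂, D₄, F₄, E₆, E₇ or E₈ over a finite field of characteristic p (for types G₂ and B₂ the field is assumed to have at least 3 elements, so that the group is perfect), the Steinberg character is the only irreducible complex character whose degree is divisible by the full power of p dividing the group order (the only irreducible character of p-defect zero). -/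
theorem result {F : Type*} [Field F] [Fintype F] (p : ℕ) [Fact p.Prime] [CharP F p] (D : Cfsg.Lie.ChevalleyDatum) (hD : D ∈ [Cfsg.Lie.chevG2, Cfsg.Lie.chevB2, Cfsg.Lie.chevD4, Cfsg.Lie.chevF4, Cfsg.Lie.chevE6, Cfsg.Lie.chevE7, Cfsg.Lie.chevE8]) (hq : (D = Cfsg.Lie.chevG2 ∨ D = Cfsg.Lie.chevB2) → 3 ≤ Fintype.card F)
    (χ : ↥(D.group F) → ℂ) (hχ : Cfsg.IsIrrCharacter ↥(D.group F) χ)
    (hdeg : ∃ d : ℕ, χ 1 = (d : ℂ) ∧ p ^ (Nat.card ↥(D.group F)).factorization p ∣ d) :
    χ = D.steinbergCharacter F := by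
  simp only [List.mem_cons, List.not_mem_nil, or_false] at hD
  rcases hD with rfl | rfl | rfl | rfl | rfl | rfl | rfl
  · exact aux p pkG2 χ hχ hdeg
  · exact aux p pkB2 χ hχ hdeg
  · exact aux p pkD4 χ hχ hdeg
  · exact aux p pkF4 χ hχ hdeg
  · exact aux p pkE6 χ hχ hdeg
  · exact aux p pkE7 χ hχ hdeg
  · exact aux p pkE8 χ hχ hdeg

end Cfsg.Agent.S2318
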