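import Cfsg.Statements.S2320
import Cfsg.Agent.H6.Sl9

set_option autoImplicit false
open Cfsg

namespace Cfsg.Agent.S2320

open CfsgH6 CfsgH4

/-- Over a finite field F with q elements, every irreducible complex character of GL₂ of degree q takes a value of absolute value 1 at every diagonal matrix with two different diagonal entries and at every element with no eigenvector in F². -/
theorem result {F : Type*} [Field F] [Fintype F] (χ : Matrix.GeneralLinearGroup (Fin 2) F → ℂ) (hχ : Cfsg.IsIrrCharacter (Matrix.GeneralLinearGroup (Fin 2) F) χ) (hdeg : χ 1 = (Fintype.card F : ℂ)) (g : Matrix.GeneralLinearGroup (Fin 2) F) :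
    ((g : Matrix (Fin 2) (Fin 2) F) 0 1 = 0 → (g : Matrix (Fin 2) (Fin 2) F) 1 0 = 0 → (g : Matrix (Fin 2) (Fin 2) F) 0 0 ≠ (g : Matrix (Fin 2) (Fin 2) F) 1 1 → ‖χ g‖ = 1) ∧
    ((∀ (c : F) (v : Fin 2 → F), v ≠ 0 → (g : Matrix (Fin 2) (Fin 2) F).mulVec v ≠ c • v) → ‖χ g‖ = 1) := by
  classical
  have hM := isGL_mGL (F := F)
  obtain ⟨α, rfl⟩ := (mGL (F := F)).deg_GL_q hM hχ hdeg
  have hn : ∀ a : F, a ≠ 0 → ‖α a‖ = 1 := by
    intro a ha
    have h1 := mc_norm α ha
    rw [Complex.mul_conj, Complex.normSq_eq_norm_sq] at h1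
    have h2 : ‖α a‖ ^ 2 = 1 := by exact_mod_cast h1
    exact (pow_eq_one_iff_of_nonneg (norm_nonneg _) two_ne_zero).1 h2
  refine ⟨fun h01 h10 hne => ?_, fun hell => ?_⟩
  · have hb := (mGL (F := F)).B_ne (g := g) h10
    rw [MG.sta, MG.ps_same, MG.ps_split _ 1 1 h01 h10 hne, MulChar.one_apply hb.1.isUnit, MulChar.one_apply hb.2.isUnit]
    rw [show MG.lin (mGL (F := F)) α g * (1 * 1 + 1 * 1) - MG.lin (mGL (F := F)) α g = MG.lin (mGL (F := F)) α g by ring]
    exact hn _ ((mGL (F := F)).dt_ne g)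
  · rw [MG.sta, (mGL (F := F)).ps_ell α α hell, zero_sub, norm_neg]
    exact hn _ ((mGL (F := F)).dt_ne g)

end Cfsg.Agent.S2320
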