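import Cfsg.Statements.S2321
import Cfsg.Agent.H6.Sl15

set_option autoImplicit false
open Cfsg

namespace Cfsg.Agent.S2321

open CfsgH6 CfsgH4

/-- Over a finite field F with q elements, an irreducible complex character of SL₂ of degree q (the Steinberg character) takes the value 1 at every diagonal matrix whose diagonal entry a has a² ≠ 1, the value −1 at every element with no eigenvector in F², and the value 0 at every upper triangular matrix with equal diagonal entries and non-zero upper right entry. -/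
theorem result {F : Type*} [Field F] [Fintype F] (χ : Matrix.SpecialLinearGroup (Fin 2) F → ℂ) (hχ : Cfsg.IsIrrCharacter (Matrix.SpecialLinearGroup (Fin 2) F) χ) (hdeg : χ 1 = (Fintype.card F : ℂ)) (g : Matrix.SpecialLinearGroup (Fin 2) F) :
    ((g : Matrix (Fin 2) (Fin 2) F) 0 1 = 0 → (g : Matrix (Fin 2) (Fin 2) F) 1 0 = 0 → (g : Matrix (Fin 2) (Fin 2) F) 0 0 ^ 2 ≠ 1 → χ g = 1) ∧
    ((∀ (c : F) (v : Fin 2 → F), v ≠ 0 → (g : Matrix (Fin 2) (Fin 2) F).mulVec v ≠ c • v) → χ g = -1) ∧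
    ((g : Matrix (Fin 2) (Fin 2) F) 1 0 = 0 → (g : Matrix (Fin 2) (Fin 2) F) 0 0 = (g : Matrix (Fin 2) (Fin 2) F) 1 1 → (g : Matrix (Fin 2) (Fin 2) F) 0 1 ≠ 0 → χ g = 0) := by
  classical
  have hM := isSL_mSL (F := F)
  have h := (mSL (F := F)).deg_q_SL hM hχ hdeg
  subst h
  have hd : (mSL (F := F)).dt g = 1 := hM g
  refine ⟨fun h01 h10 h2 => ?_, fun h => ?_, fun h10 h00 h01 => ?_⟩
  · have hb := (mSL (F := F)).B_ne (g := g) h10
    have h3 : (mSL (F := F)).m g 0 0 * (mSL (F := F)).m g 1 1 = 1 := by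
      rw [MG.dt, show (mSL (F := F)).m g 0 1 = 0 from h01] at hd; linear_combination hd
    have h4 : (mSL (F := F)).m g 0 0 ≠ (mSL (F := F)).m g 1 1 := by
      intro h5
      apply h2
      rw [← h5] at h3
      show (mSL (F := F)).m g 0 0 ^ 2 = 1
      rw [sq]; exact h3
    rw [MG.sta, (mSL (F := F)).ps_split 1 1 h01 h10 h4, MulChar.one_apply hb.1.isUnit, MulChar.one_apply hb.2.isUnit,
      (mSL (F := F)).lin_SL hM]
    ring
  · rw [MG.sta, (mSL (F := F)).ps_ell 1 1 h, (mSL (F := F)).lin_SL hM]; ring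
  · have hb := (mSL (F := F)).B_ne (g := g) h10
    rw [MG.sta, (mSL (F := F)).ps_unip 1 1 h01 h10 h00, MulChar.one_apply hb.1.isUnit, (mSL (F := F)).lin_SL hM]
    ring

end Cfsg.Agent.S2321
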