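import Cfsg.Statements.S2322
import Cfsg.Agent.H6.Sl16

set_option autoImplicit false
open Cfsg

namespace Cfsg.Agent.S2322

open CfsgH6 CfsgH4

/-- Over a finite field F with q elements, q odd: every irreducible complex character of SL₂ of degree q − 1 or (q − 1)/2 vanishes at every diagonal matrix whose diagonal entry a has a² ≠ 1, and every irreducible complex character of degree q + 1 or (q + 1)/2 vanishes at every element with no eigenvector in F². -/
theorem result {F : Type*} [Field F] [Fintype F] (hodd : Odd (Fintype.card F)) (χ : Matrix.SpecialLinearGroup (Fin 2) F → ℂ) (hχ : Cfsg.IsIrrCharacter (Matrix.SpecialLinearGroup (Fin 2) F) χ) (g : Matrix.SpecialLinearGroup (Fin 2) F) :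
    ((χ 1 = (Fintype.card F : ℂ) - 1 ∨ χ 1 = (((Fintype.card F - 1) / 2 : ℕ) : ℂ)) →
      (g : Matrix (Fin 2) (Fin 2) F) 0 1 = 0 → (g : Matrix (Fin 2) (Fin 2) F) 1 0 = 0 → (g : Matrix (Fin 2) (Fin 2) F) 0 0 ^ 2 ≠ 1 → χ g = 0) ∧
    ((χ 1 = (Fintype.card F : ℂ) + 1 ∨ χ 1 = (((Fintype.card F + 1) / 2 : ℕ) : ℂ)) →
      (∀ (c : F) (v : Fin 2 → F), v ≠ 0 → (g : Matrix (Fin 2) (Fin 2) F).mulVec v ≠ c • v) → χ g = 0) := by
  classical
  have hM := isSL_mSL (F := F)
  obtain ⟨e, he⟩ := exists_nonsq hodd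
  have hh := hodd
  obtain ⟨k, hk⟩ := hh
  have hq1 := Fintype.one_lt_card (α := F)
  refine ⟨fun h h01 h10 h2 => ?_, fun h hell => ?_⟩
  · have hb := (mSL (F := F)).B_ne (g := g) h10
    have hd : (mSL (F := F)).dt g = 1 := hM g
    have h3 : (mSL (F := F)).m g 0 0 * (mSL (F := F)).m g 1 1 = 1 := by
      rw [MG.dt, show (mSL (F := F)).m g 0 1 = 0 from h01] at hd; linear_combination hd
    have h4 : (mSL (F := F)).m g 0 0 ≠ (mSL (F := F)).m g 1 1 := by
      intro h5
      apply h2
      rw [← h5] at h3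
      show (mSL (F := F)).m g 0 0 ^ 2 = 1
      rw [sq]; exact h3
    have hq : 5 ≤ Fintype.card F := by
      have h5 : ({0, (mSL (F := F)).m g 0 0, (mSL (F := F)).m g 1 1, 1} : Finset F).card = 4 := by
        have n1 : (0 : F) ≠ (mSL (F := F)).m g 0 0 := hb.1.symm
        have n2 : (0 : F) ≠ (mSL (F := F)).m g 1 1 := hb.2.symm
        have n3 : (mSL (F := F)).m g 0 0 ≠ 1 := by
          intro h6; apply h2; show (mSL (F := F)).m g 0 0 ^ 2 = 1; rw [h6, one_pow]
        have n4 : (mSL (F := F)).m g 1 1 ≠ 1 := by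
          intro h6; rw [h6, mul_one] at h3; exact n3 h3
        rw [Finset.card_insert_of_notMem (by simp [n1, n2]), Finset.card_insert_of_notMem (by simp [h4, n3]),
          Finset.card_insert_of_notMem (by simp [n4]), Finset.card_singleton]
      have h6 := Finset.card_le_univ ({0, (mSL (F := F)).m g 0 0, (mSL (F := F)).m g 1 1, 1} : Finset F)
      rw [h5] at h6
      omega
    have hc : (mSL (F := F)).Cusp χ := by
      rcases h with h | h
      · rw [← MG.sub_cast] at h
        exact (((mSL (F := F)).deg_SL_odd he hodd hM hq hχ h).2.2.2.2.1 rfl).1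
      · exact (((mSL (F := F)).deg_SL_odd he hodd hM hq hχ h).2.2.2.2.2 rfl).1
    exact (mSL (F := F)).cusp_split (IsIrr.isCharacter hχ) hc h01 h10 h4
  · rcases h with h | h
    · obtain ⟨γ, _, rfl⟩ := (mSL (F := F)).deg_q1_SL hM hχ h
      exact (mSL (F := F)).ps_ell γ 1 hell
    · by_cases hq : 5 ≤ Fintype.card F
      · exact (mSL (F := F)).half_ell he hodd hM hχ (((mSL (F := F)).deg_SL_odd he hodd hM hq hχ h).2.2.2.1 rfl) hell
      · have h3 : Fintype.card F = 3 := by omega
        rw [h3] at h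
        exact (mSL (F := F)).ell_three hM h3 hχ (by rw [h]; norm_num) hell

end Cfsg.Agent.S2322
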