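import Cfsg.Statements.S2324
import Cfsg.Agent.H6.Sl15

set_option autoImplicit false
open Cfsg

namespace Cfsg.Agent.S2324

open CfsgH6 CfsgH4

/-- Over a finite field F with q elements, q odd and q ≥ 5, let u be the upper unitriangular matrix of SL₂ with off-diagonal entry 1 and let δ = (−1)^((q−1)/2). Every irreducible complex character χ of SL₂ of degree (q + 1)/2 satisfies (2χ(u) − 1)² = δq, and every irreducible complex character χ of degree (q − 1)/2 satisfies (2χ(u) + 1)² = δq; that is, χ(u) = (1 ± √(δq))/2 in the first case and χ(u) = (−1 ± √(δq))/2 in the second. Moreover two different irreducible characters of degree (q + 1)/2 take the two different values (their values at u add up to 1), and likewise for degree (q − 1)/2 (values adding up to −1). -/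
theorem result {F : Type*} [Field F] [Fintype F] (hodd : Odd (Fintype.card F)) (hq : 5 ≤ Fintype.card F)
    (u : Matrix.SpecialLinearGroup (Fin 2) F) (hu : (u : Matrix (Fin 2) (Fin 2) F) = !![1, 1; 0, 1]) :
    (∀ χ : Matrix.SpecialLinearGroup (Fin 2) F → ℂ, Cfsg.IsIrrCharacter (Matrix.SpecialLinearGroup (Fin 2) F) χ → χ 1 = (((Fintype.card F + 1) / 2 : ℕ) : ℂ) → (2 * χ u - 1) ^ 2 = (-1 : ℂ) ^ ((Fintype.card F - 1) / 2) * (Fintype.card F : ℂ)) ∧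
    (∀ χ : Matrix.SpecialLinearGroup (Fin 2) F → ℂ, Cfsg.IsIrrCharacter (Matrix.SpecialLinearGroup (Fin 2) F) χ → χ 1 = (((Fintype.card F - 1) / 2 : ℕ) : ℂ) → (2 * χ u + 1) ^ 2 = (-1 : ℂ) ^ ((Fintype.card F - 1) / 2) * (Fintype.card F : ℂ)) ∧
    (∀ χ₁ χ₂ : Matrix.SpecialLinearGroup (Fin 2) F → ℂ, Cfsg.IsIrrCharacter (Matrix.SpecialLinearGroup (Fin 2) F) χ₁ → Cfsg.IsIrrCharacter (Matrix.SpecialLinearGroup (Fin 2) F) χ₂ → χ₁ ≠ χ₂ →
      χ₁ 1 = (((Fintype.card F + 1) / 2 : ℕ) : ℂ) → χ₂ 1 = (((Fintype.card F + 1) / 2 : ℕ) : ℂ) → χ₁ u + χ₂ u = 1) ∧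
    (∀ χ₁ χ₂ : Matrix.SpecialLinearGroup (Fin 2) F → ℂ, Cfsg.IsIrrCharacter (Matrix.SpecialLinearGroup (Fin 2) F) χ₁ → Cfsg.IsIrrCharacter (Matrix.SpecialLinearGroup (Fin 2) F) χ₂ → χ₁ ≠ χ₂ →
      χ₁ 1 = (((Fintype.card F - 1) / 2 : ℕ) : ℂ) → χ₂ 1 = (((Fintype.card F - 1) / 2 : ℕ) : ℂ) → χ₁ u + χ₂ u = -1) := by
  classical
  have hM := isSL_mSL (F := F)
  obtain ⟨e, he⟩ := exists_nonsq hodd
  have he0 : e ≠ 0 := fun h => he (by rw [h]; exact IsSquare.zero)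
  have eu : u = (mSL (F := F)).u 1 :=
    (mSL (F := F)).ext (by rw [MG.u00, mSL_m, hu]; rfl) (by rw [MG.u01, mSL_m, hu]; rfl)
      (by rw [MG.u10, mSL_m, hu]; rfl) (by rw [MG.u11, mSL_m, hu]; rfl)
  subst eu
  have hH : ∀ χ : Matrix.SpecialLinearGroup (Fin 2) F → ℂ, Cfsg.IsIrrCharacter (Matrix.SpecialLinearGroup (Fin 2) F) χ → χ 1 = (((Fintype.card F + 1) / 2 : ℕ) : ℂ) →
      (mSL (F := F)).Half χ := fun χ hχ h => ((mSL (F := F)).deg_SL_odd he hodd hM hq hχ h).2.2.2.1 rfl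
  have hC : ∀ χ : Matrix.SpecialLinearGroup (Fin 2) F → ℂ, Cfsg.IsIrrCharacter (Matrix.SpecialLinearGroup (Fin 2) F) χ → χ 1 = (((Fintype.card F - 1) / 2 : ℕ) : ℂ) →
      (mSL (F := F)).Cusp χ ∧ (((mSL (F := F)).hat χ 1 = 1 ∧ (mSL (F := F)).hat χ e = 0) ∨ ((mSL (F := F)).hat χ 1 = 0 ∧ (mSL (F := F)).hat χ e = 1)) :=
    fun χ hχ h => ((mSL (F := F)).deg_SL_odd he hodd hM hq hχ h).2.2.2.2.2 rfl
  have e2 : ∀ χ : Matrix.SpecialLinearGroup (Fin 2) F → ℂ, Cfsg.IsIrrCharacter (Matrix.SpecialLinearGroup (Fin 2) F) χ →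
      χ ((mSL (F := F)).u (e * e)) = χ ((mSL (F := F)).u 1) := fun χ hχ =>
    (IsClassFunction.eq_of_isConj (IsIrr.isClassFunction hχ) ((mSL (F := F)).conj_u_of (x := 1) he0 (by ring))).symm
  refine ⟨fun χ hχ h => ?_, fun χ hχ h => ?_, fun χ ψ hχ hψ hne h h' => ?_, fun χ ψ hχ hψ hne h h' => ?_⟩
  · obtain ⟨_, h0, h1, h2, _⟩ := (mSL (F := F)).half_props he hodd hM hχ (hH χ hχ h)
    have f3 := (mSL (F := F)).hat_F3 he hodd (IsIrr.isClassFunction hχ)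
    have f4 := (mSL (F := F)).hat_F4 he hodd (IsIrr.isClassFunction hχ)
    have e1 : 2 * χ ((mSL (F := F)).u 1) - 1 = ((mSL (F := F)).hat χ 1 - (mSL (F := F)).hat χ e) * gs F := by
      rw [h0, h1] at f4
      linear_combination f3 + f4
    rw [e1, mul_pow, h2, gs_sq hodd, MG.qc_neg_one hodd, one_mul]
  · obtain ⟨h0, h1⟩ := hC χ hχ h
    have f3 := (mSL (F := F)).hat_F3 he hodd (IsIrr.isClassFunction hχ)
    have f4 := (mSL (F := F)).hat_F4 he hodd (IsIrr.isClassFunction hχ)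
    have h2 : ((mSL (F := F)).hat χ 1 - (mSL (F := F)).hat χ e) ^ 2 = 1 := by
      rcases h1 with ⟨h1, h2⟩ | ⟨h1, h2⟩ <;> rw [h1, h2] <;> norm_num
    have h3 : (mSL (F := F)).hat χ 1 + (mSL (F := F)).hat χ e = 1 := by
      rcases h1 with ⟨h1, h2⟩ | ⟨h1, h2⟩ <;> rw [h1, h2] <;> norm_num
    have e1 : 2 * χ ((mSL (F := F)).u 1) + 1 = ((mSL (F := F)).hat χ 1 - (mSL (F := F)).hat χ e) * gs F := by
      rw [((mSL (F := F)).cusp_iff χ).1 h0, h3] at f4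
      linear_combination f3 + f4
    rw [e1, mul_pow, h2, gs_sq hodd, MG.qc_neg_one hodd, one_mul]
  · obtain ⟨_, h0, h1, h2, he0', _, _, _, h3⟩ := (mSL (F := F)).half_props he hodd hM hχ (hH χ hχ h)
    have h4 := h3 ψ hψ (hH ψ hψ h') hne.symm
    have f4 := (mSL (F := F)).hat_F4 he hodd (IsIrr.isClassFunction hχ)
    rw [h4]
    show χ _ + χ ((mSL (F := F)).phi he0' ((mSL (F := F)).u 1)) = 1
    rw [MG.phi_u, mul_one, f4, h0, h1]; ring
  · obtain ⟨h0, h1⟩ := hC χ hχ h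
    obtain ⟨h0', h1'⟩ := hC ψ hψ h'
    have h4 := (mSL (F := F)).small_conj he hodd hM hχ hψ hne h0 h0'
      (by rcases h1 with ⟨h1, h2⟩ | ⟨h1, h2⟩ <;> rw [h1, h2] <;> norm_num)
      (by rcases h1' with ⟨h1, h2⟩ | ⟨h1, h2⟩ <;> rw [h1, h2] <;> norm_num) he0
    have f4 := (mSL (F := F)).hat_F4 he hodd (IsIrr.isClassFunction hχ)
    have h3 : (mSL (F := F)).hat χ 1 + (mSL (F := F)).hat χ e = 1 := by
      rcases h1 with ⟨h1, h2⟩ | ⟨h1, h2⟩ <;> rw [h1, h2] <;> norm_num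
    rw [h4]
    show χ _ + χ ((mSL (F := F)).phi he0 ((mSL (F := F)).u 1)) = -1
    rw [MG.phi_u, mul_one, f4, ((mSL (F := F)).cusp_iff χ).1 h0, h3]; ring

end Cfsg.Agent.S2324
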