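import Cfsg.Statements.S2326
import Cfsg.Agent.H6.ChY9

set_option autoImplicit false
open Cfsg

namespace Cfsg.Agent.S2326

open CfsgH6.Chv Cfsg.Lie

theorem aux {F : Type*} [Field F] [Fintype F] (p : ℕ) [Fact p.Prime] [CharP F p] {D : Cfsg.Lie.ChevalleyDatum} {gd : Good D} (P : Pk gd) :
    ∃ P : Sylow p ↥(D.group F), (P : Subgroup ↥(D.group F)) = (D.posUnipotent F).subgroupOf (D.group F) := by
  obtain ⟨γ, hγ⟩ := exists_cinv gd (F := F) P.hD P.ng
  rw [gd.group_eq, gd.posU_eq]
  exact dat_sylow (γ := γ) gd hγ inferInstance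

/-- In a Chevalley group of type G₂, B₂, D₄, F₄, E₆, E₇ or E₈ over a finite field of characteristic p, the subgroup U generated by the positive root elements is a Sylow p-subgroup. -/
theorem result {F : Type*} [Field F] [Fintype F] (p : ℕ) [Fact p.Prime] [CharP F p] (D : Cfsg.Lie.ChevalleyDatum) (hD : D ∈ [Cfsg.Lie.chevG2, Cfsg.Lie.chevB2, Cfsg.Lie.chevD4, Cfsg.Lie.chevF4, Cfsg.Lie.chevE6, Cfsg.Lie.chevE7, Cfsg.Lie.chevE8]) :
    ∃ P : Sylow p ↥(D.group F), (P : Subgroup ↥(D.group F)) = (D.posUnipotent F).subgroupOf (D.group F) := by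
  simp only [List.mem_cons, List.not_mem_nil, or_false] at hD
  rcases hD with rfl | rfl | rfl | rfl | rfl | rfl | rfl
  · exact aux p pkG2
  · exact aux p pkB2
  · exact aux p pkD4
  · exact aux p pkF4
  · exact aux p pkE6
  · exact aux p pkE7
  · exact aux p pkE8

end Cfsg.Agent.S2326
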