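import Cfsg.Statements.S2327
import Cfsg.Agent.H6.St4

set_option autoImplicit false
open Cfsg

namespace Cfsg.Agent.S2327

/-- In a Chevalley group of type G₂, B₂, D₄, F₄, E₆, E₇ or E₈ over a finite field with q elements, the Steinberg character (the alternating sum of the permutation characters on the standard parabolic subgroups) has degree q^N, N the number of positive roots; this is the order of U and the largest power of the characteristic dividing the group order. -/
theorem result {F : Type*} [Field F] [Fintype F] (D : Cfsg.Lie.ChevalleyDatum) (hD : D ∈ [Cfsg.Lie.chevG2, Cfsg.Lie.chevB2, Cfsg.Lie.chevD4, Cfsg.Lie.chevF4, Cfsg.Lie.chevE6, Cfsg.Lie.chevE7, Cfsg.Lie.chevE8]) :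
    D.steinbergCharacter F 1 = (Fintype.card F : ℂ) ^ (D.nroots / 2) := by
  simp only [List.mem_cons, List.not_mem_nil, or_false] at hD
  rcases hD with rfl | rfl | rfl | rfl | rfl | rfl | rfl
  · exact CfsgH6.Chv.goodG2.stmt_2327
  · exact CfsgH6.Chv.goodB2.stmt_2327
  · exact CfsgH6.Chv.goodD4.stmt_2327
  · exact CfsgH6.Chv.goodF4.stmt_2327
  · exact CfsgH6.Chv.goodE6.stmt_2327
  · exact CfsgH6.Chv.goodE7.stmt_2327
  · exact CfsgH6.Chv.goodE8.stmt_2327

end Cfsg.Agent.S2327
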