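import Cfsg.Statements.S2328
import Cfsg.Agent.H6.St11
import Cfsg.Agent.H6.ChY9

set_option autoImplicit false
open Cfsg

namespace Cfsg.Agent.S2328

open CfsgH6.Chv

theorem aux {F : Type*} [Field F] [Fintype F] (p : ℕ) [Fact p.Prime] [CharP F p] {D : Cfsg.Lie.ChevalleyDatum} {gd : Good D} (P : Pk gd)
    (g : ↥(D.group F)) (hg : p ∣ orderOf g) : D.steinbergCharacter F g = 0 := by
  obtain ⟨γ, hγ⟩ := exists_cinv gd (F := F) P.hD P.ng
  exact gd.stmt_2328 (Good.sylU_of (γ := γ) hγ inferInstance) g hg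

/-- In a Chevalley group of type G₂, B₂, D₄, F₄, E₆, E₇ or E₈ over a finite field of characteristic p, the Steinberg character vanishes at every element whose order is divisible by p (every element that is not semisimple). -/
theorem result {F : Type*} [Field F] [Fintype F] (p : ℕ) [Fact p.Prime] [CharP F p] (D : Cfsg.Lie.ChevalleyDatum) (hD : D ∈ [Cfsg.Lie.chevG2, Cfsg.Lie.chevB2, Cfsg.Lie.chevD4, Cfsg.Lie.chevF4, Cfsg.Lie.chevE6, Cfsg.Lie.chevE7, Cfsg.Lie.chevE8]) (g : ↥(D.group F)) (hg : p ∣ orderOf g) :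
    D.steinbergCharacter F g = 0 := by
  simp only [List.mem_cons, List.not_mem_nil, or_false] at hD
  rcases hD with rfl | rfl | rfl | rfl | rfl | rfl | rfl
  · exact aux p pkG2 g hg
  · exact aux p pkB2 g hg
  · exact aux p pkD4 g hg
  · exact aux p pkF4 g hg
  · exact aux p pkE6 g hg
  · exact aux p pkE7 g hg
  · exact aux p pkE8 g hg

end Cfsg.Agent.S2328
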