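import Cfsg.Statements.S2329
import Cfsg.Agent.H6.Sl6

set_option autoImplicit false
open Cfsg

namespace Cfsg.Agent.S2329

open CfsgH6 CfsgH4

/-- Over a finite field of characteristic p, any two elements of order p of GL₂ are conjugate: there is a single conjugacy class of non-identity unipotent elements. -/
theorem result {F : Type*} [Field F] [Fintype F] (p : ℕ) [Fact p.Prime] [CharP F p] (g h : Matrix.GeneralLinearGroup (Fin 2) F)
    (hg : orderOf g = p) (hh : orderOf h = p) : IsConj g h := by
  classical
  have h1 := (mGL (F := F)).of_order p hg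
  have h2 := (mGL (F := F)).of_order p hh
  exact (mGL (F := F)).conj_GL' isGL_mGL h1.2.2 h2.2.2 (h1.1.trans h2.1.symm) (h1.2.1.trans h2.2.1.symm)

end Cfsg.Agent.S2329
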