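import Cfsg.Statements.S2368
import Cfsg.Agent.H6.Un1

set_option autoImplicit false
open Cfsg

namespace Cfsg.Agent.S2368

open CfsgH6

/-- Let F be a finite field of characteristic p and m ≥ 1. Every element of GL(m, F) of p-power order has order less than p·m, and GL(m, F) has an element of p-power order at least m; so the largest order of a p-element of GL(m, F) is the least power of p that is at least m. -/
theorem result {F : Type*} [Field F] [Fintype F] (p : ℕ) [Fact p.Prime] [CharP F p] (m : ℕ) (hm : 1 ≤ m) :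
    (∀ g : Matrix.GeneralLinearGroup (Fin m) F, (∃ j : ℕ, orderOf g = p ^ j) → orderOf g < p * m) ∧
      ∃ g : Matrix.GeneralLinearGroup (Fin m) F, (∃ j : ℕ, orderOf g = p ^ j) ∧ m ≤ orderOf g := by
  have hp : p.Prime := Fact.out
  refine ⟨fun g ⟨j, hj⟩ => Unip.order_lt (p := p) hm hj, ?_⟩
  obtain ⟨u, hu⟩ := Unip.exists_big (F := F) (p := p) hm
  exact ⟨u, ⟨_, hu⟩, by rw [hu]; exact Nat.le_pow_clog hp.one_lt m⟩

end Cfsg.Agent.S2368
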