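import Cfsg.Statements.S2397
import Cfsg.Agent.H6.ChN8

set_option autoImplicit false
open Cfsg

namespace Cfsg.Agent.S2397

/-- Over a finite field the relators (R3) h̄_r(t₁) h̄_r(t₂) = h̄_r(t₁ t₂) are consequences of (R1) and (R2): for each of the types G₂, B₂, D₄, F₄, E₆, E₇, E₈ (for types B₂ and G₂ the field must have more than two elements — the cases where the Chevalley group is not simple are set aside) the group presented by (R1), (R2) is canonically isomorphic to the one presented by (R1)–(R3), by an isomorphism matching the generators x̄_r(t). -/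
theorem result {K : Type*} [Field K] [Finite K] (D : Cfsg.Lie.ChevalleyDatum) (hD : D ∈ [Cfsg.Lie.chevG2, Cfsg.Lie.chevB2, Cfsg.Lie.chevD4, Cfsg.Lie.chevF4, Cfsg.Lie.chevE6, Cfsg.Lie.chevE7, Cfsg.Lie.chevE8]) (hK : D ∈ [Cfsg.Lie.chevB2, Cfsg.Lie.chevG2] → ∃ x : K, x ≠ 0 ∧ x ≠ 1) :
    ∃ e : D.SteinbergCover K ≃* D.SteinbergGroup K, ∀ (r : ℕ) (t : K), e (D.scGen K r t) = D.stGen K r t := by
  obtain ⟨g⟩ := CfsgH6.Chv.good_all hD
  have hcm := CfsgH6.Chv.cm_all hD
  have h3 := fun i (hi : i < D.rank) (t u : Kˣ) => (CfsgH6.Chv.covSG g).hb_mul hcm hi t u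
  obtain ⟨e, he⟩ := CfsgH6.Chv.pres_equiv (R := D.steinbergRelsAB K) (R' := D.steinbergRels K) (by
    rintro w (h | h)
    · exact PresentedGroup.one_of_mem (Or.inl (Or.inl h))
    · exact PresentedGroup.one_of_mem (Or.inl (Or.inr h))) (by
    rintro w ((h | h) | ⟨r, t₁, t₂, hr, h1, h2, rfl⟩)
    · exact PresentedGroup.one_of_mem (Or.inl h)
    · exact PresentedGroup.one_of_mem (Or.inr h)
    · rw [map_mul, map_mul, map_inv, CfsgH6.Chv.cov_hr g, CfsgH6.Chv.cov_hr g, CfsgH6.Chv.cov_hr g, mul_inv_eq_one]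
      exact (CfsgH6.Chv.covSG g).hr_mul hcm h3 hr (Units.mk0 t₁ h1) (Units.mk0 t₂ h2))
  exact ⟨e, fun r t => he _⟩

end Cfsg.Agent.S2397
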