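import Cfsg.Statements.S2428
import Cfsg.Agent.H6.Sl21

set_option autoImplicit false
open Cfsg

namespace Cfsg.Agent.S2428

open CfsgH6 CfsgH4

/-- Let F be a finite field with q elements, q odd, and let d be a diagonal element of SL₂ over F whose diagonal entry a has a² ≠ 1 (such d exist exactly when q > 3). Then the centraliser of d is precisely the diagonal subgroup T; the normaliser of T has order 2(q − 1) and exactly (q + 5)/2 conjugacy classes; and every element of that normaliser outside T has square equal to −1. -/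
theorem result {F : Type*} [Field F] [Fintype F] (hodd : Odd (Fintype.card F))
    (d : Matrix.SpecialLinearGroup (Fin 2) F) (hd01 : (d : Matrix (Fin 2) (Fin 2) F) 0 1 = 0) (hd10 : (d : Matrix (Fin 2) (Fin 2) F) 1 0 = 0) (hda : (d : Matrix (Fin 2) (Fin 2) F) 0 0 ^ 2 ≠ 1) :
    (∀ g : Matrix.SpecialLinearGroup (Fin 2) F, g ∈ Subgroup.centralizer ({d} : Set (Matrix.SpecialLinearGroup (Fin 2) F)) ↔ ((g : Matrix (Fin 2) (Fin 2) F) 0 1 = 0 ∧ (g : Matrix (Fin 2) (Fin 2) F) 1 0 = 0)) ∧
    Nat.card (Subgroup.normalizer ((Subgroup.centralizer ({d} : Set (Matrix.SpecialLinearGroup (Fin 2) F))) : Set (Matrix.SpecialLinearGroup (Fin 2) F))) = 2 * (Fintype.card F - 1) ∧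
    Nat.card (ConjClasses (Subgroup.normalizer ((Subgroup.centralizer ({d} : Set (Matrix.SpecialLinearGroup (Fin 2) F))) : Set (Matrix.SpecialLinearGroup (Fin 2) F)))) = (Fintype.card F + 5) / 2 ∧
    ∀ g : Matrix.SpecialLinearGroup (Fin 2) F, g ∈ Subgroup.normalizer ((Subgroup.centralizer ({d} : Set (Matrix.SpecialLinearGroup (Fin 2) F))) : Set (Matrix.SpecialLinearGroup (Fin 2) F)) →
      g ∉ Subgroup.centralizer ({d} : Set (Matrix.SpecialLinearGroup (Fin 2) F)) → ((g * g) : Matrix (Fin 2) (Fin 2) F) = -1 := by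
  classical
  have hM := isSL_mSL (F := F)
  have h01 : (mSL (F := F)).m d 0 1 = 0 := hd01
  have h10 : (mSL (F := F)).m d 1 0 = 0 := hd10
  have h00 : (mSL (F := F)).m d 0 0 ^ 2 ≠ 1 := hda
  have hdt := hM d
  rw [MG.dt, h01] at hdt
  have hne : (mSL (F := F)).m d 0 0 ≠ (mSL (F := F)).m d 1 1 := by
    intro h
    apply h00
    rw [← h] at hdt
    linear_combination hdt
  have ht : (mSL (F := F)).tr d ^ 2 ≠ 4 := by
    intro h
    apply hne
    rw [MG.tr] at h
    have : ((mSL (F := F)).m d 0 0 - (mSL (F := F)).m d 1 1) ^ 2 = 0 := by linear_combination h - 4 * hdt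
    exact sub_eq_zero.1 (pow_eq_zero_iff (two_ne_zero) |>.1 this)
  have hC := (mSL (F := F)).cent_diag h01 h10 hne
  have hcard : Nat.card (Subgroup.centralizer ({d} : Set (Matrix.SpecialLinearGroup (Fin 2) F))) = Fintype.card F - 1 := by
    rw [hC, (mSL (F := F)).card_T_SL hM]
  have hng : ((mSL (F := F)).m (mSL (F := F)).ng) = -1 := by
    ext i j
    fin_cases i <;> fin_cases j
    · show (mSL (F := F)).m (mSL (F := F)).ng 0 0 = _; rw [MG.ng00]; simp
    · show (mSL (F := F)).m (mSL (F := F)).ng 0 1 = _; rw [MG.ng01]; simp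
    · show (mSL (F := F)).m (mSL (F := F)).ng 1 0 = _; rw [MG.ng10]; simp
    · show (mSL (F := F)).m (mSL (F := F)).ng 1 1 = _; rw [MG.ng11]; simp
  refine ⟨?_, ?_, ?_, ?_⟩
  · intro g
    rw [hC]; exact (mSL (F := F)).mem_T
  · rw [(mSL (F := F)).card_norm hM hodd ht, hcard]
  · have := (mSL (F := F)).card_classes_norm hM hodd ht
    rw [hcard] at this
    have := Fintype.one_lt_card (α := F)
    omega
  · intro g hg hgC
    have h1 := (mSL (F := F)).norm_sq hM hodd ht hg hgC
    rw [← hng, ← h1, map_mul]; rfl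

end Cfsg.Agent.S2428
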