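import Cfsg.Statements.S2429
import Cfsg.Agent.H6.Sl21

set_option autoImplicit false
open Cfsg

namespace Cfsg.Agent.S2429

open CfsgH6 CfsgH4

/-- Let F be a finite field with q elements, q odd. Then SL₂ over F contains a cyclic subgroup T′ of order q + 1 (a non-split torus) with the following properties: T′ is its own centraliser, and indeed the centraliser of each element of T′ other than 1 and −1 is exactly T′; every element of SL₂ having no eigenvector in F² is conjugate to an element of T′; the normaliser of T′ has order 2(q + 1) and exactly (q + 7)/2 conjugacy classes; and every element of that normaliser outside T′ has square −1. -/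
theorem result {F : Type*} [Field F] [Fintype F] (hodd : Odd (Fintype.card F)) :
    ∃ T' : Subgroup (Matrix.SpecialLinearGroup (Fin 2) F), IsCyclic T' ∧ Nat.card T' = Fintype.card F + 1 ∧
      Subgroup.centralizer ((T' : Set (Matrix.SpecialLinearGroup (Fin 2) F))) = T' ∧
      (∀ g : Matrix.SpecialLinearGroup (Fin 2) F, g ∈ T' → (g : Matrix (Fin 2) (Fin 2) F) ≠ 1 → (g : Matrix (Fin 2) (Fin 2) F) ≠ -1 → Subgroup.centralizer ({g} : Set (Matrix.SpecialLinearGroup (Fin 2) F)) = T') ∧
      (∀ g : Matrix.SpecialLinearGroup (Fin 2) F, (∀ (c : F) (v : Fin 2 → F), v ≠ 0 → (g : Matrix (Fin 2) (Fin 2) F).mulVec v ≠ c • v) → ∃ h : Matrix.SpecialLinearGroup (Fin 2) F, h * g * h⁻¹ ∈ T') ∧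
      Nat.card (Subgroup.normalizer (T' : Set (Matrix.SpecialLinearGroup (Fin 2) F))) = 2 * (Fintype.card F + 1) ∧
      Nat.card (ConjClasses (Subgroup.normalizer (T' : Set (Matrix.SpecialLinearGroup (Fin 2) F)))) = (Fintype.card F + 7) / 2 ∧
      ∀ g : Matrix.SpecialLinearGroup (Fin 2) F, g ∈ Subgroup.normalizer (T' : Set (Matrix.SpecialLinearGroup (Fin 2) F)) → g ∉ T' → ((g * g) : Matrix (Fin 2) (Fin 2) F) = -1 := by
  classical
  have hM := isSL_mSL (F := F)
  obtain ⟨z, hz⟩ := (mSL (F := F)).exists_ell hM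
  have ht := MG.ell_tr hodd hM hz
  have hzs := (mSL (F := F)).not_Sc_of_tr hM ht
  have hcard := (mSL (F := F)).card_cent_ell_SL hM hodd hz
  have hng : ((mSL (F := F)).m (mSL (F := F)).ng) = -1 := by
    ext i j
    fin_cases i <;> fin_cases j
    · show (mSL (F := F)).m (mSL (F := F)).ng 0 0 = _; rw [MG.ng00]; simp
    · show (mSL (F := F)).m (mSL (F := F)).ng 0 1 = _; rw [MG.ng01]; simp
    · show (mSL (F := F)).m (mSL (F := F)).ng 1 0 = _; rw [MG.ng10]; simp
    · show (mSL (F := F)).m (mSL (F := F)).ng 1 1 = _; rw [MG.ng11]; simp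
  have hzz : z ∈ Subgroup.centralizer ({z} : Set (Matrix.SpecialLinearGroup (Fin 2) F)) := by rw [mem_cent_single]
  refine ⟨Subgroup.centralizer ({z} : Set _), (mSL (F := F)).cyclic_cent hM ht, hcard, ?_, ?_, ?_, ?_, ?_, ?_⟩
  · ext h
    rw [Subgroup.mem_centralizer_iff]
    constructor
    · intro h1
      rw [mem_cent_single]
      exact h1 z hzz
    · intro h1 k hk
      exact (mSL (F := F)).cent_comm hzs hk h1
  · intro g hg h1 h2
    refine (mSL (F := F)).cent_cent hzs hg ?_
    intro hs
    rcases (mSL (F := F)).Sc_SL hM hs with h | h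
    · exact h1 (by rw [h]; rfl)
    · apply h2
      rw [← hng, ← h]; rfl
  · intro g hg
    exact (mSL (F := F)).ell_into hM hodd hz hg
  · rw [(mSL (F := F)).card_norm hM hodd ht, hcard]
  · have := (mSL (F := F)).card_classes_norm hM hodd ht
    rw [hcard] at this
    omega
  · intro g hg hgC
    have h1 := (mSL (F := F)).norm_sq hM hodd ht hg hgC
    rw [← hng, ← h1, map_mul]; rfl

end Cfsg.Agent.S2429
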