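import Cfsg.Statements.S2430
import Cfsg.Agent.H6.Sl22

set_option autoImplicit false
open Cfsg

namespace Cfsg.Agent.S2430

open CfsgH6 CfsgH4

/-- Let F be a finite field with q elements, q odd, ℓ an odd prime, and P a Sylow ℓ-subgroup of SL₂ over F. If ℓ divides q − 1, the centraliser of P is cyclic of order q − 1 (a split torus) and the normaliser of P has order 2(q − 1); if ℓ divides q + 1, the centraliser of P is cyclic of order q + 1 (a non-split torus) and the normaliser of P has order 2(q + 1). -/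
theorem result {F : Type*} [Field F] [Fintype F] (hodd : Odd (Fintype.card F)) (ℓ : ℕ) [Fact ℓ.Prime] (hℓ : ℓ ≠ 2)
    (P : Sylow ℓ (Matrix.SpecialLinearGroup (Fin 2) F)) :
    (ℓ ∣ Fintype.card F - 1 →
      Nat.card (Subgroup.centralizer ((P : Subgroup (Matrix.SpecialLinearGroup (Fin 2) F)) : Set (Matrix.SpecialLinearGroup (Fin 2) F))) = Fintype.card F - 1 ∧
      IsCyclic (Subgroup.centralizer ((P : Subgroup (Matrix.SpecialLinearGroup (Fin 2) F)) : Set (Matrix.SpecialLinearGroup (Fin 2) F))) ∧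
      Nat.card (Subgroup.normalizer ((P : Subgroup (Matrix.SpecialLinearGroup (Fin 2) F)) : Set (Matrix.SpecialLinearGroup (Fin 2) F))) = 2 * (Fintype.card F - 1)) ∧
    (ℓ ∣ Fintype.card F + 1 →
      Nat.card (Subgroup.centralizer ((P : Subgroup (Matrix.SpecialLinearGroup (Fin 2) F)) : Set (Matrix.SpecialLinearGroup (Fin 2) F))) = Fintype.card F + 1 ∧
      IsCyclic (Subgroup.centralizer ((P : Subgroup (Matrix.SpecialLinearGroup (Fin 2) F)) : Set (Matrix.SpecialLinearGroup (Fin 2) F))) ∧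
      Nat.card (Subgroup.normalizer ((P : Subgroup (Matrix.SpecialLinearGroup (Fin 2) F)) : Set (Matrix.SpecialLinearGroup (Fin 2) F))) = 2 * (Fintype.card F + 1)) := by
  classical
  have hM := isSL_mSL (F := F)
  constructor
  · intro h
    obtain ⟨z, htr, hcard, h1, h2⟩ := (mSL (F := F)).sylow_tr hM hodd hℓ P (Or.inl rfl) h
    rw [h1, h2, (mSL (F := F)).card_norm hM hodd htr, hcard]
    exact ⟨rfl, (mSL (F := F)).cyclic_cent hM htr, rfl⟩
  · intro h
    obtain ⟨z, htr, hcard, h1, h2⟩ := (mSL (F := F)).sylow_tr hM hodd hℓ P (Or.inr rfl) h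
    rw [h1, h2, (mSL (F := F)).card_norm hM hodd htr, hcard]
    exact ⟨rfl, (mSL (F := F)).cyclic_cent hM htr, rfl⟩

end Cfsg.Agent.S2430
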