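import Cfsg.Statements.S2433
import Cfsg.Agent.H6.Sl3

set_option autoImplicit false
open Cfsg

namespace Cfsg.Agent.S2433

open CfsgH6 CfsgH4

/-- Let F be a finite field with q elements, q odd, α a multiplicative character of F, and R(α) the function on SL₂ induced from the linear character b ↦ α(b₁₁) of the upper triangular subgroup. Then R(α) takes the value α(a) + α(a⁻¹) at a diagonal element with entries a, a⁻¹, a² ≠ 1; the value 0 at every element with no eigenvector in F²; the value α(ε) at an upper triangular element with both diagonal entries ε and non-zero upper right entry; and the value (q + 1)α(ε) at the scalar element ε (ε = ±1). -/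
theorem result {F : Type*} [Field F] [Fintype F] [DecidableEq F] (hodd : Odd (Fintype.card F)) (α : MulChar F ℂ) (g : Matrix.SpecialLinearGroup (Fin 2) F) :
    ((g : Matrix (Fin 2) (Fin 2) F) 0 1 = 0 → (g : Matrix (Fin 2) (Fin 2) F) 1 0 = 0 → (g : Matrix (Fin 2) (Fin 2) F) 0 0 ^ 2 ≠ 1 →
      (Cfsg.indFun ((Cfsg.upperTriangularGL 2 F).comap Matrix.SpecialLinearGroup.toGL) (fun b => α (((b : Matrix.SpecialLinearGroup (Fin 2) F) : Matrix (Fin 2) (Fin 2) F) 0 0))) g = α ((g : Matrix (Fin 2) (Fin 2) F) 0 0) + α ((g : Matrix (Fin 2) (Fin 2) F) 1 1)) ∧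
    ((∀ (c : F) (v : Fin 2 → F), v ≠ 0 → (g : Matrix (Fin 2) (Fin 2) F).mulVec v ≠ c • v) → (Cfsg.indFun ((Cfsg.upperTriangularGL 2 F).comap Matrix.SpecialLinearGroup.toGL) (fun b => α (((b : Matrix.SpecialLinearGroup (Fin 2) F) : Matrix (Fin 2) (Fin 2) F) 0 0))) g = 0) ∧
    ((g : Matrix (Fin 2) (Fin 2) F) 1 0 = 0 → (g : Matrix (Fin 2) (Fin 2) F) 0 0 = (g : Matrix (Fin 2) (Fin 2) F) 1 1 → (g : Matrix (Fin 2) (Fin 2) F) 0 1 ≠ 0 →
      (Cfsg.indFun ((Cfsg.upperTriangularGL 2 F).comap Matrix.SpecialLinearGroup.toGL) (fun b => α (((b : Matrix.SpecialLinearGroup (Fin 2) F) : Matrix (Fin 2) (Fin 2) F) 0 0))) g = α ((g : Matrix (Fin 2) (Fin 2) F) 0 0)) ∧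
    ((g : Matrix (Fin 2) (Fin 2) F) 0 1 = 0 → (g : Matrix (Fin 2) (Fin 2) F) 1 0 = 0 → (g : Matrix (Fin 2) (Fin 2) F) 0 0 = (g : Matrix (Fin 2) (Fin 2) F) 1 1 →
      (Cfsg.indFun ((Cfsg.upperTriangularGL 2 F).comap Matrix.SpecialLinearGroup.toGL) (fun b => α (((b : Matrix.SpecialLinearGroup (Fin 2) F) : Matrix (Fin 2) (Fin 2) F) 0 0))) g = ((Fintype.card F : ℂ) + 1) * α ((g : Matrix (Fin 2) (Fin 2) F) 0 0)) := by
  classical
  rw [ind_SL]
  have hd : (mSL (F := F)).dt g = 1 := isSL_mSL g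
  refine ⟨fun h01 h10 h2 => ?_, fun h => ?_, fun h10 h00 h01 => ?_, fun h01 h10 h00 => ?_⟩
  · have hb := (mSL (F := F)).B_ne (g := g) h10
    have h3 : (mSL (F := F)).m g 0 0 * (mSL (F := F)).m g 1 1 = 1 := by
      rw [MG.dt, show (mSL (F := F)).m g 0 1 = 0 from h01] at hd; linear_combination hd
    have h4 : (mSL (F := F)).m g 0 0 ≠ (mSL (F := F)).m g 1 1 := by
      intro h5
      apply h2
      rw [← h5] at h3
      show (mSL (F := F)).m g 0 0 ^ 2 = 1
      rw [sq]; exact h3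
    rw [(mSL (F := F)).ps_split α 1 h01 h10 h4, MulChar.one_apply hb.1.isUnit, MulChar.one_apply hb.2.isUnit,
      mul_one, mul_one]
    rfl
  · exact (mSL (F := F)).ps_ell α 1 h
  · have hb := (mSL (F := F)).B_ne (g := g) h10
    rw [(mSL (F := F)).ps_unip α 1 h01 h10 h00, MulChar.one_apply hb.1.isUnit, mul_one]
    rfl
  · have hb := (mSL (F := F)).B_ne (g := g) h10
    rw [(mSL (F := F)).ps_scalar α 1 h01 h10 h00, MulChar.one_apply hb.1.isUnit, mul_one]
    rfl

end Cfsg.Agent.S2433
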