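import Cfsg.Statements.S2434
import Cfsg.Agent.H6.Sl19

set_option autoImplicit false
open Cfsg

namespace Cfsg.Agent.S2434

open CfsgH6 CfsgH4

/-- Let F be a finite field with q elements, q odd, and C a cyclic subgroup of order q + 1 of SL₂ over F (a non-split torus; it contains the centre). For every homomorphism θ from C to the non-zero complex numbers with θ² ≠ 1 there is an irreducible complex character χ of degree q − 1 such that χ(c) = −θ(c) − θ(c)⁻¹ for every non-central c in C, χ(zg) = θ(z)χ(g) for central z in C, χ vanishes at diagonal elements with entry a, a² ≠ 1, and χ takes the value −1 at every upper unitriangular element other than 1. Conversely every irreducible character of degree q − 1 has, for some such θ, the values −θ(c) − θ(c)⁻¹ at the non-central elements c of C (for q ≥ 5 these are exactly the cuspidal characters of degree q − 1). -/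
theorem result {F : Type*} [Field F] [Fintype F] (hodd : Odd (Fintype.card F))
    (C : Subgroup (Matrix.SpecialLinearGroup (Fin 2) F)) (hC : IsCyclic C) (hcard : Nat.card C = Fintype.card F + 1) :
    (∀ θ : C →* ℂˣ, (∃ c : C, θ c ^ 2 ≠ 1) →
      ∃ χ : Matrix.SpecialLinearGroup (Fin 2) F → ℂ, Cfsg.IsIrrCharacter (Matrix.SpecialLinearGroup (Fin 2) F) χ ∧ χ 1 = (Fintype.card F : ℂ) - 1 ∧
        (∀ c : C, (c : Matrix.SpecialLinearGroup (Fin 2) F) ∉ Subgroup.center (Matrix.SpecialLinearGroup (Fin 2) F) → χ c = -((θ c).val + (θ c)⁻¹.val)) ∧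
        (∀ c : C, (c : Matrix.SpecialLinearGroup (Fin 2) F) ∈ Subgroup.center (Matrix.SpecialLinearGroup (Fin 2) F) → ∀ g : Matrix.SpecialLinearGroup (Fin 2) F, χ ((c : Matrix.SpecialLinearGroup (Fin 2) F) * g) = (θ c).val * χ g) ∧
        (∀ g : Matrix.SpecialLinearGroup (Fin 2) F, (g : Matrix (Fin 2) (Fin 2) F) 0 1 = 0 → (g : Matrix (Fin 2) (Fin 2) F) 1 0 = 0 → (g : Matrix (Fin 2) (Fin 2) F) 0 0 ^ 2 ≠ 1 → χ g = 0) ∧
        (∀ g : Matrix.SpecialLinearGroup (Fin 2) F, (g : Matrix (Fin 2) (Fin 2) F) 1 0 = 0 → (g : Matrix (Fin 2) (Fin 2) F) 0 0 = 1 → (g : Matrix (Fin 2) (Fin 2) F) 1 1 = 1 → (g : Matrix (Fin 2) (Fin 2) F) 0 1 ≠ 0 → χ g = -1)) ∧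
    (∀ χ : Matrix.SpecialLinearGroup (Fin 2) F → ℂ, Cfsg.IsIrrCharacter (Matrix.SpecialLinearGroup (Fin 2) F) χ → χ 1 = (Fintype.card F : ℂ) - 1 →
      ∃ θ : C →* ℂˣ, (∃ c : C, θ c ^ 2 ≠ 1) ∧
        ∀ c : C, (c : Matrix.SpecialLinearGroup (Fin 2) F) ∉ Subgroup.center (Matrix.SpecialLinearGroup (Fin 2) F) → χ c = -((θ c).val + (θ c)⁻¹.val)) := by
  classical
  have hM := isSL_mSL (F := F)
  have hcm := MG.comm_of_cyclic hC
  refine ⟨fun θ hθ => ?_, fun χ hχ hd => ?_⟩
  · obtain ⟨γ, hγ⟩ := (mSL (F := F)).exists_gam hM hodd hcard θ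
    refine ⟨(mSL (F := F)).X θ γ, (mSL (F := F)).isIrr_X hM hodd hcm hcard θ hγ hθ,
      (mSL (F := F)).X_one hM hodd hcard θ, ?_, ?_, ?_, ?_⟩
    · intro c hc
      exact (mSL (F := F)).X_ell hM hodd hcm hcard θ c.2 (fun hs => hc ((mSL (F := F)).center_of_Sc hs))
    · intro c hc g
      exact (mSL (F := F)).X_central hM hodd hcm hcard θ hγ hθ c.2 ((mSL (F := F)).Sc_of_center hc) g
    · intro g h01 h10 h
      refine (mSL (F := F)).X_B_ne hM hodd hcm hcard θ (γ := γ) h10 ?_
      intro h2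
      have hd := hM g
      apply h
      have h01' : (mSL (F := F)).m g 0 1 = 0 := h01
      rw [MG.dt, h01', ← h2] at hd
      show (mSL (F := F)).m g 0 0 ^ 2 = 1
      linear_combination hd
    · intro g h10 h00 h11 h01
      have e00 : (mSL (F := F)).m g 0 0 = 1 := h00
      have e11 : (mSL (F := F)).m g 1 1 = 1 := h11
      have h := (mSL (F := F)).X_unip hM hodd hcm hcard θ (γ := γ) (g := g) h01 h10 (by rw [e00, e11])
      rw [h, e00, map_one]
  · obtain ⟨θ, h1, h2⟩ := (mSL (F := F)).deg_sub_ell hM hodd hC hcard hχ hd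
    exact ⟨θ, h1, fun c hc => h2 c (fun hs => hc ((mSL (F := F)).center_of_Sc hs))⟩

end Cfsg.Agent.S2434
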