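import Cfsg.Statements.S2435
import Cfsg.Agent.H6.Sl25

set_option autoImplicit false
open Cfsg

namespace Cfsg.Agent.S2435

open CfsgH6 CfsgH4

/-- Let F be a finite field with q elements, q odd and q ≥ 5, and χ an irreducible complex character of SL₂ over F. If χ has degree (q + 1)/2, then at a diagonal element with entry a, a² ≠ 1, χ takes the value 1 when a is a square in F and −1 otherwise. If χ has degree (q − 1)/2, then at an element g with no eigenvector in F² (so g has order dividing q + 1), χ takes the value −1 when g raised to the power (q + 1)/2 is the identity and the value 1 otherwise. -/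
theorem result {F : Type*} [Field F] [Fintype F] (hodd : Odd (Fintype.card F)) (hq : 5 ≤ Fintype.card F)
    (χ : Matrix.SpecialLinearGroup (Fin 2) F → ℂ) (hχ : Cfsg.IsIrrCharacter (Matrix.SpecialLinearGroup (Fin 2) F) χ) (g : Matrix.SpecialLinearGroup (Fin 2) F) :
    (χ 1 = (((Fintype.card F + 1) / 2 : ℕ) : ℂ) → (g : Matrix (Fin 2) (Fin 2) F) 0 1 = 0 → (g : Matrix (Fin 2) (Fin 2) F) 1 0 = 0 → (g : Matrix (Fin 2) (Fin 2) F) 0 0 ^ 2 ≠ 1 →
      (IsSquare ((g : Matrix (Fin 2) (Fin 2) F) 0 0) → χ g = 1) ∧ (¬ IsSquare ((g : Matrix (Fin 2) (Fin 2) F) 0 0) → χ g = -1)) ∧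
    (χ 1 = (((Fintype.card F - 1) / 2 : ℕ) : ℂ) → (∀ (c : F) (v : Fin 2 → F), v ≠ 0 → (g : Matrix (Fin 2) (Fin 2) F).mulVec v ≠ c • v) →
      (((g ^ ((Fintype.card F + 1) / 2)) : Matrix (Fin 2) (Fin 2) F) = 1 → χ g = -1) ∧ (((g ^ ((Fintype.card F + 1) / 2)) : Matrix (Fin 2) (Fin 2) F) ≠ 1 → χ g = 1)) := by
  classical
  have hM := isSL_mSL (F := F)
  obtain ⟨e, he⟩ := exists_nonsq hodd
  constructor
  · intro hd h01 h10 h00
    have hH := ((mSL (F := F)).deg_SL_odd he hodd hM hq hχ hd).2.2.2.1 rfl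
    have h01' : (mSL (F := F)).m g 0 1 = 0 := h01
    have h10' : (mSL (F := F)).m g 1 0 = 0 := h10
    have h00' : (mSL (F := F)).m g 0 0 ^ 2 ≠ 1 := h00
    have hdt := hM g
    rw [MG.dt, h01'] at hdt
    have hne : (mSL (F := F)).m g 0 0 ≠ (mSL (F := F)).m g 1 1 := by
      intro h
      apply h00'
      rw [← h] at hdt
      linear_combination hdt
    have h1 := (mSL (F := F)).half_split he hodd hM hχ hH h01' h10' hne
    have h0 : (mSL (F := F)).m g 0 0 ≠ 0 := ((mSL (F := F)).B_ne (g := g) h10').1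
    constructor
    · intro hs
      rw [h1]; exact qc_square h0 hs
    · intro hs
      rw [h1]; exact qc_nonsq hs
  · intro hd hell
    have h1 := (mSL (F := F)).small_ell hM hodd hq hχ hd (g := g) hell
    have key : (g ^ ((Fintype.card F + 1) / 2) = 1) ↔ (((g ^ ((Fintype.card F + 1) / 2)) : Matrix (Fin 2) (Fin 2) F) = 1) := by
      constructor
      · intro h
        have h2 := congrArg (mSL (F := F)).m h
        rw [map_pow, map_one] at h2
        exact h2
      · intro h
        apply (mSL (F := F)).inj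
        rw [map_pow, map_one]
        exact h
    rw [← key]
    exact ⟨h1.1, fun h => h1.2 (fun h' => h (key.1 h'))⟩

end Cfsg.Agent.S2435
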