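import Cfsg.Statements.S2437
import Cfsg.Agent.H6.Sl26

set_option autoImplicit false
open Cfsg

namespace Cfsg.Agent.S2437

open CfsgH6 CfsgH4

/-- Over a finite field F with q elements, q odd, the upper triangular subgroup of SL₂ (a Borel subgroup, of order q(q − 1)) has exactly q + 3 conjugacy classes. -/
theorem result {F : Type*} [Field F] [Fintype F] (hodd : Odd (Fintype.card F)) :
    Nat.card (ConjClasses ((Cfsg.upperTriangularGL 2 F).comap Matrix.SpecialLinearGroup.toGL)) = Fintype.card F + 3 := by
  classical
  rw [B_SL]
  exact (mSL (F := F)).card_classes_B isSL_mSL hodd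

end Cfsg.Agent.S2437
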