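import Cfsg.Statements.S2438
import Cfsg.Agent.H6.Sl15

set_option autoImplicit false
open Cfsg

namespace Cfsg.Agent.S2438

open CfsgH6 CfsgH4

/-- Let F be a finite field with q elements, q odd, q ≥ 5, U the upper unitriangular subgroup of SL₂ over F, and χ an irreducible complex character. The sum of the values of χ over U equals 2q, q, 0, q, 0 according as the degree of χ is q + 1, q, q − 1, (q + 1)/2, (q − 1)/2; so among these five degrees the sum vanishes exactly for the degrees q − 1 and (q − 1)/2, i.e. the irreducible characters of those two degrees are the ones whose restriction to U does not contain the trivial character (the cuspidal characters), while those of degree q + 1, q and (q + 1)/2 are not cuspidal. -/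
theorem result {F : Type*} [Field F] [Fintype F] [DecidableEq F] (hodd : Odd (Fintype.card F)) (hq : 5 ≤ Fintype.card F)
    (χ : Matrix.SpecialLinearGroup (Fin 2) F → ℂ) (hχ : Cfsg.IsIrrCharacter (Matrix.SpecialLinearGroup (Fin 2) F) χ) :
    (χ 1 = (Fintype.card F : ℂ) + 1 →
      (∑ g : Matrix.SpecialLinearGroup (Fin 2) F, if (g : Matrix (Fin 2) (Fin 2) F) 1 0 = 0 ∧ (g : Matrix (Fin 2) (Fin 2) F) 0 0 = 1 ∧ (g : Matrix (Fin 2) (Fin 2) F) 1 1 = 1 then χ g else 0) = 2 * (Fintype.card F : ℂ)) ∧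
    (χ 1 = (Fintype.card F : ℂ) →
      (∑ g : Matrix.SpecialLinearGroup (Fin 2) F, if (g : Matrix (Fin 2) (Fin 2) F) 1 0 = 0 ∧ (g : Matrix (Fin 2) (Fin 2) F) 0 0 = 1 ∧ (g : Matrix (Fin 2) (Fin 2) F) 1 1 = 1 then χ g else 0) = (Fintype.card F : ℂ)) ∧
    (χ 1 = (Fintype.card F : ℂ) - 1 →
      (∑ g : Matrix.SpecialLinearGroup (Fin 2) F, if (g : Matrix (Fin 2) (Fin 2) F) 1 0 = 0 ∧ (g : Matrix (Fin 2) (Fin 2) F) 0 0 = 1 ∧ (g : Matrix (Fin 2) (Fin 2) F) 1 1 = 1 then χ g else 0) = 0) ∧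
    (χ 1 = (((Fintype.card F + 1) / 2 : ℕ) : ℂ) →
      (∑ g : Matrix.SpecialLinearGroup (Fin 2) F, if (g : Matrix (Fin 2) (Fin 2) F) 1 0 = 0 ∧ (g : Matrix (Fin 2) (Fin 2) F) 0 0 = 1 ∧ (g : Matrix (Fin 2) (Fin 2) F) 1 1 = 1 then χ g else 0) = (Fintype.card F : ℂ)) ∧
    (χ 1 = (((Fintype.card F - 1) / 2 : ℕ) : ℂ) →
      (∑ g : Matrix.SpecialLinearGroup (Fin 2) F, if (g : Matrix (Fin 2) (Fin 2) F) 1 0 = 0 ∧ (g : Matrix (Fin 2) (Fin 2) F) 0 0 = 1 ∧ (g : Matrix (Fin 2) (Fin 2) F) 1 1 = 1 then χ g else 0) = 0) := by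
  have hM := isSL_mSL (F := F)
  obtain ⟨e, he⟩ := exists_nonsq hodd
  have key : (∑ g : Matrix.SpecialLinearGroup (Fin 2) F, if (g : Matrix (Fin 2) (Fin 2) F) 1 0 = 0 ∧ (g : Matrix (Fin 2) (Fin 2) F) 0 0 = 1 ∧ (g : Matrix (Fin 2) (Fin 2) F) 1 1 = 1 then χ g else 0) =
      ∑ x : F, χ ((mSL (F := F)).u x) := by
    symm
    refine Fintype.sum_of_injective (fun x : F => (mSL (F := F)).u x) ?_ _ _ ?_ ?_
    · intro x y hxy
      exact (mSL (F := F)).u_inj hxy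
    · intro g hg
      rw [if_neg]
      rintro ⟨h10, h00, h11⟩
      apply hg
      exact ⟨(mSL (F := F)).m g 0 1, (mSL (F := F)).ext (by rw [MG.u00]; exact h00.symm) (by rw [MG.u01])
        (by rw [MG.u10]; exact h10.symm) (by rw [MG.u11]; exact h11.symm)⟩
    · intro x
      show _ = if (mSL (F := F)).m ((mSL (F := F)).u x) 1 0 = 0 ∧ (mSL (F := F)).m ((mSL (F := F)).u x) 0 0 = 1 ∧
        (mSL (F := F)).m ((mSL (F := F)).u x) 1 1 = 1 then _ else _
      rw [if_pos ⟨MG.u10 _ x, MG.u00 _ x, MG.u11 _ x⟩]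
  rw [key]
  refine ⟨fun h => ?_, fun h => ?_, fun h => ?_, fun h => ?_, fun h => ?_⟩
  · obtain ⟨γ, _, rfl⟩ := (mSL (F := F)).deg_q1_SL hM hχ h
    exact MG.sum_ps_u _ γ 1
  · rw [(mSL (F := F)).deg_q_SL hM hχ h]
    exact MG.sum_sta_u _ 1
  · rw [← MG.sub_cast] at h
    exact (((mSL (F := F)).deg_SL_odd he hodd hM hq hχ h).2.2.2.2.1 rfl).1
  · have h1 := ((mSL (F := F)).deg_SL_odd he hodd hM hq hχ h).2.2.2.1 rfl
    obtain ⟨_, h0, _⟩ := (mSL (F := F)).half_props he hodd hM hχ h1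
    rw [MG.hat_zero] at h0
    have h3 := MG.card_F_ne (F := F)
    field_simp at h0
    exact h0
  · exact (((mSL (F := F)).deg_SL_odd he hodd hM hq hχ h).2.2.2.2.2 rfl).1

end Cfsg.Agent.S2438
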