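import Mathlib
import Cfsg.Statements.S2541

set_option autoImplicit false
open Cfsg

namespace Cfsg.Agent.S2541

/-- Let F be a field with 9 elements. The symmetric group S_6 is not isomorphic to PGL_2(F) (although both have index-2 subgroups isomorphic to A_6). -/
theorem result {F : Type*} [Field F] [Fintype F] (hF : Fintype.card F = 9) : ¬ Nonempty (Equiv.Perm (Fin 6) ≃* Matrix.ProjGenLinGroup (Fin 2) F) := by
  classical
  rintro ⟨e⟩
  have hcard : Nat.card Fˣ = 8 := by
    rw [Nat.card_eq_fintype_card, Fintype.card_units, hF]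
  obtain ⟨ζ, hζ⟩ := IsCyclic.exists_ofOrder_eq_natCard (α := Fˣ)
  rw [hcard] at hζ
  have h6 : ∀ y : Equiv.Perm (Fin 6), y ^ 8 = 1 → y ^ 4 = 1 := by
    intro y hy
    apply orderOf_dvd_iff_pow_eq_one.1
    rw [← Equiv.Perm.lcm_cycleType]
    apply Multiset.lcm_dvd.2
    intro c hc
    have h1 : c ∣ 8 := (Equiv.Perm.dvd_of_mem_cycleType hc).trans (orderOf_dvd_of_pow_eq_one hy)
    have h2 : c ≤ 6 := (Equiv.Perm.le_card_support_of_mem_cycleType hc).trans (by
      have := y.support.card_le_univ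
      simpa using this)
    have h3 : c ≠ 0 := by
      rintro rfl; omega
    interval_cases c <;> omega
  let D : GL (Fin 2) F := Matrix.GeneralLinearGroup.mkOfDetNeZero !![(ζ : F), 0; 0, 1] (by simp [Matrix.det_fin_two])
  have hDpow : ∀ k : ℕ, ((D ^ k : GL (Fin 2) F) : Matrix (Fin 2) (Fin 2) F) = !![(ζ : F) ^ k, 0; 0, 1] := by
    intro k
    induction k with
    | zero => ext i j; fin_cases i <;> fin_cases j <;> simp
    | succ k ih =>
      rw [pow_succ, Units.val_mul, ih]
      ext i j
      fin_cases i <;> fin_cases j <;> simp [D, Matrix.GeneralLinearGroup.mkOfDetNeZero, Matrix.mul_apply, Fin.sum_univ_two, pow_succ]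
  let x : Matrix.ProjGenLinGroup (Fin 2) F := QuotientGroup.mk D
  have hx8 : x ^ 8 = 1 := by
    have : D ^ 8 = 1 := by
      apply Units.ext
      rw [hDpow]
      have h1 : (ζ : F) ^ 8 = 1 := by
        rw [← Units.val_pow_eq_pow_val, ← hζ, pow_orderOf_eq_one, Units.val_one]
      rw [h1]
      ext i j
      fin_cases i <;> fin_cases j <;> simp
    change (QuotientGroup.mk (D ^ 8) : Matrix.ProjGenLinGroup (Fin 2) F) = 1
    rw [this]; rfl
  have hx4 : x ^ 4 ≠ 1 := by
    intro h
    have h1 : (QuotientGroup.mk (D ^ 4) : Matrix.ProjGenLinGroup (Fin 2) F) = 1 := h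
    have h2 : D ^ 4 ∈ Subgroup.center (GL (Fin 2) F) := (QuotientGroup.eq_one_iff _).1 h1
    rw [Matrix.GeneralLinearGroup.mem_center_iff_val_mem_range_scalar] at h2
    obtain ⟨a, ha⟩ := h2
    rw [hDpow] at ha
    have h3 := congrFun (congrFun ha 0) 0
    have h4 := congrFun (congrFun ha 1) 1
    simp at h3 h4
    rw [h4] at h3
    have h5 : ζ ^ 4 = 1 := Units.ext (by rw [Units.val_pow_eq_pow_val, ← h3, Units.val_one])
    have h6' := orderOf_dvd_of_pow_eq_one h5
    rw [hζ] at h6'
    omega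
  apply hx4
  have h1 : (e.symm x) ^ 4 = 1 := h6 _ (by rw [← map_pow, hx8, map_one])
  rw [← map_pow] at h1
  exact (map_eq_one_iff e.symm e.symm.injective).1 h1

end Cfsg.Agent.S2541
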