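import Mathlib
import Cfsg.Statements.S2552

set_option autoImplicit false
open Cfsg

namespace Cfsg.Agent.S2552

/-- Let F be a finite field and n ≥ 1. For every k, the special linear group SL_n(F) acts transitively on the set of k-dimensional subspaces of F^n: any two subspaces of the same dimension are carried onto each other by some matrix of determinant 1. -/
theorem result {F : Type*} [Field F] [Fintype F] (n : ℕ) (hn : 1 ≤ n) (U₁ U₂ : Submodule F (Fin n → F)) (h : Module.finrank F U₁ = Module.finrank F U₂) : ∃ g : Matrix.SpecialLinearGroup (Fin n) F, U₁.map ((Matrix.SpecialLinearGroup.toLin' g : (Fin n → F) ≃ₗ[F] (Fin n → F)) : (Fin n → F) →ₗ[F] (Fin n → F)) = U₂ := by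
  classical
  -- a linear equivalence carrying U₁ to U₂
  obtain ⟨W₁, hW₁⟩ := Submodule.exists_isCompl U₁
  obtain ⟨W₂, hW₂⟩ := Submodule.exists_isCompl U₂
  have hW : Module.finrank F W₁ = Module.finrank F W₂ := by
    have h1 := Submodule.finrank_add_eq_of_isCompl hW₁
    have h2 := Submodule.finrank_add_eq_of_isCompl hW₂
    omega
  let e₁ : U₁ ≃ₗ[F] U₂ := LinearEquiv.ofFinrankEq _ _ h
  let e₂ : W₁ ≃ₗ[F] W₂ := LinearEquiv.ofFinrankEq _ _ hW
  let e : (Fin n → F) ≃ₗ[F] (Fin n → F) := (Submodule.prodEquivOfIsCompl U₁ W₁ hW₁).symm ≪≫ₗ (e₁.prodCongr e₂) ≪≫ₗ Submodule.prodEquivOfIsCompl U₂ W₂ hW₂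
  have he : ∀ x ∈ U₁, e x ∈ U₂ := by
    intro x hx
    have h1 : e x = (e₁ ⟨x, hx⟩ : (Fin n → F)) := by
      have h2 : (Submodule.prodEquivOfIsCompl U₁ W₁ hW₁).symm x = ((⟨x, hx⟩ : U₁), (0 : W₁)) :=
        Submodule.prodEquivOfIsCompl_symm_apply_left U₁ W₁ hW₁ ⟨x, hx⟩
      simp only [e, LinearEquiv.trans_apply, h2]
      simp
    rw [h1]; exact (e₁ ⟨x, hx⟩).2
  by_cases hU : U₁ = ⊥
  · have h2 : U₂ = ⊥ := by
      rw [← Submodule.finrank_eq_zero (R := F), ← h, hU]; simp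
    refine ⟨1, ?_⟩
    rw [hU, h2]; simp
  obtain ⟨u, huU, hu0⟩ := Submodule.exists_mem_ne_zero_of_ne_bot hU
  obtain ⟨φ, hφ⟩ : ∃ φ : Module.Dual F (Fin n → F), φ u ≠ 0 := by
    by_contra hcon
    push Not at hcon
    exact hu0 ((Module.forall_dual_apply_eq_zero_iff F u).1 hcon)
  let c : F := (LinearMap.det (e : (Fin n → F) →ₗ[F] (Fin n → F)))⁻¹
  have hdet : LinearMap.det (e : (Fin n → F) →ₗ[F] (Fin n → F)) ≠ 0 := (LinearEquiv.isUnit_det' e).ne_zero
  let f : Module.Dual F (Fin n → F) := (φ u)⁻¹ • φ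
  have hf : f u = 1 := by simp [f, hφ]
  let τ : (Fin n → F) →ₗ[F] (Fin n → F) := LinearMap.transvection f ((c - 1) • u)
  have hτ : LinearMap.det τ = c := by
    have := LinearMap.transvection.det (f := f) (v := (c - 1) • u)
    rw [show LinearMap.det τ = _ from this, map_smul, hf]; simp
  let A : (Fin n → F) →ₗ[F] (Fin n → F) := (e : (Fin n → F) →ₗ[F] (Fin n → F)) ∘ₗ τ
  have hA : LinearMap.det A = 1 := by
    rw [LinearMap.det_comp, hτ]
    exact mul_inv_cancel₀ hdet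
  refine ⟨⟨LinearMap.toMatrix' A, by rw [LinearMap.det_toMatrix', hA]⟩, ?_⟩
  set g : Matrix.SpecialLinearGroup (Fin n) F := ⟨LinearMap.toMatrix' A, by rw [LinearMap.det_toMatrix', hA]⟩ with hg
  have hgA : ∀ x, (Matrix.SpecialLinearGroup.toLin' g : (Fin n → F) ≃ₗ[F] (Fin n → F)) x = A x := by
    intro x
    rw [Matrix.SpecialLinearGroup.toLin'_apply]
    change Matrix.toLin' (LinearMap.toMatrix' A) x = A x
    rw [Matrix.toLin'_toMatrix']
  apply Submodule.eq_of_le_of_finrank_eq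
  · rintro _ ⟨x, hx, rfl⟩
    change (Matrix.SpecialLinearGroup.toLin' g : (Fin n → F) ≃ₗ[F] (Fin n → F)) x ∈ U₂
    rw [hgA]
    apply he
    change LinearMap.transvection f ((c - 1) • u) x ∈ U₁
    rw [LinearMap.transvection.apply]
    exact U₁.add_mem hx (U₁.smul_mem _ (U₁.smul_mem _ huU))
  · rw [← h]
    exact LinearEquiv.finrank_map_eq _ _

end Cfsg.Agent.S2552
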