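import Mathlib
import Cfsg.Statements.S2567

set_option autoImplicit false
open Cfsg

namespace Cfsg.Agent.S2567

/-- Lifting elements of prime order from PGL to GL: let F be a finite field with q elements, r a prime not dividing q − 1, and x an element of order r in GL_n(F) modulo its centre (the scalar matrices). Then x has exactly one preimage in GL_n(F) of order r. -/
theorem result {F : Type*} [Field F] [Fintype F] {q n r : ℕ} (hF : Fintype.card F = q) (hr : r.Prime) (hdiv : ¬ r ∣ q - 1) (x : GL (Fin n) F ⧸ Subgroup.center (GL (Fin n) F)) (hx : orderOf x = r) : ∃! g : GL (Fin n) F, (QuotientGroup.mk g : GL (Fin n) F ⧸ Subgroup.center (GL (Fin n) F)) = x ∧ orderOf g = r := by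
  classical
  have hq : 1 < q := by rw [← hF]; exact Fintype.one_lt_card
  have hcard : Nat.card Fˣ = q - 1 := by
    rw [Nat.card_eq_fintype_card, Fintype.card_units, hF]
  have hcop : (Nat.card Fˣ).Coprime r := by
    rw [hcard]; exact ((Nat.Prime.coprime_iff_not_dvd hr).2 hdiv).symm
  have hpow : ∀ z ∈ Subgroup.center (GL (Fin n) F), z ^ (q - 1) = 1 := by
    intro z hz
    rw [Matrix.GeneralLinearGroup.center_eq_range_scalar] at hz
    obtain ⟨a, rfl⟩ := hz
    rw [← map_pow, ← hcard, pow_card_eq_one', map_one]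
  have hroot : ∀ z ∈ Subgroup.center (GL (Fin n) F), ∃ w ∈ Subgroup.center (GL (Fin n) F), w ^ r = z := by
    intro z hz
    rw [Matrix.GeneralLinearGroup.center_eq_range_scalar] at hz
    obtain ⟨a, rfl⟩ := hz
    refine ⟨Matrix.GeneralLinearGroup.scalar (Fin n) ((powCoprime hcop).symm a), ?_, ?_⟩
    · rw [Matrix.GeneralLinearGroup.center_eq_range_scalar]; exact ⟨_, rfl⟩
    · rw [← map_pow]
      have h1 : ((powCoprime hcop).symm a) ^ r = a := (powCoprime hcop).apply_symm_apply a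
      rw [h1]
  have hx1 : x ≠ 1 := by
    rintro rfl
    rw [orderOf_one] at hx
    exact hr.one_lt.ne hx
  obtain ⟨h, rfl⟩ := QuotientGroup.mk_surjective x
  have hhr : h ^ r ∈ Subgroup.center (GL (Fin n) F) := by
    rw [← QuotientGroup.eq_one_iff, QuotientGroup.mk_pow, ← hx, pow_orderOf_eq_one]
  obtain ⟨w, hw, hwr⟩ := hroot _ hhr
  have hgq : (QuotientGroup.mk (h * w⁻¹) : GL (Fin n) F ⧸ Subgroup.center (GL (Fin n) F)) = QuotientGroup.mk h := by
    rw [QuotientGroup.mk_mul, (QuotientGroup.eq_one_iff (w⁻¹)).2 (Subgroup.inv_mem _ hw), mul_one]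
  have hgr : (h * w⁻¹) ^ r = 1 := by
    have hc : Commute h w⁻¹ := (Subgroup.mem_center_iff.1 (Subgroup.inv_mem _ hw) h)
    rw [hc.mul_pow, inv_pow, hwr, mul_inv_cancel]
  haveI : Fact r.Prime := ⟨hr⟩
  refine ⟨h * w⁻¹, ⟨hgq, orderOf_eq_prime hgr ?_⟩, ?_⟩
  · intro h1
    apply hx1
    rw [← hgq, h1]; rfl
  · rintro y ⟨hy1, hy2⟩
    have hz : (h * w⁻¹)⁻¹ * y ∈ Subgroup.center (GL (Fin n) F) := by
      rw [← QuotientGroup.eq, hgq, hy1]
    have hzr : ((h * w⁻¹)⁻¹ * y) ^ r = 1 := by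
      have hy : y = (h * w⁻¹) * ((h * w⁻¹)⁻¹ * y) := by group
      have hc : Commute (h * w⁻¹) ((h * w⁻¹)⁻¹ * y) := (Subgroup.mem_center_iff.1 hz (h * w⁻¹))
      have h2 : y ^ r = 1 := by rw [← hy2, pow_orderOf_eq_one]
      rw [hy, hc.mul_pow, hgr, one_mul] at h2
      exact h2
    have h3 : orderOf ((h * w⁻¹)⁻¹ * y) ∣ Nat.gcd r (q - 1) :=
      Nat.dvd_gcd (orderOf_dvd_of_pow_eq_one hzr) (orderOf_dvd_of_pow_eq_one (hpow _ hz))
    rw [(Nat.Prime.coprime_iff_not_dvd hr).2 hdiv, Nat.dvd_one, orderOf_eq_one_iff] at h3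
    exact (inv_mul_eq_one.1 h3).symm

end Cfsg.Agent.S2567
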