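import Mathlib
import Cfsg.Statements.S2576

set_option autoImplicit false
open Cfsg

namespace Cfsg.Agent.S2576

/-- Which involutions of PGL_2m(q) coming from a scalar of the quadratic extension field lie in PSL_2m(q), q odd: let μ generate the Sylow 2-subgroup of the multiplicative group of the field with q elements (μ has order the 2-part of q − 1) and let t be the block-diagonal matrix with m diagonal blocks [[0, 1], [μ, 0]] (so t² is the scalar μ and t is an involution modulo scalars). Then some non-zero scalar multiple of t has determinant one if and only if q ≡ 3 (mod 4) or the 2-part of q − 1 is less than the 2-part of 2m. -/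
theorem result {F : Type*} [Field F] [Fintype F] {q : ℕ} (hF : Fintype.card F = q) (hq : Odd q) {m : ℕ} (hm : 1 ≤ m) (μ : F) (hμ : orderOf μ = 2 ^ padicValNat 2 (q - 1)) : (∃ c : F, c ≠ 0 ∧ (c • Matrix.blockDiagonal (fun _ : Fin m => !![(0 : F), 1; μ, 0])).det = 1) ↔ (q % 4 = 3 ∨ padicValNat 2 (q - 1) < padicValNat 2 (2 * m)) := by
  classical
  have hq1 : 1 < q := by rw [← hF]; exact Fintype.one_lt_card
  obtain ⟨q', hq'⟩ := hq
  have hdet : ∀ c : F, (c • Matrix.blockDiagonal (fun _ : Fin m => !![(0 : F), 1; μ, 0])).det = c ^ (2 * m) * (-μ) ^ m := by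
    intro c
    rw [Matrix.det_smul, Matrix.det_blockDiagonal]
    simp [Fintype.card_prod, mul_comm]
  have h11 : (-1 : F) ≠ 1 := by
    intro h
    have h2 : (2 : F) = 0 := by linear_combination (-1 : F) * h
    have hchar : ringChar F = 2 := by
      have h3 : ringChar F ∣ 2 := ringChar.dvd (by exact_mod_cast h2)
      rcases (Nat.dvd_prime Nat.prime_two).1 h3 with h4 | h4
      · exfalso
        haveI := ringChar.charP F
        have := CharP.cast_eq_zero F (ringChar F)
        rw [h4] at this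
        simp at this
      · exact h4
    have h3 := FiniteField.even_card_of_char_two hchar
    rw [hF] at h3
    omega
  set a := padicValNat 2 (q - 1) with ha
  obtain ⟨s, hs⟩ := pow_padicValNat_dvd (p := 2) (n := q - 1)
  rw [← ha] at hs
  have hsodd : Odd s := by
    rw [← Nat.not_even_iff_odd, even_iff_two_dvd]
    rintro ⟨r, hr⟩
    have h2 : 2 ^ (a + 1) ∣ q - 1 := ⟨r, by rw [pow_succ]; rw [hr] at hs; rw [mul_assoc]; exact hs⟩
    exact (pow_succ_padicValNat_not_dvd (p := 2) (by omega)) h2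
  have ha1 : 1 ≤ a := by
    by_contra h0
    have h00 : a = 0 := by omega
    rw [h00, pow_zero, one_mul] at hs
    rw [← hs] at hsodd
    rw [Nat.odd_iff] at hsodd
    omega
  have hμpow : μ ^ 2 ^ a = 1 := by rw [← hμ, pow_orderOf_eq_one]
  have hμ1 : μ ^ 2 ^ (a - 1) = -1 := by
    have h2 : (μ ^ 2 ^ (a - 1)) ^ 2 = 1 := by
      rw [← pow_mul, ← pow_succ, Nat.sub_add_cancel ha1, hμpow]
    have h3 : μ ^ 2 ^ (a - 1) ≠ 1 := by
      intro h3
      have h4 := orderOf_dvd_of_pow_eq_one h3
      rw [hμ] at h4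
      have h5 := (Nat.pow_dvd_pow_iff_le_right (by norm_num : 1 < 2)).1 h4
      omega
    have h4 : (μ ^ 2 ^ (a - 1) - 1) * (μ ^ 2 ^ (a - 1) + 1) = 0 := by linear_combination h2
    rcases mul_eq_zero.1 h4 with h5 | h5
    · exact absurd (by linear_combination h5) h3
    · linear_combination h5
  have hpow : ∀ c : F, c ≠ 0 → c ^ (q - 1) = 1 := by
    intro c hc
    rw [← hF]; exact FiniteField.pow_card_sub_one_eq_one c hc
  obtain ⟨t, ht⟩ := pow_padicValNat_dvd (p := 2) (n := m)
  set b := padicValNat 2 m with hb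
  have htodd : Odd t := by
    rw [← Nat.not_even_iff_odd, even_iff_two_dvd]
    rintro ⟨r, hr⟩
    have h2 : 2 ^ (b + 1) ∣ m := ⟨r, by rw [pow_succ]; rw [hr] at ht; rw [mul_assoc]; exact ht⟩
    exact (pow_succ_padicValNat_not_dvd (p := 2) (by omega)) h2
  have hv : padicValNat 2 (2 * m) = b + 1 := by
    rw [padicValNat.mul (by norm_num) (by omega), padicValNat_self, hb, add_comm]
  rw [hv]
  constructor
  · rintro ⟨c, hc, hdc⟩
    rw [hdet] at hdc
    by_contra hcon
    push Not at hcon
    obtain ⟨hq3, hab⟩ := hcon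
    have ha2 : 2 ≤ a := by
      by_contra h0
      have h00 : a = 1 := by omega
      rw [h00, pow_one] at hs
      obtain ⟨r, hr⟩ := hsodd
      apply hq3
      omega
    have hν : (-μ) ^ 2 ^ (a - 1) = -1 := by
      have he : Even (2 ^ (a - 1)) := (Nat.even_pow' (by omega)).2 even_two
      rw [he.neg_pow, hμ1]
    -- raise to the power N
    have h1 : (c ^ (2 * m) * (-μ) ^ m) ^ (2 ^ (a - b - 1) * s) = 1 := by rw [hdc, one_pow]
    rw [mul_pow, ← pow_mul, ← pow_mul] at h1
    have e1 : 2 * m * (2 ^ (a - b - 1) * s) = (q - 1) * t := by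
      have e3 : 2 * 2 ^ b * 2 ^ (a - b - 1) = 2 ^ a := by
        rw [← pow_succ', ← pow_add]; congr 1; omega
      calc 2 * m * (2 ^ (a - b - 1) * s) = 2 * (2 ^ b * t) * (2 ^ (a - b - 1) * s) := by rw [← ht]
        _ = (2 * 2 ^ b * 2 ^ (a - b - 1)) * s * t := by ring
        _ = (q - 1) * t := by rw [e3, ← hs]
    have e2 : m * (2 ^ (a - b - 1) * s) = 2 ^ (a - 1) * (t * s) := by
      have e3 : 2 ^ b * 2 ^ (a - b - 1) = 2 ^ (a - 1) := by
        rw [← pow_add]; congr 1; omega
      calc m * (2 ^ (a - b - 1) * s) = (2 ^ b * t) * (2 ^ (a - b - 1) * s) := by rw [← ht]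
        _ = (2 ^ b * 2 ^ (a - b - 1)) * (t * s) := by ring
        _ = 2 ^ (a - 1) * (t * s) := by rw [e3]
    rw [e1, e2, pow_mul, hpow c hc, one_pow, one_mul, pow_mul, hν, (htodd.mul hsodd).neg_one_pow] at h1
    exact h11 h1
  · rintro (h3 | hab)
    · have h00 : a = 1 := by
        by_contra hne
        have ha2 : 2 ≤ a := by omega
        have h4 : 4 ∣ q - 1 := by
          rw [hs]
          exact Dvd.dvd.mul_right (pow_dvd_pow 2 ha2) s
        omega
      refine ⟨1, one_ne_zero, ?_⟩
      rw [h00] at hμ1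
      simp at hμ1
      rw [hdet, hμ1]; simp
    · refine ⟨1, one_ne_zero, ?_⟩
      rw [hdet, one_pow, one_mul]
      have h2a : 2 ^ a ∣ m := by
        rw [ht]
        exact Dvd.dvd.mul_right (pow_dvd_pow 2 (by omega)) t
      have hme : Even m := even_iff_two_dvd.2 ((dvd_pow_self 2 (by omega : a ≠ 0)).trans h2a)
      rw [hme.neg_pow]
      obtain ⟨r, hr⟩ := h2a
      rw [hr, pow_mul, hμpow, one_pow]

end Cfsg.Agent.S2576
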