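import Mathlib
import Cfsg.Statements.S2599

set_option autoImplicit false
open Cfsg

namespace Cfsg.Agent.S2599

/-- An irreducible invariant subspace of a semisimple isometry is non-degenerate or totally singular: let Q be a quadratic form on F^n (F finite of characteristic p) with non-degenerate polar form f, x an isometry of Q of order prime to p, and U a non-zero x-invariant subspace containing no x-invariant subspace other than 0 and U. Then U meets its f-orthogonal trivially, or Q vanishes on U, or p = 2, U is a line spanned by a non-singular vector and x fixes U pointwise. -/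
theorem result {F : Type*} [Field F] [Fintype F] {p : ℕ} [Fact p.Prime] [CharP F p] {n : ℕ} (Q : QuadraticForm F (Fin n → F)) (hQ : (QuadraticMap.polarBilin Q).Nondegenerate) (x : ↥(Cfsg.isometryGroup F ⇑Q)) (hx : (orderOf x).Coprime p) (U : Submodule F (Fin n → F)) (hU0 : U ≠ ⊥) (hUx : ∀ u ∈ U, ((x : Matrix.GeneralLinearGroup (Fin n) F) : Matrix (Fin n) (Fin n) F).mulVec u ∈ U) (hirr : ∀ W : Submodule F (Fin n → F), W ≤ U → (∀ w ∈ W, ((x : Matrix.GeneralLinearGroup (Fin n) F) : Matrix (Fin n) (Fin n) F).mulVec w ∈ W) → W = ⊥ ∨ W = U) : U ⊓ LinearMap.BilinForm.orthogonal (QuadraticMap.polarBilin Q) U = ⊥ ∨ (∀ u ∈ U, Q u = 0) ∨ (p = 2 ∧ Module.finrank F U = 1 ∧ (∃ u ∈ U, Q u ≠ 0) ∧ ∀ u ∈ U, ((x : Matrix.GeneralLinearGroup (Fin n) F) : Matrix (Fin n) (Fin n) F).mulVec u = u) := by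
  classical
  set X := ((x : Matrix.GeneralLinearGroup (Fin n) F) : Matrix (Fin n) (Fin n) F) with hX
  have hiso : ∀ v, Q (X.mulVec v) = Q v := fun v => x.2 v v
  have hpol : ∀ u v, QuadraticMap.polar (⇑Q) (X.mulVec u) (X.mulVec v) = QuadraticMap.polar (⇑Q) u v := by
    intro u v
    simp only [QuadraticMap.polar]
    rw [← Matrix.mulVec_add, hiso, hiso, hiso]
  -- X is onto U
  have hUX : ∀ u ∈ U, ∃ w ∈ U, X.mulVec w = u := by
    intro u hu
    let f : U → U := fun w => ⟨X.mulVec w, hUx w w.2⟩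
    have hinj : Function.Injective f := by
      intro a b hab
      have h1 : X.mulVec (a : Fin n → F) = X.mulVec b := congrArg Subtype.val hab
      have h2 := congrArg (fun w => ((x : Matrix.GeneralLinearGroup (Fin n) F)⁻¹ : Matrix.GeneralLinearGroup (Fin n) F).1.mulVec w) h1
      simp only [Matrix.mulVec_mulVec, hX] at h2
      rw [← Units.val_mul, inv_mul_cancel, Units.val_one, Matrix.one_mulVec, Matrix.one_mulVec] at h2
      exact Subtype.ext h2
    obtain ⟨w, hw⟩ := Finite.surjective_of_injective hinj ⟨u, hu⟩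
    exact ⟨w, w.2, congrArg Subtype.val hw⟩
  set R := U ⊓ LinearMap.BilinForm.orthogonal (QuadraticMap.polarBilin Q) U with hR
  have hRx : ∀ w ∈ R, X.mulVec w ∈ R := by
    intro w hw
    obtain ⟨hwU, hwo⟩ := Submodule.mem_inf.1 hw
    rw [Submodule.mem_inf]
    refine ⟨hUx w hwU, ?_⟩
    rw [LinearMap.BilinForm.mem_orthogonal_iff] at hwo ⊢
    intro u hu
    obtain ⟨u', hu', rfl⟩ := hUX u hu
    change QuadraticMap.polar (⇑Q) (X.mulVec u') (X.mulVec w) = 0
    rw [hpol]
    exact hwo u' hu'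
  rcases hirr R inf_le_left hRx with h | h
  · left; exact h
  right
  have hf : ∀ u ∈ U, ∀ v ∈ U, QuadraticMap.polar (⇑Q) u v = 0 := by
    intro u hu v hv
    have h1 : v ∈ R := by rw [h]; exact hv
    have h2 := (Submodule.mem_inf.1 h1).2
    rw [LinearMap.BilinForm.mem_orthogonal_iff] at h2
    exact h2 u hu
  by_cases hp2 : p = 2
  · subst hp2
    have hadd : ∀ u ∈ U, ∀ v ∈ U, Q (u + v) = Q u + Q v := by
      intro u hu v hv
      rw [QuadraticMap.map_add Q u v, hf u hu v hv, add_zero]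
    let K : Submodule F (Fin n → F) := {
      carrier := {u | u ∈ U ∧ Q u = 0}
      add_mem' := fun {a b} ha hb => ⟨U.add_mem ha.1 hb.1, by rw [hadd a ha.1 b hb.1, ha.2, hb.2, add_zero]⟩
      zero_mem' := ⟨U.zero_mem, QuadraticMap.map_zero Q⟩
      smul_mem' := fun c a ha => ⟨U.smul_mem c ha.1, by rw [QuadraticMap.map_smul, ha.2, smul_zero]⟩ }
    have hK : ∀ u, u ∈ K ↔ u ∈ U ∧ Q u = 0 := fun u => Iff.rfl
    rcases hirr K (fun u hu => hu.1) (fun w hw => ⟨hUx w hw.1, by rw [hiso]; exact hw.2⟩) with hk | hk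
    · right
      have hinj : ∀ u ∈ U, Q u = 0 → u = 0 := by
        intro u hu hQu
        have : u ∈ K := ⟨hu, hQu⟩
        rw [hk] at this
        exact this
      obtain ⟨u₀, hu₀, hu₀0⟩ := Submodule.exists_mem_ne_zero_of_ne_bot hU0
      have hQ0 : Q u₀ ≠ 0 := fun h0 => hu₀0 (hinj u₀ hu₀ h0)
      have h2 : ∀ a : F, a + a = 0 := fun a => CharTwo.add_self_eq_zero a
      refine ⟨rfl, ?_, ⟨u₀, hu₀, hQ0⟩, ?_⟩
      · rw [finrank_eq_one_iff_of_nonzero' (⟨u₀, hu₀⟩ : U) (fun h0 => hu₀0 (congrArg Subtype.val h0))]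
        rintro ⟨u, hu⟩
        obtain ⟨c, hc⟩ : IsSquare (Q u * (Q u₀)⁻¹) := by
          apply FiniteField.isSquare_of_char_two
          exact (ringChar.eq F 2).symm ▸ rfl
        refine ⟨c, Subtype.ext ?_⟩
        change c • u₀ = u
        have h3 : Q (c • u₀ + u) = 0 := by
          rw [hadd _ (U.smul_mem c hu₀) _ hu, QuadraticMap.map_smul, smul_eq_mul, ← hc, mul_assoc, inv_mul_cancel₀ hQ0, mul_one, h2]
        have h4 := hinj _ (U.add_mem (U.smul_mem c hu₀) hu) h3
        have h5 : c • u₀ = - u := eq_neg_of_add_eq_zero_left h4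
        rw [h5]
        ext i
        exact CharTwo.neg_eq (u i)
      · intro u hu
        have h3 : Q (X.mulVec u + u) = 0 := by
          rw [hadd _ (hUx u hu) _ hu, hiso, h2]
        have h4 := hinj _ (U.add_mem (hUx u hu) hu) h3
        have h5 : X.mulVec u = - u := eq_neg_of_add_eq_zero_left h4
        rw [h5]
        ext i
        exact CharTwo.neg_eq (u i)
    · left
      intro u hu
      have : u ∈ K := by rw [hk]; exact hu
      exact this.2
  · left
    intro u hu
    have h1 := hf u hu u hu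
    rw [QuadraticMap.polar_self] at h1
    have h2 : (2 : F) ≠ 0 := by
      intro h2
      have h3 : ((2 : ℕ) : F) = 0 := by exact_mod_cast h2
      rw [CharP.cast_eq_zero_iff F p] at h3
      exact hp2 ((Nat.prime_dvd_prime_iff_eq (Fact.out : p.Prime) Nat.prime_two).1 h3)
    have h3 : (2 : F) * Q u = 0 := by
      have h4 : (2 : F) * Q u = 2 • Q u := by rw [two_nsmul, two_mul]
      rw [h4]; exact h1
    rcases mul_eq_zero.1 h3 with h4 | h4
    · exact absurd h4 h2
    · exact h4

end Cfsg.Agent.S2599
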