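import Cfsg.Statements.S2602
import Cfsg.Agent.H6.PSLOut

set_option autoImplicit false
open Cfsg

namespace Cfsg.Agent.S2602

/-- Structure of the outer automorphism group of PSL_2(q), q = p^f ≥ 4: it has a normal cyclic subgroup of order gcd(2, q − 1) (diagonal automorphisms) with cyclic quotient of order f (field automorphisms); there is no graph automorphism in dimension 2. -/
theorem result {F : Type*} [Field F] [Fintype F] {p f : ℕ} [Fact p.Prime] (hf : 1 ≤ f) (hF : Fintype.card F = p ^ f) (h4 : 4 ≤ p ^ f) : ∃ φ : Cfsg.Out (Matrix.ProjectiveSpecialLinearGroup (Fin 2) F) →* Multiplicative (ZMod f), Function.Surjective φ ∧ IsCyclic φ.ker ∧ Nat.card φ.ker = Nat.gcd 2 (p ^ f - 1) := by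
  have hfin : Finite F := inferInstance
  obtain ⟨χ, hχs, hχk⟩ := CfsgH6.exists_equiv_two (F := F)
  obtain ⟨e2⟩ := CfsgH6.ringAut_equiv (F := F) hF
  let φ0 : Cfsg.Out (Matrix.ProjectiveSpecialLinearGroup (Fin 2) F) →* (F ≃+* F) :=
    QuotientGroup.lift _ χ (fun x hx => by
      have : x ∈ CfsgH6.DD 2 F := CfsgH6.Inn_le_DD hx
      rw [← hχk] at this
      exact this)
  have hφ0 : Function.Surjective φ0 := by
    intro y
    obtain ⟨β, hβ⟩ := hχs y
    exact ⟨QuotientGroup.mk β, hβ⟩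
  refine ⟨e2.toMonoidHom.comp φ0, e2.surjective.comp hφ0, ?_⟩
  have hK : ∀ β : MulAut (Matrix.ProjectiveSpecialLinearGroup (Fin 2) F),
      (QuotientGroup.mk β : Cfsg.Out _) ∈ (e2.toMonoidHom.comp φ0).ker ↔ β ∈ CfsgH6.DD 2 F := by
    intro β
    rw [MonoidHom.mem_ker, ← hχk, MonoidHom.mem_ker]
    show e2 (χ β) = 1 ↔ _
    rw [MulEquiv.map_eq_one_iff]
  have := CfsgH6.diag_part (F := F) le_rfl _ hK
  rw [Nat.card_eq_fintype_card (α := F), hF] at this
  exact this

end Cfsg.Agent.S2602
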