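import Mathlib
import Cfsg.Agent.S0289
import Cfsg.Agent.S0290
import Cfsg.Statements.S2617

set_option autoImplicit false
open Cfsg

namespace Cfsg.Agent.S2617

/-- The two standard quadratic forms of even dimension 2m over a finite field are not isometric: there is no linear isomorphism carrying the elliptic form Σ_(i<m−1) x_i y_i + z₁² + z₁z₂ + ζ z₂² (t² + t + ζ without roots) to the hyperbolic form Σ_(i<m) x_i y_i (they have different Witt index). -/
theorem result {F : Type*} [Field F] [Finite F] {m : ℕ} (hm : 1 ≤ m) (ζ : F) (hζ : ∀ t : F, t ^ 2 + t + ζ ≠ 0) (g : (Fin m ⊕ Fin m → F) ≃ₗ[F] ((Fin (m - 1) ⊕ Fin (m - 1)) ⊕ Fin 2 → F)) : ¬ (∀ v : Fin m ⊕ Fin m → F, Cfsg.quadFormMinus (m - 1) F 1 ζ (g v) = Cfsg.quadFormPlus m F v) := by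
  classical
  haveI := Fintype.ofFinite F
  intro h
  have hab : ∀ z₁ z₂ : F, z₁ ^ 2 + 1 * z₁ * z₂ + ζ * z₂ ^ 2 = 0 → z₁ = 0 ∧ z₂ = 0 := by
    intro z₁ z₂ hz
    have h2 : z₂ = 0 := by
      by_contra hz2
      apply hζ (z₁ / z₂)
      field_simp
      linear_combination hz
    refine ⟨?_, h2⟩
    rw [h2] at hz
    have : z₁ ^ 2 = 0 := by linear_combination hz
    exact pow_eq_zero_iff (two_ne_zero) |>.1 this
  have c1 := Cfsg.Agent.S0289.result (F := F) (q := Fintype.card F) rfl m hm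
  have c2 := Cfsg.Agent.S0290.result (F := F) (q := Fintype.card F) rfl m hm 1 ζ hab
  have c3 : Nat.card {v : Fin m ⊕ Fin m → F // Cfsg.quadFormPlus m F v = 0} = Nat.card {v : (Fin (m - 1) ⊕ Fin (m - 1)) ⊕ Fin 2 → F // Cfsg.quadFormMinus (m - 1) F 1 ζ v = 0} := by
    apply Nat.card_congr
    refine Equiv.subtypeEquiv g.toEquiv (fun v => ?_)
    change Cfsg.quadFormPlus m F v = 0 ↔ Cfsg.quadFormMinus (m - 1) F 1 ζ (g v) = 0
    rw [h v]
  rw [c1, c2] at c3
  have hq : 1 < Fintype.card F := Fintype.one_lt_card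
  have h1 : Fintype.card F ^ (m - 1) < Fintype.card F ^ m := Nat.pow_lt_pow_right hq (by omega)
  have h2 : Fintype.card F ^ m ≤ Fintype.card F ^ (2 * m - 1) := Nat.pow_le_pow_right (by omega) (by omega)
  omega

end Cfsg.Agent.S2617
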