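import Mathlib
import Cfsg.Statements.S2619

set_option autoImplicit false
open Cfsg

namespace Cfsg.Agent.S2619

/-- Over a finite field of characteristic two, given an alternating bilinear form B on a finite-dimensional space, a basis (v_i) and scalars (λ_i), there is exactly one quadratic form whose polar form is B and whose value at each v_i is λ_i. -/
theorem result {F V ι : Type*} [Field F] [Finite F] [CharP F 2] [AddCommGroup V] [Module F V] [Fintype ι] (b : Module.Basis ι F V) (B : LinearMap.BilinForm F V) (hB : B.IsAlt) (c : ι → F) : ∃! Q : QuadraticForm F V, QuadraticMap.polarBilin Q = B ∧ ∀ i, Q (b i) = c i := by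
  classical
  haveI := Fintype.ofFinite F
  let o : ι ≃ Fin (Fintype.card ι) := Fintype.equivFin ι
  -- the triangular bilinear form
  let C : LinearMap.BilinForm F V := b.constr F (fun i => b.constr F (fun j => if i = j then c i else if o i < o j then B (b i) (b j) else 0))
  have hC : ∀ i j, C (b i) (b j) = if i = j then c i else if o i < o j then B (b i) (b j) else 0 := by
    intro i j
    simp only [C, Module.Basis.constr_basis]
  have h2 : ∀ x : F, x + x = 0 := fun x => CharTwo.add_self_eq_zero x
  refine ⟨C.toQuadraticMap, ⟨?_, ?_⟩, ?_⟩
  · rw [LinearMap.BilinMap.polarBilin_toQuadraticMap]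
    apply b.ext
    intro i
    apply b.ext
    intro j
    rw [LinearMap.add_apply, LinearMap.add_apply, LinearMap.flip_apply, hC, hC]
    by_cases hij : i = j
    · subst hij
      simp [h2, hB (b i)]
    · rw [if_neg hij, if_neg (Ne.symm hij)]
      have hne : o i ≠ o j := fun h => hij (o.injective h)
      rcases lt_or_gt_of_ne hne with h | h
      · rw [if_pos h, if_neg (not_lt.2 h.le), add_zero]
      · rw [if_pos h, if_neg (not_lt.2 h.le), zero_add, ← LinearMap.IsAlt.neg hB (b i) (b j)]
        exact CharTwo.neg_eq (B (b i) (b j))
  · intro i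
    rw [LinearMap.BilinMap.toQuadraticMap_apply, hC, if_pos rfl]
  · rintro Q ⟨hQ1, hQ2⟩
    have hpol : ∀ (Q' : QuadraticForm F V), QuadraticMap.polarBilin Q' = B → ∀ x y, Q' (x + y) = Q' x + Q' y + B x y := by
      intro Q' hQ' x y
      rw [QuadraticMap.map_add Q' x y, ← hQ', QuadraticMap.polarBilin_apply_apply]
    have hP1 := hpol Q hQ1
    have hP2 : ∀ x y, C.toQuadraticMap (x + y) = C.toQuadraticMap x + C.toQuadraticMap y + B x y := by
      apply hpol
      rw [LinearMap.BilinMap.polarBilin_toQuadraticMap]
      apply b.ext
      intro i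
      apply b.ext
      intro j
      rw [LinearMap.add_apply, LinearMap.add_apply, LinearMap.flip_apply, hC, hC]
      by_cases hij : i = j
      · subst hij
        simp [h2, hB (b i)]
      · rw [if_neg hij, if_neg (Ne.symm hij)]
        have hne : o i ≠ o j := fun h => hij (o.injective h)
        rcases lt_or_gt_of_ne hne with h | h
        · rw [if_pos h, if_neg (not_lt.2 h.le), add_zero]
        · rw [if_pos h, if_neg (not_lt.2 h.le), zero_add, ← LinearMap.IsAlt.neg hB (b i) (b j)]
          exact CharTwo.neg_eq (B (b i) (b j))
    have hsum : ∀ (s : Finset ι) (w : ι → F), Q (∑ i ∈ s, w i • b i) = C.toQuadraticMap (∑ i ∈ s, w i • b i) := by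
      intro s w
      induction s using Finset.induction_on with
      | empty => simp
      | insert a s ha ih =>
        rw [Finset.sum_insert ha, hP1, hP2, ih, QuadraticMap.map_smul, QuadraticMap.map_smul, hQ2]
        congr 3
        rw [LinearMap.BilinMap.toQuadraticMap_apply, hC, if_pos rfl]
    apply QuadraticMap.ext
    intro x
    rw [← b.sum_repr x]
    exact hsum Finset.univ _

end Cfsg.Agent.S2619
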