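import Mathlib
import Cfsg.Statements.S2620

set_option autoImplicit false
open Cfsg

namespace Cfsg.Agent.S2620

/-- Discriminant of the hyperbolic quadratic form Σ_(i<m) x_i y_i over a field with q elements, q odd, m ≥ 1: the determinant of the Gram matrix of its polar form in any basis is a square if and only if m(q − 1)/2 is even (equivalently q^m ≡ 1 (mod 4)). -/
theorem result {F : Type*} [Field F] [Fintype F] {q : ℕ} (hF : Fintype.card F = q) (hq : Odd q) {m : ℕ} (hm : 1 ≤ m) {ι : Type*} [Fintype ι] [DecidableEq ι] (b : Module.Basis ι F (Fin m ⊕ Fin m → F)) : IsSquare (Matrix.of (fun i j : ι => QuadraticMap.polar (Cfsg.quadFormPlus m F) (b i) (b j))).det ↔ Even (m * (q - 1) / 2) := by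
  classical
  set J : Matrix (Fin m ⊕ Fin m) (Fin m ⊕ Fin m) F := Matrix.fromBlocks 0 1 1 0 with hJ
  have hdetJ : J.det = (-1) ^ m := by
    have h1 : J * Matrix.fromBlocks 1 0 1 1 = Matrix.fromBlocks 1 1 1 0 := by
      rw [hJ, Matrix.fromBlocks_multiply]; simp
    have h2 := congrArg Matrix.det h1
    rw [Matrix.det_mul, Matrix.det_fromBlocks_zero₁₂, Matrix.det_one, mul_one, mul_one, Matrix.det_fromBlocks_one₁₁] at h2
    rw [h2]
    simp [Matrix.det_neg]
  have hpol : ∀ u v : Fin m ⊕ Fin m → F, QuadraticMap.polar (Cfsg.quadFormPlus m F) u v = u ⬝ᵥ (J.mulVec v) := by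
    intro u v
    have h1 : J.mulVec v = Sum.elim (fun i => v (Sum.inr i)) (fun i => v (Sum.inl i)) := by
      rw [hJ]
      ext k
      rcases k with k | k <;> simp [Matrix.mulVec, dotProduct, Fintype.sum_sum_type, Matrix.one_apply]
    rw [h1]
    simp only [QuadraticMap.polar, Cfsg.quadFormPlus, dotProduct, Fintype.sum_sum_type, Sum.elim_inl, Sum.elim_inr, Pi.add_apply]
    rw [← Finset.sum_sub_distrib, ← Finset.sum_sub_distrib, ← Finset.sum_add_distrib]
    apply Finset.sum_congr rfl
    intro i _
    ring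
  have hcard : Fintype.card ι = Fintype.card (Fin m ⊕ Fin m) := by
    have h1 := Module.finrank_eq_card_basis b
    have h2 := Module.finrank_fintype_fun_eq_card (R := F) (η := Fin m ⊕ Fin m)
    rw [← h1, h2]
  let e : ι ≃ (Fin m ⊕ Fin m) := Fintype.equivOfCardEq hcard
  let B : Matrix (Fin m ⊕ Fin m) (Fin m ⊕ Fin m) F := fun k l => b (e.symm k) l
  set Gm := (Matrix.of (fun i j : ι => QuadraticMap.polar (Cfsg.quadFormPlus m F) (b i) (b j))) with hG
  have hGm : Gm.submatrix e.symm e.symm = B * J * B.transpose := by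
    ext k l
    rw [Matrix.submatrix_apply, hG, Matrix.of_apply, hpol]
    rw [Matrix.mul_assoc, Matrix.mul_apply]
    rw [dotProduct]
    apply Finset.sum_congr rfl
    intro r _
    congr 1
  have hdet : Gm.det = B.det * B.det * (-1) ^ m := by
    rw [← Matrix.det_submatrix_equiv_self e.symm Gm, hGm, Matrix.det_mul, Matrix.det_mul, Matrix.det_transpose, hdetJ]
    ring
  have hB : B.det ≠ 0 := by
    intro h0
    obtain ⟨v, hv0, hv⟩ := Matrix.exists_vecMul_eq_zero_iff.2 h0
    apply hv0
    have h1 : ∑ k, v k • b (e.symm k) = 0 := by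
      ext l
      have h2 := congrFun hv l
      rw [Finset.sum_apply]
      simpa [Matrix.vecMul, dotProduct, B] using h2
    have h2 : LinearIndependent F (fun k => b (e.symm k)) := b.linearIndependent.comp _ e.symm.injective
    have h3 := Fintype.linearIndependent_iff.1 h2 v h1
    ext k
    exact h3 k
  have hsq : IsSquare Gm.det ↔ IsSquare ((-1 : F) ^ m) := by
    rw [hdet]
    constructor
    · rintro ⟨r, hr⟩
      refine ⟨r / B.det, ?_⟩
      field_simp
      linear_combination hr
    · rintro ⟨r, hr⟩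
      exact ⟨B.det * r, by rw [hr]; ring⟩
  rw [hsq]
  obtain ⟨s, hs⟩ := hq
  have hq1 : q - 1 = 2 * s := by omega
  rw [hq1]
  have h5 : m * (2 * s) / 2 = m * s := by
    rw [show m * (2 * s) = 2 * (m * s) by ring]
    exact Nat.mul_div_cancel_left _ (by norm_num)
  rw [h5]
  rcases Nat.even_or_odd m with hme | hmo
  · rw [hme.neg_one_pow]
    exact ⟨fun _ => hme.mul_right s, fun _ => ⟨1, by ring⟩⟩
  · rw [hmo.neg_one_pow, FiniteField.isSquare_neg_one_iff, hF, hs, Nat.even_mul]
    have hmne : ¬ Even m := Nat.not_even_iff_odd.2 hmo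
    constructor
    · intro h
      right
      rw [Nat.even_iff]; omega
    · rintro (h | h)
      · exact absurd h hmne
      · rw [Nat.even_iff] at h; omega

end Cfsg.Agent.S2620
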