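import Mathlib
import Cfsg.Statements.S2621

set_option autoImplicit false
open Cfsg

namespace Cfsg.Agent.S2621

theorem main {F : Type*} [Field F] [Fintype F] {q : ℕ} (hF : Fintype.card F = q) (hq : Odd q) {k : ℕ} (a c : F) (hac : ∀ z₁ z₂ : F, z₁ ^ 2 + a * z₁ * z₂ + c * z₂ ^ 2 = 0 → z₁ = 0 ∧ z₂ = 0) {ι : Type*} [Fintype ι] [DecidableEq ι] (b : Module.Basis ι F ((Fin k ⊕ Fin k) ⊕ Fin 2 → F)) : IsSquare (Matrix.of (fun i j : ι => QuadraticMap.polar (Cfsg.quadFormMinus k F a c) (b i) (b j))).det ↔ ¬ Even ((k + 1) * (q - 1) / 2) := by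
  classical
  set J0 : Matrix (Fin k ⊕ Fin k) (Fin k ⊕ Fin k) F := Matrix.fromBlocks 0 1 1 0 with hJ0
  set N : Matrix (Fin 2) (Fin 2) F := !![2, a; a, 2 * c] with hN
  set J : Matrix ((Fin k ⊕ Fin k) ⊕ Fin 2) ((Fin k ⊕ Fin k) ⊕ Fin 2) F := Matrix.fromBlocks J0 0 0 N with hJ
  have hdetJ0 : J0.det = (-1) ^ k := by
    have h1 : J0 * Matrix.fromBlocks 1 0 1 1 = Matrix.fromBlocks 1 1 1 0 := by
      rw [hJ0, Matrix.fromBlocks_multiply]; simp
    have h2 := congrArg Matrix.det h1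
    rw [Matrix.det_mul, Matrix.det_fromBlocks_zero₁₂, Matrix.det_one, mul_one, mul_one, Matrix.det_fromBlocks_one₁₁] at h2
    rw [h2]
    simp [Matrix.det_neg]
  have hdetJ : J.det = (-1) ^ (k + 1) * (a ^ 2 - 4 * c) := by
    rw [hJ, Matrix.det_fromBlocks_zero₁₂, hdetJ0, hN, Matrix.det_fin_two_of, pow_succ]
    ring
  have hpol : ∀ u v : (Fin k ⊕ Fin k) ⊕ Fin 2 → F, QuadraticMap.polar (Cfsg.quadFormMinus k F a c) u v = u ⬝ᵥ (J.mulVec v) := by
    intro u v
    have h1 : J.mulVec v = Sum.elim (Sum.elim (fun i => v (Sum.inl (Sum.inr i))) (fun i => v (Sum.inl (Sum.inl i))))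
        ![2 * v (Sum.inr 0) + a * v (Sum.inr 1), a * v (Sum.inr 0) + 2 * c * v (Sum.inr 1)] := by
      rw [hJ, hJ0, hN]
      ext r
      rcases r with (r | r) | r
      · simp [Matrix.mulVec, dotProduct, Fintype.sum_sum_type, Matrix.one_apply]
      · simp [Matrix.mulVec, dotProduct, Fintype.sum_sum_type, Matrix.one_apply]
      · fin_cases r <;> simp [Matrix.mulVec, dotProduct, Fintype.sum_sum_type, Fin.sum_univ_two]
    rw [h1]
    simp only [QuadraticMap.polar, Cfsg.quadFormMinus, dotProduct, Fintype.sum_sum_type, Sum.elim_inl, Sum.elim_inr, Pi.add_apply, Fin.sum_univ_two, Matrix.cons_val_zero, Matrix.cons_val_one]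
    have hs : ∑ i : Fin k, (u (Sum.inl (Sum.inl i)) + v (Sum.inl (Sum.inl i))) * (u (Sum.inl (Sum.inr i)) + v (Sum.inl (Sum.inr i))) =
        ∑ i : Fin k, u (Sum.inl (Sum.inl i)) * u (Sum.inl (Sum.inr i)) + ∑ i : Fin k, v (Sum.inl (Sum.inl i)) * v (Sum.inl (Sum.inr i)) +
        (∑ i : Fin k, u (Sum.inl (Sum.inl i)) * v (Sum.inl (Sum.inr i)) + ∑ i : Fin k, u (Sum.inl (Sum.inr i)) * v (Sum.inl (Sum.inl i))) := by
      rw [← Finset.sum_add_distrib, ← Finset.sum_add_distrib, ← Finset.sum_add_distrib]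
      apply Finset.sum_congr rfl
      intro i _
      ring
    linear_combination hs
  have hcard : Fintype.card ι = Fintype.card ((Fin k ⊕ Fin k) ⊕ Fin 2) := by
    have h1 := Module.finrank_eq_card_basis b
    have h2 := Module.finrank_fintype_fun_eq_card (R := F) (η := (Fin k ⊕ Fin k) ⊕ Fin 2)
    rw [← h1, h2]
  let e : ι ≃ ((Fin k ⊕ Fin k) ⊕ Fin 2) := Fintype.equivOfCardEq hcard
  let B : Matrix ((Fin k ⊕ Fin k) ⊕ Fin 2) ((Fin k ⊕ Fin k) ⊕ Fin 2) F := fun k l => b (e.symm k) l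
  set Gm := (Matrix.of (fun i j : ι => QuadraticMap.polar (Cfsg.quadFormMinus k F a c) (b i) (b j))) with hG
  have hGm : Gm.submatrix e.symm e.symm = B * J * B.transpose := by
    ext k l
    rw [Matrix.submatrix_apply, hG, Matrix.of_apply, hpol]
    rw [Matrix.mul_assoc, Matrix.mul_apply]
    rw [dotProduct]
    apply Finset.sum_congr rfl
    intro r _
    congr 1
  have hdet : Gm.det = B.det * B.det * ((-1) ^ (k + 1) * (a ^ 2 - 4 * c)) := by
    rw [← Matrix.det_submatrix_equiv_self e.symm Gm, hGm, Matrix.det_mul, Matrix.det_mul, Matrix.det_transpose, hdetJ]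
    ring
  have hB : B.det ≠ 0 := by
    intro h0
    obtain ⟨v, hv0, hv⟩ := Matrix.exists_vecMul_eq_zero_iff.2 h0
    apply hv0
    have h1 : ∑ k, v k • b (e.symm k) = 0 := by
      ext l
      have h2 := congrFun hv l
      rw [Finset.sum_apply]
      simpa [Matrix.vecMul, dotProduct, B] using h2
    have h2 : LinearIndependent F (fun k => b (e.symm k)) := b.linearIndependent.comp _ e.symm.injective
    have h3 := Fintype.linearIndependent_iff.1 h2 v h1
    ext k
    exact h3 k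
  have hsq : IsSquare Gm.det ↔ IsSquare ((-1 : F) ^ (k + 1) * (a ^ 2 - 4 * c)) := by
    rw [hdet]
    constructor
    · rintro ⟨r, hr⟩
      refine ⟨r / B.det, ?_⟩
      field_simp
      linear_combination hr
    · rintro ⟨r, hr⟩
      exact ⟨B.det * r, by rw [hr]; ring⟩
  rw [hsq]
  obtain ⟨s, hs⟩ := hq
  have h2F : (2 : F) ≠ 0 := by
    intro h2
    have hchar : ringChar F = 2 := by
      have h3 : ringChar F ∣ 2 := ringChar.dvd (by exact_mod_cast h2)
      rcases (Nat.dvd_prime Nat.prime_two).1 h3 with h4 | h4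
      · exfalso
        haveI := ringChar.charP F
        have := CharP.cast_eq_zero F (ringChar F)
        rw [h4] at this
        simp at this
      · exact h4
    have h3 := FiniteField.even_card_of_char_two hchar
    rw [hF] at h3
    omega
  have hD : ¬ IsSquare (a ^ 2 - 4 * c) := by
    rintro ⟨r, hr⟩
    have h1 := (hac ((-a + r) / 2) 1 (by
      field_simp
      linear_combination (-1 : F) * hr)).2
    exact one_ne_zero h1
  have hD0 : a ^ 2 - 4 * c ≠ 0 := by
    intro h0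
    apply hD
    rw [h0]; exact ⟨0, by ring⟩
  have hx0 : ((-1 : F) ^ (k + 1)) ≠ 0 := pow_ne_zero _ (neg_ne_zero.2 one_ne_zero)
  have hkey : IsSquare ((-1 : F) ^ (k + 1) * (a ^ 2 - 4 * c)) ↔ ¬ IsSquare ((-1 : F) ^ (k + 1)) := by
    rw [← quadraticChar_one_iff_isSquare (mul_ne_zero hx0 hD0), ← quadraticChar_neg_one_iff_not_isSquare, map_mul,
      quadraticChar_neg_one_iff_not_isSquare.2 hD]
    constructor <;> intro h <;> linarith
  rw [hkey]
  apply not_congr
  have hq1 : q - 1 = 2 * s := by omega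
  rw [hq1]
  have h5 : (k + 1) * (2 * s) / 2 = (k + 1) * s := by
    rw [show (k + 1) * (2 * s) = 2 * ((k + 1) * s) by ring]
    exact Nat.mul_div_cancel_left _ (by norm_num)
  rw [h5]
  rcases Nat.even_or_odd (k + 1) with hme | hmo
  · rw [hme.neg_one_pow]
    exact ⟨fun _ => hme.mul_right s, fun _ => ⟨1, by ring⟩⟩
  · rw [hmo.neg_one_pow, FiniteField.isSquare_neg_one_iff, hF, hs, Nat.even_mul]
    have hmne : ¬ Even (k + 1) := Nat.not_even_iff_odd.2 hmo
    constructor
    · intro h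
      right
      rw [Nat.even_iff]; omega
    · rintro (h | h)
      · exact absurd h hmne
      · rw [Nat.even_iff] at h; omega


/-- Discriminant of an elliptic quadratic form Σ_(i<m−1) x_i y_i + z₁² + a z₁z₂ + c z₂² (binary part anisotropic) in dimension 2m over a field with q elements, q odd, m ≥ 1: the determinant of the Gram matrix of its polar form in any basis is a square if and only if m(q − 1)/2 is odd (equivalently q^m ≡ 3 (mod 4)). -/
theorem result {F : Type*} [Field F] [Fintype F] {q : ℕ} (hF : Fintype.card F = q) (hq : Odd q) {m : ℕ} (hm : 1 ≤ m) (a c : F) (hac : ∀ z₁ z₂ : F, z₁ ^ 2 + a * z₁ * z₂ + c * z₂ ^ 2 = 0 → z₁ = 0 ∧ z₂ = 0) {ι : Type*} [Fintype ι] [DecidableEq ι] (b : Module.Basis ι F ((Fin (m - 1) ⊕ Fin (m - 1)) ⊕ Fin 2 → F)) : IsSquare (Matrix.of (fun i j : ι => QuadraticMap.polar (Cfsg.quadFormMinus (m - 1) F a c) (b i) (b j))).det ↔ ¬ Even (m * (q - 1) / 2) := by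
  obtain ⟨k, rfl⟩ : ∃ k, m = k + 1 := ⟨m - 1, by omega⟩
  exact main hF hq a c hac b

end Cfsg.Agent.S2621
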