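import Mathlib
import Cfsg.Statements.S2625

set_option autoImplicit false
open Cfsg

namespace Cfsg.Agent.S2625

/-- For a quadratic form Q on F^n with non-degenerate polar form, F finite and n odd (so |F| is odd), the multiplier of any similarity is a square: if g is an invertible linear map with Q(g v) = c·Q(v) for all v then c is a square. -/
theorem result {F : Type*} [Field F] [Fintype F] {n : ℕ} (hn : Odd n) (Q : QuadraticForm F (Fin n → F)) (hQ : (QuadraticMap.polarBilin Q).Nondegenerate) (g : (Fin n → F) ≃ₗ[F] (Fin n → F)) (c : F) (hg : ∀ v, Q (g v) = c * Q v) : IsSquare c := by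
  classical
  set B := QuadraticMap.polarBilin Q with hB
  set A : Matrix (Fin n) (Fin n) F := LinearMap.BilinForm.toMatrix' B with hA
  have hdet : A.det ≠ 0 := by
    have h1 : A.Nondegenerate := by
      rw [hA]
      exact LinearMap.BilinForm.Nondegenerate.toMatrix' hQ
    exact Matrix.nondegenerate_iff_det_ne_zero.1 h1
  have hpol : ∀ u v, B (g u) (g v) = c * B u v := by
    intro u v
    rw [hB, QuadraticMap.polarBilin_apply_apply, QuadraticMap.polarBilin_apply_apply]
    unfold QuadraticMap.polar
    rw [← map_add, hg, hg, hg]; ring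
  have hcomp : LinearMap.BilinForm.comp B (g : (Fin n → F) →ₗ[F] (Fin n → F)) (g : (Fin n → F) →ₗ[F] (Fin n → F)) = c • B := by
    ext u v
    simp [hpol]
  have h1 := LinearMap.BilinForm.toMatrix'_comp B (g : (Fin n → F) →ₗ[F] (Fin n → F)) (g : (Fin n → F) →ₗ[F] (Fin n → F))
  rw [hcomp, map_smul, ← hA] at h1
  have h2 := congrArg Matrix.det h1
  rw [Matrix.det_mul, Matrix.det_mul, Matrix.det_transpose, Matrix.det_smul, Fintype.card_fin] at h2
  set d := (LinearMap.toMatrix' (g : (Fin n → F) →ₗ[F] (Fin n → F))).det with hd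
  have h3 : c ^ n = d * d := by
    have h4 : (c ^ n - d * d) * A.det = 0 := by linear_combination h2
    rcases mul_eq_zero.1 h4 with h5 | h5
    · linear_combination h5
    · exact absurd h5 hdet
  obtain ⟨m, hm⟩ := hn
  by_cases hc : c = 0
  · exact ⟨0, by rw [hc]; ring⟩
  · refine ⟨d / c ^ m, ?_⟩
    have hcm : c ^ m ≠ 0 := pow_ne_zero _ hc
    field_simp
    rw [hm] at h3
    linear_combination h3

end Cfsg.Agent.S2625
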