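import Mathlib
import Cfsg.Statements.S2626

set_option autoImplicit false
open Cfsg

namespace Cfsg.Agent.S2626

/-- Ω of an orthogonal direct sum contains the product of the Ω's: for quadratic forms Q₁ on F^k and Q₂ on F^l with non-degenerate polar forms (F finite) and Q = Q₁ ⊕ Q₂ on F^(k+l), if g₁ lies in Ω(Q₁) and g₂ in Ω(Q₂) (commutator subgroups of the orthogonal groups) then the block-diagonal isometry diag(g₁, g₂) lies in Ω(Q). -/
theorem result {F : Type*} [Field F] [Fintype F] {k l : ℕ} (Q₁ : QuadraticForm F (Fin k → F)) (Q₂ : QuadraticForm F (Fin l → F)) (h₁ : (QuadraticMap.polarBilin Q₁).Nondegenerate) (h₂ : (QuadraticMap.polarBilin Q₂).Nondegenerate) (g₁ : ↥(Cfsg.isometryGroup F ⇑Q₁)) (g₂ : ↥(Cfsg.isometryGroup F ⇑Q₂)) (hg₁ : g₁ ∈ Cfsg.Omega F ⇑Q₁) (hg₂ : g₂ ∈ Cfsg.Omega F ⇑Q₂) : ∃ g : ↥(Cfsg.isometryGroup F (fun v : Fin k ⊕ Fin l → F => Q₁ (v ∘ Sum.inl) + Q₂ (v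 ∘ Sum.inr))), g ∈ Cfsg.Omega F (fun v : Fin k ⊕ Fin l → F => Q₁ (v ∘ Sum.inl) + Q₂ (v ∘ Sum.inr)) ∧ ((g : Matrix.GeneralLinearGroup (Fin k ⊕ Fin l) F) : Matrix (Fin k ⊕ Fin l) (Fin k ⊕ Fin l) F) = Matrix.fromBlocks ((g₁ : Matrix.GeneralLinearGroup (Fin k) F) : Matrix (Fin k) (Fin k) F) 0 0 ((g₂ : Matrix.GeneralLinearGroup (Fin l) F) : Matrix (Fin l) (Fin l) F) := by
  classical
  set Q : (Fin k ⊕ Fin l → F) → F := (fun v : Fin k ⊕ Fin l → F => Q₁ (v ∘ Sum.inl) + Q₂ (v ∘ Sum.inr)) with hQ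
  let φ₁ : Matrix (Fin k) (Fin k) F →* Matrix (Fin k ⊕ Fin l) (Fin k ⊕ Fin l) F :=
    { toFun := fun A => Matrix.fromBlocks A 0 0 1
      map_one' := Matrix.fromBlocks_one
      map_mul' := fun A B => by rw [Matrix.fromBlocks_multiply]; simp }
  let φ₂ : Matrix (Fin l) (Fin l) F →* Matrix (Fin k ⊕ Fin l) (Fin k ⊕ Fin l) F :=
    { toFun := fun A => Matrix.fromBlocks 1 0 0 A
      map_one' := Matrix.fromBlocks_one
      map_mul' := fun A B => by rw [Matrix.fromBlocks_multiply]; simp }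
  have hblock : ∀ (A : Matrix (Fin k) (Fin k) F) (B : Matrix (Fin l) (Fin l) F) (v : Fin k ⊕ Fin l → F),
      Q ((Matrix.fromBlocks A 0 0 B).mulVec v) = Q₁ (A.mulVec (v ∘ Sum.inl)) + Q₂ (B.mulVec (v ∘ Sum.inr)) := by
    intro A B v
    have h1 : (Matrix.fromBlocks A 0 0 B).mulVec v = Sum.elim (A.mulVec (v ∘ Sum.inl)) (B.mulVec (v ∘ Sum.inr)) := by
      rw [Matrix.fromBlocks_mulVec]; simp
    rw [h1]
    rfl
  let Φ₁ : ↥(Cfsg.isometryGroup F ⇑Q₁) →* ↥(Cfsg.isometryGroup F Q) :=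
    ((Units.map φ₁).comp (Cfsg.isometryGroup F ⇑Q₁).subtype).codRestrict _ (fun g u v => by
      change Q ((Matrix.fromBlocks ((g : Matrix.GeneralLinearGroup (Fin k) F) : Matrix (Fin k) (Fin k) F) 0 0 1).mulVec u) = Q u
      rw [hblock, Matrix.one_mulVec]
      have h := g.2 (u ∘ Sum.inl) (u ∘ Sum.inl)
      change Q₁ (((g : Matrix.GeneralLinearGroup (Fin k) F) : Matrix (Fin k) (Fin k) F).mulVec (u ∘ Sum.inl)) = Q₁ (u ∘ Sum.inl) at h
      rw [h])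
  let Φ₂ : ↥(Cfsg.isometryGroup F ⇑Q₂) →* ↥(Cfsg.isometryGroup F Q) :=
    ((Units.map φ₂).comp (Cfsg.isometryGroup F ⇑Q₂).subtype).codRestrict _ (fun g u v => by
      change Q ((Matrix.fromBlocks 1 0 0 ((g : Matrix.GeneralLinearGroup (Fin l) F) : Matrix (Fin l) (Fin l) F)).mulVec u) = Q u
      rw [hblock, Matrix.one_mulVec]
      have h := g.2 (u ∘ Sum.inr) (u ∘ Sum.inr)
      change Q₂ (((g : Matrix.GeneralLinearGroup (Fin l) F) : Matrix (Fin l) (Fin l) F).mulVec (u ∘ Sum.inr)) = Q₂ (u ∘ Sum.inr) at h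
      rw [h])
  have hmap : ∀ {X Y : Type _} [Group X] [Group Y] (f : X →* Y), (commutator X).map f ≤ commutator Y := by
    intro X Y _ _ f
    rw [commutator_def, commutator_def, Subgroup.map_commutator]
    exact Subgroup.commutator_mono le_top le_top
  refine ⟨Φ₁ g₁ * Φ₂ g₂, Subgroup.mul_mem _ (hmap Φ₁ ⟨g₁, hg₁, rfl⟩) (hmap Φ₂ ⟨g₂, hg₂, rfl⟩), ?_⟩
  change Matrix.fromBlocks ((g₁ : Matrix.GeneralLinearGroup (Fin k) F) : Matrix (Fin k) (Fin k) F) 0 0 1 * Matrix.fromBlocks 1 0 0 ((g₂ : Matrix.GeneralLinearGroup (Fin l) F) : Matrix (Fin l) (Fin l) F) = _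
  rw [Matrix.fromBlocks_multiply]; simp

end Cfsg.Agent.S2626
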