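import Cfsg.Statements.S2666
-- import your own Cfsg.Agent.* helpers here

set_option autoImplicit false
open Cfsg

namespace Cfsg.Agent.S2666

theorem aux_mem {X : Type*} [Group X] (τ : MulAut X) (x : X) :
    x ∈ (MulEquiv.toMonoidHom τ).eqLocus (MonoidHom.id X) ↔ τ x = x := Iff.rfl

theorem aux_prod {X : Type*} [Group X] (σ : MulAut X) (a : X) (n : ℕ) :
    ((List.range n).map (fun i => (σ ^ i) (a * (σ a)⁻¹))).prod = a * ((σ ^ n) a)⁻¹ := by
  induction n with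
  | zero => simp
  | succ n ih =>
    rw [List.range_succ, List.map_append, List.prod_append, ih]
    simp only [List.map_cons, List.map_nil, List.prod_cons, List.prod_nil, map_mul, map_inv, mul_one]
    rw [show (σ ^ n) (σ a) = (σ ^ (n + 1)) a by rw [pow_succ]; rfl]
    group

theorem aux_comm {X : Type*} [Group X] (σ : MulAut X) (a : X) (n : ℕ) :
    (σ ^ n) (σ a) = σ ((σ ^ n) a) := by
  rw [← MulAut.mul_apply, ← MulAut.mul_apply, ← pow_succ, ← pow_succ']

theorem aux_fix {X : Type*} [Group X] (σ : MulAut X) (h : X) (hh : σ h = h) (n : ℕ) :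
    (σ ^ n) h = h := by
  induction n with
  | zero => simp
  | succ n ih => rw [pow_succ, MulAut.mul_apply, hh, ih]

/-- Shintani descent, in an abstract form. Let `σ` be an automorphism of a group `X` such that the maps `a ↦ a·σ(a)⁻¹` and `a ↦ a·σᵉ(a)⁻¹` are surjective on `X` (the Lang–Steinberg property, which holds when `X` is a connected algebraic group and `σ` a Steinberg endomorphism), where `e ≥ 1`. Write `G` for the subgroup of fixed points of `σᵉ` and `H` for the subgroup of fixed points of `σ`. The `G`-conjugacy classes in the coset `G σ` of the semidirect product of `G` by `σ` correspond to the orbits of `G` on itself under twisted conjugation `g ↦ k g σ(k)⁻¹`, and the `e`-th power of `g σ` has `G`-part the norm `g σ(g) ⋯ σ^(e-1)(g)`. For `g` in `G` and any `a` with `g = a σ(a)⁻¹`, put `x = σᵉ(a)⁻¹ a`. Then: (1) `x` lies in `H`, and `a⁻¹ · (g σ(g) ⋯ σ^(e-1)(g)) · a = x`; (2) for `g, g'` in `G` with such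 elements `a, b` and `x, x'`, the elements `g, g'` are twisted-conjugate under `G` if and only if `x, x'` are conjugate in `H`; (3) every element of `H` arises as such an `x`. So `g ↦ x` induces a well-defined bijection from the twisted `G`-classes of `G` onto the conjugacy classes of `H` (the Shintani map). -/
theorem result {X : Type*} [Group X] (σ : MulAut X) (e : ℕ) (he : 1 ≤ e)
    (hL : ∀ g : X, ∃ a : X, g = a * (σ a)⁻¹) (hLe : ∀ g : X, ∃ a : X, g = a * ((σ ^ e) a)⁻¹) :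
    (∀ g ∈ (MulEquiv.toMonoidHom (σ ^ e)).eqLocus (MonoidHom.id X), ∀ a : X, g = a * (σ a)⁻¹ →
        ((σ ^ e) a)⁻¹ * a ∈ (MulEquiv.toMonoidHom σ).eqLocus (MonoidHom.id X) ∧
          a⁻¹ * ((List.range e).map (fun i => (σ ^ i) g)).prod * a = ((σ ^ e) a)⁻¹ * a) ∧
    (∀ g ∈ (MulEquiv.toMonoidHom (σ ^ e)).eqLocus (MonoidHom.id X), ∀ g' ∈ (MulEquiv.toMonoidHom (σ ^ e)).eqLocus (MonoidHom.id X), ∀ a b : X,
        g = a * (σ a)⁻¹ → g' = b * (σ b)⁻¹ →
          ((∃ k ∈ (MulEquiv.toMonoidHom (σ ^ e)).eqLocus (MonoidHom.id X), g' = k * g * (σ k)⁻¹) ↔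
            (∃ h ∈ (MulEquiv.toMonoidHom σ).eqLocus (MonoidHom.id X), ((σ ^ e) b)⁻¹ * b = h * (((σ ^ e) a)⁻¹ * a) * h⁻¹))) ∧
    (∀ x ∈ (MulEquiv.toMonoidHom σ).eqLocus (MonoidHom.id X), ∃ g ∈ (MulEquiv.toMonoidHom (σ ^ e)).eqLocus (MonoidHom.id X), ∃ a : X,
        g = a * (σ a)⁻¹ ∧ ((σ ^ e) a)⁻¹ * a = x) := by
  simp only [aux_mem]
  have key : ∀ a : X, (σ ^ e) (a * (σ a)⁻¹) = a * (σ a)⁻¹ →
      σ (((σ ^ e) a)⁻¹ * a) = ((σ ^ e) a)⁻¹ * a := by
    intro a h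
    rw [map_mul, map_inv, aux_comm] at h
    rw [map_mul, map_inv]
    have h2 : (σ ((σ ^ e) a))⁻¹ = ((σ ^ e) a)⁻¹ * (a * (σ a)⁻¹) := by
      rw [← h]; group
    rw [h2]; group
  refine ⟨?_, ?_, ?_⟩
  · rintro g hg a rfl
    refine ⟨key a hg, ?_⟩
    rw [aux_prod]; group
  · rintro g hg g' hg' a b rfl rfl
    constructor
    · rintro ⟨k, hk, hk2⟩
      have hf : σ (b⁻¹ * k * a) = b⁻¹ * k * a := by
        rw [map_mul, map_mul, map_inv]
        have : (σ b)⁻¹ = b⁻¹ * (k * (a * (σ a)⁻¹) * (σ k)⁻¹) := by rw [← hk2]; group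
        rw [this]; group
      refine ⟨b⁻¹ * k * a, hf, ?_⟩
      have h3 := aux_fix σ _ hf e
      rw [map_mul, map_mul, map_inv, hk] at h3
      have h4 : ((σ ^ e) b)⁻¹ = b⁻¹ * k * a * ((σ ^ e) a)⁻¹ * k⁻¹ := by rw [← h3]; group
      rw [h4]; group
    · rintro ⟨h, hh, hx⟩
      refine ⟨b * h * a⁻¹, ?_, ?_⟩
      · rw [map_mul, map_mul, map_inv, aux_fix σ h hh e]
        have h4 : ((σ ^ e) b)⁻¹ = h * (((σ ^ e) a)⁻¹ * a) * h⁻¹ * b⁻¹ := by rw [← hx]; group
        have h5 : (σ ^ e) b = (h * (((σ ^ e) a)⁻¹ * a) * h⁻¹ * b⁻¹)⁻¹ := by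
          rw [← h4, inv_inv]
        rw [h5]; group
      · rw [map_mul, map_mul, map_inv, hh]; group
  · intro x hx
    obtain ⟨b, hb⟩ := hLe x⁻¹
    have h1 : ((σ ^ e) b⁻¹)⁻¹ * b⁻¹ = x := by
      rw [map_inv, inv_inv, ← inv_inv x, hb]; group
    have h2 : (σ ^ e) b⁻¹ = b⁻¹ * x⁻¹ := by rw [← h1]; group
    refine ⟨b⁻¹ * (σ b⁻¹)⁻¹, ?_, b⁻¹, rfl, h1⟩
    rw [map_mul, map_inv (σ ^ e) (σ b⁻¹), aux_comm, h2, map_mul, map_inv σ x, hx]; group

end Cfsg.Agent.S2666
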