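import Cfsg.Statements.S2668
-- import your own Cfsg.Agent.* helpers here

set_option autoImplicit false
open Cfsg

namespace Cfsg.Agent.S2668

theorem aux_mem {X : Type*} [Group X] (τ : MulAut X) (x : X) :
    x ∈ (MulEquiv.toMonoidHom τ).eqLocus (MonoidHom.id X) ↔ τ x = x := Iff.rfl

theorem aux_prod {X : Type*} [Group X] (σ : MulAut X) (a : X) (n : ℕ) :
    ((List.range n).map (fun i => (σ ^ i) (a * (σ a)⁻¹))).prod = a * ((σ ^ n) a)⁻¹ := by
  induction n with
  | zero => simp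
  | succ n ih =>
    rw [List.range_succ, List.map_append, List.prod_append, ih]
    simp only [List.map_cons, List.map_nil, List.prod_cons, List.prod_nil, map_mul, map_inv, mul_one]
    rw [show (σ ^ n) (σ a) = (σ ^ (n + 1)) a by rw [pow_succ]; rfl]
    group

theorem aux_comm {X : Type*} [Group X] (σ : MulAut X) (a : X) (n : ℕ) :
    (σ ^ n) (σ a) = σ ((σ ^ n) a) := by
  rw [← MulAut.mul_apply, ← MulAut.mul_apply, ← pow_succ, ← pow_succ']

theorem aux_fix {X : Type*} [Group X] (σ : MulAut X) (h : X) (hh : σ h = h) (n : ℕ) :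
    (σ ^ n) h = h := by
  induction n with
  | zero => simp
  | succ n ih => rw [pow_succ, MulAut.mul_apply, hh, ih]

/-- Shintani descent and powers (abstract form). Let `σ` be an automorphism of a group `X`, `e ≥ 1` and `d ≥ 1`, let `g` be fixed by `σᵉ` and let `a` satisfy `g = a σ(a)⁻¹`, so that the Shintani map of `(X, σ, e)` sends the class of `g σ` to the class of `x = σᵉ(a)⁻¹ a`. Put `h = g σ(g) ⋯ σ^(d-1)(g)`, the part in `X` of the `d`-th power `(g σ)^d = h σ^d`. Then `h = a σ^d(a)⁻¹` (so `a` also serves for `h` with respect to `σ^d`), `h` is fixed by `(σ^d)ᵉ`, and `(σ^d)ᵉ(a)⁻¹ a = x^d`: the Shintani map of `(X, σ^d, e)` sends the class of `(g σ)^d` to the class of `x^d`. (When `d` divides `e`, the Shintani map of `(X, σ^d, e/d)` sends it to the class of `x` itself, since `(σ^d)^(e/d) = σᵉ`.) -/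
theorem result {X : Type*} [Group X] (σ : MulAut X) (e d : ℕ) (he : 1 ≤ e) (hd : 1 ≤ d)
    (g : X) (hg : g ∈ (MulEquiv.toMonoidHom (σ ^ e)).eqLocus (MonoidHom.id X)) (a : X) (ha : g = a * (σ a)⁻¹) :
    ((List.range d).map (fun i => (σ ^ i) g)).prod = a * ((σ ^ d) a)⁻¹ ∧
      ((List.range d).map (fun i => (σ ^ i) g)).prod ∈ (MulEquiv.toMonoidHom ((σ ^ d) ^ e)).eqLocus (MonoidHom.id X) ∧
      (((σ ^ d) ^ e) a)⁻¹ * a = (((σ ^ e) a)⁻¹ * a) ^ d := by
  simp only [aux_mem] at hg ⊢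
  subst ha
  have hfix : σ (((σ ^ e) a)⁻¹ * a) = ((σ ^ e) a)⁻¹ * a := by
    rw [map_mul, map_inv, aux_comm] at hg
    rw [map_mul, map_inv]
    have h2 : (σ ((σ ^ e) a))⁻¹ = ((σ ^ e) a)⁻¹ * (a * (σ a)⁻¹) := by
      rw [← hg]; group
    rw [h2]; group
  refine ⟨aux_prod σ a d, ?_, ?_⟩
  · have hpow : (σ ^ d) ^ e = (σ ^ e) ^ d := by rw [← pow_mul, ← pow_mul, mul_comm]
    rw [hpow, map_list_prod, List.map_map]
    congr 1
    apply List.map_congr_left
    intro i _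
    have h1 : ((σ ^ e) ^ d) ((σ ^ i) (a * (σ a)⁻¹)) = (σ ^ i) (((σ ^ e) ^ d) (a * (σ a)⁻¹)) := by
      rw [← MulAut.mul_apply, ← MulAut.mul_apply]
      congr 1
      rw [← pow_mul, ← pow_add, ← pow_add, add_comm]
    show ((σ ^ e) ^ d) ((σ ^ i) (a * (σ a)⁻¹)) = _
    rw [h1, aux_fix (σ ^ e) _ hg d]
  · have key : ∀ n : ℕ, (((σ ^ e) ^ n) a)⁻¹ * a = (((σ ^ e) a)⁻¹ * a) ^ n := by
      intro n
      induction n with
      | zero => simp
      | succ n ih =>
        have h1 : ((σ ^ e) ^ (n + 1)) a = ((σ ^ e) ^ n) ((σ ^ e) a) := by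
          rw [pow_succ]; rfl
        have h2 : ((σ ^ e) ^ n) ((σ ^ e) a) = ((σ ^ e) ^ n) (a * (((σ ^ e) a)⁻¹ * a)⁻¹) := by
          congr 1; group
        have h3 : ((σ ^ e) ^ n) (((σ ^ e) a)⁻¹ * a) = ((σ ^ e) a)⁻¹ * a := by
          rw [← pow_mul]; exact aux_fix σ _ hfix _
        rw [h1, h2, map_mul, map_inv ((σ ^ e) ^ n), h3, pow_succ', ← ih]
        group
    have hpow : (σ ^ d) ^ e = (σ ^ e) ^ d := by rw [← pow_mul, ← pow_mul, mul_comm]
    rw [hpow, key]

end Cfsg.Agent.S2668
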