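import Cfsg.Statements.S2697
import Cfsg.Agent.H6.PSLField

set_option autoImplicit false
open Cfsg

namespace Cfsg.Agent.S2697

open CfsgH6 in
theorem core {A : Type*} [Group A] {D : Subgroup A} (hD : D.Normal) (x x' α : A) (hx : α * x * α⁻¹ = x')
    {r : ℕ} (hr : 0 < r) (hx' : orderOf x = r)
    (key : ∀ g ∈ D, (g * x') ^ r = 1 → ∃ a ∈ D, g * x' = a * x' * a⁻¹) (δ : A) (hδ : δ ∈ D) :
    orderOf (δ * x) = r ↔ Cfsg.IsConjUnder D x (δ * x) := by
  constructor
  · intro h
    have h1 : (α * δ * α⁻¹ * x') ^ r = 1 := by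
      have e1 : α * δ * α⁻¹ * x' = α * (δ * x) * α⁻¹ := by rw [← hx]; group
      rw [e1, conj_pow, ← h, pow_orderOf_eq_one]; group
    obtain ⟨a, ha, h2⟩ := key _ (hD.conj_mem δ hδ α) h1
    refine ⟨α⁻¹ * a * α, by simpa using hD.conj_mem a ha α⁻¹, ?_⟩
    have e2 : δ * x = α⁻¹ * (α * δ * α⁻¹ * x') * α := by rw [← hx]; group
    rw [e2, h2, ← hx]; group
  · rintro ⟨h, hh, h1⟩
    rw [h1]
    have : orderOf (MulAut.conj h x) = orderOf x := orderOf_injective (MulAut.conj h).toMonoidHom (MulAut.conj h).injective x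
    rw [← hx', ← this]; rfl

/-- Let T = PSL_n(F) be simple over a finite field (n ≥ 2; |F| ≥ 4 when n = 2) and let x be a field automorphism or a graph-field automorphism of T of prime order r. Then an element y of the coset Inndiag(T)·x (that is, y = δ x with δ in the inner-diagonal group, the image of PGL_n(F)) has order r if and only if y is conjugate to x by an element of Inndiag(T). -/
theorem result {F : Type*} [Field F] [Fintype F] {p f : ℕ} [Fact p.Prime] (hF : Fintype.card F = p ^ f) (hf : 1 ≤ f) {n : ℕ} (hn : 2 ≤ n) (hs : n = 2 → 4 ≤ Fintype.card F) (x δ : MulAut (Matrix.ProjectiveSpecialLinearGroup (Fin n) F)) (hx : Cfsg.IsFieldAutClassPSL x ∨ Cfsg.IsGraphFieldAutClassPSL x) {r : ℕ} (hr : r.Prime) (hxr : orderOf x = r) (hδ : δ ∈ Cfsg.inndiagPSL n F) :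
    orderOf (δ * x) = r ↔ Cfsg.IsConjUnder (Cfsg.inndiagPSL n F) x (δ * x) := by
  have hfin : Finite F := inferInstance
  rw [CfsgH6.inndiag_eq_DD] at hδ ⊢
  have hN : (CfsgH6.DD n F).Normal := CfsgH6.DD_normal hn
  rcases hx with ⟨α, σ, hσ, h1⟩ | ⟨hn3, α, φ, γ, σ, hσ, hφ, hγ, h1⟩
  · have h2 := (CfsgH6.isStdFieldAutPSL_iff _ _).1 h1
    refine core hN x _ α h2 hr.pos hxr ?_ δ hδ
    rintro _ ⟨g, rfl⟩ hg
    have hord : orderOf σ = r := by
      have e1 : orderOf (CfsgH6.fAut n σ) = orderOf σ := by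
        have hinj : Function.Injective (CfsgH6.fHom n F) := by
          rw [injective_iff_map_eq_one]
          intro τ hτ
          refine (CfsgH6.cAut_fAut_eq_one (g := 1) (σ := τ) hn ?_).2
          rw [map_one, one_mul]; exact hτ
        exact orderOf_injective (CfsgH6.fHom n F) hinj σ
      rw [← e1, ← h2, ← hxr]
      exact orderOf_injective (MulAut.conj α).toMonoidHom (MulAut.conj α).injective x
    obtain ⟨a, ha⟩ := CfsgH6.conj_field hn hord hr.pos g hg
    exact ⟨_, ⟨a, rfl⟩, ha⟩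
  · rw [(CfsgH6.isStdFieldAutPSL_iff _ _).1 hφ, (CfsgH6.isInverseTransposeAutPSL_iff _).1 hγ] at h1
    have hord : orderOf (CfsgH6.fAut n σ * CfsgH6.iT n F) = r := by
      rw [← h1, ← hxr]
      exact orderOf_injective (MulAut.conj α).toMonoidHom (MulAut.conj α).injective x
    -- `r = 2`
    have hpow : ∀ k : ℕ, (CfsgH6.fAut n σ * CfsgH6.iT n F) ^ k = CfsgH6.fAut n (σ ^ k) * (CfsgH6.iT n F) ^ k := by
      intro k
      have hc : Commute (CfsgH6.fAut n σ) (CfsgH6.iT n F) := (CfsgH6.iT_mul_fAut σ).symm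
      rw [hc.mul_pow]
      congr 1
      exact ((CfsgH6.fHom n F).map_pow σ k).symm
    have hrpow := pow_orderOf_eq_one (CfsgH6.fAut n σ * CfsgH6.iT n F)
    rw [hord, hpow] at hrpow
    have hiT2 : (CfsgH6.iT n F) ^ 2 = 1 := by rw [pow_two, CfsgH6.iT_mul_iT]
    have hr2 : r = 2 := by
      rcases hr.eq_two_or_odd' with h | h
      · exact h
      · exfalso
        obtain ⟨k, hk⟩ := h
        have e1 : (CfsgH6.iT n F) ^ r = CfsgH6.iT n F := by
          rw [hk, pow_succ, pow_mul, hiT2, one_pow, one_mul]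
        rw [e1] at hrpow
        apply CfsgH6.cAut_fAut_iT_ne_one hn3 (g := 1) (σ := σ ^ r)
        rw [map_one, one_mul]; exact hrpow
    subst hr2
    have hσ2 : σ ^ 2 = 1 := by
      rw [hiT2, mul_one] at hrpow
      refine (CfsgH6.cAut_fAut_eq_one (g := 1) (σ := σ ^ 2) hn ?_).2
      rw [map_one, one_mul]; exact hrpow
    have hσ' : ∀ y, σ (σ y) = y := by
      intro y
      rw [pow_two] at hσ2
      exact DFunLike.congr_fun hσ2 y
    refine core hN x _ α h1 hr.pos hxr ?_ δ hδ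
    rintro _ ⟨g, rfl⟩ hg
    obtain ⟨a, ha⟩ := CfsgH6.conj_graphField hn hσ' hσ g hg
    exact ⟨_, ⟨a, rfl⟩, ha⟩

end Cfsg.Agent.S2697
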