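import Cfsg.Statements.S2698
import Cfsg.Agent.H6.FixField

set_option autoImplicit false
open Cfsg

namespace Cfsg.Agent.S2698

/-- Let T = PSL_n(F) be simple over the field F with p^f elements (n ≥ 2; p^f ≥ 4 when n = 2), G = Inndiag(T) the image of PGL_n(F) in Aut(T), and x a field automorphism of T of prime order r. Then r divides f; the centralizer C_G(x) is isomorphic to PGL_n(F₀) for the subfield size |F₀| = p^(f/r); and the G-class of x is the union of exactly gcd(n, (p^f − 1)/(p^(f/r) − 1)) classes under conjugation by T (the inner automorphism group). -/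
theorem result {F : Type*} [Field F] [Fintype F] {p f : ℕ} [Fact p.Prime] (hF : Fintype.card F = p ^ f) (hf : 1 ≤ f) {n : ℕ} (hn : 2 ≤ n) (hs : n = 2 → 4 ≤ Fintype.card F) (x : MulAut (Matrix.ProjectiveSpecialLinearGroup (Fin n) F)) (hx : Cfsg.IsFieldAutClassPSL x) {r : ℕ} (hr : r.Prime) (hxr : orderOf x = r) (F₀ : Type*) [Field F₀] [Fintype F₀] (hF₀ : Fintype.card F₀ = p ^ (f / r)) :
    r ∣ f ∧ Nonempty (↥(Cfsg.inndiagPSL n F ⊓ Subgroup.centralizer {x}) ≃* Matrix.ProjGenLinGroup (Fin n) F₀) ∧ Cfsg.splitClassCount (Cfsg.inndiagPSL n F) (Cfsg.Inn (Matrix.ProjectiveSpecialLinearGroup (Fin n) F)) x = Nat.gcd n ((p ^ f - 1) / (p ^ (f / r) - 1)) := by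
  rw [CfsgH6.inndiag_eq_DD]
  have hN : (CfsgH6.DD n F).Normal := CfsgH6.DD_normal hn
  obtain ⟨α, σ, hσ, h1⟩ := hx
  have h2 := (CfsgH6.isStdFieldAutPSL_iff _ _).1 h1
  have h2' : α * x * α⁻¹ = CfsgH6.fAut n σ := h2
  have hord : orderOf σ = r := by
    have e1 : orderOf (CfsgH6.fAut n σ) = orderOf σ := by
      have hinj : Function.Injective (CfsgH6.fHom n F) := by
        rw [injective_iff_map_eq_one]
        intro τ hτ
        refine (CfsgH6.cAut_fAut_eq_one (g := 1) (σ := τ) hn ?_).2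
        rw [map_one, one_mul]; exact hτ
      exact orderOf_injective (CfsgH6.fHom n F) hinj σ
    rw [← e1, ← h2, ← hxr]
    exact orderOf_injective (MulAut.conj α).toMonoidHom (MulAut.conj α).injective x
  refine ⟨(CfsgH6.card_fixF hF hord hr.pos).1, ?_, ?_⟩
  · obtain ⟨j, hj⟩ := CfsgH6.exists_emb hF hord hr.pos F₀ hF₀
    obtain ⟨e1⟩ := CfsgH6.cent_conj (CfsgH6.DD n F) hN x α
    rw [h2'] at e1
    obtain ⟨e2⟩ := CfsgH6.cent_field_iso hn hord hr.pos j hj
    exact ⟨e1.trans e2⟩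
  · rw [← CfsgH6.splitClassCount_conj _ _ x α, h2', CfsgH6.splitCount_PSL hn,
      CfsgH6.det_cent_field hn hord hr.pos, CfsgH6.index_sup_cyclic, IsCyclic.index_powMonoidHom_range,
      CfsgH6.index_fixU hF hord hr.pos, Nat.card_units, Nat.card_eq_fintype_card, hF]
    have hdvd : (p ^ f - 1) / (p ^ (f / r) - 1) ∣ p ^ f - 1 := by
      apply Nat.div_dvd_of_dvd
      have h3 := (CfsgH6.card_fixF hF hord hr.pos).1
      obtain ⟨k, hk⟩ := h3
      have h4 : f / r = k := by rw [hk, Nat.mul_div_cancel_left _ hr.pos]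
      rw [h4, hk, mul_comm, pow_mul]
      simpa using Nat.sub_dvd_pow_sub_pow (p ^ k) 1 r
    rw [← Nat.gcd_assoc, Nat.gcd_eq_left hdvd, Nat.gcd_comm]

end Cfsg.Agent.S2698
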