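import Cfsg.Statements.S2704
import Cfsg.Agent.H6.PSLUnit

set_option autoImplicit false
open Cfsg

namespace Cfsg.Agent.S2704

open CfsgH6 in
theorem std_form {F : Type*} [Field F] [Fintype F] {n : ℕ} (hn : 3 ≤ n)
    (x : MulAut (Matrix.ProjectiveSpecialLinearGroup (Fin n) F)) (hx : Cfsg.IsGraphFieldAutClassPSL x)
    (hx2 : orderOf x = 2) : ∃ (α : MulAut (Matrix.ProjectiveSpecialLinearGroup (Fin n) F)) (σ : F ≃+* F),
      orderOf σ = 2 ∧ σ ≠ RingEquiv.refl F ∧ (∀ y, σ (σ y) = y) ∧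
        α * x * α⁻¹ = CfsgH6.fAut n σ * CfsgH6.iT n F := by
  obtain ⟨hn3, α, φ, γ, σ, hσ, hφ, hγ, h1⟩ := hx
  rw [(CfsgH6.isStdFieldAutPSL_iff _ _).1 hφ, (CfsgH6.isInverseTransposeAutPSL_iff _).1 hγ] at h1
  have hord : orderOf (CfsgH6.fAut n σ * CfsgH6.iT n F) = 2 := by
    rw [← h1, ← hx2]
    exact orderOf_injective (MulAut.conj α).toMonoidHom (MulAut.conj α).injective x
  have hpow : ∀ k : ℕ, (CfsgH6.fAut n σ * CfsgH6.iT n F) ^ k = CfsgH6.fAut n (σ ^ k) * (CfsgH6.iT n F) ^ k := by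
    intro k
    have hc : Commute (CfsgH6.fAut n σ) (CfsgH6.iT n F) := (CfsgH6.iT_mul_fAut σ).symm
    rw [hc.mul_pow]
    congr 1
    exact ((CfsgH6.fHom n F).map_pow σ k).symm
  have hrpow := pow_orderOf_eq_one (CfsgH6.fAut n σ * CfsgH6.iT n F)
  rw [hord, hpow] at hrpow
  have hiT2 : (CfsgH6.iT n F) ^ 2 = 1 := by rw [pow_two, CfsgH6.iT_mul_iT]
  have hσ2 : σ ^ 2 = 1 := by
    rw [hiT2, mul_one] at hrpow
    refine (CfsgH6.cAut_fAut_eq_one (m := n) (g := 1) (σ := σ ^ 2) (by omega) ?_).2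
    rw [map_one, one_mul]; exact hrpow
  have hσ' : ∀ y, σ (σ y) = y := by
    intro y
    rw [pow_two] at hσ2
    exact DFunLike.congr_fun hσ2 y
  exact ⟨α, σ, CfsgH6.orderOf_eq_two_of hσ' hσ, hσ, hσ', h1⟩

/-- Let T = PSL_n(F) over the field F with p^f elements, n ≥ 3, and G = Inndiag(T) the image of PGL_n(F). If x is an involutory graph-field automorphism of T then f is even; x is G-conjugate to every other involutory graph-field automorphism; C_G(x) is isomorphic to the projective general unitary group PGU_n(q₀) with q₀² = p^f, realised over F itself through the Hermitian form Σ uᵢ vᵢ^{q₀}; and the G-class of x is the union of exactly gcd(n, q₀ − 1) T-classes. -/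
theorem result {F : Type*} [Field F] [Fintype F] {p f : ℕ} [Fact p.Prime] (hF : Fintype.card F = p ^ f) (hf : 1 ≤ f) {n : ℕ} (hn : 3 ≤ n) (x : MulAut (Matrix.ProjectiveSpecialLinearGroup (Fin n) F)) (hx : Cfsg.IsGraphFieldAutClassPSL x) (hx2 : orderOf x = 2) :
    Even f ∧ (∀ y : MulAut (Matrix.ProjectiveSpecialLinearGroup (Fin n) F), Cfsg.IsGraphFieldAutClassPSL y → orderOf y = 2 → Cfsg.IsConjUnder (Cfsg.inndiagPSL n F) x y) ∧ Nonempty (↥(Cfsg.inndiagPSL n F ⊓ Subgroup.centralizer {x}) ≃* Cfsg.PGU n F (p ^ (f / 2))) ∧ Cfsg.splitClassCount (Cfsg.inndiagPSL n F) (Cfsg.Inn (Matrix.ProjectiveSpecialLinearGroup (Fin n) F)) x = Nat.gcd n (p ^ (f / 2) - 1) := by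
  rw [CfsgH6.inndiag_eq_DD]
  have hN : (CfsgH6.DD n F).Normal := CfsgH6.DD_normal (by omega)
  obtain ⟨α, σ, hord, hne, hσ, h1⟩ := std_form hn x hx hx2
  have hpow := CfsgH6.sigma_eq_pow hF hord
  refine ⟨even_iff_two_dvd.2 (CfsgH6.card_fixF hF hord (by norm_num)).1, ?_, ?_, ?_⟩
  · intro y hy hy2
    obtain ⟨α', σ', hord', hne', hσ', h1'⟩ := std_form hn y hy hy2
    have hσσ : σ' = σ := by
      ext a
      rw [hpow, CfsgH6.sigma_eq_pow hF hord']
    subst hσσ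
    obtain ⟨a, ha, h2⟩ := CfsgH6.gf_conj_DD (m := n) (by omega) hF hord α⁻¹
    obtain ⟨b, hb, h3⟩ := CfsgH6.gf_conj_DD (m := n) (by omega) hF hord α'⁻¹
    have hx' : x = a * (CfsgH6.fAut n σ' * CfsgH6.iT n F) * a⁻¹ := by
      rw [← h2, ← h1]; group
    have hy' : y = b * (CfsgH6.fAut n σ' * CfsgH6.iT n F) * b⁻¹ := by
      rw [← h3, ← h1']; group
    refine ⟨b * a⁻¹, Subgroup.mul_mem _ hb (Subgroup.inv_mem _ ha), ?_⟩
    rw [hy', hx']; group
  · obtain ⟨e1⟩ := CfsgH6.cent_conj (CfsgH6.DD n F) hN x α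
    rw [h1] at e1
    obtain ⟨e2⟩ := CfsgH6.cent_gf_iso (m := n) (by omega) hσ hne hpow
    exact ⟨e1.trans e2⟩
  · rw [← CfsgH6.splitClassCount_conj _ _ x α, h1, CfsgH6.splitCount_PSL (by omega),
      CfsgH6.det_cent_gf (by omega) hσ hne, CfsgH6.index_sup_cyclic, IsCyclic.index_powMonoidHom_range,
      CfsgH6.index_nU hF hord, Nat.card_units, Nat.card_eq_fintype_card, hF]
    have hdvd : p ^ (f / 2) - 1 ∣ p ^ f - 1 := by
      obtain ⟨k, hk⟩ := (CfsgH6.card_fixF hF hord (by norm_num)).1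
      have h4 : f / 2 = k := by rw [hk, Nat.mul_div_cancel_left _ (by norm_num)]
      rw [h4, hk, mul_comm, pow_mul]
      simpa using Nat.sub_dvd_pow_sub_pow (p ^ k) 1 2
    rw [← Nat.gcd_assoc, Nat.gcd_eq_left hdvd, Nat.gcd_comm]

end Cfsg.Agent.S2704
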