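import Cfsg.Statements.S2712
import Cfsg.Agent.H6.PSpC

set_option autoImplicit false
open Cfsg

namespace Cfsg.Agent.S2712

/-- Let T = PSp_{2m}(F) be simple over the field F with p^f elements (m ≥ 2, (2m, |F|) ≠ (4, 2)), G = Inndiag(T) the image of the projective conformal symplectic group PGSp_{2m}(F), and x a field automorphism of T of prime order r. Then r divides f; C_G(x) is isomorphic to PGSp_{2m}(F₀) for a field F₀ with p^(f/r) elements; and the G-class of x is the union of exactly gcd(gcd(2, p^f − 1), r) T-classes. -/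
theorem result {F : Type*} [Field F] [Fintype F] {p f : ℕ} [Fact p.Prime] (hF : Fintype.card F = p ^ f) (hf : 1 ≤ f) {m : ℕ} (hm : 2 ≤ m) (hs : m = 2 → 3 ≤ Fintype.card F) (x : MulAut (Cfsg.PSp m F)) (hx : Cfsg.IsFieldAutClassPSp x) {r : ℕ} (hr : r.Prime) (hxr : orderOf x = r) (F₀ : Type*) [Field F₀] [Fintype F₀] (hF₀ : Fintype.card F₀ = p ^ (f / r)) :
    r ∣ f ∧ Nonempty (↥(Cfsg.inndiagPSp m F ⊓ Subgroup.centralizer {x}) ≃* Cfsg.PGSp m F₀) ∧ Cfsg.splitClassCount (Cfsg.inndiagPSp m F) (Cfsg.Inn (Cfsg.PSp m F)) x = Nat.gcd (Nat.gcd 2 (p ^ f - 1)) r := by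
  have hm0 : 0 < m := by omega
  have hfin : Finite F := inferInstance
  have hcp : CharP F p := CfsgH6.charP_of_card hF hf
  obtain ⟨α, σ, h2, hord⟩ := CfsgH6.sp_field_std hm0 (p := p) hx hxr
  have hN : ((CfsgH6.spC (F := F) hm0).range).Normal := CfsgH6.inndiagPSp_normal hm (p := p)
  rw [CfsgH6.inndiagPSp_eq hm0]
  have : Nonempty (Fin m ⊕ Fin m) := ⟨.inl ⟨0, hm0⟩⟩
  refine ⟨(CfsgH6.card_fixF hF hord hr.pos).1, ?_, ?_⟩
  · obtain ⟨j, hj⟩ := CfsgH6.exists_emb hF hord hr.pos F₀ hF₀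
    obtain ⟨e1⟩ := CfsgH6.cent_conj (CfsgH6.spC (F := F) hm0).range hN x α
    rw [h2] at e1
    have hrep := CfsgH6.sp_srep (F := F) hm0 (p := p) hord hr.pos
    obtain ⟨Φ, hΦ1, hΦ2⟩ := hrep.cent_iso j hj (Cfsg.GSp m F₀) (CfsgH6.GSp_map_iff hm0 j hj)
    rw [← hΦ1] at e1
    obtain ⟨e2⟩ := CfsgH6.projQuot_iso Φ hΦ2
    exact ⟨e1.trans e2⟩
  · have hInn : (Cfsg.Inn (Cfsg.PSp m F)).Normal := inferInstance
    rw [← CfsgH6.splitClassCount_conj _ _ x α, h2,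
      CfsgH6.splitClassCount_eq (CfsgH6.spC (F := F) hm0) (CfsgH6.spθ hm0) (CfsgH6.spθ_surj hm0) _ (CfsgH6.Inn_le_sp hm0) _
        (CfsgH6.spC_Inn hm0 (p := p)), CfsgH6.spθ_cent hm0 (p := p) hord hr.pos, CfsgH6.index_sup_cyclic,
      IsCyclic.index_powMonoidHom_range, CfsgH6.index_fixU hF hord hr.pos, Nat.card_units, Nat.card_eq_fintype_card, hF]
    obtain ⟨k, hk⟩ := (CfsgH6.card_fixF hF hord hr.pos).1
    have h4 : f / r = k := by rw [hk, Nat.mul_div_cancel_left _ hr.pos]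
    rw [h4, hk, mul_comm r k, pow_mul]
    apply CfsgH6.gcd_geom
    have hp2 : 2 ≤ p := (Fact.out : p.Prime).two_le
    have hk0 : k ≠ 0 := by rintro rfl; omega
    calc 2 ≤ p := hp2
      _ = p ^ 1 := (pow_one p).symm
      _ ≤ p ^ k := Nat.pow_le_pow_right (by omega) (by omega)

end Cfsg.Agent.S2712
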