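import Mathlib
import Cfsg.Agent.H9.IwaSL
import Cfsg.Statements.S2738

set_option autoImplicit false
open Cfsg

namespace Cfsg.Agent.S2738

/-- The special linear group SL(3, 4) has centre of order 3 and does not split over it: no subgroup is a complement to the centre (so SL(3, 4) is a non-split central extension of PSL(3, 4) by a group of order 3). -/
theorem result (F : Type*) [Field F] [Fintype F] (hF : Fintype.card F = 4) : Nat.card ↥(Subgroup.center (Matrix.SpecialLinearGroup (Fin 3) F)) = 3 ∧ ¬ ∃ K : Subgroup (Matrix.SpecialLinearGroup (Fin 3) F), Subgroup.IsComplement' (Subgroup.center (Matrix.SpecialLinearGroup (Fin 3) F)) K := by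
  have h2 : Nat.card (Subgroup.center (Matrix.SpecialLinearGroup (Fin 3) F)) = 3 := by
    rw [Nat.card_congr (Matrix.SpecialLinearGroup.center_equiv_rootsOfUnity' (R := F) (0 : Fin 3)).toEquiv, Fintype.card_fin]
    have h3 : Nat.card (rootsOfUnity 3 F) = Nat.card (powMonoidHom 3 : Fˣ →* Fˣ).ker := by
      congr 1
    rw [h3, IsCyclic.card_powMonoidHom_ker, Nat.card_units, Nat.card_eq_fintype_card, hF]
    norm_num
  refine ⟨h2, ?_⟩
  rintro ⟨K, hK⟩
  have hperf : commutator (Matrix.SpecialLinearGroup (Fin 3) F) = ⊤ := by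
    classical
    apply CfsgH9.IwaSL.SL_perfect
    decide
  have hdec : ∀ g : Matrix.SpecialLinearGroup (Fin 3) F, ∃ z ∈ Subgroup.center (Matrix.SpecialLinearGroup (Fin 3) F), ∃ k ∈ K, g = z * k := by
    intro g
    obtain ⟨⟨z, k⟩, h⟩ := hK.2 g
    exact ⟨z, z.2, k, k.2, h.symm⟩
  have hcomm : commutator (Matrix.SpecialLinearGroup (Fin 3) F) ≤ K := by
    rw [commutator_def, Subgroup.commutator_le]
    intro a _ b _
    obtain ⟨z, hz, k, hk, rfl⟩ := hdec a
    obtain ⟨y, hy, l, hl, rfl⟩ := hdec b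
    have e1 : z * k * (y * l) * (z * k)⁻¹ * (y * l)⁻¹ = k * l * k⁻¹ * l⁻¹ := by
      have c1 := Subgroup.mem_center_iff.1 hz
      have c2 := Subgroup.mem_center_iff.1 hy
      have d1 : z⁻¹ ∈ Subgroup.center (Matrix.SpecialLinearGroup (Fin 3) F) := Subgroup.inv_mem _ hz
      calc z * k * (y * l) * (z * k)⁻¹ * (y * l)⁻¹ = z * (k * y) * l * k⁻¹ * z⁻¹ * l⁻¹ * y⁻¹ := by group
        _ = z * (y * k) * l * k⁻¹ * z⁻¹ * l⁻¹ * y⁻¹ := by rw [c2 k]
        _ = z * ((y * k * l * k⁻¹) * z⁻¹) * l⁻¹ * y⁻¹ := by group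
        _ = z * (z⁻¹ * (y * k * l * k⁻¹)) * l⁻¹ * y⁻¹ := by rw [Subgroup.mem_center_iff.1 d1]
        _ = y * (k * l * k⁻¹ * l⁻¹) * y⁻¹ := by group
        _ = (k * l * k⁻¹ * l⁻¹) * y * y⁻¹ := by rw [c2 (k * l * k⁻¹ * l⁻¹)]
        _ = k * l * k⁻¹ * l⁻¹ := by group
    rw [commutatorElement_def]
    rw [e1]
    exact K.mul_mem (K.mul_mem (K.mul_mem hk hl) (K.inv_mem hk)) (K.inv_mem hl)
  rw [hperf, top_le_iff] at hcomm
  subst hcomm
  have h3 := hK.disjoint
  rw [disjoint_top] at h3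
  rw [h3, Subgroup.card_bot] at h2
  omega

end Cfsg.Agent.S2738
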