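import Mathlib
import Cfsg.Agent.H7.Syl
import Cfsg.Agent.H3.PBasic
import Cfsg.Agent.H1.Basic
import Cfsg.Agent.H9.Dih
import Cfsg.Statements.S2758

set_option autoImplicit false
open Cfsg

namespace Cfsg.Agent.S2758

theorem inv_of_norm {G : Type*} [Group G] [Finite G] {p : ℕ} [Fact p.Prime] (hp : p ≠ 2) {x : G} {P : Subgroup G}
    (hx : ∃ k : ℕ, orderOf x = 2 ^ k) (hP : IsPGroup p ↥P) (hxn : x ∈ Subgroup.normalizer (P : Set G))
    (hxc : x ∉ Subgroup.centralizer (P : Set G)) :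
    ∃ x y : G, (∃ k : ℕ, orderOf x = 2 ^ k) ∧ (∃ k : ℕ, orderOf y = p ^ k) ∧ y ≠ 1 ∧ x * y * x⁻¹ = y⁻¹ := by
  classical
  obtain ⟨k, hk⟩ := hx
  have hex : ∃ i : ℕ, x ^ 2 ^ i ∈ Subgroup.centralizer (P : Set G) := ⟨k, by rw [← hk, pow_orderOf_eq_one]; exact Subgroup.one_mem _⟩
  set i := Nat.find hex with hi
  have hi1 : x ^ 2 ^ i ∈ Subgroup.centralizer (P : Set G) := Nat.find_spec hex
  have hi0 : i ≠ 0 := by
    intro h
    rw [h, pow_zero, pow_one] at hi1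
    exact hxc hi1
  obtain ⟨j, hj⟩ := Nat.exists_eq_succ_of_ne_zero hi0
  have hj1 : x ^ 2 ^ j ∉ Subgroup.centralizer (P : Set G) := Nat.find_min hex (by omega)
  set t := x ^ 2 ^ j with ht
  have htt : t * t ∈ Subgroup.centralizer (P : Set G) := by
    have : t * t = x ^ 2 ^ i := by rw [ht, ← pow_add, hj, ← two_mul, pow_succ, mul_comm]
    rw [this]; exact hi1
  have htn : t ∈ Subgroup.normalizer (P : Set G) := Subgroup.pow_mem _ hxn _
  obtain ⟨u, huP, hu⟩ : ∃ u ∈ P, t * u ≠ u * t := by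
    by_contra hcon
    push Not at hcon
    exact hj1 (Subgroup.mem_centralizer_iff.2 fun u hu => (hcon u hu).symm)
  have hvP : t * u * t⁻¹ ∈ P := (Subgroup.mem_normalizer_iff.1 htn u).1 huP
  refine ⟨t, u⁻¹ * (t * u * t⁻¹), ?_, ?_, ?_, ?_⟩
  · have h1 : orderOf t ∣ 2 ^ k := by rw [← hk]; exact orderOf_pow_dvd _
    obtain ⟨l, -, hl⟩ := (Nat.dvd_prime_pow Nat.prime_two).1 h1
    exact ⟨l, hl⟩
  · obtain ⟨l, hl⟩ := IsPGroup.iff_orderOf.1 hP ⟨u⁻¹ * (t * u * t⁻¹), P.mul_mem (P.inv_mem huP) hvP⟩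
    rw [Subgroup.orderOf_mk] at hl
    exact ⟨l, hl⟩
  · intro h
    apply hu
    have h1 : t * u * t⁻¹ = u := (inv_mul_eq_one.1 h).symm
    exact mul_inv_eq_iff_eq_mul.1 h1
  · have h1 : t * t * u = u * (t * t) := ((Subgroup.mem_centralizer_iff.1 htt) u huP).symm
    calc t * (u⁻¹ * (t * u * t⁻¹)) * t⁻¹ = (t * u * t⁻¹)⁻¹ * (t * t * u) * (t⁻¹ * t⁻¹) := by group
      _ = (t * u * t⁻¹)⁻¹ * (u * (t * t)) * (t⁻¹ * t⁻¹) := by rw [h1]
      _ = (u⁻¹ * (t * u * t⁻¹))⁻¹ := by group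

theorem involves_of_inv {G : Type*} [Group G] [Finite G] {p : ℕ} [Fact p.Prime] (hp : p ≠ 2) {x y : G}
    (hx : ∃ k : ℕ, orderOf x = 2 ^ k) (hy : ∃ k : ℕ, orderOf y = p ^ k) (hy1 : y ≠ 1) (hxy : x * y * x⁻¹ = y⁻¹) :
    Cfsg.Involves (DihedralGroup p) G := by
  classical
  obtain ⟨k, hk⟩ := hx
  obtain ⟨m, hm⟩ := hy
  have hm0 : m ≠ 0 := by
    rintro rfl
    rw [pow_zero] at hm
    exact hy1 (orderOf_eq_one_iff.1 hm)
  obtain ⟨m, rfl⟩ := Nat.exists_eq_succ_of_ne_zero hm0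
  set c := y ^ p ^ m with hc
  have hcp : orderOf c = p := by
    rw [hc, orderOf_pow_of_dvd (pow_ne_zero _ (Fact.out : p.Prime).ne_zero) (by rw [hm]; exact pow_dvd_pow _ (Nat.le_succ m)), hm,
      Nat.pow_div (Nat.le_succ m) (Fact.out : p.Prime).pos]
    simp
  have hxc : x * c * x⁻¹ = c⁻¹ := by
    rw [hc, ← conj_pow, hxy, inv_pow]
  have hc1 : c ≠ 1 := by
    intro h; rw [h, orderOf_one] at hcp; exact (Fact.out : p.Prime).one_lt.ne hcp
  have hpodd : Odd p := (Fact.out : p.Prime).odd_of_ne_two hp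
  have hccne : c⁻¹ ≠ c := by
    intro h
    have h2 : c ^ 2 = 1 := by rw [pow_two]; nth_rewrite 1 [← h]; exact inv_mul_cancel c
    have h3 := orderOf_dvd_of_pow_eq_one h2
    rw [hcp] at h3
    exact hp ((Nat.prime_dvd_prime_iff_eq Fact.out Nat.prime_two).1 h3)
  have hk0 : k ≠ 0 := by
    rintro rfl
    rw [pow_zero] at hk
    rw [orderOf_eq_one_iff.1 hk, one_mul, inv_one, mul_one] at hxc
    exact hccne hxc.symm
  obtain ⟨k, rfl⟩ := Nat.exists_eq_succ_of_ne_zero hk0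
  set C := Subgroup.zpowers c with hC
  set D := Subgroup.zpowers x with hD
  have hDn : D ≤ Subgroup.normalizer (C : Set G) := by
    rw [hD, Subgroup.zpowers_le, CfsgH7.mem_normalizer_iff_cj]
    apply Subgroup.eq_of_le_of_card_ge _ (CfsgH7.card_cj ..).ge
    intro z hz
    rw [CfsgH7.mem_cj] at hz
    obtain ⟨n, hn⟩ := Subgroup.mem_zpowers_iff.1 hz
    have h1 : z = x * c ^ n * x⁻¹ := by rw [hn]; group
    rw [h1, ← conj_zpow, hxc]
    exact Subgroup.zpow_mem _ (Subgroup.inv_mem _ (Subgroup.mem_zpowers c)) _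
  have hinf : D ⊓ C = ⊥ := by
    apply Subgroup.inf_eq_bot_of_coprime
    rw [hD, hC, Nat.card_zpowers, Nat.card_zpowers, hk, hcp]
    exact Nat.Coprime.pow_left _ ((Nat.coprime_primes Nat.prime_two Fact.out).2 (Ne.symm hp))
  have hcardDC : Nat.card ↥(D ⊔ C) = 2 ^ (k + 1) * p := by
    have h1 := CfsgH1.card_sup_mul_card_inf hDn
    rw [hinf, Subgroup.card_bot, mul_one] at h1
    rw [h1, hD, hC, Nat.card_zpowers, Nat.card_zpowers, hk, hcp]
  set R := Subgroup.zpowers (x ^ 2) with hR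
  have hRD : R ≤ D := by rw [hR, Subgroup.zpowers_le]; exact Subgroup.pow_mem _ (Subgroup.mem_zpowers x) 2
  have hcomm2 : Commute (x ^ 2) c := by
    have h1 : x ^ 2 * c * (x ^ 2)⁻¹ = c := by
      calc x ^ 2 * c * (x ^ 2)⁻¹ = x * (x * c * x⁻¹) * x⁻¹ := by rw [pow_two]; group
        _ = x * c⁻¹ * x⁻¹ := by rw [hxc]
        _ = (x * c * x⁻¹)⁻¹ := by group
        _ = c := by rw [hxc, inv_inv]
    exact mul_inv_eq_iff_eq_mul.1 h1
  have hRc : D ⊔ C ≤ Subgroup.centralizer (R : Set G) := by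
    rw [Subgroup.le_centralizer_iff, hR, Subgroup.zpowers_le, Subgroup.mem_centralizer_iff]
    intro z hz
    have h1 : D ⊔ C ≤ Subgroup.centralizer ({x ^ 2} : Set G) := by
      refine sup_le ?_ ?_
      · rw [hD, Subgroup.zpowers_le, Subgroup.mem_centralizer_singleton_iff]
        exact (Commute.refl x).pow_right 2
      · rw [hC, Subgroup.zpowers_le, Subgroup.mem_centralizer_singleton_iff]
        exact hcomm2.symm
    exact Subgroup.mem_centralizer_singleton_iff.1 (h1 hz)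
  have hnorm : (R.subgroupOf (D ⊔ C)).Normal := by
    refine ⟨fun a ha g => ?_⟩
    have h1 : (a : G) ∈ R := ha
    have h2 := (Subgroup.mem_centralizer_iff.1 (hRc g.2)) a h1
    have h3 : g * a * g⁻¹ = a := by
      apply Subtype.ext
      rw [Subgroup.coe_mul, Subgroup.coe_mul, Subgroup.coe_inv, mul_inv_eq_iff_eq_mul]
      exact h2.symm
    rw [h3]; exact ha
  have hxm : x ∈ D ⊔ C := (le_sup_left : D ≤ D ⊔ C) (Subgroup.mem_zpowers x)
  have hcm : c ∈ D ⊔ C := (le_sup_right : C ≤ D ⊔ C) (Subgroup.mem_zpowers c)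
  refine ⟨D ⊔ C, R, hnorm, ?_⟩
  have hcardR : Nat.card ↥(R.subgroupOf (D ⊔ C)) = 2 ^ k := by
    rw [Nat.card_congr (Subgroup.subgroupOfEquivOfLe (hRD.trans le_sup_left)).toEquiv, hR, Nat.card_zpowers,
      orderOf_pow_of_dvd two_ne_zero (by rw [hk]; exact dvd_pow_self 2 (Nat.succ_ne_zero k)), hk, pow_succ]
    simp
  have hcardQ : Nat.card (↥(D ⊔ C) ⧸ R.subgroupOf (D ⊔ C)) = 2 * p := by
    have h1 := Subgroup.card_eq_card_quotient_mul_card_subgroup (R.subgroupOf (D ⊔ C))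
    rw [hcardR, hcardDC] at h1
    have h2 : 2 * p * 2 ^ k = Nat.card (↥(D ⊔ C) ⧸ R.subgroupOf (D ⊔ C)) * 2 ^ k := by rw [← h1]; ring
    exact (Nat.eq_of_mul_eq_mul_right (by positivity) h2).symm
  haveI : NeZero p := ⟨(Fact.out : p.Prime).ne_zero⟩
  have hx2 : ((⟨x, hxm⟩ : ↥(D ⊔ C)) : ↥(D ⊔ C) ⧸ R.subgroupOf (D ⊔ C)) * ((⟨x, hxm⟩ : ↥(D ⊔ C)) : ↥(D ⊔ C) ⧸ R.subgroupOf (D ⊔ C)) = 1 := by
    rw [← QuotientGroup.mk_mul, QuotientGroup.eq_one_iff]
    change x * x ∈ R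
    rw [← pow_two]; exact Subgroup.mem_zpowers _
  refine CfsgH9.Dih.dihedral_of (n := p) (c := ((⟨c, hcm⟩ : ↥(D ⊔ C)) : ↥(D ⊔ C) ⧸ R.subgroupOf (D ⊔ C))) (w := ((⟨x, hxm⟩ : ↥(D ⊔ C)) : ↥(D ⊔ C) ⧸ R.subgroupOf (D ⊔ C))) ?_ hx2 ?_ hcardQ ?_
  · rw [← QuotientGroup.mk_pow, QuotientGroup.eq_one_iff]
    change c ^ p ∈ R
    rw [← hcp, pow_orderOf_eq_one]; exact R.one_mem
  · have h1 : ((⟨x, hxm⟩ : ↥(D ⊔ C)) : ↥(D ⊔ C) ⧸ R.subgroupOf (D ⊔ C)) = ((⟨x, hxm⟩ : ↥(D ⊔ C)) : ↥(D ⊔ C) ⧸ R.subgroupOf (D ⊔ C))⁻¹ := eq_inv_of_mul_eq_one_left hx2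
    nth_rewrite 2 [h1]
    rw [← QuotientGroup.mk_mul, ← QuotientGroup.mk_inv, ← QuotientGroup.mk_mul, ← QuotientGroup.mk_inv]
    congr 1
    exact Subtype.ext hxc
  · intro h
    obtain ⟨⟨h, hh⟩, rfl⟩ := QuotientGroup.mk_surjective h
    have hh' : h ∈ D ⊔ C := hh
    rw [← SetLike.mem_coe, Subgroup.coe_mul_of_left_le_normalizer_right _ _ hDn] at hh'
    obtain ⟨d, hd, e, he, hde⟩ := Set.mem_mul.1 hh'
    rw [SetLike.mem_coe] at hd he
    obtain ⟨i, rfl⟩ := (mem_zpowers_iff_mem_range_orderOf.1 hd |> fun t => (by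
      obtain ⟨i, -, hi⟩ := Finset.mem_image.1 t; exact ⟨i, hi⟩ : ∃ i : ℕ, x ^ i = d))
    obtain ⟨j, rfl⟩ := (mem_zpowers_iff_mem_range_orderOf.1 he |> fun t => (by
      obtain ⟨i, -, hi⟩ := Finset.mem_image.1 t; exact ⟨i, hi⟩ : ∃ i : ℕ, c ^ i = e))
    have e1 : ((⟨h, hh⟩ : ↥(D ⊔ C)) : ↥(D ⊔ C) ⧸ R.subgroupOf (D ⊔ C)) = ((⟨x, hxm⟩ : ↥(D ⊔ C)) : ↥(D ⊔ C) ⧸ R.subgroupOf (D ⊔ C)) ^ i * ((⟨c, hcm⟩ : ↥(D ⊔ C)) : ↥(D ⊔ C) ⧸ R.subgroupOf (D ⊔ C)) ^ j := by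
      rw [← QuotientGroup.mk_pow, ← QuotientGroup.mk_pow, ← QuotientGroup.mk_mul]
      congr 1
      exact Subtype.ext hde.symm
    rw [e1]
    rcases Nat.even_or_odd' i with ⟨r, hr | hr⟩
    · left
      refine ⟨j, ?_⟩
      rw [hr, pow_mul, pow_two, hx2, one_pow, one_mul]
    · right
      refine ⟨j, ?_⟩
      rw [hr, pow_succ, pow_mul, pow_two, hx2, one_pow, one_mul]

theorem norm_of_involves {G : Type*} [Group G] [Finite G] {p : ℕ} [Fact p.Prime] (hp : p ≠ 2)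
    (h : Cfsg.Involves (DihedralGroup p) G) :
    ∃ (x : G) (P : Subgroup G), (∃ k : ℕ, orderOf x = 2 ^ k) ∧ IsPGroup p ↥P ∧ x ∈ Subgroup.normalizer (P : Set G) ∧ x ∉ Subgroup.centralizer (P : Set G) := by
  classical
  obtain ⟨K, R, hR, ⟨e⟩⟩ := h
  haveI : NeZero p := ⟨(Fact.out : p.Prime).ne_zero⟩
  let φ : K →* DihedralGroup p := e.toMonoidHom.comp (QuotientGroup.mk' (R.subgroupOf K))
  have hφ : Function.Surjective φ := e.surjective.comp (QuotientGroup.mk'_surjective _)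
  let rot : Subgroup (DihedralGroup p) := Subgroup.zpowers (DihedralGroup.r 1)
  have hrot : ∀ d : DihedralGroup p, d ∈ rot ↔ ∃ i, d = DihedralGroup.r i := by
    intro d
    constructor
    · intro h
      obtain ⟨n, rfl⟩ := Subgroup.mem_zpowers_iff.1 h
      exact ⟨n, by rw [DihedralGroup.r_one_zpow]⟩
    · rintro ⟨i, rfl⟩
      refine Subgroup.mem_zpowers_iff.2 ⟨(i.val : ℤ), ?_⟩
      rw [zpow_natCast, DihedralGroup.r_one_pow, ZMod.natCast_zmod_val]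
  let N : Subgroup K := rot.comap φ
  obtain ⟨P, hP⟩ := CfsgH7.exists_isSyl p N
  have hrotn : rot.Normal := by
    refine ⟨fun a ha g => ?_⟩
    obtain ⟨i, rfl⟩ := (hrot a).1 ha
    rw [hrot]
    rcases g with j | j
    · exact ⟨j + i - j, by rw [DihedralGroup.inv_r, DihedralGroup.r_mul_r, DihedralGroup.r_mul_r, sub_eq_add_neg]⟩
    · exact ⟨j - (j + i), by rw [DihedralGroup.inv_sr, DihedralGroup.sr_mul_r, DihedralGroup.sr_mul_sr]⟩
  haveI : N.Normal := hrotn.comap φ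
  obtain ⟨x, hx⟩ := hφ (DihedralGroup.sr 0)
  obtain ⟨n, hn, y, hy, hxy⟩ := hP.frattini le_top (by rw [Subgroup.normalizer_eq_top]) (Subgroup.mem_top x)
  have hyN := hy.2
  obtain ⟨i, hi⟩ := (hrot _).1 (show φ n ∈ rot from hn)
  have hφy : ∃ j, φ y = DihedralGroup.sr j := by
    have h1 : φ y = (φ n)⁻¹ * φ x := by rw [hxy, map_mul]; group
    rw [h1, hi, hx, DihedralGroup.inv_r, DihedralGroup.r_mul_sr]
    exact ⟨_, rfl⟩
  obtain ⟨j, hj⟩ := hφy
  obtain ⟨a, ha, b, hb, hab, haodd, k, hbk⟩ := CfsgH3.exists_pPart (p := 2) y (orderOf_pos y).ne'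
  -- b is the 2-part, a odd part
  have hφa : φ a = 1 := by
    obtain ⟨n, rfl⟩ := Subgroup.mem_zpowers_iff.1 ha
    have h1 : φ (y ^ n) ^ 2 = 1 := by
      rw [← map_pow, ← zpow_natCast, ← zpow_mul, mul_comm, zpow_mul, map_zpow, zpow_natCast, map_pow, hj, pow_two, DihedralGroup.sr_mul_self, one_zpow]
    have h2 : φ (y ^ n) ^ (orderOf (y ^ n)) = 1 := by rw [← map_pow, pow_orderOf_eq_one, map_one]
    have h3 := Nat.dvd_gcd (orderOf_dvd_of_pow_eq_one h1) (orderOf_dvd_of_pow_eq_one h2)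
    rw [Nat.Coprime.symm haodd] at h3
    exact orderOf_eq_one_iff.1 (Nat.dvd_one.1 h3)
  have hφb : φ b = DihedralGroup.sr j := by rw [← hj, hab, map_mul, hφa, one_mul]
  have hbN : b ∈ Subgroup.normalizer (P : Set K) := (Subgroup.zpowers_le.2 hyN) hb
  -- φ P ≠ 1
  obtain ⟨u, huP, hu⟩ : ∃ u ∈ P, φ u ≠ 1 := by
    by_contra hcon
    push Not at hcon
    have h1 : P ≤ φ.ker := fun u hu => hcon u hu
    apply hP.not_dvd
    have h2 : φ.ker ≤ N := fun u hu => by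
      change φ u ∈ rot
      rw [MonoidHom.mem_ker.1 hu]; exact rot.one_mem
    rw [← Subgroup.relIndex_mul_relIndex P φ.ker N h1 h2]
    apply Dvd.dvd.mul_left
    have h3 : φ.ker.relIndex N = Nat.card rot := by
      have h4 := Subgroup.relIndex_comap (⊥ : Subgroup (DihedralGroup p)) φ N
      rw [MonoidHom.comap_bot] at h4
      rw [h4, Subgroup.relIndex_bot_left]
      have h5 : N.map φ = rot := Subgroup.map_comap_eq_self_of_surjective hφ rot
      rw [h5]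
    rw [h3, Nat.card_zpowers, DihedralGroup.orderOf_r_one]
  obtain ⟨i', hi'⟩ := (hrot _).1 (show φ u ∈ rot from hP.le huP)
  refine ⟨(b : G), P.map K.subtype, ?_, hP.isPGroup.map _, ?_, ?_⟩
  · have h1 : orderOf b ∣ 2 ^ k := orderOf_dvd_of_pow_eq_one hbk
    obtain ⟨l, -, hl⟩ := (Nat.dvd_prime_pow Nat.prime_two).1 h1
    exact ⟨l, by rw [Subgroup.orderOf_coe]; exact hl⟩
  · rw [Subgroup.mem_normalizer_iff]
    intro z
    have hmem := Subgroup.mem_normalizer_iff.1 hbN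
    constructor
    · rintro ⟨w, hw, rfl⟩
      exact ⟨b * w * b⁻¹, (hmem w).1 hw, rfl⟩
    · rintro ⟨w, hw, hwz⟩
      have hz : z = ((b⁻¹ * w * b : K) : G) := by
        have hwz' : (w : G) = (b : G) * z * (b : G)⁻¹ := hwz
        rw [Subgroup.coe_mul, Subgroup.coe_mul, Subgroup.coe_inv, hwz']; group
      refine ⟨b⁻¹ * w * b, (hmem _).2 ?_, hz.symm⟩
      have : b * (b⁻¹ * w * b) * b⁻¹ = w := by group
      rw [this]; exact hw
  · intro hc
    have h1 := (Subgroup.mem_centralizer_iff.1 hc) (u : G) ⟨u, huP, rfl⟩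
    have h2 : u * b = b * u := Subtype.ext h1
    have h3 := congrArg φ h2
    rw [map_mul, map_mul, hi', hφb, DihedralGroup.r_mul_sr, DihedralGroup.sr_mul_r] at h3
    have h4 : j - i' = j + i' := by injection h3
    have h5 : (2 : ZMod p) * i' = 0 := by linear_combination -h4
    have h6 : (2 : ZMod p) ≠ 0 := by
      intro h7
      have h8 : ((2 : ℕ) : ZMod p) = 0 := by exact_mod_cast h7
      rw [ZMod.natCast_eq_zero_iff] at h8
      exact hp ((Nat.prime_dvd_prime_iff_eq Fact.out Nat.prime_two).1 h8)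
    have h7 : i' = 0 := (mul_eq_zero.1 h5).resolve_left h6
    apply hu
    rw [hi', h7]; rfl

/-- For an odd prime p and a finite group G the following are equivalent: the dihedral group of order 2p is involved in G; some element of 2-power order normalizes but does not centralize some p-subgroup of G; some element of 2-power order inverts some nonidentity element of p-power order. -/
theorem result {G : Type*} [Group G] [Finite G] {p : ℕ} [Fact p.Prime] (hp : p ≠ 2) : (Cfsg.Involves (DihedralGroup p) G ↔ ∃ (x : G) (P : Subgroup G), (∃ k : ℕ, orderOf x = 2 ^ k) ∧ IsPGroup p ↥P ∧ x ∈ Subgroup.normalizer (P : Set G) ∧ x ∉ Subgroup.centralizer (P : Set G)) ∧ (Cfsg.Involves (DihedralGroup p) G ↔ ∃ x y : G, (∃ k : ℕ, orderOf x = 2 ^ k) ∧ (∃ k : ℕ, orderOf y = p ^ k) ∧ y ≠ 1 ∧ x * y * x⁻¹ = y⁻¹) := by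
  refine ⟨⟨norm_of_involves hp, ?_⟩, ⟨?_, ?_⟩⟩
  · rintro ⟨x, P, hx, hP, hn, hc⟩
    obtain ⟨x', y, h1, h2, h3, h4⟩ := inv_of_norm hp hx hP hn hc
    exact involves_of_inv hp h1 h2 h3 h4
  · intro h
    obtain ⟨x, P, hx, hP, hn, hc⟩ := norm_of_involves hp h
    exact inv_of_norm hp hx hP hn hc
  · rintro ⟨x, y, h1, h2, h3, h4⟩
    exact involves_of_inv hp h1 h2 h3 h4

end Cfsg.Agent.S2758
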