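import Mathlib
import Cfsg.Agent.S0242
import Cfsg.Statements.S2761

set_option autoImplicit false
open Cfsg

namespace Cfsg.Agent.S2761

open Matrix in
theorem qd_mem {p : ℕ} [Fact p.Prime] (M : Matrix.SpecialLinearGroup (Fin 3) (ZMod p)) :
    M ∈ Cfsg.qd p ↔ ((M : Matrix (Fin 3) (Fin 3) (ZMod p)) 2 0 = 0 ∧
    (M : Matrix (Fin 3) (Fin 3) (ZMod p)) 2 1 = 0 ∧ (M : Matrix (Fin 3) (Fin 3) (ZMod p)) 2 2 = 1) := by
  constructor
  · intro h
    induction h using Subgroup.closure_induction with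
    | mem x hx => exact hx
    | one => simp
    | mul a b _ _ ha hb =>
      simp only [Matrix.SpecialLinearGroup.coe_mul, Matrix.mul_apply, Fin.sum_univ_three, ha.1, ha.2.1, ha.2.2, hb.1, hb.2.1, hb.2.2]
      simp
    | inv a _ ha =>
      have h1 : (a : Matrix (Fin 3) (Fin 3) (ZMod p)) * ((a⁻¹ : Matrix.SpecialLinearGroup (Fin 3) (ZMod p)) : Matrix (Fin 3) (Fin 3) (ZMod p)) = 1 := by
        rw [← Matrix.SpecialLinearGroup.coe_mul, mul_inv_cancel, Matrix.SpecialLinearGroup.coe_one]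
      have h2 : ∀ j, ((a⁻¹ : Matrix.SpecialLinearGroup (Fin 3) (ZMod p)) : Matrix (Fin 3) (Fin 3) (ZMod p)) 2 j = (1 : Matrix (Fin 3) (Fin 3) (ZMod p)) 2 j := by
        intro j
        rw [← h1, Matrix.mul_apply, Fin.sum_univ_three, ha.1, ha.2.1, ha.2.2]
        ring
      exact ⟨by rw [h2]; simp, by rw [h2]; simp, by rw [h2]; simp⟩
  · intro h
    exact Subgroup.subset_closure h

abbrev V4 := {w : Fin 3 → ZMod 2 // w 2 = 1}

noncomputable instance : MulAction (Cfsg.qd 2) V4 where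
  smul M w := ⟨((M : Matrix.SpecialLinearGroup (Fin 3) (ZMod 2)) : Matrix (Fin 3) (Fin 3) (ZMod 2)).mulVec w.1, by
    obtain ⟨h1, h2, h3⟩ := (qd_mem M.1).1 M.2
    simp only [Matrix.mulVec, dotProduct, Fin.sum_univ_three, h1, h2, h3, w.2]
    simp⟩
  one_smul w := by
    apply Subtype.ext
    change (((1 : Cfsg.qd 2) : Matrix.SpecialLinearGroup (Fin 3) (ZMod 2)) : Matrix (Fin 3) (Fin 3) (ZMod 2)).mulVec w.1 = w.1
    simp
  mul_smul a b w := by
    apply Subtype.ext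
    change (((a * b : Cfsg.qd 2) : Matrix.SpecialLinearGroup (Fin 3) (ZMod 2)) : Matrix (Fin 3) (Fin 3) (ZMod 2)).mulVec w.1 =
      ((a : Matrix.SpecialLinearGroup (Fin 3) (ZMod 2)) : Matrix (Fin 3) (Fin 3) (ZMod 2)).mulVec (((b : Matrix.SpecialLinearGroup (Fin 3) (ZMod 2)) : Matrix (Fin 3) (Fin 3) (ZMod 2)).mulVec w.1)
    simp [Matrix.mulVec_mulVec]

theorem smul_val (M : Cfsg.qd 2) (w : V4) : (M • w).1 = ((M : Matrix.SpecialLinearGroup (Fin 3) (ZMod 2)) : Matrix (Fin 3) (Fin 3) (ZMod 2)).mulVec w.1 := rfl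

theorem inj : Function.Injective (MulAction.toPermHom (Cfsg.qd 2) V4) := by
  rw [injective_iff_map_eq_one]
  intro M hM
  have h : ∀ w : V4, ((M : Matrix.SpecialLinearGroup (Fin 3) (ZMod 2)) : Matrix (Fin 3) (Fin 3) (ZMod 2)).mulVec w.1 = w.1 := by
    intro w
    have h1 : MulAction.toPermHom (Cfsg.qd 2) V4 M w = w := by rw [hM]; rfl
    exact congrArg Subtype.val h1
  have h2 := h ⟨![0, 0, 1], rfl⟩
  have h0 := h ⟨![1, 0, 1], rfl⟩
  have h1 := h ⟨![0, 1, 1], rfl⟩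
  apply Subtype.ext
  apply Matrix.SpecialLinearGroup.ext
  intro i j
  have e2 := congrFun h2 i
  have e0 := congrFun h0 i
  have e1 := congrFun h1 i
  simp only [Matrix.mulVec, dotProduct, Fin.sum_univ_three] at e0 e1 e2
  simp at e0 e1 e2
  fin_cases j
  · have : ((M : Matrix.SpecialLinearGroup (Fin 3) (ZMod 2)) : Matrix (Fin 3) (Fin 3) (ZMod 2)) i 0 = ![1, 0, 1] i - ![0, 0, 1] i := by
      rw [← e0, ← e2]; simp
    change ((M : Matrix.SpecialLinearGroup (Fin 3) (ZMod 2)) : Matrix (Fin 3) (Fin 3) (ZMod 2)) i 0 = _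
    rw [this]
    fin_cases i <;> simp
  · have : ((M : Matrix.SpecialLinearGroup (Fin 3) (ZMod 2)) : Matrix (Fin 3) (Fin 3) (ZMod 2)) i 1 = ![0, 1, 1] i - ![0, 0, 1] i := by
      rw [← e1, ← e2]; simp
    change ((M : Matrix.SpecialLinearGroup (Fin 3) (ZMod 2)) : Matrix (Fin 3) (Fin 3) (ZMod 2)) i 1 = _
    rw [this]
    fin_cases i <;> simp
  · change ((M : Matrix.SpecialLinearGroup (Fin 3) (ZMod 2)) : Matrix (Fin 3) (Fin 3) (ZMod 2)) i 2 = _
    rw [e2]
    fin_cases i <;> simp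

noncomputable def emb0 (v : Fin 2 → ZMod 2) (A : Matrix.SpecialLinearGroup (Fin 2) (ZMod 2)) : Matrix.SpecialLinearGroup (Fin 3) (ZMod 2) :=
  ⟨!![(A : Matrix (Fin 2) (Fin 2) (ZMod 2)) 0 0, (A : Matrix (Fin 2) (Fin 2) (ZMod 2)) 0 1, v 0; (A : Matrix (Fin 2) (Fin 2) (ZMod 2)) 1 0, (A : Matrix (Fin 2) (Fin 2) (ZMod 2)) 1 1, v 1; 0, 0, 1], by
    have := A.2
    rw [Matrix.det_fin_two] at this
    rw [Matrix.det_fin_three]
    simp
    linear_combination this⟩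

theorem emb0_mem (v : Fin 2 → ZMod 2) (A : Matrix.SpecialLinearGroup (Fin 2) (ZMod 2)) : emb0 v A ∈ Cfsg.qd 2 := by
  apply (qd_mem _).2
  exact ⟨rfl, rfl, rfl⟩

noncomputable def emb (x : (Fin 2 → ZMod 2) × Matrix.SpecialLinearGroup (Fin 2) (ZMod 2)) : Cfsg.qd 2 :=
  ⟨emb0 x.1 x.2, emb0_mem x.1 x.2⟩

theorem emb_inj : Function.Injective emb := by
  rintro ⟨v, A⟩ ⟨w, B⟩ h
  have h1 : (((emb (v, A) : Cfsg.qd 2) : Matrix.SpecialLinearGroup (Fin 3) (ZMod 2)) : Matrix (Fin 3) (Fin 3) (ZMod 2)) = (((emb (w, B) : Cfsg.qd 2) : Matrix.SpecialLinearGroup (Fin 3) (ZMod 2)) : Matrix (Fin 3) (Fin 3) (ZMod 2)) := by rw [h]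
  have a00 : (A : Matrix (Fin 2) (Fin 2) (ZMod 2)) 0 0 = (B : Matrix (Fin 2) (Fin 2) (ZMod 2)) 0 0 := congrFun (congrFun h1 0) 0
  have a01 : (A : Matrix (Fin 2) (Fin 2) (ZMod 2)) 0 1 = (B : Matrix (Fin 2) (Fin 2) (ZMod 2)) 0 1 := congrFun (congrFun h1 0) 1
  have a10 : (A : Matrix (Fin 2) (Fin 2) (ZMod 2)) 1 0 = (B : Matrix (Fin 2) (Fin 2) (ZMod 2)) 1 0 := congrFun (congrFun h1 1) 0
  have a11 : (A : Matrix (Fin 2) (Fin 2) (ZMod 2)) 1 1 = (B : Matrix (Fin 2) (Fin 2) (ZMod 2)) 1 1 := congrFun (congrFun h1 1) 1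
  have a02 : v 0 = w 0 := congrFun (congrFun h1 0) 2
  have a12 : v 1 = w 1 := congrFun (congrFun h1 1) 2
  apply Prod.ext
  · funext i
    fin_cases i
    · exact a02
    · exact a12
  · apply Matrix.SpecialLinearGroup.ext
    intro i j
    fin_cases i <;> fin_cases j
    · exact a00
    · exact a01
    · exact a10
    · exact a11

/-- The group Qd(2), the natural semidirect product of an elementary abelian group of order 4 by SL₂(2) (realised as the affine subgroup of SL₃(2)), is isomorphic to the symmetric group of degree 4. -/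
theorem result : Nonempty (↥(Cfsg.qd 2) ≃* Equiv.Perm (Fin 4)) := by
  have hV : Nat.card V4 = 4 := by
    rw [Nat.card_eq_fintype_card]; decide
  have hperm : Nat.card (Equiv.Perm V4) = 24 := by
    rw [Nat.card_perm, hV]; rfl
  have hsl : Nat.card (Matrix.SpecialLinearGroup (Fin 2) (ZMod 2)) = 6 := by
    have h1 := Cfsg.Agent.S0242.result (F := ZMod 2) (q := 2) (by simp) 2 (by omega)
    simpa [Fin.prod_univ_two] using h1
  have h24 : 24 ≤ Nat.card (Cfsg.qd 2) := by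
    have h1 := Nat.card_le_card_of_injective emb emb_inj
    rw [Nat.card_prod, hsl] at h1
    simpa using h1
  have hle := Nat.card_le_card_of_injective _ inj
  have hbij : Function.Bijective (MulAction.toPermHom (Cfsg.qd 2) V4) := by
    rw [Nat.bijective_iff_injective_and_card]
    exact ⟨inj, by omega⟩
  have e1 := MulEquiv.ofBijective _ hbij
  have e2 : V4 ≃ Fin 4 := (Finite.equivFinOfCardEq hV)
  exact ⟨e1.trans e2.permCongrHom⟩

end Cfsg.Agent.S2761
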