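import Cfsg.Statements.S3085
import Mathlib
import Cfsg.Agent.L.Misc.ExtraTwo
import Cfsg.Agent.H3.PGroup

set_option autoImplicit false
open Cfsg

namespace Cfsg.Agent.S3085
open CfsgL.ExtraTwo

/-- Let Q be an extraspecial 2-group of order 2^(2n+1) with n ≥ 3 that is of plus type (it contains an elementary abelian subgroup of order 2^(n+1)). Then the group of inner automorphisms of Q has no complement in the full automorphism group of Q: the extension of the inner automorphism group (elementary abelian of order 2^(2n)) by the outer automorphism group (the orthogonal group of plus type) does not split. -/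
theorem result {Q : Type*} [Group Q] [Finite Q] (n : ℕ) (hn : 3 ≤ n) (hQ : Cfsg.IsExtraspecial 2 Q) (hcard : Nat.card Q = 2 ^ (2 * n + 1)) (hplus : ∃ E : Subgroup Q, Cfsg.IsElementaryAbelian 2 E ∧ Nat.card ↥E = 2 ^ (n + 1)) (L : Subgroup (MulAut Q)) : ¬ (Cfsg.Inn Q).IsComplement' L := by
  classical
  intro hcomp
  haveI : Fact (Nat.Prime 2) := ⟨Nat.prime_two⟩
  obtain ⟨⟨hP, hf, hc⟩, hZ⟩ := hQ
  -- the central involution
  obtain ⟨z, hzne, hzall⟩ : ∃ z : ↥(Subgroup.center Q), z ≠ 1 ∧ ∀ y, y = 1 ∨ y = z := by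
    obtain ⟨x, y, hxy, huniv⟩ := Nat.card_eq_two_iff.1 hZ
    have hall : ∀ w : ↥(Subgroup.center Q), w = x ∨ w = y := by
      intro w
      have : w ∈ ({x, y} : Set ↥(Subgroup.center Q)) := by rw [huniv]; trivial
      simpa using this
    rcases hall 1 with h1 | h1
    · exact ⟨y, fun h => hxy (by rw [h, h1]), fun w => by rw [h1]; exact hall w⟩
    · exact ⟨x, fun h => hxy (by rw [h, h1]), fun w => by
        rw [h1]; exact (hall w).symm⟩
  have hzc : ∀ x : Q, x * (z : Q) = z * x := fun x => (Subgroup.mem_center_iff.1 z.2 x)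
  have hmemZ : ∀ c : Q, c ∈ Subgroup.center Q → c = 1 ∨ c = z := by
    intro c hc'
    rcases hzall ⟨c, hc'⟩ with h | h
    · left; exact congrArg Subtype.val h
    · right; exact congrArg Subtype.val h
  have hz1 : (z : Q) ≠ 1 := fun h => hzne (Subtype.ext h)
  have hzz : (z : Q) * z = 1 := by
    rcases hzall (z * z) with h | h
    · exact congrArg Subtype.val h
    · exact absurd (mul_eq_left.1 h) hzne
  have hsqZ : ∀ x : Q, x * x = 1 ∨ x * x = z := by
    intro x
    apply hmemZ
    rw [← hf, ← pow_two]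
    exact CfsgH3.pow_mem_frattini hP x
  have D : Dat Q (z : Q) := by
    refine ⟨hz1, hzz, hzc, ?_⟩
    intro a b
    have h1 : b⁻¹ * a⁻¹ * b * a ∈ Subgroup.center Q := by
      rw [← hc]
      have := Subgroup.commutator_mem_commutator (Subgroup.mem_top b⁻¹) (Subgroup.mem_top a⁻¹)
      rw [commutatorElement_def, inv_inv, inv_inv] at this
      exact this
    have h1' : a⁻¹ * b⁻¹ * a * b ∈ Subgroup.center Q := by
      rw [← hc]
      have := Subgroup.commutator_mem_commutator (Subgroup.mem_top a⁻¹) (Subgroup.mem_top b⁻¹)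
      rw [commutatorElement_def, inv_inv, inv_inv] at this
      exact this
    rcases hmemZ _ h1' with h | h
    · left
      have e : a * b = b * a * (a⁻¹ * b⁻¹ * a * b) := by group
      rw [e, h, mul_one]
    · right
      have e : a * b = b * a * (a⁻¹ * b⁻¹ * a * b) := by group
      rw [e, h]
  have hcenmem : ∀ c : Q, (∀ t, t * c = c * t) → c = 1 ∨ c = z := fun c h =>
    hmemZ c (Subgroup.mem_center_iff.2 h)
  -- elements of E
  obtain ⟨E, ⟨hEc, hE2⟩, hEcard⟩ := hplus
  have hE9 : 9 ≤ Nat.card ↥E := by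
    rw [hEcard]
    calc 9 ≤ 2 ^ 4 := by norm_num
      _ ≤ 2 ^ (n + 1) := Nat.pow_le_pow_right (by norm_num) (by omega)
  have hex : ∀ l : List Q, l.length ≤ 8 → ∃ e ∈ E, e ∉ l := by
    intro l hl
    by_contra hcon
    push Not at hcon
    have h1 : Nat.card ↥E ≤ l.toFinset.card := by
      have h2 : (E : Set Q) ⊆ (l.toFinset : Set Q) := by
        intro e he
        simpa using hcon e he
      have h3 := Set.ncard_le_ncard h2 (Finset.finite_toSet _)
      rw [Set.ncard_coe_finset] at h3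
      exact h3
    have h2 := List.toFinset_card_le l
    omega
  have hEcomm : ∀ a ∈ E, ∀ b ∈ E, a * b = b * a := by
    intro a ha b hb
    have := hEc.is_comm.comm (⟨a, ha⟩ : ↥E) ⟨b, hb⟩
    exact congrArg Subtype.val this
  have hEsq : ∀ a ∈ E, a * a = 1 := fun a ha => by rw [← pow_two]; exact hE2 a ha
  obtain ⟨e1, he1, hn1⟩ := hex [1, (z : Q)] (by simp)
  obtain ⟨e2, he2, hn2⟩ := hex [1, (z : Q), e1, e1 * z] (by simp)
  obtain ⟨e3, he3, hn3⟩ := hex [1, (z : Q), e1, e1 * z, e2, e2 * z, e1 * e2, e1 * e2 * z] (by simp)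
  simp only [List.mem_cons, List.not_mem_nil, or_false, not_or] at hn1 hn2 hn3
  obtain ⟨n11, n12⟩ := hn1
  obtain ⟨n21, n22, n23, n24⟩ := hn2
  obtain ⟨n31, n32, n33, n34, n35, n36, n37, n38⟩ := hn3
  have i1 : e1⁻¹ = e1 := inv_eq_of_mul_eq_one_right (hEsq e1 he1)
  have i2 : e2⁻¹ = e2 := inv_eq_of_mul_eq_one_right (hEsq e2 he2)
  have nc1 : ¬ ∀ t, t * e1 = e1 * t := by
    intro h
    rcases hcenmem e1 h with h | h
    · exact n11 h
    · exact n12 h
  have nc2 : ¬ ∀ t, t * e2 = e2 * t := by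
    intro h
    rcases hcenmem e2 h with h | h
    · exact n21 h
    · exact n22 h
  have nc12 : ¬ ∀ t, t * (e1 * e2) = (e1 * e2) * t := by
    intro h
    rcases hcenmem _ h with h | h
    · apply n23
      have := eq_inv_of_mul_eq_one_right h
      rw [this, i1]
    · apply n24
      have := eq_inv_mul_of_mul_eq h
      rw [this, i1]
  have nc3 : ¬ ∀ t, t * e3 = e3 * t := by
    intro h
    rcases hcenmem e3 h with h | h
    · exact n31 h
    · exact n32 h
  have nc13 : ¬ ∀ t, t * (e1 * e3) = (e1 * e3) * t := by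
    intro h
    rcases hcenmem _ h with h | h
    · apply n33
      have := eq_inv_of_mul_eq_one_right h
      rw [this, i1]
    · apply n34
      have := eq_inv_mul_of_mul_eq h
      rw [this, i1]
  have nc23 : ¬ ∀ t, t * (e2 * e3) = (e2 * e3) * t := by
    intro h
    rcases hcenmem _ h with h | h
    · apply n35
      have := eq_inv_of_mul_eq_one_right h
      rw [this, i2]
    · apply n36
      have := eq_inv_mul_of_mul_eq h
      rw [this, i2]
  have nc123 : ¬ ∀ t, t * (e1 * (e2 * e3)) = (e1 * (e2 * e3)) * t := by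
    intro h
    have c12 := hEcomm e1 he1 e2 he2
    rcases hcenmem _ h with h | h
    · apply n37
      have h1 := eq_inv_of_mul_eq_one_right h
      rw [i1] at h1
      have h2 := eq_inv_mul_of_mul_eq h1
      rw [h2, i2, c12]
    · apply n38
      have h1 := eq_inv_mul_of_mul_eq h
      rw [i1] at h1
      have h2 := eq_inv_mul_of_mul_eq h1
      rw [h2, i2, ← mul_assoc, c12]
  -- the element w
  obtain ⟨w0, w01, w02, w03⟩ := D.three nc3 nc13 nc23 nc123
  obtain ⟨w, w1, w2, w3, wq⟩ : ∃ w, w * e1 = e1 * w ∧ w * e2 = e2 * w ∧ ¬ w * e3 = e3 * w ∧ w * w = z := by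
    rcases hsqZ w0 with h | h
    · refine ⟨w0 * e3, mul_cc w01 (hEcomm _ he3 _ he1), mul_cc w02 (hEcomm _ he3 _ he2),
        mul_nc w03 rfl, ?_⟩
      have h2 : e3 * w0 = w0 * e3 * z := (D.com e3 w0).resolve_left (sym w03)
      calc w0 * e3 * (w0 * e3) = w0 * (e3 * w0) * e3 := by simp only [mul_assoc]
        _ = w0 * (w0 * e3 * z) * e3 := by rw [h2]
        _ = w0 * w0 * e3 * (z * e3) := by simp only [mul_assoc]
        _ = w0 * w0 * e3 * (e3 * z) := by rw [hzc]
        _ = (w0 * w0) * (e3 * e3) * z := by simp only [mul_assoc]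
        _ = z := by rw [h, hEsq e3 he3, one_mul, one_mul]
    · exact ⟨w0, w01, w02, w03, h⟩
  have c12 := hEcomm e1 he1 e2 he2
  have c13 := hEcomm e1 he1 e3 he3
  have c23 := hEcomm e2 he2 e3 he3
  -- u1 = w, u2 = w e1, u3 = w e2
  have q2 : (w * e1) * (w * e1) = z := by
    calc (w * e1) * (w * e1) = w * (e1 * w) * e1 := by simp only [mul_assoc]
      _ = w * (w * e1) * e1 := by rw [w1]
      _ = (w * w) * (e1 * e1) := by simp only [mul_assoc]
      _ = z := by rw [wq, hEsq e1 he1, mul_one]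
  have q3 : (w * e2) * (w * e2) = z := by
    calc (w * e2) * (w * e2) = w * (e2 * w) * e2 := by simp only [mul_assoc]
      _ = w * (w * e2) * e2 := by rw [w2]
      _ = (w * w) * (e2 * e2) := by simp only [mul_assoc]
      _ = z := by rw [wq, hEsq e2 he2, mul_one]
  have k12 : w * (w * e1) = (w * e1) * w := mul_cc' rfl w1
  have k13 : w * (w * e2) = (w * e2) * w := mul_cc' rfl w2
  have k23 : (w * e1) * (w * e2) = (w * e2) * (w * e1) :=
    mul_cc (mul_cc' rfl w2) (mul_cc' w1.symm c12)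
  -- nondegeneracy: elements of the form w * e are not central; detect with e3
  have ncz : ∀ c : Q, (¬ ∀ t, t * c = c * t) → ¬ ∀ t, t * (z * c) = (z * c) * t := by
    intro c hcn h
    apply hcn
    intro t
    have h1 := h t
    rw [← mul_assoc, hzc t, mul_assoc, mul_assoc] at h1
    exact mul_left_cancel h1
  have m1 : ¬ ∀ t, t * w = w * t := fun h => w3 (h e3).symm
  have m2 : ¬ ∀ t, t * (w * e1) = (w * e1) * t := fun h => mul_nc w3 c13 (h e3).symm
  have m3 : ¬ ∀ t, t * (w * e2) = (w * e2) * t := fun h => mul_nc w3 c23 (h e3).symm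
  have m12 : ¬ ∀ t, t * (w * (w * e1)) = (w * (w * e1)) * t := by
    rw [← mul_assoc, wq]; exact ncz _ nc1
  have m13 : ¬ ∀ t, t * (w * (w * e2)) = (w * (w * e2)) * t := by
    rw [← mul_assoc, wq]; exact ncz _ nc2
  have m23 : ¬ ∀ t, t * ((w * e1) * (w * e2)) = ((w * e1) * (w * e2)) * t := by
    have e : (w * e1) * (w * e2) = z * (e1 * e2) := by
      rw [mul_assoc, ← mul_assoc e1 w, ← w1, mul_assoc w e1, ← mul_assoc w w, wq]
    rw [e]; exact ncz _ nc12
  have m123 : ¬ ∀ t, t * (w * ((w * e1) * (w * e2))) = (w * ((w * e1) * (w * e2))) * t := by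
    have hh : ¬ (w * ((w * e1) * (w * e2))) * e3 = e3 * (w * ((w * e1) * (w * e2))) :=
      mul_nc w3 (D.mul_nn (mul_nc w3 c13) (mul_nc w3 c23))
    exact fun h => hh (h e3).symm
  -- v: commutes with u3 and u1 u2 but not u1
  obtain ⟨v, hv1, hv2, hv3⟩ : ∃ v, v * (w * e2) = (w * e2) * v ∧
      v * (w * (w * e1)) = (w * (w * e1)) * v ∧ ¬ v * w = w * v := by
    apply D.three m1
    · rw [← k13]; exact m13
    · have e : w * (w * e1) * w = z * (w * e1) := by
        rw [mul_assoc, ← k12, ← mul_assoc, wq]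
      rw [e]; exact ncz _ m2
    · have e : w * e2 * (w * (w * e1) * w) = z * ((w * e1) * (w * e2)) := by
        have e' : w * (w * e1) * w = z * (w * e1) := by
          rw [mul_assoc, ← k12, ← mul_assoc, wq]
        rw [e', k23, ← mul_assoc (w * e2) (z : Q), hzc (w * e2), mul_assoc (z : Q)]
      rw [e]; exact ncz _ m23
  have hv4 : ¬ v * (w * e1) = (w * e1) * v := by
    intro h
    exact (sym (mul_nc (sym hv3) h.symm)) hv2
  obtain ⟨x, hx1, hx2⟩ := D.two (c := w) m2 m12
  obtain ⟨y, hy1, hy2, hy3⟩ := D.three (b := w) (c := w * e1) m3 m13 m23 m123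
  have Nn : ((MulAut.conj : Q →* MulAut Q).range).Normal := by
    refine ⟨?_⟩
    rintro _ ⟨q, rfl⟩ f
    refine ⟨f q, ?_⟩
    ext t
    change f q * t * (f q)⁻¹ = f (q * f⁻¹ t * q⁻¹)
    rw [map_mul, map_mul, map_inv]
    congr 2
    exact (MulAut.apply_inv_self _ f t).symm
  have haz : ∀ f : MulAut Q, f (z : Q) = z := by
    intro f
    have h1 : f (z : Q) ∈ Subgroup.center Q := by
      rw [Subgroup.mem_center_iff]
      intro g
      obtain ⟨g', rfl⟩ := f.surjective g
      rw [← map_mul, ← map_mul, hzc]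
    rcases hmemZ _ h1 with h | h
    · exact absurd ((map_eq_one_iff f f.injective).1 h) hz1
    · exact h
  refine no_split D L Nn ?_ ?_ haz wq q2 q3 k12 k13 k23 hv3 hv4 hv1 hx1 hx2 hy1 hy2 hy3
  · intro f hf1 hf2
    have := hcomp.disjoint.le_bot ⟨hf2, hf1⟩
    exact this
  · intro f
    obtain ⟨⟨⟨i, s, hs⟩, ⟨a, ha⟩⟩, hia⟩ := hcomp.2 f
    refine ⟨s, a, ha, ?_⟩
    rw [← hia]
    change MulAut.conj s * a = i * a
    rw [hs]

end Cfsg.Agent.S3085
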