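import Mathlib
import Cfsg.Agent.H3.QD
import Cfsg.Agent.H3.PBasic
import Cfsg.Statements.S3116

set_option autoImplicit false
open Cfsg

namespace Cfsg.Agent.S3116

theorem aut_two {X : Type*} [Group X] [Finite X] (h2 : IsPGroup 2 X) (c : X) (hidx : (Subgroup.zpowers c).index = 2)
    (hout : ∀ t : X, t ∉ Subgroup.zpowers c → orderOf t ≠ orderOf c) : IsPGroup 2 (MulAut X) := by
  haveI : Finite (MulAut X) := inferInstance
  apply CfsgH3.isPGroup_of_forall_coprime
  intro σ hσ
  -- σ preserves ⟨c⟩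
  have h1 : ∀ τ : MulAut X, τ c ∈ Subgroup.zpowers c := by
    intro τ
    by_contra h
    exact hout _ h (MulEquiv.orderOf_eq τ c)
  obtain ⟨k, hk⟩ := IsPGroup.iff_card.1 h2
  have hcop : (orderOf σ).Coprime (Nat.card (Subgroup.zpowers c)) := by
    have h3 : Nat.card (Subgroup.zpowers c) ∣ 2 ^ k := by rw [← hk]; exact Subgroup.card_subgroup_dvd_card _
    exact Nat.Coprime.coprime_dvd_right h3 (hσ.pow_right k)
  -- c has order 2^m
  obtain ⟨m, hm⟩ := IsPGroup.iff_orderOf.1 h2 c
  -- σ c = c^n ; σ^i c = c^(n^i)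
  obtain ⟨n, hn⟩ : ∃ n : ℕ, c ^ n = σ c := by
    obtain ⟨n, hn⟩ := mem_powers_iff_mem_zpowers.2 (h1 σ)
    exact ⟨n, hn⟩
  have hpow : ∀ i : ℕ, (σ ^ i) c = c ^ (n ^ i) := by
    intro i
    induction i with
    | zero => simp
    | succ i ih =>
      rw [pow_succ', MulAut.mul_apply, ih, map_pow, ← hn, ← pow_mul, pow_succ']
  have hc1 : σ c = c := by
    have h3 : n ^ (orderOf σ) ≡ 1 [MOD 2 ^ m] := by
      rw [← hm, ← pow_eq_pow_iff_modEq, ← hpow, pow_orderOf_eq_one, pow_one]; rfl
    have h4 : n ≡ 1 [MOD 2 ^ m] := by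
      by_cases hm0 : m = 0
      · rw [hm0, pow_zero]; exact Nat.modEq_one
      have hodd : Odd n := by
        by_contra he
        rw [Nat.not_odd_iff_even] at he
        have h5 : 2 ∣ n ^ (orderOf σ) := dvd_pow he.two_dvd (orderOf_pos σ).ne'
        have h6 : n ^ (orderOf σ) ≡ 1 [MOD 2] := h3.of_dvd (dvd_pow_self 2 hm0)
        have h7 : n ^ (orderOf σ) % 2 = 0 := Nat.mod_eq_zero_of_dvd h5
        rw [Nat.ModEq, h7] at h6
        norm_num at h6
      have hcn : Nat.Coprime n (2 ^ m) := (Nat.Coprime.pow_right m (Nat.coprime_two_right.2 hodd))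
      let u : (ZMod (2 ^ m))ˣ := ZMod.unitOfCoprime n hcn
      have hu : u ^ (orderOf σ) = 1 := by
        apply Units.ext
        rw [Units.val_pow_eq_pow_val, ZMod.coe_unitOfCoprime, Units.val_one, ← Nat.cast_pow]
        exact_mod_cast (ZMod.natCast_eq_natCast_iff _ _ _).2 h3
      have hu2 : orderOf u ∣ 2 ^ (m - 1) := by
        have h8 := orderOf_dvd_natCard u
        haveI : NeZero (2 ^ m) := ⟨by positivity⟩
        rw [Nat.card_eq_fintype_card, ZMod.card_units_eq_totient, Nat.totient_prime_pow Nat.prime_two (Nat.pos_of_ne_zero hm0)] at h8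
        simpa using h8
      have h9 : orderOf u = 1 :=
        Nat.eq_one_of_dvd_coprimes (hσ.pow_right (m - 1)) (orderOf_dvd_of_pow_eq_one hu) hu2
      have h10 : u = 1 := orderOf_eq_one_iff.1 h9
      have h11 := congrArg Units.val h10
      rw [ZMod.coe_unitOfCoprime, Units.val_one] at h11
      exact (ZMod.natCast_eq_natCast_iff _ _ _).1 (by exact_mod_cast h11)
    rw [← hn]
    have h5 := (pow_eq_pow_iff_modEq (x := c) (n := n) (m := 1)).2 (by rw [hm]; exact h4)
    rw [h5, pow_one]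
  have hfix : ∀ y ∈ Subgroup.zpowers c, σ y = y := by
    intro y hy
    obtain ⟨j, rfl⟩ := Subgroup.mem_zpowers_iff.1 hy
    rw [map_zpow, hc1]
  -- elements outside
  apply MulEquiv.ext
  intro w
  by_cases hw : w ∈ Subgroup.zpowers c
  · exact hfix w hw
  · have hσw : σ w ∉ Subgroup.zpowers c := by
      intro h
      apply hw
      obtain ⟨j, hj⟩ := Subgroup.mem_zpowers_iff.1 h
      have h3 : σ (c ^ j) = σ w := by rw [map_zpow, hc1, hj]
      rw [← σ.injective h3]
      exact Subgroup.zpow_mem _ (Subgroup.mem_zpowers c) j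
    have h3 : w⁻¹ * σ w ∈ Subgroup.zpowers c := by
      rw [Subgroup.mul_mem_iff_of_index_two hidx]
      exact ⟨fun h => absurd ((Subgroup.inv_mem_iff _).1 h) hw, fun h => absurd h hσw⟩
    set d := w⁻¹ * σ w with hd
    have hσw' : σ w = w * d := by rw [hd]; group
    have h4 : ∀ i : ℕ, (σ ^ i) w = w * d ^ i := by
      intro i
      induction i with
      | zero => simp
      | succ i ih =>
        rw [pow_succ', MulAut.mul_apply, ih, map_mul, map_pow, hfix d h3, hσw', mul_assoc, ← pow_succ']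
    have h5 := h4 (orderOf σ)
    rw [pow_orderOf_eq_one] at h5
    have h6 : d ^ orderOf σ = 1 := by
      have h7 : w = w * d ^ orderOf σ := h5
      exact (left_eq_mul.1 h7)
    have h7 : orderOf d ∣ Nat.card (Subgroup.zpowers c) := Subgroup.orderOf_dvd_natCard _ h3
    have h8 : orderOf d = 1 := Nat.eq_one_of_dvd_coprimes hcop (orderOf_dvd_of_pow_eq_one h6) h7
    have h9 : d = 1 := orderOf_eq_one_iff.1 h8
    rw [hσw', h9, mul_one]; rfl

/-- The automorphism group of a dihedral 2-group of order at least 8, or of a quasi-dihedral (semidihedral) 2-group of order at least 16, is a 2-group. -/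
theorem result {X : Type*} [Group X] [Finite X] (h2 : IsPGroup 2 X)
    (h : (∃ n : ℕ, 4 ≤ n ∧ Nonempty (X ≃* DihedralGroup n)) ∨ Cfsg.IsQuasiDihedral X) : IsPGroup 2 (MulAut X) := by
  rcases h with ⟨n, hn, ⟨e⟩⟩ | h
  · haveI : NeZero n := ⟨by omega⟩
    have hcard : Nat.card X = 2 * n := by rw [Nat.card_congr e.toEquiv, DihedralGroup.nat_card]
    have hoc : orderOf (e.symm (DihedralGroup.r 1)) = n := by
      rw [MulEquiv.orderOf_eq, DihedralGroup.orderOf_r_one]
    apply aut_two h2 (e.symm (DihedralGroup.r 1))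
    · have h1 := Subgroup.index_mul_card (Subgroup.zpowers (e.symm (DihedralGroup.r 1)))
      rw [Nat.card_zpowers, hoc, hcard] at h1
      exact Nat.eq_of_mul_eq_mul_right (by omega) h1
    · intro t ht
      rw [hoc]
      obtain ⟨d, rfl⟩ := e.symm.surjective t
      rcases d with i | i
      · exfalso
        apply ht
        refine Subgroup.mem_zpowers_iff.2 ⟨(i.val : ℤ), ?_⟩
        rw [← map_zpow, zpow_natCast, DihedralGroup.r_one_pow, ZMod.natCast_zmod_val]
      · rw [MulEquiv.orderOf_eq, DihedralGroup.orderOf_sr]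
        omega
  · obtain ⟨j, x, y, hq⟩ := CfsgH3.exists_QD h
    have hidx : (Subgroup.zpowers x).index = 2 := by
      have h1 := Subgroup.index_mul_card (Subgroup.zpowers x)
      rw [Nat.card_zpowers, hq.hx, hq.card] at h1
      have h3 : (Subgroup.zpowers x).index * 2 ^ (j + 3) = 2 * 2 ^ (j + 3) := by rw [h1]; ring
      exact Nat.eq_of_mul_eq_mul_right (by positivity) h3
    apply aut_two h2 x hidx
    intro t ht
    have hyx : y ∉ Subgroup.zpowers x := hq.y_notMem
    have h3 : t * y ∈ Subgroup.zpowers x := by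
      rw [Subgroup.mul_mem_iff_of_index_two hidx]
      exact ⟨fun h => absurd h ht, fun h => absurd h hyx⟩
    obtain ⟨i, hi⟩ := Subgroup.mem_zpowers_iff.1 h3
    have hyy : y⁻¹ = y := inv_eq_of_mul_eq_one_left hq.hy
    have ht' : t = x ^ i * y := by rw [hi, mul_assoc, hq.hy, mul_one]
    have h4 : t * t = x ^ (4 * 2 ^ j * i : ℤ) := by
      rw [ht']
      calc x ^ i * y * (x ^ i * y) = x ^ i * (y * x ^ i * y⁻¹) * (y * y) := by group
        _ = x ^ i * (x ^ (4 * 2 ^ j - 1 : ℤ)) ^ i := by rw [← conj_zpow, hq.hc, hq.hy, mul_one]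
        _ = _ := by rw [← zpow_mul, ← zpow_add]; congr 1; ring
    have h5 : t ^ 4 = 1 := by
      calc t ^ 4 = (t * t) ^ 2 := by rw [← pow_two, ← pow_mul]
        _ = x ^ ((2 ^ (j + 3) : ℕ) * i : ℤ) := by
            rw [h4, ← zpow_natCast, ← zpow_mul]; congr 1; push_cast; ring
        _ = 1 := by rw [zpow_mul, zpow_natCast, ← hq.hx, pow_orderOf_eq_one, one_zpow]
    intro h6
    have h7 := orderOf_dvd_of_pow_eq_one h5
    rw [h6, hq.hx] at h7
    have h8 := Nat.le_of_dvd (by norm_num) h7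
    have h9 : 2 ^ 3 ≤ 2 ^ (j + 3) := Nat.pow_le_pow_right (by norm_num) (by omega)
    omega

end Cfsg.Agent.S3116
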