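import Mathlib
import Cfsg.Statements.S3375

set_option autoImplicit false
open Cfsg

namespace Cfsg.Agent.S3375

/-- Let γ be an automorphism of order 2 of a finite group H. (i) If γ fixes only the identity, then H is abelian and γ inverts every element. (ii) If γ has exactly two fixed points and H has a subgroup of index 2, then H has a γ-invariant abelian subgroup of index 2 on which γ acts by inversion. -/
theorem result {H : Type*} [Group H] [Finite H] (γ : MulAut H) (hγ : orderOf γ = 2) :
    ((∀ h : H, γ h = h → h = 1) → (∀ a b : H, a * b = b * a) ∧ ∀ h : H, γ h = h⁻¹) ∧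
    ((Nat.card {h : H // γ h = h} = 2 ∧ ∃ M : Subgroup H, M.index = 2) →
      ∃ A : Subgroup H, A.index = 2 ∧ IsMulCommutative A ∧ (∀ a ∈ A, γ a ∈ A) ∧ ∀ a ∈ A, γ a = a⁻¹) := by
  classical
  have hγ2 : ∀ h : H, γ (γ h) = h := by
    intro h
    have h1 : γ ^ 2 = 1 := by rw [← hγ, pow_orderOf_eq_one]
    have h2 : (γ ^ 2) h = h := by rw [h1]; rfl
    rwa [pow_two] at h2
  have habel : ∀ S : Subgroup H, (∀ a ∈ S, γ a = a⁻¹) → ∀ a ∈ S, ∀ b ∈ S, a * b = b * a := by
    intro S hS a ha b hb
    have h1 := hS _ (S.mul_mem (S.inv_mem ha) (S.inv_mem hb))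
    rw [map_mul, map_inv, map_inv, hS a ha, hS b hb, inv_inv, inv_inv, mul_inv_rev, inv_inv, inv_inv] at h1
    exact h1
  refine ⟨?_, ?_⟩
  · intro hfpf
    have hinj : Function.Injective (fun h : H => h⁻¹ * γ h) := by
      intro a b hab
      have h1 : a⁻¹ * γ a = b⁻¹ * γ b := hab
      have h2 : γ (b * a⁻¹) = b * a⁻¹ := by
        rw [map_mul, map_inv]
        have h3 : γ b = b * (a⁻¹ * γ a) := by rw [h1]; group
        rw [h3]; group
      have h3 := hfpf _ h2
      exact (mul_inv_eq_one.1 h3).symm
    have hsurj : Function.Surjective (fun h : H => h⁻¹ * γ h) := Finite.surjective_of_injective hinj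
    have hinv : ∀ h : H, γ h = h⁻¹ := by
      intro h
      obtain ⟨x, rfl⟩ := hsurj h
      change γ (x⁻¹ * γ x) = (x⁻¹ * γ x)⁻¹
      rw [map_mul, map_inv, hγ2]; group
    exact ⟨fun a b => habel ⊤ (fun x _ => hinv x) a trivial b trivial, hinv⟩
  · rintro ⟨hfix, M, hM⟩
    -- a γ-invariant subgroup of index two
    obtain ⟨A, hA2, hAinv⟩ : ∃ A : Subgroup H, A.index = 2 ∧ ∀ a, γ a ∈ A ↔ a ∈ A := by
      by_cases hMi : ∀ a, γ a ∈ M ↔ a ∈ M
      · exact ⟨M, hM, hMi⟩
      · push Not at hMi
        obtain ⟨a0, ha0⟩ := hMi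
        have hmul : ∀ a b : H, a * b ∈ M ↔ (a ∈ M ↔ b ∈ M) := fun a b => Subgroup.mul_mem_iff_of_index_two hM
        let A : Subgroup H := {
          carrier := {h | (γ h ∈ M ↔ h ∈ M)}
          mul_mem' := by
            intro a b ha hb
            change γ a ∈ M ↔ a ∈ M at ha
            change γ b ∈ M ↔ b ∈ M at hb
            change γ (a * b) ∈ M ↔ a * b ∈ M
            rw [map_mul, hmul, hmul, ha, hb]
          one_mem' := by
            change γ 1 ∈ M ↔ (1 : H) ∈ M
            rw [map_one]
          inv_mem' := by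
            intro a ha
            change γ a⁻¹ ∈ M ↔ a⁻¹ ∈ M
            rw [map_inv, M.inv_mem_iff, M.inv_mem_iff]; exact ha }
        have hAmem : ∀ h, h ∈ A ↔ (γ h ∈ M ↔ h ∈ M) := fun h => Iff.rfl
        refine ⟨A, ?_, ?_⟩
        · rw [Subgroup.index_eq_two_iff]
          refine ⟨a0, fun b => ?_⟩
          rw [hAmem, hAmem, map_mul, hmul, hmul]
          unfold Xor
          tauto
        · intro a
          rw [hAmem, hAmem, hγ2]
          tauto
    -- h⁻¹ γ(h) fills A
    have hmulA : ∀ a b : H, a * b ∈ A ↔ (a ∈ A ↔ b ∈ A) := fun a b => Subgroup.mul_mem_iff_of_index_two hA2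
    have hin : ∀ h : H, h⁻¹ * γ h ∈ A := by
      intro h
      rw [hmulA, A.inv_mem_iff, hAinv]
    let f : H → A := fun h => ⟨h⁻¹ * γ h, hin h⟩
    have hsurj : Function.Surjective f := by
      -- fibres have two elements
      haveI := Fintype.ofFinite H
      haveI := Fintype.ofFinite A
      let F : Finset H := Finset.univ.filter (fun h => γ h = h)
      have hF : F.card = 2 := by
        rw [← hfix, Nat.card_eq_fintype_card, Fintype.card_subtype]
      have hfib : ∀ y ∈ Finset.univ.image f, (Finset.univ.filter (fun h => f h = y)).card ≤ 2 := by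
        intro y hy
        obtain ⟨h, -, rfl⟩ := Finset.mem_image.1 hy
        have h1 : (Finset.univ.filter (fun x => f x = f h)).card ≤ F.card := by
          apply Finset.card_le_card_of_injOn (fun x => x * h⁻¹)
          · intro x hx
            have hx' : f x = f h := by simpa using hx
            have h2 : x⁻¹ * γ x = h⁻¹ * γ h := congrArg Subtype.val hx'
            change x * h⁻¹ ∈ (F : Set H)
            simp only [F, Finset.coe_filter, Finset.mem_univ, true_and, Set.mem_setOf_eq]
            rw [map_mul, map_inv]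
            have h3 : γ x = x * (h⁻¹ * γ h) := by rw [← h2]; group
            rw [h3]; group
          · intro x _ y _ hxy
            exact mul_right_cancel hxy
        rw [hF] at h1; exact h1
      have hle : Fintype.card H ≤ 2 * (Finset.univ.image f).card := by
        have := Finset.card_le_mul_card_image (f := f) (Finset.univ : Finset H) 2 hfib
        simpa using this
      have hcard : Fintype.card A * 2 = Fintype.card H := by
        rw [← hA2, ← Nat.card_eq_fintype_card, ← Nat.card_eq_fintype_card, Subgroup.card_mul_index]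
      have h3 : Finset.univ.image f = Finset.univ := by
        apply Finset.eq_univ_of_card
        apply le_antisymm (Finset.card_le_univ _)
        omega
      intro y
      have : y ∈ Finset.univ.image f := by rw [h3]; exact Finset.mem_univ y
      obtain ⟨x, -, hx⟩ := Finset.mem_image.1 this
      exact ⟨x, hx⟩
    have hinv : ∀ a ∈ A, γ a = a⁻¹ := by
      intro a ha
      obtain ⟨x, hx⟩ := hsurj ⟨a, ha⟩
      have h1 : x⁻¹ * γ x = a := congrArg Subtype.val hx
      rw [← h1, map_mul, map_inv, hγ2]; group
    exact ⟨A, hA2, ⟨⟨fun a b => Subtype.ext (habel A hinv a a.2 b b.2)⟩⟩, fun a ha => (hAinv a).2 ha, hinv⟩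

end Cfsg.Agent.S3375
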