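import Cfsg.Statements.S3383
import Cfsg.Agent.H1.FrobThm
import Cfsg.Agent.H1.FrobEven
import Cfsg.Agent.H1.FrobSub
import Cfsg.Agent.H1.FrobConj

set_option autoImplicit false
open Cfsg

namespace Cfsg.Agent.S3383

open scoped commutatorElement Pointwise

open Subgroup CfsgH1 in
theorem aux {G : Type*} [Group G] [Finite G] (R : Subgroup G) (hR : Cfsg.IsFrobeniusComplement R) (K : Subgroup G) (hKn : K.Normal) (hK : (K : Set G) = Cfsg.frobeniusKernel R) (hc : IsComplement' K R)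
    (N : Subgroup G) [hN : N.Normal] (hKN' : ¬ K ≤ N) : N ≤ K := by
  classical
  have hK1 : K ≠ ⊥ := by
    rintro rfl
    exact hKN' bot_le
  have hfpf := (frob_iff_fpf hc hK1 hR.1).1 hR
  have hd : K ⊓ R = ⊥ := disjoint_iff.1 hc.disjoint
  -- the map
  have hinj : ∀ r ∈ R, r ≠ 1 → ∀ k ∈ K, ∀ k' ∈ K, k * (r * k⁻¹ * r⁻¹) = k' * (r * k'⁻¹ * r⁻¹) → k = k' := by
    intro r hr hr1 k hk k' hk' h
    have h1 : k'⁻¹ * k ∈ K ⊓ Subgroup.centralizer {r} := by
      refine Subgroup.mem_inf.2 ⟨K.mul_mem (K.inv_mem hk') hk, ?_⟩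
      rw [mem_centralizer_iff]
      intro z hz
      rw [Set.mem_singleton_iff.1 hz]
      have h2 : k'⁻¹ * k = r * (k'⁻¹ * k) * r⁻¹ := by
        have h3 : k'⁻¹ * (k * (r * k⁻¹ * r⁻¹)) * (r * k * r⁻¹) = k'⁻¹ * (k' * (r * k'⁻¹ * r⁻¹)) * (r * k * r⁻¹) := by rw [h]
        calc k'⁻¹ * k = k'⁻¹ * (k * (r * k⁻¹ * r⁻¹)) * (r * k * r⁻¹) := by group
          _ = k'⁻¹ * (k' * (r * k'⁻¹ * r⁻¹)) * (r * k * r⁻¹) := h3
          _ = _ := by group
      conv_rhs => rw [h2]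
      group
    rw [hfpf r hr hr1, mem_bot, inv_mul_eq_one] at h1
    exact h1.symm
  -- surjectivity on a normal subgroup of K
  have hsurj : ∀ r ∈ R, r ≠ 1 → ∀ L : Subgroup G, L ≤ K → L.Normal → ∀ y ∈ L, ∃ k ∈ L, k * (r * k⁻¹ * r⁻¹) = y := by
    intro r hr hr1 L hLK hLn y hy
    have hmem : ∀ k ∈ L, k * (r * k⁻¹ * r⁻¹) ∈ L := fun k hk => mul_mem hk (hLn.conj_mem _ (inv_mem hk) r)
    let φ : L → L := fun k => ⟨k * (r * (k : G)⁻¹ * r⁻¹), hmem k k.2⟩
    have hφ : Function.Injective φ := by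
      intro a b hab
      exact Subtype.ext (hinj r hr hr1 a (hLK a.2) b (hLK b.2) (congrArg Subtype.val hab))
    obtain ⟨k, hk⟩ := (Finite.injective_iff_surjective.1 hφ) ⟨y, hy⟩
    exact ⟨k, k.2, congrArg Subtype.val hk⟩
  have hNK : N ≤ K := by
    intro x hx
    by_contra hxK
    have h1 : x ∉ Cfsg.frobeniusKernel R := by rw [← hK]; exact hxK
    rw [mem_frobKer_iff, not_not] at h1
    obtain ⟨hx1, g, hg⟩ := h1
    have hr1 : g⁻¹ * x * g ≠ 1 := by
      intro h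
      apply hx1
      have : x = g * (g⁻¹ * x * g) * g⁻¹ := by group
      rw [this, h]; group
    have hrN : g⁻¹ * x * g ∈ N := by
      have := hN.conj_mem x hx g⁻¹
      rwa [inv_inv] at this
    apply hKN'
    intro y hy
    obtain ⟨k, hk, rfl⟩ := hsurj _ hg hr1 K le_rfl hKn y hy
    have h2 : k * ((g⁻¹ * x * g) * k⁻¹ * (g⁻¹ * x * g)⁻¹) = (k * (g⁻¹ * x * g) * k⁻¹) * (g⁻¹ * x * g)⁻¹ := by group
    rw [h2]
    exact mul_mem (hN.conj_mem _ hrN k) (inv_mem hrN)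
  exact hNK

theorem char {G : Type*} [Group G] [Finite G] (K : Subgroup G) (hKn : K.Normal) (hcop : (Nat.card K).Coprime K.index) : K.Characteristic := by
  rw [Subgroup.characteristic_iff_map_le]
  intro φ
  rintro _ ⟨x, hx, rfl⟩
  have h1 : orderOf (φ x) ∣ Nat.card K := by
    have h2 : orderOf (φ x) = orderOf x := orderOf_injective φ.toMonoidHom φ.injective x
    rw [h2]; exact Subgroup.orderOf_dvd_natCard _ hx
  have h3 : orderOf (QuotientGroup.mk' K (φ x)) ∣ Nat.card K := (orderOf_map_dvd _ _).trans h1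
  have h4 : orderOf (QuotientGroup.mk' K (φ x)) ∣ K.index := by
    rw [Subgroup.index_eq_card]; exact orderOf_dvd_natCard _
  have h5 := Nat.eq_one_of_dvd_coprimes hcop h3 h4
  rw [orderOf_eq_one_iff] at h5
  exact (QuotientGroup.eq_one_iff _).1 h5

theorem result {L : Type*} [Group L] [Finite L]
    (H : Subgroup L) (hH : Cfsg.IsFrobeniusComplement H)
    (K : Subgroup L) (hK : (K : Set L) = Cfsg.frobeniusKernel H) :
    K.Characteristic ∧ ∀ N : Subgroup L, N.Normal → K ≤ N ∨ N ≤ K := by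
  obtain ⟨K', hK', hKn', hc'⟩ := CfsgH1.frobenius_kernel hH.2.2
  have hKK : K = K' := SetLike.coe_injective (hK.trans hK'.symm)
  subst hKK
  refine ⟨char K hKn' ?_, fun N hN => ?_⟩
  · have h1 := CfsgH1.coprime_index_of_ti hH.2.2
    have h2 : K.index = Nat.card H := hc'.symm.index_eq_card
    have h3 : H.index = Nat.card K := hc'.index_eq_card
    rw [h2, ← h3]
    exact h1.symm
  · by_cases h : K ≤ N
    · exact Or.inl h
    · haveI := hN
      exact Or.inr (aux H hH K hKn' hK hc' N h)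

end Cfsg.Agent.S3383
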