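import Cfsg.Statements.S3733
import Cfsg.Agent.H1.ConjAct

set_option autoImplicit false
open Cfsg

namespace Cfsg.Agent.S3733

open scoped commutatorElement Pointwise

/-- Let A and V be subgroups of a finite group with V abelian and nontrivial and A normalizing V. Suppose a nonempty finite family of proper subgroups of A partitions A: every non-identity element of A lies in exactly one member. If the number of members minus one is coprime to the order of V, then some member B of the family has a non-identity fixed point on V, that is V ∩ C(B) ≠ 1. -/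
theorem result {G : Type*} [Group G] [Finite G] (A V : Subgroup G) (hVab : IsMulCommutative V) (hV : V ≠ ⊥) (hAV : A ≤ Subgroup.normalizer (V : Set G)) (𝒜 : Finset (Subgroup G)) (hne : 𝒜.Nonempty) (hprop : ∀ B ∈ 𝒜, B < A) (hpart : ∀ a ∈ A, a ≠ 1 → ∃! B, B ∈ 𝒜 ∧ a ∈ B) (hk : (𝒜.card - 1).Coprime (Nat.card V)) : ∃ B ∈ 𝒜, V ⊓ Subgroup.centralizer (B : Set G) ≠ ⊥ := by
  classical
  by_contra hno
  push Not at hno
  have hab : ∀ x ∈ V, ∀ y ∈ V, x * y = y * x := fun x hx y hy => by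
    have := hVab.is_comm.comm (⟨x, hx⟩ : V) ⟨y, hy⟩
    exact congrArg Subtype.val this
  letI : CommGroup V := { (inferInstance : Group V) with mul_comm := fun a b => Subtype.ext (hab a a.2 b b.2) }
  letI : MulDistribMulAction A V := CfsgH1.conjMDMA hAV
  have hsm : ∀ (a : A) (v : V), ((a • v : V) : G) = a * v * (a : G)⁻¹ := fun _ _ => rfl
  haveI : Nonempty {B // B ∈ 𝒜} := by obtain ⟨B, hB⟩ := hne; exact ⟨⟨B, hB⟩⟩
  let F : {B // B ∈ 𝒜} → Subgroup A := fun B => B.1.subgroupOf A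
  have hcov : ∀ a : A, a ≠ 1 → ∃! i, a ∈ F i := by
    intro a ha
    obtain ⟨B, ⟨hB, haB⟩, huniq⟩ := hpart a a.2 (fun h => ha (Subtype.ext h))
    refine ⟨⟨B, hB⟩, ?_, ?_⟩
    · exact Subgroup.mem_subgroupOf.2 haB
    · rintro ⟨C, hC⟩ hCa
      exact Subtype.ext (huniq C ⟨hC, Subgroup.mem_subgroupOf.1 hCa⟩)
  have hfix : ∀ (v : V) (B : {B // B ∈ 𝒜}), (∀ a ∈ F B, a • v = v) → v = 1 := by
    intro v B hv
    have h1 : (v : G) ∈ V ⊓ Subgroup.centralizer (B.1 : Set G) := by
      refine ⟨v.2, ?_⟩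
      change (v : G) ∈ Subgroup.centralizer _
      rw [Subgroup.mem_centralizer_iff]
      intro b hb
      have hbA : b ∈ A := (hprop B.1 B.2).le hb
      have h2 := hv ⟨b, hbA⟩ (Subgroup.mem_subgroupOf.2 hb)
      have h3 := congrArg Subtype.val h2
      rw [hsm] at h3
      exact mul_inv_eq_iff_eq_mul.1 h3
    rw [hno B.1 B.2, Subgroup.mem_bot] at h1
    exact Subtype.ext h1
  have hpow : ∀ v : V, v ^ (𝒜.card - 1) = 1 := by
    intro v
    have h1 := CfsgH1.nrm_partition F hcov v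
    rw [Finset.prod_eq_one (fun i _ => hfix _ i (fun a ha => CfsgH1.nrm_fixed (F i) v ha)), 
      hfix (CfsgH1.nrm ⊤ v) (Classical.arbitrary _) (fun a _ => CfsgH1.nrm_fixed ⊤ v (Subgroup.mem_top a)), one_mul, 
      Fintype.card_coe] at h1
    exact h1.symm
  obtain ⟨⟨v, hv⟩, hv1⟩ := Subgroup.ne_bot_iff_exists_ne_one.1 hV
  apply hv1
  have h4 : orderOf (⟨v, hv⟩ : V) ∣ 𝒜.card - 1 := orderOf_dvd_of_pow_eq_one (hpow _)
  have h5 : orderOf (⟨v, hv⟩ : V) ∣ Nat.card V := orderOf_dvd_natCard _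
  exact orderOf_eq_one_iff.1 (Nat.eq_one_of_dvd_coprimes hk h4 h5)

end Cfsg.Agent.S3733
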