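import Cfsg.Statements.S3734
import Cfsg.Agent.H1.GenFix

set_option autoImplicit false
open Cfsg

namespace Cfsg.Agent.S3734

open scoped commutatorElement Pointwise

/-- Let A and G be subgroups of a finite group with A abelian, A normalizing G and the orders of A and G coprime. Then G is generated by the fixed-point subgroups C_G(B) of those subgroups B of A for which A/B is cyclic (that is, A = ⟨B, a⟩ for some a), and [G, A] is generated by the commutator subgroups [C_G(B), A] over the same subgroups B. -/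
theorem result {X : Type*} [Group X] [Finite X] (A G : Subgroup X) (hAab : IsMulCommutative A) (hAG : A ≤ Subgroup.normalizer (G : Set X)) (hcop : (Nat.card A).Coprime (Nat.card G)) : (⨆ B ∈ {B : Subgroup X | B ≤ A ∧ ∃ a ∈ A, B ⊔ Subgroup.zpowers a = A}, G ⊓ Subgroup.centralizer (B : Set X)) = G ∧ (⨆ B ∈ {B : Subgroup X | B ≤ A ∧ ∃ a ∈ A, B ⊔ Subgroup.zpowers a = A}, ⁅G ⊓ Subgroup.centralizer (B : Set X), A⁆) = ⁅G, A⁆ := by
  have hab : ∀ x ∈ A, ∀ y ∈ A, x * y = y * x := fun x hx y hy => by
    have := hAab.is_comm.comm (⟨x, hx⟩ : A) ⟨y, hy⟩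
    exact congrArg Subtype.val this
  constructor
  · apply le_antisymm (iSup₂_le fun B _ => inf_le_left)
    exact CfsgH1.gen_fix hab hAG hcop _ fun B hB ha => le_iSup₂_of_le B ⟨hB, ha⟩ le_rfl
  · apply le_antisymm
    · exact iSup₂_le fun B _ => Subgroup.commutator_mono inf_le_left le_rfl
    · set Y : Subgroup X := ⨆ B ∈ {B : Subgroup X | B ≤ A ∧ ∃ a ∈ A, B ⊔ Subgroup.zpowers a = A}, ⁅G ⊓ Subgroup.centralizer (B : Set X), A⁆ with hY
      set C := G ⊓ Subgroup.centralizer (A : Set X) with hC
      have hcn : ∀ B ≤ A, A ≤ Subgroup.normalizer ((Subgroup.centralizer (B : Set X) : Subgroup X) : Set X) := by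
        intro B hB
        refine le_trans ?_ Subgroup.le_normalizer
        intro a ha
        rw [Subgroup.mem_centralizer_iff]
        intro b hb
        exact hab b (hB hb) a ha
      have hCB : ∀ B ≤ A, C ≤ G ⊓ Subgroup.centralizer (B : Set X) := fun B hB => 
        inf_le_inf_left _ (Subgroup.centralizer_le hB)
      have hAB : ∀ B ≤ A, A ≤ Subgroup.normalizer ((G ⊓ Subgroup.centralizer (B : Set X) : Subgroup X) : Set X) := fun B hB => 
        CfsgH1.le_normalizer_inf hAG (hcn B hB)
      have hCA : C ≤ Subgroup.normalizer (A : Set X) := CfsgH1.le_normalizer_of_le_centralizer inf_le_right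
      have hsup : ∀ D : Subgroup X, (∀ B ≤ A, D ≤ Subgroup.normalizer ((⁅G ⊓ Subgroup.centralizer (B : Set X), A⁆ : Subgroup X) : Set X)) → 
          D ≤ Subgroup.normalizer (Y : Set X) := by
        intro D hD b hb
        rw [← CfsgH1.conj_smul_eq_self_iff, hY, CfsgH1.conj_smul_eq_map, Subgroup.map_iSup]
        apply iSup_congr
        intro B
        rw [Subgroup.map_iSup]
        apply iSup_congr
        intro hB
        rw [← CfsgH1.conj_smul_eq_map, CfsgH1.conj_smul_eq_self_iff]
        exact hD B hB.1 hb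
      have hAY : A ≤ Subgroup.normalizer (Y : Set X) := hsup A fun B hB => CfsgH1.normalizer_commutator (hAB B hB) Subgroup.le_normalizer
      have hCY : C ≤ Subgroup.normalizer (Y : Set X) := hsup C fun B hB => 
        CfsgH1.normalizer_commutator ((hCB B hB).trans Subgroup.le_normalizer) hCA
      have hG : G ≤ Y ⊔ C := by
        refine CfsgH1.gen_fix hab hAG hcop _ fun B hB ha => ?_
        intro k hk
        obtain ⟨n, hn, c, hc, rfl⟩ := CfsgH1.coprime_eq_commutator_mul (hAB B hB) 
          (Nat.Coprime.coprime_dvd_right (Subgroup.card_dvd_of_le inf_le_left) hcop) (Or.inl (CfsgH1.isSolvable_of_abelian hab)) hk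
        refine Subgroup.mul_mem _ (Subgroup.mem_sup_left ?_) (Subgroup.mem_sup_right ⟨hc.1.1, hc.2⟩)
        exact (le_iSup₂_of_le B ⟨hB, ha⟩ le_rfl : ⁅G ⊓ Subgroup.centralizer (B : Set X), A⁆ ≤ Y) hn
      have hYG : Y ≤ G := iSup₂_le fun B _ => (Subgroup.commutator_mono inf_le_left le_rfl).trans 
        (Subgroup.le_normalizer_iff_commutator_le_left.1 hAG)
      rw [CfsgH1.commutator_eq_of_mul_centralizer hYG (fun k hk => by
        obtain ⟨y, hy, c, hc, rfl⟩ := (CfsgH1.mem_sup_of_le_normalizer' hCY).1 (hG hk)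
        exact ⟨y, hy, c, hc.2, rfl⟩)]
      exact Subgroup.le_normalizer_iff_commutator_le_left.1 hAY

end Cfsg.Agent.S3734
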