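import Cfsg.Statements.S3735
import Cfsg.Agent.H1.MinNormal

set_option autoImplicit false
open Cfsg

namespace Cfsg.Agent.S3735

open scoped commutatorElement Pointwise

/-- Clifford's Theorem for actions on finite abelian groups, first part. Let H and V be subgroups of a finite group with V abelian and H normalizing V, and let A be a normal subgroup of H. If every H-invariant subgroup of V has an H-invariant complement in V, then every A-invariant subgroup of V has an A-invariant complement in V. -/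
theorem result {G : Type*} [Group G] [Finite G] (H A V : Subgroup G) (hVab : IsMulCommutative V) (hHV : H ≤ Subgroup.normalizer (V : Set G)) (hAH : A ≤ H) (hAn : H ≤ Subgroup.normalizer (A : Set G)) (hss : ∀ U : Subgroup G, U ≤ V → H ≤ Subgroup.normalizer (U : Set G) → ∃ W : Subgroup G, W ≤ V ∧ H ≤ Subgroup.normalizer (W : Set G) ∧ U ⊓ W = ⊥ ∧ U ⊔ W = V) (U : Subgroup G) (hUV : U ≤ V) (hAU : A ≤ Subgroup.normalizer (U : Set G)) : ∃ W : Subgroup G, W ≤ V ∧ A ≤ Subgroup.normalizer (W : Set G) ∧ U ⊓ W = ⊥ ∧ U ⊔ W = V := by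
  have hab : ∀ x ∈ V, ∀ y ∈ V, x * y = y * x := fun x hx y hy => by
    have := hVab.is_comm.comm (⟨x, hx⟩ : V) ⟨y, hy⟩
    exact congrArg Subtype.val this
  have hnorm : ∀ P ≤ V, ∀ Q ≤ V, P ≤ Subgroup.normalizer (Q : Set G) := by
    intro P hP Q hQ
    apply CfsgH1.le_normalizer_of_le_centralizer
    intro x hx
    rw [Subgroup.mem_centralizer_iff]
    intro y hy
    exact hab y (hQ hy) x (hP hx)
  -- irreducible subgroups
  let Irr : Set (Subgroup G) := {S | A ≤ Subgroup.normalizer (S : Set G) ∧ S ≤ V ∧ S ≠ ⊥ ∧ ∀ N : Subgroup G, A ≤ Subgroup.normalizer (N : Set G) → N ≤ S → N = ⊥ ∨ N = S}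
  set T := sSup Irr with hT
  have hTV : T ≤ V := sSup_le fun S hS => hS.2.1
  have hconj : ∀ h ∈ H, ∀ K : Subgroup G, A ≤ Subgroup.normalizer (K : Set G) → A ≤ Subgroup.normalizer ((MulAut.conj h • K : Subgroup G) : Set G) := by
    intro h hh K hK a ha
    rw [← CfsgH1.conj_smul_eq_self_iff, ← mul_smul, ← map_mul]
    have h1 : h⁻¹ * a * h ∈ A := by
      have := (Subgroup.mem_normalizer_iff.1 (Subgroup.inv_mem _ (hAn hh)) a).1 ha
      rwa [inv_inv] at this
    have h2 : a * h = h * (h⁻¹ * a * h) := by group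
    rw [h2, map_mul, mul_smul, CfsgH1.conj_smul_eq_self_iff.2 (hK h1)]
  have hIrrconj : ∀ h ∈ H, ∀ S ∈ Irr, MulAut.conj h • S ∈ Irr := by
    rintro h hh S ⟨h1, h2, h3, h4⟩
    refine ⟨hconj h hh S h1, ?_, ?_, ?_⟩
    · rw [← CfsgH1.conj_smul_eq_self_iff.2 (hHV hh)]
      exact CfsgH1.conj_smul_mono h h2
    · intro hb
      apply h3
      have : Nat.card ↥(MulAut.conj h • S) = 1 := by rw [hb, Subgroup.card_bot]
      rw [CfsgH1.card_conj_smul] at this
      exact Subgroup.card_eq_one.1 this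
    · intro N hN hNS
      have h5 : MulAut.conj h⁻¹ • N ≤ S := by
        have := CfsgH1.conj_smul_mono h⁻¹ hNS
        rwa [← mul_smul, ← map_mul, inv_mul_cancel, map_one, one_smul] at this
      have h6 : MulAut.conj h • MulAut.conj h⁻¹ • N = N := by
        rw [← mul_smul, ← map_mul, mul_inv_cancel, map_one, one_smul]
      rcases h4 _ (hconj h⁻¹ (H.inv_mem hh) N hN) h5 with h7 | h7
      · left
        rw [← h6, h7, CfsgH1.conj_smul_eq_map, Subgroup.map_bot]
      · right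
        rw [← h6, h7]
  have hHT : H ≤ Subgroup.normalizer (T : Set G) := by
    rw [CfsgH1.le_normalizer_iff_conj]
    intro h hh x hx
    have : MulAut.conj h • T ≤ T := by
      rw [hT, CfsgH1.conj_smul_eq_map, sSup_eq_iSup, Subgroup.map_iSup]
      apply iSup_le
      intro S
      rw [Subgroup.map_iSup]
      apply iSup_le
      intro hS
      rw [← CfsgH1.conj_smul_eq_map, ← sSup_eq_iSup]
      exact le_sSup (hIrrconj h hh S hS)
    apply this
    rw [CfsgH1.mem_conj_smul]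
    have e : h⁻¹ * (h * x * h⁻¹) * h = x := by group
    rwa [e]
  have hAV : A ≤ Subgroup.normalizer (V : Set G) := hAH.trans hHV
  have hTeq : T = V := by
    obtain ⟨W, hWV, hHW, hTW, hTWV⟩ := hss T hTV hHT
    have hW : W = ⊥ := by
      by_contra hne
      obtain ⟨M, hM1, hM2, hM3, hM4⟩ := CfsgH1.exists_min_invariant_le (B := A) (hAH.trans hHW) hne
      have h1 : M ≤ T := le_sSup ⟨hM1, hM2.trans hWV, hM3, hM4⟩
      exact hM3 (le_bot_iff.1 (hTW ▸ le_inf h1 hM2))
    rw [hW, sup_bot_eq] at hTWV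
    exact hTWV
  obtain ⟨W, ⟨hW1, hW2, hW3⟩, hWmax⟩ := CfsgH1.exists_maximal_of_set 
    {W : Subgroup G | W ≤ V ∧ A ≤ Subgroup.normalizer (W : Set G) ∧ U ⊓ W = ⊥} ⟨⊥, bot_le, by rw [Subgroup.normalizer_eq_top]; exact le_top, inf_bot_eq _⟩
  refine ⟨W, hW1, hW2, hW3, le_antisymm (sup_le hUV hW1) ?_⟩
  rw [← hTeq, hT]
  apply sSup_le
  intro S hS
  by_contra hSUW
  have h1 : S ⊓ (U ⊔ W) = ⊥ := by
    rcases hS.2.2.2 (S ⊓ (U ⊔ W)) (CfsgH1.le_normalizer_inf hS.1 (CfsgH1.le_normalizer_sup hAU hW2)) inf_le_left with h | h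
    · exact h
    · exact absurd (inf_eq_left.1 h) hSUW
  have h2 : U ⊓ (W ⊔ S) = ⊥ := by
    rw [Subgroup.eq_bot_iff_forall]
    rintro x ⟨hxU, hx⟩
    obtain ⟨w, hw, s, hs, rfl⟩ := (CfsgH1.mem_sup_of_le_normalizer' (hnorm S hS.2.1 W hW1)).1 hx
    have hs1 : s ∈ S ⊓ (U ⊔ W) := by
      refine ⟨hs, ?_⟩
      have e : s = w⁻¹ * (w * s) := by group
      rw [e]
      exact Subgroup.mul_mem _ (Subgroup.mem_sup_right (W.inv_mem hw)) (Subgroup.mem_sup_left hxU)
    rw [h1, Subgroup.mem_bot] at hs1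
    rw [hs1, mul_one] at hxU ⊢
    have : w ∈ U ⊓ W := ⟨hxU, hw⟩
    rw [hW3, Subgroup.mem_bot] at this
    exact this
  have h3 := hWmax (W ⊔ S) ⟨sup_le hW1 hS.2.1, CfsgH1.le_normalizer_sup hW2 hS.1, h2⟩ le_sup_left
  exact hSUW ((le_sup_right.trans h3.le).trans le_sup_right)

end Cfsg.Agent.S3735
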