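import Cfsg.Statements.S3736
import Cfsg.Agent.H1.HHRed
import Cfsg.Agent.H1.Meta

set_option autoImplicit false
open Cfsg

namespace Cfsg.Agent.S3736

open scoped commutatorElement Pointwise

/-- The Hall–Higman reduction for a minimal non-trivial action. Let B, A and P be subgroups of a finite group with P a p-group, B normalizing P, and A a normal subgroup of B of order prime to p. Suppose A does not centralize P but centralizes every proper B-invariant subgroup of P. Then [P, A] = P; P is elementary abelian or special; B acts irreducibly on P/Φ(P), that is, the only B-invariant subgroups of P containing Φ(P) are Φ(P) and P; and if p is odd then every element of P has order dividing p. -/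
theorem result {X : Type*} [Group X] [Finite X] {p : ℕ} [Fact p.Prime] (B A P : Subgroup X) (hP : IsPGroup p P) (hBP : B ≤ Subgroup.normalizer (P : Set X)) (hAB : A ≤ B) (hAn : B ≤ Subgroup.normalizer (A : Set X)) (hAp : (Nat.card A).Coprime p) (hnt : ⁅P, A⁆ ≠ ⊥) (hmin : ∀ U : Subgroup X, U < P → B ≤ Subgroup.normalizer (U : Set X) → ⁅U, A⁆ = ⊥) : ⁅P, A⁆ = P ∧ (Cfsg.IsElementaryAbelian p P ∨ Cfsg.IsSpecial p ↥P) ∧ (∀ U : Subgroup X, (frattini ↥P).map P.subtype ≤ U → U ≤ P → B ≤ Subgroup.normalizer (U : Set X) → U = (frattini ↥P).map P.subtype ∨ U = P) ∧ (p ≠ 2 → ∀ x ∈ P, x ^ p = 1) := by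
  have hp := (Fact.out : p.Prime)
  have hcop : (Nat.card A).Coprime (Nat.card P) := by
    obtain ⟨k, hk⟩ := IsPGroup.iff_card.1 hP
    rw [hk]; exact Nat.Coprime.pow_right _ hAp
  have hPs : Group.IsSolvable P := CfsgH1.isSolvable_of_isPGroup hP
  have hAP : A ≤ Subgroup.normalizer (P : Set X) := hAB.trans hBP
  have hPA : ⁅P, A⁆ ≤ P := Subgroup.le_normalizer_iff_commutator_le_left.1 hAP
  have hPAB : B ≤ Subgroup.normalizer ((⁅P, A⁆ : Subgroup X) : Set X) := CfsgH1.normalizer_commutator hBP hAn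
  have h1 : ⁅P, A⁆ = P := by
    by_contra hne
    have h2 := hmin _ (lt_of_le_of_ne hPA hne) hPAB
    exact hnt (CfsgH1.coprime_commutator_eq_bot hAP hcop (Or.inr hPs) h2)
  have hPne : P ≠ ⊥ := by
    rintro rfl
    exact hnt (le_bot_iff.1 hPA)
  set F := (frattini ↥P).map P.subtype with hF
  have hFP : F ≤ P := Subgroup.map_subtype_le _
  have hNF : Subgroup.normalizer (P : Set X) ≤ Subgroup.normalizer (F : Set X) := CfsgH1.normalizer_le_map_characteristic (K := P) (frattini ↥P)
  have hFB : B ≤ Subgroup.normalizer (F : Set X) := hBP.trans hNF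
  have hnil : Group.IsNilpotent P := hP.isNilpotent
  have hDF : ⁅P, P⁆ ≤ F := by
    have h2 : commutator ↥P ≤ frattini ↥P := CfsgH1.commutator_le_frattini
    have h3 := Subgroup.map_mono (f := P.subtype) h2
    rwa [_root_.commutator_def, Subgroup.map_commutator, ← MonoidHom.range_eq_map, Subgroup.range_subtype] at h3
  have hFne : F ≠ P := by
    intro he
    apply hPne
    have h2 : frattini ↥P = ⊤ := by
      apply Subgroup.map_injective P.subtype_injective
      rw [← hF, he, ← MonoidHom.range_eq_map, Subgroup.range_subtype]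
    have h3 : (⊥ : Subgroup P) = ⊤ := CfsgH1.eq_top_of_sup_frattini (F := frattini ↥P) le_rfl (by rw [h2, bot_sup_eq])
    rw [← Subgroup.card_eq_one]
    have h4 := congrArg (fun K : Subgroup P => Nat.card K) h3
    simp only [Subgroup.card_top, Subgroup.card_bot] at h4
    exact h4.symm
  have hirr : ∀ U : Subgroup X, F ≤ U → U ≤ P → B ≤ Subgroup.normalizer (U : Set X) → U = F ∨ U = P := by
    intro U hFU hUP hBU
    by_cases hU : U = P
    · exact Or.inr hU
    · left
      refine le_antisymm ?_ hFU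
      apply CfsgH1.le_of_commutator_eq hAP hcop (Or.inr hPs) hFP (hAB.trans hFB) hDF h1.ge hUP
      rw [hmin U (lt_of_le_of_ne hUP hU) hBU]
      exact bot_le
  -- elements of P to the p
  have hpow : ∀ x ∈ P, x ^ p ∈ F := by
    intro x hx
    exact ⟨⟨x, hx⟩ ^ p, CfsgH1.pow_mem_frattini hP _, rfl⟩
  by_cases hab : ∀ x ∈ P, ∀ y ∈ P, x * y = y * x
  · have hD : ⁅P, P⁆ = ⊥ := by
      rw [← CfsgH1.le_centralizer_iff_commutator]
      intro x hx
      rw [Subgroup.mem_centralizer_iff]
      intro y hy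
      exact hab y hy x hx
    have hFb : F = ⊥ := by
      apply le_bot_iff.1
      apply CfsgH1.le_of_commutator_eq hAP hcop (Or.inr hPs) bot_le (by rw [Subgroup.normalizer_eq_top]; exact le_top) hD.le h1.ge hFP
      rw [hmin F (lt_of_le_of_ne hFP hFne) hFB]
    have hexp : ∀ x ∈ P, x ^ p = 1 := by
      intro x hx
      have := hpow x hx
      rwa [hFb, Subgroup.mem_bot] at this
    exact ⟨h1, Or.inl ⟨⟨⟨fun a b => Subtype.ext (hab a a.2 b b.2)⟩⟩, hexp⟩, hirr, fun _ => hexp⟩
  · -- the centre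
    set Z := P ⊓ Subgroup.centralizer (P : Set X) with hZ
    have hZP : Z ≤ P := inf_le_left
    have hZne : Z ≠ P := by
      intro he
      apply hab
      intro x hx y hy
      rw [← he] at hy
      exact Subgroup.mem_centralizer_iff.1 hy.2 x hx
    have hNZ : Subgroup.normalizer (P : Set X) ≤ Subgroup.normalizer (Z : Set X) := by
      refine CfsgH1.le_normalizer_inf le_rfl ?_
      rw [CfsgH1.le_normalizer_iff_conj]
      intro g hg x hx
      rw [Subgroup.mem_centralizer_iff] at hx ⊢
      intro y hy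
      have h2 : g⁻¹ * y * g ∈ P := by
        have := (Subgroup.mem_normalizer_iff.1 (Subgroup.inv_mem _ hg) y).1 hy
        rwa [inv_inv] at this
      have h3 := hx _ h2
      calc y * (g * x * g⁻¹) = g * (g⁻¹ * y * g * x) * g⁻¹ := by group
        _ = g * (x * (g⁻¹ * y * g)) * g⁻¹ := by rw [h3]
        _ = g * x * g⁻¹ * y := by group
    have hDlt := CfsgH1.commutator_lt_of_pgroup hP hP Subgroup.le_normalizer hPne
    have hDn : Subgroup.normalizer (P : Set X) ≤ Subgroup.normalizer ((⁅P, P⁆ : Subgroup X) : Set X) := CfsgH1.normalizer_commutator le_rfl le_rfl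
    have hZD : Z ≤ ⁅P, P⁆ := by
      apply CfsgH1.le_of_commutator_eq hAP hcop (Or.inr hPs) (Subgroup.commutator_le_self P) (hAP.trans hDn) le_rfl h1.ge hZP
      rw [hmin Z (lt_of_le_of_ne hZP hZne) (hBP.trans hNZ)]
      exact bot_le
    have hFZ : F ≤ Z := by
      refine le_inf hFP ?_
      have h2 : ⁅F, A⁆ = ⊥ := hmin F (lt_of_le_of_ne hFP hFne) hFB
      have h3 : ⁅F, P⁆ ≤ F := by
        rw [← Subgroup.le_normalizer_iff_commutator_le_left]
        exact Subgroup.le_normalizer.trans hNF
      have h4 : ⁅⁅P, A⁆, F⁆ = ⊥ := by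
        apply Subgroup.commutator_commutator_eq_bot_of_rotate
        · rw [Subgroup.commutator_comm A F, h2, Subgroup.commutator_bot_left]
        · rw [← le_bot_iff, ← h2]
          exact Subgroup.commutator_mono h3 le_rfl
      rw [h1, Subgroup.commutator_comm] at h4
      exact CfsgH1.le_centralizer_iff_commutator.2 h4
    have hmapZ : (Subgroup.center ↥P).map P.subtype = Z := by
      ext x
      constructor
      · rintro ⟨y, hy, rfl⟩
        refine ⟨y.2, ?_⟩
        change (y : X) ∈ Subgroup.centralizer (P : Set X)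
        rw [Subgroup.mem_centralizer_iff]
        intro z hz
        exact congrArg Subtype.val (Subgroup.mem_center_iff.1 hy ⟨z, hz⟩)
      · rintro ⟨hx, hxc⟩
        refine ⟨⟨x, hx⟩, ?_, rfl⟩
        rw [SetLike.mem_coe, Subgroup.mem_center_iff]
        intro z
        exact Subtype.ext (Subgroup.mem_centralizer_iff.1 hxc z z.2)
    have hFZe : F = Z := le_antisymm hFZ (hZD.trans hDF)
    have hDZe : ⁅P, P⁆ = Z := le_antisymm (hDF.trans hFZ) hZD
    have hspec : Cfsg.IsSpecial p ↥P := by
      refine ⟨hP, ?_, ?_⟩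
      · apply Subgroup.map_injective P.subtype_injective
        rw [← hF, hmapZ, hFZe]
      · apply Subgroup.map_injective P.subtype_injective
        rw [_root_.commutator_def, Subgroup.map_commutator, ← MonoidHom.range_eq_map, Subgroup.range_subtype, hmapZ, hDZe]
    refine ⟨h1, Or.inr hspec, hirr, ?_⟩
    intro hp2
    -- the p-power map
    have hcZ : ∀ x ∈ P, ∀ y ∈ P, ⁅x, y⁆ ∈ Z := fun x hx y hy => hDZe ▸ Subgroup.commutator_mem_commutator hx hy
    have hZc : ∀ z ∈ Z, ∀ y ∈ P, Commute z y := fun z hz y hy => (Subgroup.mem_centralizer_iff.1 hz.2 y hy).symm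
    have hcp : ∀ x ∈ P, ∀ y ∈ P, ⁅x, y⁆ ^ p = 1 := by
      intro x hx y hy
      have h2 : x ^ p ∈ Z := hFZ (hpow x hx)
      have h0 : x * y = y * x * ⁅x⁻¹, y⁻¹⁆ := by rw [commutatorElement_def]; group
      have h3 : ∀ n : ℕ, x ^ n * y * (x ^ n)⁻¹ = ⁅x, y⁆ ^ n * y := by
        intro n
        induction n with
        | zero => simp
        | succ n ih =>
          have hc := hZc _ (hcZ x hx y hy)
          calc x ^ (n + 1) * y * (x ^ (n + 1))⁻¹ = x * (x ^ n * y * (x ^ n)⁻¹) * x⁻¹ := by rw [pow_succ']; group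
            _ = x * (⁅x, y⁆ ^ n * y) * x⁻¹ := by rw [ih]
            _ = (x * ⁅x, y⁆ ^ n) * y * x⁻¹ := by group
            _ = (⁅x, y⁆ ^ n * x) * y * x⁻¹ := by rw [((hc x hx).symm.pow_right n).eq]
            _ = ⁅x, y⁆ ^ n * (⁅x, y⁆ * y) := by rw [commutatorElement_def]; group
            _ = ⁅x, y⁆ ^ (n + 1) * y := by rw [pow_succ]; group
      have h4 := h3 p
      have h5 : x ^ p * y * (x ^ p)⁻¹ = y := by
        rw [(hZc _ h2 y hy).eq, mul_inv_cancel_right]
      rw [h5] at h4
      exact mul_eq_right.1 h4.symm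
    have hmul : ∀ x ∈ P, ∀ y ∈ P, (x * y) ^ p = x ^ p * y ^ p := by
      intro x hx y hy
      have h2 := CfsgH1.pow_p_class_two (X := P) hp hp2 (x := ⟨x, hx⟩) (y := ⟨y, hy⟩) (by
        intro z
        have h3 := hZc _ (hcZ _ (P.inv_mem hy) _ (P.inv_mem hx)) z z.2
        exact Subtype.ext h3) (by
        have h3 := hcp _ (P.inv_mem hy) _ (P.inv_mem hx)
        exact Subtype.ext h3)
      exact congrArg Subtype.val h2
    let Ω : Subgroup X := 
      { carrier := {x | x ∈ P ∧ x ^ p = 1}
        one_mem' := ⟨P.one_mem, one_pow p⟩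
        mul_mem' := by
          rintro x y ⟨hx, hx1⟩ ⟨hy, hy1⟩
          exact ⟨P.mul_mem hx hy, by rw [hmul x hx y hy, hx1, hy1, one_mul]⟩
        inv_mem' := by
          rintro x ⟨hx, hx1⟩
          exact ⟨P.inv_mem hx, by rw [inv_pow, hx1, inv_one]⟩ }
    have hΩ : P ≤ Ω := by
      rw [← h1, Subgroup.commutator_le]
      intro x hx a ha
      have hax : a * x⁻¹ * a⁻¹ ∈ P := CfsgH1.le_normalizer_iff_conj.1 hAP a ha _ (P.inv_mem hx)
      refine ⟨?_, ?_⟩
      · rw [commutatorElement_def]
        have e : x * a * x⁻¹ * a⁻¹ = x * (a * x⁻¹ * a⁻¹) := by group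
        rw [e]; exact P.mul_mem hx hax
      · have e : ⁅x, a⁆ = x * (a * x⁻¹ * a⁻¹) := by rw [commutatorElement_def]; group
        rw [e, hmul x hx _ hax]
        have e2 : (a * x⁻¹ * a⁻¹) ^ p = a * (x ^ p)⁻¹ * a⁻¹ := by rw [conj_pow, inv_pow]
        rw [e2]
        have h2 : ⁅F, A⁆ = ⊥ := hmin F (lt_of_le_of_ne hFP hFne) hFB
        have h3 : ⁅x ^ p, a⁆ = 1 := by
          have := Subgroup.commutator_mem_commutator (hpow x hx) ha
          rwa [h2, Subgroup.mem_bot] at this
        rw [commutatorElement_def] at h3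
        rw [← h3]; group
    exact fun x hx => (hΩ hx).2

end Cfsg.Agent.S3736
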