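import Cfsg.Statements.S3741
import Cfsg.Agent.H1.Frat
import Cfsg.Agent.H1.KW

set_option autoImplicit false
open Cfsg

namespace Cfsg.Agent.S3741

open scoped commutatorElement Pointwise

theorem index_le {G : Type*} [Group G] [Finite G] (A B : Subgroup G) (b : G) (hb : b ∈ B) : 
    (A ⊓ Subgroup.centralizer ({b} : Set G)).relIndex A ≤ Nat.card ↥⁅A, B⁆ := by
  rw [Subgroup.inf_relIndex_left, Subgroup.relIndex, Subgroup.index]
  let f : (↥A ⧸ (Subgroup.centralizer ({b} : Set G)).subgroupOf A) → ↥⁅A, B⁆ := 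
    Quotient.lift (fun a : A => (⟨⁅(a : G), b⁆, Subgroup.commutator_mem_commutator a.2 hb⟩ : ↥⁅A, B⁆)) (by
      intro a a' h
      replace h := QuotientGroup.leftRel_apply.1 h
      rw [Subgroup.mem_subgroupOf, Subgroup.mem_centralizer_iff] at h
      have h1 := h b rfl
      apply Subtype.ext
      change ⁅(a : G), b⁆ = ⁅(a' : G), b⁆
      rw [commutatorElement_def, commutatorElement_def]
      have h2 : (a : G)⁻¹ * a' * b * (a' : G)⁻¹ * a = b := by
        have h3 : b * ((a : G)⁻¹ * a') = (a : G)⁻¹ * a' * b := h1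
        rw [← h3]; group
      have h4 : (a' : G) * b * (a' : G)⁻¹ = a * b * (a : G)⁻¹ := by
        conv_rhs => rw [← h2]
        group
      rw [h4])
  apply Nat.card_le_card_of_injective f
  intro x y hxy
  induction x using QuotientGroup.induction_on with
  | H a =>
  induction y using QuotientGroup.induction_on with
  | H a' =>
  have h1 : ⁅(a : G), b⁆ = ⁅(a' : G), b⁆ := congrArg Subtype.val hxy
  rw [QuotientGroup.eq, Subgroup.mem_subgroupOf, Subgroup.mem_centralizer_iff]
  intro c hc
  rw [Set.mem_singleton_iff.1 hc]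
  rw [commutatorElement_def, commutatorElement_def] at h1
  have h2 : (a : G) * b * (a : G)⁻¹ = a' * b * (a' : G)⁻¹ := mul_right_cancel h1
  change b * ((a : G)⁻¹ * a') = (a : G)⁻¹ * a' * b
  calc b * ((a : G)⁻¹ * a') = (a : G)⁻¹ * ((a : G) * b * (a : G)⁻¹) * a' := by group
    _ = (a : G)⁻¹ * (a' * b * (a' : G)⁻¹) * a' := by rw [h2]
    _ = _ := by group

theorem key {G : Type*} [Group G] [Finite G] {p : ℕ} [hp : Fact p.Prime] (A B : Subgroup G) (hB : IsPGroup p B) (hcard : Nat.card ↥⁅A, B⁆ ≤ p) (n : ℕ) : 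
    ∀ B0 : Subgroup G, Nat.card B0 = n → B ⊓ Subgroup.centralizer (A : Set G) ≤ B0 → B0 ≤ B → 
    (A ⊓ Subgroup.centralizer (B0 : Set G)).relIndex A ≤ (B ⊓ Subgroup.centralizer (A : Set G)).relIndex B0 := by
  induction n using Nat.strong_induction_on with
  | _ n ih =>
  intro B0 hn hC hB0
  by_cases he : B ⊓ Subgroup.centralizer (A : Set G) = B0
  · have h1 : A ≤ Subgroup.centralizer (B0 : Set G) := by
      rw [Subgroup.le_centralizer_iff, ← he]
      exact inf_le_right
    rw [inf_eq_left.2 h1, Subgroup.relIndex_self, he, Subgroup.relIndex_self]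
  · obtain ⟨B1, ⟨h1, h2, h3⟩, h4⟩ := CfsgH1.exists_maximal_of_set {B1 : Subgroup G | B ⊓ Subgroup.centralizer (A : Set G) ≤ B1 ∧ B1 ≤ B0 ∧ B1 ≠ B0} 
      ⟨_, le_rfl, hC, he⟩
    have hB0p : IsPGroup p B0 := hB.to_le hB0
    have hco : IsCoatom (B1.subgroupOf B0) := by
      refine ⟨?_, ?_⟩
      · rw [Ne, Subgroup.subgroupOf_eq_top]
        exact fun h => h3 (le_antisymm h2 h)
      · intro K hK
        by_contra hne
        have h5 : K.map B0.subtype = B1 := by
          apply h4 _ ⟨?_, Subgroup.map_subtype_le _, ?_⟩ ?_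
          · refine h1.trans ?_
            intro x hx
            exact ⟨⟨x, h2 hx⟩, hK.le (Subgroup.mem_subgroupOf.2 hx), rfl⟩
          · intro h
            apply hne
            apply Subgroup.map_injective B0.subtype_injective
            rw [h, ← MonoidHom.range_eq_map, Subgroup.range_subtype]
          · intro x hx
            exact ⟨⟨x, h2 hx⟩, hK.le (Subgroup.mem_subgroupOf.2 hx), rfl⟩
        apply hK.ne
        rw [← h5, Subgroup.subgroupOf, Subgroup.comap_map_eq_self_of_injective B0.subtype_injective]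
    have hidx : B1.relIndex B0 = p := CfsgH1.isCoatom_pgroup_index hB0p hco
    obtain ⟨b, hb, hb1⟩ : ∃ b ∈ B0, b ∉ B1 := by
      by_contra h
      push Not at h
      exact h3 (le_antisymm h2 h)
    have h5 := ih (Nat.card B1) (by rw [← hn]; exact CfsgH1.card_lt_card_of_lt (lt_of_le_of_ne h2 h3)) B1 rfl h1 (h2.trans hB0)
    have h6 := (index_le A B b (hB0 hb)).trans hcard
    have hsup : B1 ⊔ Subgroup.zpowers b = B0 := by
      by_contra hne
      have hzb : Subgroup.zpowers b ≤ B0 := by rw [Subgroup.zpowers_le]; exact hb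
      have h7 := h4 (B1 ⊔ Subgroup.zpowers b) ⟨h1.trans le_sup_left, sup_le h2 hzb, hne⟩ le_sup_left
      apply hb1
      rw [← h7]
      exact Subgroup.mem_sup_right (Subgroup.mem_zpowers b)
    have h8 : A ⊓ Subgroup.centralizer (B0 : Set G) = (A ⊓ Subgroup.centralizer (B1 : Set G)) ⊓ (A ⊓ Subgroup.centralizer ({b} : Set G)) := by
      apply le_antisymm
      · refine le_inf (inf_le_inf_left _ (Subgroup.centralizer_le h2)) (inf_le_inf_left _ (Subgroup.centralizer_le ?_))
        rw [Set.singleton_subset_iff]; exact hb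
      · rintro x ⟨⟨hxA, hx1⟩, -, hx2⟩
        refine ⟨hxA, ?_⟩
        change x ∈ Subgroup.centralizer (B0 : Set G)
        have h9 : B0 ≤ Subgroup.centralizer ({x} : Set G) := by
          rw [← hsup]
          refine sup_le ?_ ?_
          · intro y hy
            rw [Subgroup.mem_centralizer_iff]
            intro z hz
            rw [Set.mem_singleton_iff.1 hz]
            exact (Subgroup.mem_centralizer_iff.1 hx1 y hy).symm
          · rw [Subgroup.zpowers_le, Subgroup.mem_centralizer_iff]
            intro z hz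
            rw [Set.mem_singleton_iff.1 hz]
            exact (Subgroup.mem_centralizer_iff.1 hx2 b rfl).symm
        rw [Subgroup.mem_centralizer_iff]
        intro y hy
        exact (Subgroup.mem_centralizer_iff.1 (h9 hy) x rfl).symm
    have h10 := Subgroup.relIndex_mul_relIndex (B ⊓ Subgroup.centralizer (A : Set G)) B1 B0 h1 h2
    rw [← h10, hidx, h8]
    exact (Subgroup.relIndex_inf_le).trans (Nat.mul_le_mul h5 h6)

/-- Let A and B be subgroups of a finite p-group with [A, B] ≤ A ∩ B and [A, B] of order at most p. Then |A : C_A(B)| = |B : C_B(A)|. -/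
theorem result {G : Type*} [Group G] [Finite G] {p : ℕ} [Fact p.Prime] (hG : IsPGroup p G) (A B : Subgroup G) (hAB : ⁅A, B⁆ ≤ A ⊓ B) (hcard : Nat.card ↥⁅A, B⁆ ≤ p) : (A ⊓ Subgroup.centralizer (B : Set G)).relIndex A = (B ⊓ Subgroup.centralizer (A : Set G)).relIndex B := by

  have h1 := key A B (hG.to_subgroup B) hcard _ B rfl inf_le_left le_rfl
  have h2 := key B A (hG.to_subgroup A) (by rw [Subgroup.commutator_comm]; exact hcard) _ A rfl inf_le_left le_rfl
  exact le_antisymm h1 h2

end Cfsg.Agent.S3741
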