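import Cfsg.Statements.S3742

set_option autoImplicit false
open Cfsg

namespace Cfsg.Agent.S3742

open scoped commutatorElement Pointwise

abbrev Q := QuaternionGroup 2
open QuaternionGroup

def ff (x y : Q) : Q → Q
  | .a i => x ^ i.val
  | .xa i => y * x ^ i.val

def vd (x y : Q) : Bool := decide (x * x = a 2) && decide (y * y = a 2) && decide (x * y ≠ y * x)

def S : Fin 4 → List Q := ![[a 1, xa 0, xa 3], [a 3, xa 0, xa 3], [a 1, xa 2, xa 3], [a 1, xa 0, xa 1]]

def mem3 (l : List Q) (m : List Q) : Bool := l.all (fun x => decide (x ∈ m)) 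

def ng (l : List Q) : List Q := l.map (fun x => a 2 * x)

def tt (x y : Q) (n : Fin 4) : Fin 4 := 
  let l := (S n).map (ff x y)
  if mem3 l (S 0) || mem3 l (ng (S 0)) then 0
  else if mem3 l (S 1) || mem3 l (ng (S 1)) then 1
  else if mem3 l (S 2) || mem3 l (ng (S 2)) then 2
  else 3

set_option maxRecDepth 100000 in
theorem d5 : ∀ x y : Q, vd x y = true → ∀ u v : Q, ff x y (u * v) = ff x y u * ff x y v := by decide +kernel

set_option maxRecDepth 100000 in
theorem d6 : ∀ x y : Q, vd x y = true → ∀ u : Q, ff x y u = 1 → u = 1 := by decide +kernel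

set_option maxRecDepth 100000 in
theorem d1 : ∀ x y : Q, vd x y = true → ∀ x' y' : Q, vd x' y' = true → ∀ n, tt (ff x y x') (ff x y y') n = tt x y (tt x' y' n) := by decide +kernel

theorem d2 : ∀ n, tt (a 1) (xa 0) n = n := by decide +kernel

theorem d4 : ∀ x y : Q, vd x y = true → (∀ n, tt x y n = n) → x = a 1 ∧ y = xa 0 := by decide +kernel

theorem d7 : ∀ z : Q, z * z = 1 → z ≠ 1 → z = a 2 := by decide +kernel

theorem d3 : ∀ σ : Equiv.Perm (Fin 4), ∃ x y : Q, vd x y = true ∧ ∀ n, tt x y n = σ n := by decide +kernel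

theorem d8 : (a 1 : Q) * a 1 = a 2 := by decide
theorem d9 : (xa 0 : Q) * xa 0 = a 2 := by decide
theorem d10 : (a 1 : Q) * xa 0 ≠ xa 0 * a 1 := by decide
theorem d11 : (a 2 : Q) * a 2 = 1 := by decide
theorem d12 : (a 2 : Q) ≠ 1 := by decide
theorem d13 : ∀ u : Q, ff (a 1) (xa 0) u = u := by decide +kernel
theorem d14 : ∀ x y : Q, ff x y (a 1) = x ∧ ff x y (xa 0) = y := by decide +kernel
theorem d15 : ∀ i : ZMod 4, (QuaternionGroup.a i : Q) = (QuaternionGroup.a 1 : Q) ^ i.val := by decide +kernel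
theorem d16 : ∀ i : ZMod 4, (QuaternionGroup.xa i : Q) = (QuaternionGroup.xa 0 : Q) * (QuaternionGroup.a 1 : Q) ^ i.val := by decide +kernel

theorem vd_iff (x y : Q) : vd x y = true ↔ x * x = a 2 ∧ y * y = a 2 ∧ x * y ≠ y * x := by
  unfold vd
  rw [Bool.and_eq_true, Bool.and_eq_true, decide_eq_true_eq, decide_eq_true_eq, decide_eq_true_eq]
  tauto

theorem phi2 (φ : MulAut Q) : φ (a 2) = a 2 := by
  apply d7
  · rw [← map_mul, d11, map_one]
  · intro h
    exact d12 ((MulEquiv.map_eq_one_iff φ).1 h)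

theorem vd_phi (φ : MulAut Q) : vd (φ (a 1)) (φ (xa 0)) = true := by
  rw [vd_iff]
  refine ⟨?_, ?_, ?_⟩
  · rw [← map_mul, d8, phi2]
  · rw [← map_mul, d9, phi2]
  · rw [← map_mul, ← map_mul]
    exact fun h => d10 (φ.injective h)

theorem phi_eq (φ : MulAut Q) (u : Q) : ff (φ (a 1)) (φ (xa 0)) u = φ u := by
  cases u with
  | a i => 
    change (φ (a 1)) ^ i.val = φ (.a i)
    rw [d15 i, map_pow]
  | xa i => 
    change (φ (xa 0)) * (φ (a 1)) ^ i.val = φ (.xa i)
    rw [d16 i, map_mul, map_pow]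

def T (φ : MulAut Q) (n : Fin 4) : Fin 4 := tt (φ (a 1)) (φ (xa 0)) n

theorem T_mul (φ ψ : MulAut Q) (n : Fin 4) : T (φ * ψ) n = T φ (T ψ n) := by
  unfold T
  rw [← d1 _ _ (vd_phi φ) _ _ (vd_phi ψ), phi_eq, phi_eq]
  rfl

theorem T_one (n : Fin 4) : T 1 n = n := d2 n

def F : MulAut Q →* Equiv.Perm (Fin 4) where
  toFun φ := 
    { toFun := T φ
      invFun := T φ⁻¹
      left_inv := fun n => by rw [← T_mul, inv_mul_cancel, T_one]
      right_inv := fun n => by rw [← T_mul, mul_inv_cancel, T_one] }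
  map_one' := by ext n; exact congrArg Fin.val (T_one n)
  map_mul' φ ψ := by ext n; exact congrArg Fin.val (T_mul φ ψ n)

theorem F_inj : Function.Injective F := by
  rw [injective_iff_map_eq_one]
  intro φ hφ
  have h1 := d4 _ _ (vd_phi φ) (fun n => by
    have := congrArg (fun σ : Equiv.Perm (Fin 4) => σ n) hφ
    exact this)
  ext u
  change φ u = u
  rw [← phi_eq, h1.1, h1.2, d13]

theorem F_surj : Function.Surjective F := by
  intro σ
  obtain ⟨x, y, hxy, hσ⟩ := d3 σ
  let f : Q →* Q := MonoidHom.mk' (ff x y) (d5 x y hxy)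
  have hinj : Function.Injective f := by
    rw [injective_iff_map_eq_one]
    exact d6 x y hxy
  let φ : MulAut Q := MulEquiv.ofBijective f (Finite.injective_iff_bijective.1 hinj)
  refine ⟨φ, ?_⟩
  ext n
  have h1 : φ (a 1) = x := (d14 x y).1
  have h2 : φ (xa 0) = y := (d14 x y).2
  change (tt (φ (a 1)) (φ (xa 0)) n : ℕ) = σ n
  rw [h1, h2, hσ n]

/-- The automorphism group of the quaternion group of order 8 is isomorphic to the symmetric group of degree 4. -/
theorem result : Nonempty (MulAut (QuaternionGroup 2) ≃* Equiv.Perm (Fin 4)) := by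

  exact ⟨MulEquiv.ofBijective F ⟨F_inj, F_surj⟩⟩

end Cfsg.Agent.S3742
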