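import Cfsg.Statements.S3744
import Cfsg.Agent.H1.HallExt

set_option autoImplicit false
open Cfsg

namespace Cfsg.Agent.S3744

open scoped commutatorElement Pointwise

/-- A finite p-soluble group has a p-complement, all its p-complements are conjugate, and every subgroup of order prime to p lies in one of them. Here a p-complement is a subgroup of order prime to p whose index is a power of p. -/
theorem result {G : Type*} [Group G] [Finite G] {p : ℕ} [Fact p.Prime] (hG : Cfsg.IsPSolvable p G) : (∃ H : Subgroup G, (Nat.card H).Coprime p ∧ ∃ n : ℕ, H.index = p ^ n) ∧ (∀ H₁ H₂ : Subgroup G, (Nat.card H₁).Coprime p → (∃ n : ℕ, H₁.index = p ^ n) → (Nat.card H₂).Coprime p → (∃ n : ℕ, H₂.index = p ^ n) → ∃ g : G, H₂ = H₁.map (MulAut.conj g).toMonoidHom) ∧ (∀ U : Subgroup G, (Nat.card U).Coprime p → ∃ H : Subgroup G, (Nat.card H).Coprime p ∧ (∃ n : ℕ, H.index = p ^ n) ∧ ∃ g : G, U.map (MulAut.conj g).toMonoidHom ≤ H) := by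
  have hD := CfsgH1.hallD_psolv hG
  have hi : ∀ H : Subgroup G, CfsgH1.PiNum (({p}ᶜ : Set ℕ))ᶜ H.index ↔ ∃ n : ℕ, H.index = p ^ n := by
    intro H
    rw [compl_compl]
    exact CfsgH1.piNum_singleton_iff Subgroup.index_ne_zero_of_finite
  refine ⟨?_, ?_, ?_⟩
  · obtain ⟨H, h1, h2, -⟩ := hD
    exact ⟨H, CfsgH1.piNum_compl_singleton_iff.1 h1, (hi H).1 h2⟩
  · intro H₁ H₂ h1 h2 h3 h4
    obtain ⟨g, hg⟩ := CfsgH1.HallD.conj hD (CfsgH1.piNum_compl_singleton_iff.2 h1) ((hi H₁).2 h2) 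
      (CfsgH1.piNum_compl_singleton_iff.2 h3) ((hi H₂).2 h4)
    exact ⟨g, hg.symm⟩
  · intro U hU
    obtain ⟨H, h1, h2, h3⟩ := CfsgH1.HallD.exists_ge hD (CfsgH1.piNum_compl_singleton_iff.2 hU)
    refine ⟨H, CfsgH1.piNum_compl_singleton_iff.1 h1, (hi H).1 h2, 1, ?_⟩
    rw [map_one]
    change U.map (MonoidHom.id G) ≤ H
    rw [Subgroup.map_id]
    exact h3

end Cfsg.Agent.S3744
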