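import Cfsg.Statements.S3745
import Cfsg.Agent.H1.HallExt
import Cfsg.Agent.H1.KW

set_option autoImplicit false
open Cfsg

namespace Cfsg.Agent.S3745

open scoped commutatorElement Pointwise

/-- Coprime action on a solvable group and Hall subgroups. Let A and G be subgroups of a finite group with A normalizing G, the orders of A and G coprime, and G solvable, and let π be a set of primes. Then (a) G has an A-invariant Hall π-subgroup; (b) any two A-invariant Hall π-subgroups of G are conjugate by an element of C_G(A); (c) every A-invariant π-subgroup of G lies in an A-invariant Hall π-subgroup of G. -/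
theorem result {X : Type*} [Group X] [Finite X] (A G : Subgroup X) (hAG : A ≤ Subgroup.normalizer (G : Set X)) (hcop : (Nat.card A).Coprime (Nat.card G)) (hsolv : Group.IsSolvable G) (π : Set ℕ) : (∃ H : Subgroup X, Cfsg.IsPiHallOf π H G ∧ A ≤ Subgroup.normalizer (H : Set X)) ∧ (∀ H₁ H₂ : Subgroup X, Cfsg.IsPiHallOf π H₁ G → A ≤ Subgroup.normalizer (H₁ : Set X) → Cfsg.IsPiHallOf π H₂ G → A ≤ Subgroup.normalizer (H₂ : Set X) → ∃ c ∈ G ⊓ Subgroup.centralizer (A : Set X), H₂ = H₁.map (MulAut.conj c).toMonoidHom) ∧ (∀ U : Subgroup X, U ≤ G → A ≤ Subgroup.normalizer (U : Set X) → (∀ p : ℕ, p.Prime → p ∣ Nat.card U → p ∈ π) → ∃ H : Subgroup X, Cfsg.IsPiHallOf π H G ∧ A ≤ Subgroup.normalizer (H : Set X) ∧ U ≤ H) := by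
  classical
  have hcop' := hcop
  have hdef : ∀ H : Subgroup X, IsPiHallOf π H G ↔ H ≤ G ∧ CfsgH1.PiNum π (Nat.card H) ∧ CfsgH1.PiNum πᶜ (H.relIndex G) := by
    intro H
    unfold IsPiHallOf CfsgH1.PiNum
    constructor
    · rintro ⟨h1, h2, h3⟩
      exact ⟨h1, h2, fun p hp hd hpi => h3 p hp hpi hd⟩
    · rintro ⟨h1, h2, h3⟩
      exact ⟨h1, h2, fun p hp hpi hd => h3 p hp hd hpi⟩
  have hc : ∀ U : Subgroup X, U ≤ G → A ≤ Subgroup.normalizer (U : Set X) → (∀ p : ℕ, p.Prime → p ∣ Nat.card U → p ∈ π) → 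
      ∃ H : Subgroup X, Cfsg.IsPiHallOf π H G ∧ A ≤ Subgroup.normalizer (H : Set X) ∧ U ≤ H := by
    intro U hUG hAU hUπ
    set L := G ⊔ A with hL
    have hGL : G ≤ L := le_sup_left
    have hAL : A ≤ L := le_sup_right
    have hLN : L ≤ Subgroup.normalizer (G : Set X) := sup_le Subgroup.le_normalizer hAG
    have hGn : (G.subgroupOf L).Normal := CfsgH1.normal_subgroupOf_of_le_normalizer hLN
    have hGs : Group.IsSolvable (G.subgroupOf L) := by
      haveI := hsolv
      exact Group.isSolvable_of_isSolvable_injective (f := (Subgroup.subgroupOfEquivOfLe hGL).toMonoidHom) 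
        (Subgroup.subgroupOfEquivOfLe hGL).injective
    -- the index of G in L
    have hidx : (G.subgroupOf L).index = Nat.card A := by
      change G.relIndex L = _
      rw [hL, sup_comm, CfsgH1.relIndex_sup_of_le_normalizer hAG,
        ← Subgroup.inf_relIndex_right, CfsgH1.inf_eq_bot_of_coprime hcop.symm, Subgroup.relIndex_bot_left]
    set σ : Set ℕ := π ∪ {p | p ∣ Nat.card A} with hσ
    have hD : CfsgH1.HallD σ L := by
      refine CfsgH1.hallD_ext (G.subgroupOf L) hGn hGs ?_
      rw [hidx]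
      intro p _ hd
      exact Or.inr hd
    -- the σ-subgroup U A
    have hUA : U ⊔ A ≤ L := sup_le (hUG.trans hGL) hAL
    have hUAc : Nat.card ↥(U ⊔ A) = Nat.card U * Nat.card A := by
      rw [sup_comm, CfsgH1.card_sup_of_disjoint hAU, mul_comm]
      exact CfsgH1.inf_eq_bot_of_coprime (Nat.Coprime.coprime_dvd_right (Subgroup.card_dvd_of_le hUG) hcop)
    obtain ⟨H0, h1, h2, h3⟩ := CfsgH1.HallD.exists_ge hD (K := (U ⊔ A).subgroupOf L) (by
      rw [CfsgH1.card_subgroupOf hUA, hUAc]
      exact (CfsgH1.PiNum.mono (fun p hp hd => hUπ p hp hd) (by rw [hσ]; exact Set.subset_union_left)).mul 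
        (fun p _ hd => Or.inr hd))
    set H1 := H0.map L.subtype with hH1
    have hH1L : H1 ≤ L := Subgroup.map_subtype_le H0
    have hUAH : U ⊔ A ≤ H1 := by
      intro x hx
      exact ⟨⟨x, hUA hx⟩, h3 (Subgroup.mem_subgroupOf.2 hx), rfl⟩
    have hH1c : Nat.card H1 = Nat.card H0 := CfsgH1.card_map_of_injOn L.subtype _ (by rw [Subgroup.ker_subtype, inf_bot_eq])
    have hH1i : H1.relIndex L = H0.index := by
      rw [Subgroup.relIndex, Subgroup.subgroupOf, hH1, Subgroup.comap_map_eq_self_of_injective L.subtype_injective]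
    refine ⟨G ⊓ H1, ?_, ?_, le_inf hUG (le_sup_left.trans hUAH)⟩
    · rw [hdef]
      refine ⟨inf_le_left, ?_, ?_⟩
      · intro p hp hd
        have h4 : p ∈ σ := by
          refine h1 p hp (hd.trans ?_)
          rw [← hH1c]
          exact Subgroup.card_dvd_of_le inf_le_right
        rcases h4 with h4 | h4
        · exact h4
        · exfalso
          have h5 : p ∣ Nat.card G := hd.trans (Subgroup.card_dvd_of_le inf_le_left)
          exact hp.one_lt.ne' (Nat.eq_one_of_dvd_coprimes hcop h4 h5)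
      · rw [Subgroup.inf_relIndex_left]
        have h4 : H1.relIndex G ∣ H1.relIndex L := by
          -- L = G * A, A ≤ H1
          have h5 : H1 ⊔ G = L := le_antisymm (sup_le hH1L hGL) (sup_le le_sup_right ((le_sup_right.trans hUAH).trans le_sup_left))
          have h6 : H1 ≤ Subgroup.normalizer (G : Set X) := hH1L.trans hLN
          have h7 := CfsgH1.card_sup_mul_card_inf h6
          rw [h5] at h7
          have h8 := CfsgH1.card_mul_relIndex'' hH1L
          have h9 := CfsgH1.card_mul_relIndex'' (inf_le_right : H1 ⊓ G ≤ G)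
          rw [Subgroup.inf_relIndex_right] at h9
          rw [h8, h9] at h7
          have h10 : Nat.card H1 * (Nat.card ↥(H1 ⊓ G) * H1.relIndex L) = Nat.card H1 * (Nat.card ↥(H1 ⊓ G) * H1.relIndex G) := by
            nlinarith
          have h11 := Nat.eq_of_mul_eq_mul_left Nat.card_pos h10
          have h12 := Nat.eq_of_mul_eq_mul_left Nat.card_pos h11
          rw [h12]
        refine (h2.of_dvd (h4.trans (by rw [hH1i]))).mono ?_
        intro p hp hpi
        exact hp (Or.inl hpi)
    · exact CfsgH1.le_normalizer_inf hAG ((le_sup_right.trans hUAH).trans Subgroup.le_normalizer)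
  refine ⟨?_, ?_, hc⟩
  · obtain ⟨H, h1, h2, -⟩ := hc ⊥ bot_le (by rw [Subgroup.normalizer_eq_top]; exact le_top) (by
      intro p hp hd
      rw [Subgroup.card_bot] at hd
      exact absurd (Nat.dvd_one.1 hd) hp.ne_one)
    exact ⟨H, h1, h2⟩
  · intro H₁ H₂ hH1 hA1 hH2 hA2
    let := CfsgH1.conjSubgroupAction X
    have hconj : ∀ (g : X) (H : Subgroup X), g ∈ Subgroup.normalizer (G : Set X) → IsPiHallOf π H G → IsPiHallOf π (MulAut.conj g • H) G := by
      intro g H hg hH
      rw [hdef] at hH ⊢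
      have hK : MulAut.conj g • G = G := CfsgH1.conj_smul_eq_self_iff.2 hg
      refine ⟨by rw [← hK]; exact CfsgH1.conj_smul_mono g hH.1, by rw [CfsgH1.card_conj_smul]; exact hH.2.1, ?_⟩
      conv => arg 2; rw [← hK]
      rw [Subgroup.relIndex_pointwise_smul]
      exact hH.2.2
    have h := CfsgH1.glauberman_lemma (X := Subgroup X) hAG hcop (Or.inr hsolv) (S := {Q | IsPiHallOf π Q G})
      ⟨H₁, hH1⟩ (fun a ha x hx => hconj a x (hAG ha) hx)
      (fun k hk x hx => hconj k x (Subgroup.le_normalizer hk) hx)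
      (by
        intro x hx y hy
        rw [Set.mem_setOf_eq, hdef] at hx hy
        haveI := hsolv
        obtain ⟨g, hg⟩ := CfsgH1.HallD.conj (CfsgH1.hallD_of_solvable (G := G) π) (H := x.subgroupOf G) (K := y.subgroupOf G) 
          (by rw [CfsgH1.card_subgroupOf hx.1]; exact hx.2.1) hx.2.2 (by rw [CfsgH1.card_subgroupOf hy.1]; exact hy.2.1) hy.2.2
        refine ⟨g, g.2, ?_⟩
        change MulAut.conj (g : X) • x = y
        ext z
        constructor
        · intro hz
          rw [CfsgH1.mem_conj_smul] at hz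
          have hzG : (g : X)⁻¹ * z * g ∈ G := hx.1 hz
          have hzG' : z ∈ G := by
            have := G.mul_mem (G.mul_mem g.2 hzG) (G.inv_mem g.2)
            have e : (g : X) * ((g : X)⁻¹ * z * g) * (g : X)⁻¹ = z := by group
            rwa [e] at this
          have h1 : (⟨z, hzG'⟩ : G) ∈ MulAut.conj g • x.subgroupOf G := by
            rw [CfsgH1.mem_conj_smul, Subgroup.mem_subgroupOf]
            exact hz
          rw [hg] at h1
          exact Subgroup.mem_subgroupOf.1 h1
        · intro hz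
          have h1 : (⟨z, hy.1 hz⟩ : G) ∈ y.subgroupOf G := Subgroup.mem_subgroupOf.2 hz
          rw [← hg, CfsgH1.mem_conj_smul, Subgroup.mem_subgroupOf] at h1
          rw [CfsgH1.mem_conj_smul]
          exact h1)
    obtain ⟨c, hc1, hc2⟩ := h.2 H₁ hH1 H₂ hH2 (fun a ha => CfsgH1.conj_smul_eq_self_iff.2 (hA1 ha)) (fun a ha => CfsgH1.conj_smul_eq_self_iff.2 (hA2 ha))
    exact ⟨c, hc1, hc2.symm⟩

end Cfsg.Agent.S3745
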