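import Cfsg.Statements.S3746
import Cfsg.Agent.H1.QSExt

set_option autoImplicit false
open Cfsg

namespace Cfsg.Agent.S3746

open scoped commutatorElement Pointwise

/-- Let Z ≤ Z(G) be a central subgroup of a finite group G and E a subgroup of G containing Z whose image E/Z is a component of G/Z (subnormal and quasisimple). Then the derived subgroup [E, E] is a component of G. -/
theorem result {G : Type*} [Group G] [Finite G] (Z : Subgroup G) (hZ : Z ≤ Subgroup.center G) [Z.Normal] (E : Subgroup G) (hZE : Z ≤ E) (hE : Cfsg.IsComponent (E.map (QuotientGroup.mk' Z))) : Cfsg.IsComponent ⁅E, E⁆ := by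
  obtain ⟨hsn, hqs⟩ := hE
  set f := QuotientGroup.mk' Z with hf
  have hEc : (E.map f).comap f = E := by
    rw [Subgroup.comap_map_eq, QuotientGroup.ker_mk', sup_eq_left.2 hZE]
  have hEs : E.IsSubnormal := by
    rw [← hEc]; exact hsn.comap f
  refine ⟨CfsgH2.isSubnormal_commutator_self hEs, ?_⟩
  set D : Subgroup G := ⁅E, E⁆ with hD
  have hDE : D ≤ E := Subgroup.commutator_le_self E
  have hDm : D.map f = E.map f := by
    rw [hD, Subgroup.map_commutator]
    exact CfsgH2.IsQuasisimple.commutator_self hqs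
  have hDZ : D ⊔ Z = E := by
    have h1 := congrArg (Subgroup.comap f) hDm
    rwa [hEc, Subgroup.comap_map_eq, QuotientGroup.ker_mk'] at h1
  have hDn : D ≤ Subgroup.normalizer (Z : Set G) := CfsgH1.le_normalizer_of_normal D Z
  have hDD : ⁅D, D⁆ = D := by
    apply le_antisymm (Subgroup.commutator_le_self D)
    conv_lhs => rw [hD]
    rw [Subgroup.commutator_le]
    intro x hx y hy
    rw [← hDZ] at hx hy
    obtain ⟨d, hd, z, hz, rfl⟩ := CfsgH2.exists_mul_of_mem_sup hDn hx
    obtain ⟨d', hd', z', hz', rfl⟩ := CfsgH2.exists_mul_of_mem_sup hDn hy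
    have h1 : ∀ g, Commute z g := fun g => (Subgroup.mem_center_iff.1 (hZ hz) g).symm
    have h2 : ∀ g, Commute z' g := fun g => (Subgroup.mem_center_iff.1 (hZ hz') g).symm
    have h3 : ⁅d * z, d' * z'⁆ = ⁅d, d'⁆ := by
      rw [commutatorElement_def, commutatorElement_def, mul_inv_rev, mul_inv_rev]
      calc d * z * (d' * z') * (z⁻¹ * d⁻¹) * (z'⁻¹ * d'⁻¹) = d * (z * (d' * z')) * z⁻¹ * d⁻¹ * z'⁻¹ * d'⁻¹ := by group
        _ = d * ((d' * z') * z) * z⁻¹ * d⁻¹ * z'⁻¹ * d'⁻¹ := by rw [(h1 _).eq]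
        _ = d * d' * (z' * d⁻¹) * z'⁻¹ * d'⁻¹ := by group
        _ = d * d' * (d⁻¹ * z') * z'⁻¹ * d'⁻¹ := by rw [(h2 _).eq]
        _ = d * d' * d⁻¹ * d'⁻¹ := by group
    rw [h3]
    exact Subgroup.commutator_mem_commutator hd hd'
  have hperf : Group.IsPerfect D := by
    refine ⟨?_⟩
    apply Subgroup.map_injective D.subtype_injective
    rw [_root_.commutator_def, Subgroup.map_commutator, ← MonoidHom.range_eq_map, Subgroup.range_subtype, hDD]
  refine CfsgH1.isQuasisimple_of_central_ext (Y := ↥(D.map f)) hperf (f.subgroupMap D) (f.subgroupMap_surjective D) ?_ ?_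
  · intro x hx
    rw [Subgroup.mem_center_iff]
    intro y
    have h1 : f x = 1 := congrArg Subtype.val (MonoidHom.mem_ker.1 hx)
    have h2 : (x : G) ∈ Z := (QuotientGroup.eq_one_iff (x : G)).1 h1
    exact Subtype.ext (Subgroup.mem_center_iff.1 (hZ h2) y)
  · rw [hDm]; exact hqs

end Cfsg.Agent.S3746
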