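import Cfsg.Statements.S3747
import Cfsg.Agent.H1.CompMin

set_option autoImplicit false
open Cfsg

namespace Cfsg.Agent.S3747

open scoped commutatorElement Pointwise

/-- Let G be a finite group. (a) If K is a component of G with trivial centre, then the normal closure of K in G is a minimal normal subgroup of G. (b) If the Fitting subgroup of G is trivial, then the layer E(G) is generated by the minimal normal subgroups of G. -/
theorem result {G : Type*} [Group G] [Finite G] : (∀ K : Subgroup G, Cfsg.IsComponent K → Subgroup.center ↥K = ⊥ → (Subgroup.normalClosure (K : Set G) ≠ ⊥ ∧ ∀ N : Subgroup G, N.Normal → N ≤ Subgroup.normalClosure (K : Set G) → N = ⊥ ∨ N = Subgroup.normalClosure (K : Set G))) ∧ (Cfsg.fittingSubgroup G = ⊥ → sSup {N : Subgroup G | N ≠ ⊥ ∧ N.Normal ∧ ∀ N' : Subgroup G, N'.Normal → N' ≤ N → N' = ⊥ ∨ N' = N} = Cfsg.layer G) := by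
  refine ⟨fun K hK hZ => CfsgH1.normalClosure_component_min hK hZ, ?_⟩
  intro hF
  apply le_antisymm
  · refine sSup_le ?_
    rintro N ⟨hNb, hN, hmin⟩
    obtain ⟨K, hK, hKN⟩ := CfsgH1.exists_component_le hF hN hNb
    have h1 : Subgroup.normalClosure (K : Set G) ≤ N := Subgroup.normalClosure_le_normal hKN
    rcases hmin _ Subgroup.normalClosure_normal h1 with h | h
    · exact absurd h (CfsgH1.normalClosure_component_min hK (CfsgH1.component_center_of_fitting hF hK)).1
    · rw [← h]
      exact Subgroup.normalClosure_le_normal (CfsgH2.IsComponent.le_layer hK)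
  · refine sSup_le fun K hK => ?_
    obtain ⟨h1, h2⟩ := CfsgH1.normalClosure_component_min hK (CfsgH1.component_center_of_fitting hF hK)
    have h3 : Subgroup.normalClosure (K : Set G) ≤ sSup {N : Subgroup G | N ≠ ⊥ ∧ N.Normal ∧ ∀ N' : Subgroup G, N'.Normal → N' ≤ N → N' = ⊥ ∨ N' = N} := 
      le_sSup ⟨h1, Subgroup.normalClosure_normal, h2⟩
    exact (Subgroup.subset_normalClosure : (K : Set G) ⊆ _).trans h3

end Cfsg.Agent.S3747
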