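import Cfsg.Statements.S3748
import Cfsg.Agent.H2.Fitting
import Cfsg.Agent.H1.Subn

set_option autoImplicit false
open Cfsg

namespace Cfsg.Agent.S3748

open scoped commutatorElement Pointwise

theorem prim_subnormal {G : Type*} [Group G] [Finite G] (M : Subgroup G) (hM : M ≠ ⊤) (hprim : ∀ N : Subgroup G, N ≤ M → M ≤ Subgroup.normalizer (N : Set G) → N ≠ ⊥ → Subgroup.normalizer (N : Set G) = M) 
    (L : Subgroup G) (hL : L.IsSubnormal) (hLM : L ≤ M) : L = ⊥ := by
  set K := sSup {L : Subgroup G | L.IsSubnormal ∧ L ≤ M} with hK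
  have hKs : K.IsSubnormal := CfsgH1.isSubnormal_sSup fun U hU => hU.1
  have hKM : K ≤ M := sSup_le fun U hU => hU.2
  have hLK : L ≤ K := le_sSup ⟨hL, hLM⟩
  have hMK : M ≤ Subgroup.normalizer (K : Set G) := by
    rw [CfsgH1.le_normalizer_iff_conj]
    intro m hm x hx
    have h1 : MulAut.conj m • K ≤ K := by
      apply le_sSup
      refine ⟨CfsgH1.isSubnormal_conj hKs m, ?_⟩
      have h2 := CfsgH1.conj_smul_mono m hKM
      rwa [CfsgH1.conj_smul_eq_self_iff.2 (Subgroup.le_normalizer hm)] at h2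
    apply h1
    rw [CfsgH1.mem_conj_smul]
    have e : m⁻¹ * (m * x * m⁻¹) * m = x := by group
    rwa [e]
  by_contra hne
  have hKb : K ≠ ⊥ := fun h => hne (le_bot_iff.1 (h ▸ hLK))
  have hNK := hprim K hKM hMK hKb
  rcases Subgroup.IsSubnormal.iff_eq_top_or_exists.1 hKs with h | ⟨K1, h2, h1, h3⟩
  · exact hM (top_le_iff.1 (h ▸ hKM))
  · have h4 : K1 ≤ Subgroup.normalizer (K : Set G) := by
      rw [Subgroup.normal_subgroupOf_iff_le_normalizer h2.le] at h3
      exact h3
    rw [hNK] at h4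
    exact absurd (le_sSup ⟨h1, h4⟩ : K1 ≤ K) (not_le_of_gt h2)

/-- Call a proper subgroup M of G primitive when M = N_G(N) for every non-trivial normal subgroup N of M. If M is a primitive subgroup of the finite group G, then no non-trivial subnormal subgroup of G is contained in M; in particular M ∩ F(G) = 1. -/
theorem result {G : Type*} [Group G] [Finite G] (M : Subgroup G) (hM : M ≠ ⊤) (hprim : ∀ N : Subgroup G, N ≤ M → M ≤ Subgroup.normalizer (N : Set G) → N ≠ ⊥ → Subgroup.normalizer (N : Set G) = M) : (∀ L : Subgroup G, L.IsSubnormal → L ≤ M → L = ⊥) ∧ M ⊓ Cfsg.fittingSubgroup G = ⊥ := by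

  refine ⟨prim_subnormal M hM hprim, ?_⟩
  exact prim_subnormal M hM hprim _ (CfsgH2.isSubnormal_of_le_fittingSubgroup inf_le_right) inf_le_left

end Cfsg.Agent.S3748
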