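import Cfsg.Statements.S3749
import Cfsg.Agent.H1.CoprimeSylow
import Cfsg.Agent.H1.CopExtra
import Cfsg.Agent.H2.Fitting

set_option autoImplicit false
open Cfsg

namespace Cfsg.Agent.S3749

open scoped commutatorElement Pointwise

/-- Call a proper subgroup M of G primitive when M = N_G(N) for every non-trivial normal subgroup N of M. Let M be a primitive subgroup of the finite group G, p a prime with O_p(M) ≠ 1, and N a normal subgroup of G with M ∩ N = 1. Then p does not divide the order of N; for every prime q there is exactly one Sylow q-subgroup of N normalized by M; and if the order of N has at least two prime divisors then M is not a maximal subgroup of G. -/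
theorem result {G : Type*} [Group G] [Finite G] (M : Subgroup G) (hM : M ≠ ⊤) (hprim : ∀ N : Subgroup G, N ≤ M → M ≤ Subgroup.normalizer (N : Set G) → N ≠ ⊥ → Subgroup.normalizer (N : Set G) = M) {p : ℕ} [Fact p.Prime] (hOp : Cfsg.pCore p ↥M ≠ ⊥) (N : Subgroup G) [N.Normal] (hMN : M ⊓ N = ⊥) : ¬ p ∣ Nat.card N ∧ (∀ q : ℕ, [Fact q.Prime] → ∃! Q : Sylow q ↥N, M ≤ Subgroup.normalizer ((Q : Subgroup ↥N).map N.subtype : Set G)) ∧ ((∃ q r : ℕ, q.Prime ∧ r.Prime ∧ q ≠ r ∧ q ∣ Nat.card N ∧ r ∣ Nat.card N) → ¬ IsCoatom M) := by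
  classical
  have hp := (Fact.out : p.Prime)
  set P := (Cfsg.pCore p ↥M).map M.subtype with hP
  have hPM : P ≤ M := Subgroup.map_subtype_le _
  have hPb : P ≠ ⊥ := fun h => hOp ((Subgroup.map_eq_bot_iff_of_injective _ M.subtype_injective).1 h)
  have hMP : M ≤ Subgroup.normalizer (P : Set G) := by
    rw [CfsgH1.le_normalizer_iff_conj]
    rintro m hm _ ⟨x, hx, rfl⟩
    exact ⟨⟨m, hm⟩ * x * ⟨m, hm⟩⁻¹, (inferInstance : (Cfsg.pCore p ↥M).Normal).conj_mem x hx ⟨m, hm⟩, rfl⟩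
  have hPp : IsPGroup p P := (CfsgH2.isPGroup_pCore p).map _
  have hNP : Subgroup.normalizer (P : Set G) = M := hprim P hPM hMP hPb
  have hPN : P ≤ Subgroup.normalizer (N : Set G) := CfsgH1.le_normalizer_of_normal P N
  have hCN : N ⊓ Subgroup.centralizer (P : Set G) = ⊥ := by
    rw [← le_bot_iff, ← hMN]
    refine le_inf ?_ inf_le_left
    rw [← hNP]
    exact inf_le_right.trans (CfsgH1.le_normalizer_of_le_centralizer le_rfl)
  -- (i)
  have hpN : ¬ p ∣ Nat.card N := by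
    intro hd
    letI : MulDistribMulAction P N := CfsgH1.conjMDMA hPN
    obtain ⟨b, hb, hb1⟩ := hPp.exists_fixed_point_of_prime_dvd_card_of_fixed_point N hd (a := (1 : N)) (fun a => smul_one a)
    have h1 : (b : G) ∈ N ⊓ Subgroup.centralizer (P : Set G) := by
      refine ⟨b.2, ?_⟩
      change (b : G) ∈ Subgroup.centralizer (P : Set G)
      rw [Subgroup.mem_centralizer_iff]
      intro a ha
      have h2 := congrArg Subtype.val (hb ⟨a, ha⟩)
      change a * (b : G) * a⁻¹ = b at h2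
      exact mul_inv_eq_iff_eq_mul.1 h2
    rw [hCN, Subgroup.mem_bot] at h1
    exact hb1 (Subtype.ext h1).symm
  have hcop : (Nat.card P).Coprime (Nat.card N) := by
    obtain ⟨k, hk⟩ := IsPGroup.iff_card.1 hPp
    rw [hk]
    exact Nat.Coprime.pow_left k (hp.coprime_iff_not_dvd.2 hpN)
  have hPs : Group.IsSolvable P := CfsgH1.isSolvable_of_isPGroup hPp
  have huniq : ∀ q : ℕ, [Fact q.Prime] → ∃ Q, CfsgH1.IsSylowOf q Q N ∧ M ≤ Subgroup.normalizer (Q : Set G) ∧ ∀ R, CfsgH1.IsSylowOf q R N → P ≤ Subgroup.normalizer (R : Set G) → R = Q := by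
    intro q hq
    obtain ⟨⟨Q, hQ, hPQ⟩, h2⟩ := CfsgH1.coprime_sylow hPN hcop (Or.inl hPs) q
    have huniq : ∀ R, CfsgH1.IsSylowOf q R N → P ≤ Subgroup.normalizer (R : Set G) → R = Q := by
      intro R hR hPR
      obtain ⟨c, hc, hcR⟩ := h2 R Q hR hPR hQ hPQ
      rw [hCN, Subgroup.mem_bot] at hc
      rw [hc, map_one, one_smul] at hcR
      exact hcR
    refine ⟨Q, hQ, ?_, huniq⟩
    intro m hm
    rw [← CfsgH1.conj_smul_eq_self_iff]
    refine huniq _ (CfsgH1.isSylowOf_conj hQ (by rw [Subgroup.normalizer_eq_top]; exact Subgroup.mem_top m)) ?_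
    intro a ha
    rw [← CfsgH1.conj_smul_eq_self_iff, ← mul_smul, ← map_mul]
    have h1 : m⁻¹ * a * m ∈ P := by
      have := (Subgroup.mem_normalizer_iff.1 (Subgroup.inv_mem _ (hMP hm)) a).1 ha
      rwa [inv_inv] at this
    have h2 : a * m = m * (m⁻¹ * a * m) := by group
    rw [h2, map_mul, mul_smul, CfsgH1.conj_smul_eq_self_iff.2 (hPQ h1)]
  refine ⟨hpN, ?_, ?_⟩
  · intro q hq
    obtain ⟨_, ⟨Q, rfl⟩, h2, h3⟩ := huniq q
    refine ⟨Q, h2, ?_⟩
    intro R hR
    apply Sylow.ext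
    apply Subgroup.map_injective N.subtype_injective
    exact h3 _ ⟨R, rfl⟩ (hPM.trans hR)
  · rintro ⟨q, r, hq, hr, hqr, hqN, hrN⟩ hco
    haveI : Fact q.Prime := ⟨hq⟩
    obtain ⟨Q, hQ, hMQ, -⟩ := huniq q
    have hQN := CfsgH1.isSylowOf_le hQ
    have hQq := CfsgH1.isSylowOf_isPGroup hQ
    have hMiQ : M ⊓ Q = ⊥ := le_bot_iff.1 (hMN ▸ inf_le_inf_left M hQN)
    have hc1 := CfsgH1.card_sup_of_disjoint hMQ hMiQ
    have hc2 := CfsgH1.card_sup_of_disjoint (CfsgH1.le_normalizer_of_normal M N) hMN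
    have hQb : 1 < Nat.card Q := by
      rw [CfsgH1.isSylowOf_iff] at hQ
      by_contra hle
      have h1 : Nat.card Q = 1 := le_antisymm (not_lt.1 hle) Nat.card_pos
      have h2 : Q = ⊥ := Subgroup.card_eq_one.1 h1
      rw [h2, Subgroup.relIndex_bot_left] at hQ
      exact hQ.2.2 hqN
    have hQlt : Nat.card Q < Nat.card N := by
      refine lt_of_le_of_ne (Subgroup.card_le_of_le hQN) ?_
      intro h
      obtain ⟨k, hk⟩ := IsPGroup.iff_card.1 hQq
      rw [← h, hk] at hrN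
      exact hqr ((Nat.prime_dvd_prime_iff_eq hr hq).1 (hr.dvd_of_dvd_pow hrN)).symm
    rcases hco.le_iff.1 (le_sup_left : M ≤ M ⊔ Q) with h | h
    · have h1 : Nat.card ↥(M ⊔ N) ≤ Nat.card ↥(M ⊔ Q) := by
        rw [h, Subgroup.card_top]
        exact Subgroup.card_le_card_group _
      rw [hc1, hc2] at h1
      exact absurd (Nat.le_of_mul_le_mul_left h1 Nat.card_pos) (not_le_of_gt hQlt)
    · rw [h] at hc1
      have h1 : Nat.card M * 1 = Nat.card M * Nat.card Q := by rw [mul_one]; exact hc1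
      exact hQb.ne (Nat.eq_of_mul_eq_mul_left Nat.card_pos h1)

end Cfsg.Agent.S3749
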