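import Cfsg.Statements.S3750
import Cfsg.Agent.S3748
import Cfsg.Agent.H1.CompMin
import Cfsg.Agent.H1.CopExtra

set_option autoImplicit false
open Cfsg

namespace Cfsg.Agent.S3750

open scoped commutatorElement Pointwise

/-- Call a proper subgroup M of G primitive when M = N_G(N) for every non-trivial normal subgroup N of M. Let M be a primitive subgroup of the finite group G and N a normal subgroup of G with M ∩ F*(N) ≠ 1. Then F(G) = 1 and F*(N) = F*(G) = E(G); in particular every minimal normal subgroup of G is contained in N. -/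
theorem result {G : Type*} [Group G] [Finite G] (M : Subgroup G) (hM : M ≠ ⊤) (hprim : ∀ N : Subgroup G, N ≤ M → M ≤ Subgroup.normalizer (N : Set G) → N ≠ ⊥ → Subgroup.normalizer (N : Set G) = M) (N : Subgroup G) [N.Normal] (hMF : M ⊓ (Cfsg.generalizedFittingSubgroup ↥N).map N.subtype ≠ ⊥) : Cfsg.fittingSubgroup G = ⊥ ∧ (Cfsg.generalizedFittingSubgroup ↥N).map N.subtype = Cfsg.generalizedFittingSubgroup G ∧ Cfsg.generalizedFittingSubgroup G = Cfsg.layer G ∧ ∀ K : Subgroup G, K.Normal → K ≠ ⊥ → (∀ K' : Subgroup G, K'.Normal → K' ≤ K → K' = ⊥ ∨ K' = K) → K ≤ N := by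
  have hsn := S3748.prim_subnormal M hM hprim
  set F := (Cfsg.generalizedFittingSubgroup ↥N).map N.subtype with hF
  have hFn : F.Normal := CfsgH1.normal_map_characteristic (K := N) _
  have hNsn : N.IsSubnormal := (inferInstance : N.Normal).isSubnormal
  set D := M ⊓ F with hD
  have hMD : M ≤ Subgroup.normalizer (D : Set G) := 
    CfsgH1.le_normalizer_inf Subgroup.le_normalizer (CfsgH1.le_normalizer_of_normal M F)
  have hND : Subgroup.normalizer (D : Set G) = M := hprim D inf_le_left hMD hMF
  have hCD : Subgroup.centralizer (D : Set G) ≤ M := by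
    rw [← hND]; exact CfsgH1.le_normalizer_of_le_centralizer le_rfl
  have hFle : F ≤ (Cfsg.layer ↥N).map N.subtype ⊔ (Cfsg.fittingSubgroup ↥N).map N.subtype := by
    rw [hF, ← Subgroup.map_sup]; exact le_rfl
  have hFN : F ≤ N := Subgroup.map_subtype_le _
  -- the centre of the Fitting subgroup
  have hfit : Cfsg.fittingSubgroup G = ⊥ := by
    set Z := (Subgroup.center ↥(Cfsg.fittingSubgroup G)).map (Cfsg.fittingSubgroup G).subtype with hZ
    have hZF : Z ≤ Cfsg.fittingSubgroup G := Subgroup.map_subtype_le _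
    have hZn : Z.Normal := CfsgH1.normal_map_characteristic (K := Cfsg.fittingSubgroup G) _
    have hZc : Z ≤ Subgroup.centralizer (D : Set G) := by
      rw [Subgroup.le_centralizer_iff]
      refine inf_le_right.trans (hFle.trans (sup_le ?_ ?_))
      · refine (CfsgH2.IsSubnormal.layer_le hNsn).trans ?_
        rw [Subgroup.le_centralizer_iff]
        refine hZF.trans ?_
        rw [Subgroup.le_centralizer_iff]
        exact Subgroup.commutator_eq_bot_iff_le_centralizer.1 CfsgH2.commutator_layer_fittingSubgroup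
      · refine (CfsgH2.IsSubnormal.fittingSubgroup_le hNsn).trans ?_
        intro x hx
        rw [Subgroup.mem_centralizer_iff]
        rintro _ ⟨z, hz, rfl⟩
        have h3 := Subgroup.mem_center_iff.1 hz ⟨x, hx⟩
        exact (congrArg (fun y : Cfsg.fittingSubgroup G => (y : G)) h3).symm
    have h1 : Z = ⊥ := hsn Z hZn.isSubnormal (hZc.trans hCD)
    have h2 : Subgroup.center ↥(Cfsg.fittingSubgroup G) = ⊥ := 
      (Subgroup.map_eq_bot_iff_of_injective _ (Cfsg.fittingSubgroup G).subtype_injective).1 h1
    have hnilF := CfsgH2.isNilpotent_fittingSubgroup (G := G)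
    by_contra hne
    haveI : Nontrivial ↥(Cfsg.fittingSubgroup G) := (Subgroup.nontrivial_iff_ne_bot _).2 hne
    exact CfsgH1.center_ne_bot_of_nilpotent hnilF h2
  have hlay : Cfsg.generalizedFittingSubgroup G = Cfsg.layer G := by
    unfold Cfsg.generalizedFittingSubgroup
    rw [hfit, sup_bot_eq]
  have hcomp : ∀ K : Subgroup G, Cfsg.IsComponent K → K ≤ N := by
    intro K hK
    rcases CfsgH2.IsComponent.le_or_commutator_eq_bot_of_normal hK (inferInstance : N.Normal) with h | h
    · exact h
    · exfalso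
      have h1 : K ≤ Subgroup.centralizer (D : Set G) := 
        (Subgroup.commutator_eq_bot_iff_le_centralizer.1 h).trans (Subgroup.centralizer_le (inf_le_right.trans hFN))
      exact CfsgH2.IsComponent.ne_bot hK (hsn K hK.1 (h1.trans hCD))
  refine ⟨hfit, ?_, hlay, ?_⟩
  · apply le_antisymm (CfsgH2.IsSubnormal.generalizedFittingSubgroup_le hNsn)
    rw [hlay]
    refine sSup_le fun K hK => ?_
    have h1 := CfsgH2.IsComponent.subgroupOf hK (hcomp K hK)
    have h2 := (CfsgH2.IsComponent.le_layer h1).trans (CfsgH2.layer_le_generalizedFittingSubgroup (G := N))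
    intro x hx
    exact ⟨⟨x, hcomp K hK hx⟩, h2 (Subgroup.mem_subgroupOf.2 hx), rfl⟩
  · intro K hK hKb hmin
    obtain ⟨K1, hK1, hK1K⟩ := CfsgH1.exists_component_le hfit hK hKb
    haveI := hK
    rcases hmin (K ⊓ N) inferInstance inf_le_left with h | h
    · exact absurd (le_bot_iff.1 (h ▸ le_inf hK1K (hcomp K1 hK1))) (CfsgH2.IsComponent.ne_bot hK1)
    · exact inf_eq_left.1 h

end Cfsg.Agent.S3750
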