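import Cfsg.Statements.S3751
import Cfsg.Agent.H1.PrimPair
import Cfsg.Agent.H1.KW

set_option autoImplicit false
open Cfsg

namespace Cfsg.Agent.S3751

open scoped commutatorElement Pointwise

/-- Two distinct subgroups M₁, M₂ of G form a primitive pair when, for {i, j} = {1, 2}, every non-trivial normal subgroup A of M_i contained in M₁ ∩ M₂ satisfies N_{M_j}(A) = M₁ ∩ M₂; the pair has characteristic p when moreover C_{M_i}(O_p(M_i)) ≤ O_p(M_i) for both i and O_p(M₁)O_p(M₂) ≤ M₁ ∩ M₂. Let G be a finite group, p a prime dividing its order, with O_p(G) = 1 and every p-local subgroup of characteristic p. Then either G has a primitive pair of characteristic p, or every maximal p-local subgroup M of G is strongly p-embedded in G: M is a proper subgroup, p divides its order, and for every g ∉ M the order of M ∩ gMg⁻¹ is prime to p. -/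
theorem result {G : Type*} [Group G] [Finite G] {p : ℕ} [Fact p.Prime] (hloc : Cfsg.IsOfLocalCharacteristic p G) (hOp : Cfsg.pCore p G = ⊥) : (∃ M₁ M₂ : Subgroup G, M₁ ≠ M₂ ∧ (∀ A : Subgroup G, A ≠ ⊥ → A ≤ M₁ ⊓ M₂ → (M₁ ≤ Subgroup.normalizer (A : Set G) → M₂ ⊓ Subgroup.normalizer (A : Set G) = M₁ ⊓ M₂) ∧ (M₂ ≤ Subgroup.normalizer (A : Set G) → M₁ ⊓ Subgroup.normalizer (A : Set G) = M₁ ⊓ M₂)) ∧ Subgroup.centralizer (Cfsg.pCore p ↥M₁ : Set ↥M₁) ≤ Cfsg.pCore p ↥M₁ ∧ Subgroup.centralizer (Cfsg.pCore p ↥M₂ : Set ↥M₂) ≤ Cfsg.pCore p ↥M₂ ∧ (Cfsg.pCore p ↥M₁).map M₁.subtype ⊔ (Cfsg.pCore p ↥M₂).map M₂.subtype ≤ M₁ ⊓ M₂) ∨ (∀ M : Subgroup G, (∃ T : Subgroup G, IsPGroup p T ∧ T ≠ ⊥ ∧ M = Subgroup.normalizer (T : Set G)) → (∀ L : Subgroup G, (∃ T : Subgroup G, IsPGroup p T ∧ T ≠ ⊥ ∧ L = Subgroup.normalizer (T : Set G)) → M ≤ L → L = M) → M ≠ ⊤ ∧ p ∣ Nat.card M ∧ ∀ g : G, g ∉ M → ¬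 p ∣ Nat.card ↥(M ⊓ M.map (MulAut.conj g).toMonoidHom)) := by
  classical
  have hlc : ∀ M : Subgroup G, CfsgH1.PLoc p M → CfsgH1.CharP p ↥M := by
    rintro M ⟨T, h1, h2, rfl⟩
    exact hloc.2 T h1 h2
  rw [or_iff_not_imp_left]
  intro hno M hM hMmax
  have hMP : CfsgH1.MaxPLoc p M := ⟨hM, fun L hL hML => hMmax L hL hML⟩
  have hp := (Fact.out : p.Prime)
  refine ⟨?_, ?_, ?_⟩
  · rintro rfl
    apply hMP.OO_ne_bot
    change (pCore p (⊤ : Subgroup G)).map (⊤ : Subgroup G).subtype = ⊥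
    rw [CfsgH2.pCore_top]
    exact hOp
  · have h1 : p ∣ Nat.card (CfsgH1.OO p M) := by
      obtain ⟨k, hk⟩ := IsPGroup.iff_card.1 (CfsgH1.OO_pgroup (p := p) M)
      rw [hk]
      apply dvd_pow_self
      rintro rfl
      rw [pow_zero] at hk
      exact hMP.OO_ne_bot (Subgroup.card_eq_one.1 hk)
    exact h1.trans (Subgroup.card_dvd_of_le (CfsgH1.OO_le M))
  · intro g hg hd
    apply hno
    have hne : M ≠ MulAut.conj g • M := fun h => hg (hMP.normalizer_self (CfsgH1.conj_smul_eq_self_iff.1 h.symm))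
    have hfin : {T : Subgroup G | ∃ L₁ L₂ : Subgroup G, CfsgH1.MaxPLoc p L₁ ∧ CfsgH1.MaxPLoc p L₂ ∧ L₁ ≠ L₂ ∧ CfsgH1.IsSylowOf p T (L₁ ⊓ L₂)}.Finite := Set.toFinite _
    obtain ⟨T0, hT0⟩ := CfsgH1.exists_isSylowOf p (M ⊓ MulAut.conj g • M)
    obtain ⟨T, ⟨L₁, L₂, hL1, hL2, hL, hT⟩, hmax⟩ := Set.Finite.exists_maximalFor (fun T : Subgroup G => Nat.card T) _ hfin 
      ⟨T0, M, _, hMP, hMP.conj g, hne, hT0⟩
    have hmax' : ∀ L₁ L₂ R : Subgroup G, CfsgH1.MaxPLoc p L₁ → CfsgH1.MaxPLoc p L₂ → L₁ ≠ L₂ → CfsgH1.IsSylowOf p R (L₁ ⊓ L₂) → Nat.card R ≤ Nat.card T := by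
      intro L₁' L₂' R h1 h2 h3 h4
      by_contra hlt
      exact hlt (hmax (j := R) ⟨L₁', L₂', h1, h2, h3, h4⟩ (not_le.1 hlt).le)
    have hTb : T ≠ ⊥ := by
      rintro rfl
      have h1 := hmax' _ _ T0 hMP (hMP.conj g) hne hT0
      rw [Subgroup.card_bot] at h1
      have h2 : T0 = ⊥ := Subgroup.card_eq_one.1 (le_antisymm h1 Nat.card_pos)
      exact CfsgH1.isSylowOf_ne_bot hT0 hd h2
    by_cases h1 : CfsgH1.IsSylowOf p T L₁
    · by_cases h2 : CfsgH1.IsSylowOf p T L₂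
      · exact CfsgH1.pair_of_maxPLoc hL1 hL2 (hlc _ hL1.1) (hlc _ hL2.1) hL 
          ((CfsgH1.OO_le_of_sylowOf h1).trans (CfsgH1.isSylowOf_le h2)) ((CfsgH1.OO_le_of_sylowOf h2).trans (CfsgH1.isSylowOf_le h1))
      · exact CfsgH1.pair_aux hlc hL2 hL1 (by rw [inf_comm]; exact hT) hTb hmax' h2
    · exact CfsgH1.pair_aux hlc hL1 hL2 hT hTb hmax' h1

end Cfsg.Agent.S3751
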