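import Cfsg.Statements.S3760
import Cfsg.Agent.H2.Basic

set_option autoImplicit false
open Cfsg

namespace Cfsg.Agent.S3760

open scoped commutatorElement Pointwise

/-- Let the group G act transitively on a set X, let x ∈ X with stabilizer H = G_x, and let K ≤ H. Then N_G(K) acts transitively on the set of fixed points of K if and only if every G-conjugate of K contained in H is already an H-conjugate of K. -/
theorem result {G : Type*} [Group G] {X : Type*} [MulAction G X] (htrans : ∀ a b : X, ∃ g : G, g • a = b) (x : X) (K : Subgroup G) (hK : K ≤ MulAction.stabilizer G x) : (∀ a b : X, (∀ k ∈ K, k • a = a) → (∀ k ∈ K, k • b = b) → ∃ g ∈ Subgroup.normalizer (K : Set G), g • a = b) ↔ ∀ g : G, K.map (MulAut.conj g).toMonoidHom ≤ MulAction.stabilizer G x → ∃ h ∈ MulAction.stabilizer G x, K.map (MulAut.conj g).toMonoidHom = K.map (MulAut.conj h).toMonoidHom := by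
  have hmem : ∀ g : G, K.map (MulAut.conj g).toMonoidHom ≤ MulAction.stabilizer G x ↔ ∀ k ∈ K, k • (g⁻¹ • x) = g⁻¹ • x := by
    intro g
    constructor
    · intro h k hk
      have h1 : g * k * g⁻¹ ∈ MulAction.stabilizer G x := h ⟨k, hk, rfl⟩
      rw [MulAction.mem_stabilizer_iff] at h1
      calc k • (g⁻¹ • x) = g⁻¹ • ((g * k * g⁻¹) • x) := by simp [← mul_smul, mul_assoc]
        _ = g⁻¹ • x := by rw [h1]
    · rintro h _ ⟨k, hk, rfl⟩
      change g * k * g⁻¹ ∈ MulAction.stabilizer G x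
      rw [MulAction.mem_stabilizer_iff, mul_smul, mul_smul, h k hk, smul_inv_smul]
  constructor
  · intro h g hg
    obtain ⟨n, hn, hnx⟩ := h (g⁻¹ • x) x ((hmem g).1 hg) (fun k hk => MulAction.mem_stabilizer_iff.1 (hK hk))
    refine ⟨g * n⁻¹, ?_, ?_⟩
    · rw [MulAction.mem_stabilizer_iff]
      conv_lhs => rw [← hnx]
      simp [← mul_smul]
    · rw [CfsgH2.map_conj_mul, CfsgH2.mem_normalizer_iff_map_conj.1 (Subgroup.inv_mem _ hn)]
  · intro h a b ha hb
    have key : ∀ a : X, (∀ k ∈ K, k • a = a) → ∃ n ∈ Subgroup.normalizer (K : Set G), n • a = x := by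
      intro a ha
      obtain ⟨g, hg⟩ := htrans a x
      have hga : g⁻¹ • x = a := by rw [← hg, inv_smul_smul]
      obtain ⟨y, hy, hyg⟩ := h g ((hmem g).2 (by rw [hga]; exact ha))
      refine ⟨y⁻¹ * g, ?_, ?_⟩
      · rw [CfsgH2.mem_normalizer_iff_map_conj, CfsgH2.map_conj_mul, hyg, ← CfsgH2.map_conj_mul, inv_mul_cancel, CfsgH2.map_conj_one]
      · rw [mul_smul, hg, inv_smul_eq_iff]
        exact (MulAction.mem_stabilizer_iff.1 hy).symm
    obtain ⟨n, hn, hna⟩ := key a ha
    obtain ⟨m, hm, hmb⟩ := key b hb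
    refine ⟨m⁻¹ * n, Subgroup.mul_mem _ (Subgroup.inv_mem _ hm) hn, ?_⟩
    rw [mul_smul, hna, ← hmb, inv_smul_smul]

end Cfsg.Agent.S3760
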