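import Cfsg.Statements.S3766
import Cfsg.Agent.H1.ChiefFit

set_option autoImplicit false
open Cfsg

namespace Cfsg.Agent.S3766

open scoped commutatorElement Pointwise

/-- Let G be a finite solvable group and N a normal subgroup of G. Call a pair V < U of normal subgroups of G a chief factor of G when no normal subgroup of G lies strictly between them; an element g centralizes the chief factor U/V when u g u⁻¹ g⁻¹ ∈ V for all u ∈ U. Then an element of G lies in the Fitting subgroup F(N) if and only if it lies in N and centralizes every chief factor of G; and also if and only if it lies in N and centralizes every chief factor U/V of G with U ≤ F(N). -/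
theorem result {G : Type*} [Group G] [Finite G] (hG : Group.IsSolvable G) (N : Subgroup G) [N.Normal] (g : G) : (g ∈ (Cfsg.fittingSubgroup ↥N).map N.subtype ↔ g ∈ N ∧ ∀ U V : Subgroup G, (U.Normal ∧ V.Normal ∧ V < U ∧ ∀ W : Subgroup G, W.Normal → V ≤ W → W ≤ U → W = V ∨ W = U) → ∀ u ∈ U, u * g * u⁻¹ * g⁻¹ ∈ V) ∧ (g ∈ (Cfsg.fittingSubgroup ↥N).map N.subtype ↔ g ∈ N ∧ ∀ U V : Subgroup G, (U.Normal ∧ V.Normal ∧ V < U ∧ ∀ W : Subgroup G, W.Normal → V ≤ W → W ≤ U → W = V ∨ W = U) → U ≤ (Cfsg.fittingSubgroup ↥N).map N.subtype → ∀ u ∈ U, u * g * u⁻¹ * g⁻¹ ∈ V) := by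
  have key1 : g ∈ CfsgH1.FT N → g ∈ N ∧ ∀ U V : Subgroup G, CfsgH1.IsChief U V → ∀ u ∈ U, ⁅u, g⁆ ∈ V := by
    intro hg
    refine ⟨CfsgH1.FT_le N hg, fun U V hc u hu => ?_⟩
    haveI := CfsgH1.FT_normal (N := N) ‹_›
    exact CfsgH1.nilpotent_centralizes_chief (CfsgH1.FT_nilpotent N) hc (Subgroup.commutator_mem_commutator hu hg)
  have key2 : (g ∈ N ∧ ∀ U V : Subgroup G, CfsgH1.IsChief U V → U ≤ CfsgH1.FT N → ∀ u ∈ U, ⁅u, g⁆ ∈ V) → g ∈ CfsgH1.FT N := 
    fun h => CfsgH1.fitting_of_chief hG ‹N.Normal› (CfsgH1.mem_chiefCent.2 h)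
  refine ⟨⟨fun h => key1 h, fun h => key2 ⟨h.1, fun U V hc _ => h.2 U V hc⟩⟩, ⟨fun h => ⟨(key1 h).1, fun U V hc _ => (key1 h).2 U V hc⟩, fun h => key2 ⟨h.1, fun U V hc hle => h.2 U V hc hle⟩⟩⟩

end Cfsg.Agent.S3766
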