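import Cfsg.Statements.S3768
import Cfsg.Agent.H1.FrobThm
import Cfsg.Agent.H1.FrobEven
import Cfsg.Agent.H1.FrobSub

set_option autoImplicit false
open Cfsg

namespace Cfsg.Agent.S3768

open scoped commutatorElement Pointwise

open Subgroup CfsgH1 in
theorem aux {G : Type*} [Group G] [Finite G] (R : Subgroup G) (hR : Cfsg.IsFrobeniusComplement R) (N : Subgroup G) [hN : N.Normal] (hKN : ¬ Cfsg.frobeniusKernel R ⊆ N) : Cfsg.IsFrobeniusComplement (R.map (QuotientGroup.mk' N)) ∧ Cfsg.frobeniusKernel (R.map (QuotientGroup.mk' N)) = QuotientGroup.mk' N '' Cfsg.frobeniusKernel R := by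
  classical
  obtain ⟨K, hK, hKn, hc⟩ := frobenius_kernel hR.2.2
  have hKN' : ¬ K ≤ N := by
    intro h
    apply hKN
    rw [← hK]
    exact h
  have hK1 : K ≠ ⊥ := by
    rintro rfl
    exact hKN' bot_le
  have hfpf := (frob_iff_fpf hc hK1 hR.1).1 hR
  have hd : K ⊓ R = ⊥ := disjoint_iff.1 hc.disjoint
  -- the map
  have hinj : ∀ r ∈ R, r ≠ 1 → ∀ k ∈ K, ∀ k' ∈ K, k * (r * k⁻¹ * r⁻¹) = k' * (r * k'⁻¹ * r⁻¹) → k = k' := by
    intro r hr hr1 k hk k' hk' h
    have h1 : k'⁻¹ * k ∈ K ⊓ Subgroup.centralizer {r} := by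
      refine Subgroup.mem_inf.2 ⟨K.mul_mem (K.inv_mem hk') hk, ?_⟩
      rw [mem_centralizer_iff]
      intro z hz
      rw [Set.mem_singleton_iff.1 hz]
      have h2 : k'⁻¹ * k = r * (k'⁻¹ * k) * r⁻¹ := by
        have h3 : k'⁻¹ * (k * (r * k⁻¹ * r⁻¹)) * (r * k * r⁻¹) = k'⁻¹ * (k' * (r * k'⁻¹ * r⁻¹)) * (r * k * r⁻¹) := by rw [h]
        calc k'⁻¹ * k = k'⁻¹ * (k * (r * k⁻¹ * r⁻¹)) * (r * k * r⁻¹) := by group
          _ = k'⁻¹ * (k' * (r * k'⁻¹ * r⁻¹)) * (r * k * r⁻¹) := h3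
          _ = _ := by group
      conv_rhs => rw [h2]
      group
    rw [hfpf r hr hr1, mem_bot, inv_mul_eq_one] at h1
    exact h1.symm
  -- surjectivity on a normal subgroup of K
  have hsurj : ∀ r ∈ R, r ≠ 1 → ∀ L : Subgroup G, L ≤ K → L.Normal → ∀ y ∈ L, ∃ k ∈ L, k * (r * k⁻¹ * r⁻¹) = y := by
    intro r hr hr1 L hLK hLn y hy
    have hmem : ∀ k ∈ L, k * (r * k⁻¹ * r⁻¹) ∈ L := fun k hk => mul_mem hk (hLn.conj_mem _ (inv_mem hk) r)
    let φ : L → L := fun k => ⟨k * (r * (k : G)⁻¹ * r⁻¹), hmem k k.2⟩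
    have hφ : Function.Injective φ := by
      intro a b hab
      exact Subtype.ext (hinj r hr hr1 a (hLK a.2) b (hLK b.2) (congrArg Subtype.val hab))
    obtain ⟨k, hk⟩ := (Finite.injective_iff_surjective.1 hφ) ⟨y, hy⟩
    exact ⟨k, k.2, congrArg Subtype.val hk⟩
  have hNK : N ≤ K := by
    intro x hx
    by_contra hxK
    have h1 : x ∉ Cfsg.frobeniusKernel R := by rw [← hK]; exact hxK
    rw [mem_frobKer_iff, not_not] at h1
    obtain ⟨hx1, g, hg⟩ := h1
    have hr1 : g⁻¹ * x * g ≠ 1 := by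
      intro h
      apply hx1
      have : x = g * (g⁻¹ * x * g) * g⁻¹ := by group
      rw [this, h]; group
    have hrN : g⁻¹ * x * g ∈ N := by
      have := hN.conj_mem x hx g⁻¹
      rwa [inv_inv] at this
    apply hKN'
    intro y hy
    obtain ⟨k, hk, rfl⟩ := hsurj _ hg hr1 K le_rfl hKn y hy
    have h2 : k * ((g⁻¹ * x * g) * k⁻¹ * (g⁻¹ * x * g)⁻¹) = (k * (g⁻¹ * x * g) * k⁻¹) * (g⁻¹ * x * g)⁻¹ := by group
    rw [h2]
    exact mul_mem (hN.conj_mem _ hrN k) (inv_mem hrN)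
  have hmk : ∀ x : G, QuotientGroup.mk' N x = 1 ↔ x ∈ N := fun x => QuotientGroup.eq_one_iff x
  haveI : (K.map (QuotientGroup.mk' N)).Normal := hKn.map _ (QuotientGroup.mk'_surjective N)
  have hcbar : IsComplement' (K.map (QuotientGroup.mk' N)) (R.map (QuotientGroup.mk' N)) := by
    apply isComplement'_of_disjoint_and_mul_eq_univ
    · rw [disjoint_iff, eq_bot_iff]
      rintro _ ⟨⟨k, hk, rfl⟩, ⟨r, hr, hrk⟩⟩
      have h1 : k⁻¹ * r ∈ N := by
        rw [← hmk, map_mul, map_inv, hrk, inv_mul_cancel]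
      have h2 : r ∈ K := by
        have := mul_mem hk (hNK h1)
        rwa [mul_inv_cancel_left] at this
      have h3 : r ∈ K ⊓ R := ⟨h2, hr⟩
      rw [hd, mem_bot] at h3
      rw [mem_bot, ← hrk, h3, map_one]
    · rw [Set.eq_univ_iff_forall]
      intro y
      obtain ⟨x, rfl⟩ := QuotientGroup.mk'_surjective N y
      have h1 : x ∈ (K : Set G) * (R : Set G) := by rw [hc.mul_eq]; exact Set.mem_univ x
      obtain ⟨k, hk, r, hr, rfl⟩ := h1
      exact ⟨_, mem_map_of_mem _ hk, _, mem_map_of_mem _ hr, (map_mul _ _ _).symm⟩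
  have hKb : K.map (QuotientGroup.mk' N) ≠ ⊥ := by
    intro h
    apply hKN'
    intro k hk
    have h1 := h.le (mem_map_of_mem (QuotientGroup.mk' N) hk)
    rw [mem_bot, hmk] at h1
    exact h1
  have hRb : R.map (QuotientGroup.mk' N) ≠ ⊥ := by
    intro h
    apply hR.1
    rw [eq_bot_iff]
    intro r hr
    have h1 := h.le (mem_map_of_mem (QuotientGroup.mk' N) hr)
    rw [mem_bot, hmk] at h1
    have h3 : r ∈ K ⊓ R := ⟨hNK h1, hr⟩
    rwa [hd] at h3
  have hfc : Cfsg.IsFrobeniusComplement (R.map (QuotientGroup.mk' N)) := by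
    rw [frob_iff_fpf hcbar hKb hRb]
    rintro _ ⟨r, hr, rfl⟩ hr1
    have hr1' : r ≠ 1 := by
      rintro rfl
      exact hr1 (map_one _)
    rw [eq_bot_iff]
    rintro _ ⟨⟨k, hk, rfl⟩, hkc⟩
    have h1 := mem_centralizer_iff.1 (hkc : QuotientGroup.mk' N k ∈ Subgroup.centralizer {QuotientGroup.mk' N r}) _ (Set.mem_singleton _)
    have h2 : k * (r * k⁻¹ * r⁻¹) ∈ N := by
      rw [← hmk, map_mul, map_mul, map_mul, map_inv, map_inv]
      calc QuotientGroup.mk' N k * (QuotientGroup.mk' N r * (QuotientGroup.mk' N k)⁻¹ * (QuotientGroup.mk' N r)⁻¹)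
          = QuotientGroup.mk' N k * QuotientGroup.mk' N r * (QuotientGroup.mk' N k)⁻¹ * (QuotientGroup.mk' N r)⁻¹ := by group
        _ = QuotientGroup.mk' N r * QuotientGroup.mk' N k * (QuotientGroup.mk' N k)⁻¹ * (QuotientGroup.mk' N r)⁻¹ := by rw [h1]
        _ = 1 := by group
    obtain ⟨n, hn, hnk⟩ := hsurj r hr hr1' N hNK hN _ h2
    have h3 := hinj r hr hr1' n (hNK hn) k hk hnk
    rw [mem_bot, hmk, ← h3]
    exact hn
  refine ⟨hfc, ?_⟩
  rw [← kernel_eq_of_complement hcbar hfc.2.2, ← hK]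
  rfl

/-- Let G be a finite Frobenius group with Frobenius complement R and Frobenius kernel K (the identity together with the elements in no conjugate of R), and let N be a normal subgroup of G not containing K. Then G/N is a Frobenius group with Frobenius complement RN/N whose Frobenius kernel is the image of K. -/
theorem result {G : Type*} [Group G] [Finite G] (R : Subgroup G) (hR : Cfsg.IsFrobeniusComplement R) (N : Subgroup G) [N.Normal] (hKN : ¬ Cfsg.frobeniusKernel R ⊆ N) : Cfsg.IsFrobeniusComplement (R.map (QuotientGroup.mk' N)) ∧ Cfsg.frobeniusKernel (R.map (QuotientGroup.mk' N)) = QuotientGroup.mk' N '' Cfsg.frobeniusKernel R := by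

  exact aux R hR N hKN

end Cfsg.Agent.S3768
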