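import Cfsg.Statements.S3771
import Cfsg.Agent.H1.PGrp2
import Cfsg.Agent.H1.MinNormal
import Cfsg.Agent.H3.Rank2

set_option autoImplicit false
open Cfsg

namespace Cfsg.Agent.S3771

open scoped commutatorElement Pointwise

/-- Let p be a prime and R a finite p-group of p-rank at most 2 (no elementary abelian subgroup of order p³) in which every element has order dividing p. Then R has order at most p³. -/
theorem result {R : Type*} [Group R] [Finite R] {p : ℕ} [Fact p.Prime] (hR : IsPGroup p R) (hrank : Cfsg.PRankLE p 2 R) (hexp : ∀ x : R, x ^ p = 1) : Nat.card R ≤ p ^ 3 := by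
  classical
  haveI : Group.IsNilpotent R := hR.isNilpotent
  obtain ⟨A, ⟨hAn, hAc⟩, hmax⟩ := CfsgH1.exists_maximal_of_set {A : Subgroup R | A.Normal ∧ (∀ a ∈ A, ∀ b ∈ A, a * b = b * a)} 
    ⟨⊥, inferInstance, by intro a ha b hb; rw [Subgroup.mem_bot] at ha hb; rw [ha, hb]⟩
  haveI := hAn
  have hC : Subgroup.centralizer (A : Set R) = A := CfsgH1.centralizer_eq_of_max_abelian_normal hAc
    (fun M hM hMc hAM => hmax M ⟨hM, hMc⟩ hAM)
  have h1 : Nat.card A ≤ p ^ 2 := hrank A ⟨⟨fun a b => Subtype.ext (hAc a a.2 b b.2)⟩⟩ (fun a _ => hexp a)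
  have h2 := CfsgH3.centralizer_index_le hR hAc h1
  rw [hC] at h2
  rw [← Subgroup.index_mul_card A]
  calc A.index * Nat.card A ≤ p * p ^ 2 := Nat.mul_le_mul h2 h1
    _ = p ^ 3 := by ring

end Cfsg.Agent.S3771
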