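import Cfsg.Statements.S3772
import Cfsg.Agent.H1.QuadSum
import Cfsg.Agent.H1.Frat
import Cfsg.Agent.H1.Regular
import Cfsg.Agent.H3.Rank2

set_option autoImplicit false
open Cfsg

namespace Cfsg.Agent.S3772

open scoped commutatorElement Pointwise

open Subgroup CfsgH1 in
theorem main {G : Type*} [Group G] [Finite G] (hG : IsPGroup 2 G) (hΦ : Nat.card (frattini G) = 2) (d : ℕ) (hd : (frattini G).index = 2 ^ d) : (Nat.card {x : G // x ^ 2 = 1} = 2 ^ d ∨ ∃ r : ℕ, 1 ≤ r ∧ 2 * r ≤ d ∧ (Nat.card {x : G // x ^ 2 = 1} = 2 ^ d + 2 ^ (d - r) ∨ Nat.card {x : G // x ^ 2 = 1} + 2 ^ (d - r) = 2 ^ d)) ∧ (∀ r : ℕ, d = 2 * r → (Nat.card {x : G // x ^ 2 = 1} = 2 ^ d + 2 ^ r ∨ Nat.card {x : G // x ^ 2 = 1} + 2 ^ r = 2 ^ d) → Cfsg.IsExtraspecial 2 G) := by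
  classical
  haveI : Fact (Nat.Prime 2) := ⟨Nat.prime_two⟩
  haveI : Fintype G := Fintype.ofFinite G
  haveI : Group.IsNilpotent G := hG.isNilpotent
  set Z := frattini G with hZdef
  have hZ : Z ≤ Subgroup.center G := CfsgH3.le_center_of_card_le hG hΦ.le
  have hsq : ∀ x : G, x ^ 2 ∈ Z := fun x => pow_mem_frattini hG x
  have hcm : ∀ x y : G, ⁅x, y⁆ ∈ Z := fun x y => commutator_le_frattini (Subgroup.commutator_mem_commutator (mem_top x) (mem_top y))
  obtain ⟨z₀, hz₀, hz₀u⟩ := (Nat.card_eq_two_iff' (1 : Z)).1 hΦ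
  have hz₀sq : z₀ * z₀ = 1 := by
    by_contra h
    have h1 := hz₀u _ h
    exact hz₀ (mul_eq_left.1 h1)
  let χ : Z →* ℤˣ := 
    { toFun := fun z => if z = 1 then 1 else -1
      map_one' := by simp
      map_mul' := by
        intro a b
        by_cases ha : a = 1
        · simp [ha]
        · by_cases hb : b = 1
          · simp [hb]
          · have h1 := hz₀u a ha
            have h2 := hz₀u b hb
            have h3 : a * b = 1 := by rw [h1, h2]; exact hz₀sq
            simp [ha, hb, h3] }
  have hχ : ∀ z : Z, χ z = 1 ↔ z = 1 := by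
    intro z
    change (if z = 1 then (1 : ℤˣ) else -1) = 1 ↔ z = 1
    split_ifs with h
    · simp [h]
    · simp only [h, iff_false]; decide
  -- T
  set j := Nat.card {x : G // x ^ 2 = 1} with hj
  have hcardG : Nat.card G = 2 ^ (d + 1) := by
    rw [← Subgroup.index_mul_card Z, hd, hΦ, pow_succ]
  have hT : TT hsq χ = 2 * (j : ℤ) - 2 ^ (d + 1) := by
    unfold TT
    have h1 : ∀ x : G, ((qf hsq χ x : ℤˣ) : ℤ) = 2 * (if x ^ 2 = 1 then (1 : ℤ) else 0) - 1 := by
      intro x
      by_cases hx : x ^ 2 = 1
      · have : qf hsq χ x = 1 := (hχ _).2 (Subtype.ext hx)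
        rw [this, if_pos hx]; norm_num
      · have : qf hsq χ x = -1 := by
          rcases Int.units_eq_one_or (qf hsq χ x) with h | h
          · exact absurd (congrArg Subtype.val ((hχ _).1 h)) hx
          · exact h
        rw [this, if_neg hx]; norm_num
    rw [Finset.sum_congr rfl (fun x _ => h1 x), Finset.sum_sub_distrib, ← Finset.mul_sum]
    congr 1
    · congr 1
      rw [Finset.sum_boole, hj, Nat.card_eq_fintype_card, Fintype.card_subtype]
    · rw [Finset.sum_const, Finset.card_univ, ← Nat.card_eq_fintype_card, hcardG]; simp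
  -- rad = center
  have hrad : rad hZ hcm χ = Subgroup.center G := by
    apply le_antisymm _ (center_le_rad hZ)
    intro u hu
    rw [Subgroup.mem_center_iff]
    intro x
    have h1 := (hχ _).1 ((mem_rad hZ).1 hu x)
    have h2 : ⁅u, x⁆ = 1 := congrArg Subtype.val h1
    exact (commutatorElement_eq_one_iff_mul_comm.1 h2).symm
  obtain ⟨c, hc⟩ := IsPGroup.iff_card.1 (hG.to_subgroup (Subgroup.center G))
  have hc1 : 1 ≤ c := by
    by_contra h
    have h0 : c = 0 := by omega
    have h2 := Subgroup.card_le_of_le hZ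
    rw [hc, hΦ, h0] at h2
    omega
  have hnab : Subgroup.center G ≠ ⊤ ∨ True := Or.inr trivial
  have hTsq := TT_sq (hsq := hsq) (χ := χ) hZ hcm
  rw [hrad, hcardG, hc] at hTsq
  push_cast at hTsq
  -- when T ≠ 0
  have hpow : (TT hsq χ) ^ 2 = 2 ^ (d + 1) * 2 ^ c → ∃ t : ℕ, 2 * t = d + 1 + c ∧ (TT hsq χ = 2 ^ t ∨ TT hsq χ = - 2 ^ t) := by
    intro h
    have h1 : (TT hsq χ).natAbs ^ 2 = 2 ^ (d + 1 + c) := by
      have : ((TT hsq χ).natAbs : ℤ) ^ 2 = 2 ^ (d + 1 + c) := by
        rw [Int.natCast_natAbs, sq_abs, h, ← pow_add]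
      exact_mod_cast this
    have h2 : (TT hsq χ).natAbs ∣ 2 ^ (d + 1 + c) := Dvd.intro_left ((TT hsq χ).natAbs) (by rw [← sq]; exact h1)
    obtain ⟨t, -, ht⟩ := (Nat.dvd_prime_pow Nat.prime_two).1 h2
    refine ⟨t, ?_, ?_⟩
    · rw [ht, ← pow_mul] at h1
      have := Nat.pow_right_injective (le_refl 2) h1
      try simp only at this
      omega
    · rcases Int.natAbs_eq (TT hsq χ) with h3 | h3
      · left; rw [h3, ht]; push_cast; rfl
      · right; rw [h3, ht]; push_cast; rfl
  constructor
  · rcases hTsq with ⟨hq, hT2⟩ | ⟨-, hT2⟩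
    · -- G is nonabelian
      have hcd : c + 1 ≤ d := by
        have hne1 : ¬ IsMulCommutative G := by
          intro hab
          have h1 : Subgroup.center G = ⊤ := by
            rw [eq_top_iff]
            intro x _
            rw [Subgroup.mem_center_iff]
            intro g
            exact hab.is_comm.comm g x
          have h2 : ∀ x : G, x ^ 2 = 1 := by
            intro x
            have h3 := hq x (by rw [h1]; exact mem_top x)
            exact congrArg Subtype.val ((hχ _).1 h3)
          have h4 : Z ≤ ⊥ := by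
            apply frattini_le_of_elementary (p := 2)
            · rw [_root_.commutator_def, Subgroup.commutator_le]
              intro x _ y _
              rw [mem_bot, commutatorElement_eq_one_iff_mul_comm]
              exact hab.is_comm.comm x y
            · intro x
              rw [mem_bot]; exact h2 x
          rw [le_bot_iff] at h4
          rw [h4, Subgroup.card_bot] at hΦ
          omega
        have hidx : (Subgroup.center G).index * 2 ^ c = 2 ^ (d + 1) := by
          rw [← hc, Subgroup.index_mul_card, hcardG]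
        have hidxd : (Subgroup.center G).index ∣ 2 ^ (d + 1) := Dvd.intro _ hidx
        obtain ⟨e, -, he⟩ := (Nat.dvd_prime_pow Nat.prime_two).1 hidxd
        have he2 : 2 ≤ e := by
          by_contra hlt
          apply hne1
          have h9 : IsCyclic (G ⧸ Subgroup.center G) := by
            rcases (show e = 0 ∨ e = 1 by omega) with h | h
            · haveI : Subsingleton (G ⧸ Subgroup.center G) := (Nat.card_eq_one_iff_unique.1 (by
                change (Subgroup.center G).index = 1
                rw [he, h, pow_zero])).1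
              infer_instance
            · exact isCyclic_of_prime_card (p := 2) (by
                change (Subgroup.center G).index = 2
                rw [he, h, pow_one])
          exact ⟨⟨fun a b => commutative_of_cyclic_center_quotient (QuotientGroup.mk' (Subgroup.center G)) (by simp) a b⟩⟩
        rw [he, ← pow_add] at hidx
        have := Nat.pow_right_injective (le_refl 2) hidx
        try simp only at this
        omega
      obtain ⟨t, ht, hTt⟩ := hpow hT2
      right
      refine ⟨d + 1 - t, by omega, by omega, ?_⟩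
      have e1 : d - (d + 1 - t) = t - 1 := by omega
      rw [e1]
      have e2 : (2 : ℤ) ^ t = 2 * 2 ^ (t - 1) := by
        rw [← pow_succ']; congr 1; omega
      have e3 : (2 : ℤ) ^ (d + 1) = 2 * 2 ^ d := by rw [pow_succ']
      rcases hTt with h | h
      · left
        rw [hT, e2, e3] at h
        have : (j : ℤ) = 2 ^ d + 2 ^ (t - 1) := by linarith
        exact_mod_cast this
      · right
        rw [hT, e2, e3] at h
        have : (j : ℤ) + 2 ^ (t - 1) = 2 ^ d := by linarith
        exact_mod_cast this
    · left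
      have h1 : TT hsq χ = 0 := by
        rcases pow_eq_zero_iff (two_ne_zero) |>.1 hT2 with h
        exact h
      rw [hT, pow_succ'] at h1
      have : (j : ℤ) = 2 ^ d := by linarith
      exact_mod_cast this
  · intro r hr hjr
    have e3 : (2 : ℤ) ^ (d + 1) = 2 * 2 ^ d := by rw [pow_succ']
    have hT1 : (TT hsq χ) ^ 2 = 2 ^ (2 * r + 2) := by
      rw [hT, e3]
      rcases hjr with h | h
      · have h1 : (j : ℤ) = 2 ^ d + 2 ^ r := by rw [h]; push_cast; rfl
        rw [h1]; ring
      · have h1 : (j : ℤ) = 2 ^ d - 2 ^ r := by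
          have : (j : ℤ) + 2 ^ r = 2 ^ d := by exact_mod_cast h
          linarith
        rw [h1]; ring
    have hc' : c = 1 := by
      rcases hTsq with ⟨-, h⟩ | ⟨-, h⟩
      · rw [hT1, ← pow_add] at h
        have h2 : (2 : ℕ) ^ (2 * r + 2) = 2 ^ (d + 1 + c) := by exact_mod_cast h
        have := Nat.pow_right_injective (le_refl 2) h2
        try simp only at this
        omega
      · rw [hT1] at h
        exact absurd h (by positivity)
    have hcen : Subgroup.center G = Z := by
      symm
      apply Subgroup.eq_of_le_of_card_ge hZ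
      rw [hc, hc', hΦ, pow_one]
    have hcomm : commutator G = Z := by
      have h1 : commutator G ≤ Z := commutator_le_frattini
      have h2 : commutator G ≠ ⊥ := by
        intro h
        have h3 : Subgroup.center G = ⊤ := by
          rw [eq_top_iff]
          intro x _
          rw [Subgroup.mem_center_iff]
          intro g
          have h4 : ⁅g, x⁆ ∈ commutator G := Subgroup.commutator_mem_commutator (mem_top g) (mem_top x)
          rw [h, mem_bot] at h4
          exact commutatorElement_eq_one_iff_mul_comm.1 h4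
        rw [hcen] at h3
        haveI : Nontrivial G := by
          rw [← Finite.one_lt_card_iff_nontrivial, hcardG]
          exact Nat.one_lt_pow (by omega) (by norm_num)
        exact frattini_ne_top_of h3
      apply Subgroup.eq_of_le_of_card_ge h1
      rw [hΦ]
      have h3 : Nat.card (commutator G) ≠ 1 := fun h => h2 (Subgroup.card_eq_one.1 h)
      have h4 : 0 < Nat.card (commutator G) := Nat.card_pos
      omega
    refine ⟨⟨hG, ?_, ?_⟩, ?_⟩
    · rw [hcen]
    · rw [hcomm, hcen]
    · rw [hcen, hΦ]

/-- Let G be a finite 2-group whose Frattini subgroup Φ(G) has order 2, with |G : Φ(G)| = 2^d, and let j be the number of elements x of G with x² = 1. Then j = 2^d, or j = 2^d + 2^(d−r) or j = 2^d − 2^(d−r) for some positive integer r with 2r ≤ d. Moreover if d = 2r and j is 2^d + 2^r or 2^d − 2^r, then G is extraspecial. -/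
theorem result {G : Type*} [Group G] [Finite G] (hG : IsPGroup 2 G) (hΦ : Nat.card (frattini G) = 2) (d : ℕ) (hd : (frattini G).index = 2 ^ d) : (Nat.card {x : G // x ^ 2 = 1} = 2 ^ d ∨ ∃ r : ℕ, 1 ≤ r ∧ 2 * r ≤ d ∧ (Nat.card {x : G // x ^ 2 = 1} = 2 ^ d + 2 ^ (d - r) ∨ Nat.card {x : G // x ^ 2 = 1} + 2 ^ (d - r) = 2 ^ d)) ∧ (∀ r : ℕ, d = 2 * r → (Nat.card {x : G // x ^ 2 = 1} = 2 ^ d + 2 ^ r ∨ Nat.card {x : G // x ^ 2 = 1} + 2 ^ r = 2 ^ d) → Cfsg.IsExtraspecial 2 G) := by

  exact main hG hΦ d hd

end Cfsg.Agent.S3772
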