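import Cfsg.Statements.S3773
import Cfsg.Agent.H1.QuadSum2
import Cfsg.Agent.H1.Regular
import Cfsg.Agent.H3.Rank2

set_option autoImplicit false
open Cfsg

namespace Cfsg.Agent.S3773

open scoped commutatorElement Pointwise

open Subgroup CfsgH1 in
theorem T_dvd {G : Type*} [Group G] [Fintype G] (hG : IsPGroup 2 G) {Z : Subgroup G} (hZ : Z ≤ Subgroup.center G) (hsq : ∀ x : G, x ^ 2 ∈ Z) (hcm : ∀ x y : G, ⁅x, y⁆ ∈ Z) (χ : Z →* ℤˣ)
    {g r m : ℕ} (hg : Nat.card G = 2 ^ g) (hr : 2 ^ r ≤ Nat.card (rad hZ hcm χ)) (hm : 2 * m ≤ g + r + 1) : (2 : ℤ) ^ m ∣ TT hsq χ := by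
  haveI : Fact (Nat.Prime 2) := ⟨Nat.prime_two⟩
  obtain ⟨r', hr'⟩ := IsPGroup.iff_card.1 (hG.to_subgroup (rad hZ hcm χ))
  rw [hr'] at hr
  have hrr : r ≤ r' := (Nat.pow_le_pow_iff_right (by norm_num)).1 hr
  rcases TT_sq (hsq := hsq) (χ := χ) hZ hcm with ⟨-, h⟩ | ⟨-, h⟩
  · rw [hg, hr'] at h
    have h1 : (TT hsq χ).natAbs ^ 2 = 2 ^ (g + r') := by
      have : ((TT hsq χ).natAbs : ℤ) ^ 2 = 2 ^ (g + r') := by
        rw [Int.natCast_natAbs, sq_abs, h]; push_cast; rw [pow_add]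
      exact_mod_cast this
    have h2 : (TT hsq χ).natAbs ∣ 2 ^ (g + r') := Dvd.intro_left ((TT hsq χ).natAbs) (by rw [← sq]; exact h1)
    obtain ⟨t, -, ht⟩ := (Nat.dvd_prime_pow Nat.prime_two).1 h2
    rw [ht, ← pow_mul] at h1
    have h3 := Nat.pow_right_injective (le_refl 2) h1
    try simp only at h3
    have h4 : m ≤ t := by omega
    rw [← Int.dvd_natAbs, ht]
    push_cast
    exact pow_dvd_pow 2 h4
  · have : TT hsq χ = 0 := (pow_eq_zero_iff two_ne_zero).1 h
    rw [this]; exact dvd_zero _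

open Subgroup CfsgH1 in
theorem main {G : Type*} [Group G] [Finite G] (hG : IsPGroup 2 G) (hcl : (⊤ : Subgroup G).lowerCentralSeries 2 = ⊥) (hexp : ∀ x : G, x ^ 4 = 1) (hN : ∀ x y : G, x ^ 2 = 1 → y ^ 2 = 1 → (x * y) ^ 2 = 1) : Nat.card G ≤ Nat.card {x : G // x ^ 2 = 1} ^ 3 ∧ (¬ Cfsg.IsSpecial 2 G → Nat.card G < Nat.card {x : G // x ^ 2 = 1} ^ 3) := by
  classical
  haveI : Fact (Nat.Prime 2) := ⟨Nat.prime_two⟩
  haveI : Fintype G := Fintype.ofFinite G
  haveI : Group.IsNilpotent G := hG.isNilpotent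
  -- the subgroup N
  let N : Subgroup G := 
    { carrier := {x | x ^ 2 = 1}
      mul_mem' := fun {a b} ha hb => hN a b ha hb
      one_mem' := one_pow 2
      inv_mem' := fun {a} ha => by
        change (a⁻¹) ^ 2 = 1
        rw [inv_pow, show a ^ 2 = 1 from ha, inv_one] }
  have hNmem : ∀ x, x ∈ N ↔ x ^ 2 = 1 := fun _ => Iff.rfl
  have hNcard : Nat.card {x : G // x ^ 2 = 1} = Nat.card N := rfl
  -- commutators are central
  have hcc : ∀ x y : G, ⁅x, y⁆ ∈ Subgroup.center G := by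
    intro x y
    rw [Subgroup.mem_center_iff]
    intro w
    have h1 : ⁅⁅x, y⁆, w⁆ ∈ (⊤ : Subgroup G).lowerCentralSeries 2 := 
      Subgroup.commutator_mem_commutator (Subgroup.commutator_mem_commutator (mem_top x) (mem_top y)) (mem_top w)
    rw [hcl, mem_bot, commutatorElement_eq_one_iff_mul_comm] at h1
    exact h1.symm
  have hsqN : ∀ x : G, x ^ 2 ∈ N := by
    intro x
    rw [hNmem, ← pow_mul]; exact hexp x
  have hcmN : ∀ x y : G, ⁅x, y⁆ ∈ N := by
    intro x y
    have h1 : ⁅x, y⁆ = x ^ 2 * ((x⁻¹ * y) ^ 2 * (y⁻¹) ^ 2) := by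
      rw [commutatorElement_def, sq, sq, sq]; group
    rw [h1]
    exact N.mul_mem (hsqN x) (N.mul_mem (hsqN _) (hsqN _))
  have hsqc : ∀ x : G, x ^ 2 ∈ Subgroup.center G := by
    intro x
    rw [Subgroup.mem_center_iff]
    intro y
    -- [x^2, y] = [x,y]^2 = 1
    have h1 := Subgroup.mem_center_iff.1 (hcc x y) x
    have h2 : ⁅x ^ 2, y⁆ = ⁅x, y⁆ ^ 2 := by
      have e1 : ⁅x ^ 2, y⁆ = (x * ⁅x, y⁆ * x⁻¹) * ⁅x, y⁆ := by
        simp only [commutatorElement_def, sq]; group
      rw [e1, h1, mul_inv_cancel_right, sq]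
    have h3 : ⁅x, y⁆ ^ 2 = 1 := hcmN x y
    rw [h3, commutatorElement_eq_one_iff_mul_comm] at h2
    exact h2.symm
  set Z : Subgroup G := Subgroup.center G ⊓ N with hZdef
  have hZ : Z ≤ Subgroup.center G := inf_le_left
  have hZN : Z ≤ N := inf_le_right
  have hsq : ∀ x : G, x ^ 2 ∈ Z := fun x => ⟨hsqc x, hsqN x⟩
  have hcm : ∀ x y : G, ⁅x, y⁆ ∈ Z := fun x y => ⟨hcc x y, hcmN x y⟩
  letI : CommGroup Z := { (inferInstance : Group Z) with mul_comm := fun a b => Subtype.ext (Subgroup.mem_center_iff.1 (hZ b.2) a) }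
  letI : Module (ZMod 2) (Additive Z) := AddCommGroup.zmodModule (n := 2) (G := Additive Z) (fun z => Subtype.ext (show ((Additive.toMul z : Z) : G) ^ 2 = 1 from hZN (Additive.toMul z).2))
  haveI : Finite (Additive Z) := inferInstanceAs (Finite Z)
  haveI : Finite (Module.Dual (ZMod 2) (Additive Z)) := Finite.of_injective (fun f => (f : Additive Z → ZMod 2)) DFunLike.coe_injective
  haveI : Fintype (Module.Dual (ZMod 2) (Additive Z)) := Fintype.ofFinite _
  -- total sum
  have hsum : ∑ lam : Module.Dual (ZMod 2) (Additive Z), TT hsq (chr lam) = (Nat.card Z : ℤ) * (Nat.card N : ℤ) := by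
    unfold TT
    rw [Finset.sum_comm]
    have h1 : ∀ x : G, ∑ lam : Module.Dual (ZMod 2) (Additive Z), ((qf hsq (chr lam) x : ℤˣ) : ℤ) = (Nat.card Z : ℤ) * (if x ^ 2 = 1 then (1 : ℤ) else 0) := by
      intro x
      have h2 := sum_chr (Z := Z) (⟨x ^ 2, hsq x⟩ : Z)
      have h3 : (⟨x ^ 2, hsq x⟩ : Z) = 1 ↔ x ^ 2 = 1 := ⟨fun h => congrArg Subtype.val h, fun h => Subtype.ext h⟩
      unfold qf
      rw [h2]
      by_cases hx : x ^ 2 = 1
      · rw [if_pos hx, if_pos (h3.2 hx), mul_one]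
      · rw [if_neg hx, if_neg (fun h => hx (h3.1 h)), mul_zero]
    rw [Finset.sum_congr rfl (fun x _ => h1 x), ← Finset.mul_sum]
    congr 1
    rw [Finset.sum_boole, ← hNcard, Nat.card_eq_fintype_card, Fintype.card_subtype]
  obtain ⟨g, hg⟩ := IsPGroup.iff_card.1 hG
  obtain ⟨n, hn⟩ := IsPGroup.iff_card.1 (hG.to_subgroup N)
  obtain ⟨z, hz⟩ := IsPGroup.iff_card.1 (hG.to_subgroup Z)
  obtain ⟨c, hc⟩ := IsPGroup.iff_card.1 (hG.to_subgroup (Subgroup.center G))
  have hzn : z ≤ n := by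
    have := Subgroup.card_le_of_le hZN
    rw [hz, hn] at this
    exact (Nat.pow_le_pow_iff_right (by norm_num)).1 this
  have hzc : z ≤ c := by
    have := Subgroup.card_le_of_le hZ
    rw [hz, hc] at this
    exact (Nat.pow_le_pow_iff_right (by norm_num)).1 this
  have hradc : ∀ χ : Z →* ℤˣ, 2 ^ c ≤ Nat.card (rad hZ hcm χ) := by
    intro χ
    rw [← hc]; exact Subgroup.card_le_of_le (center_le_rad hZ)
  have hdiv : ∀ m : ℕ, (∀ lam : Module.Dual (ZMod 2) (Additive Z), (2 : ℤ) ^ m ∣ TT hsq (chr lam)) → m ≤ z + n := by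
    intro m h
    have h1 : (2 : ℤ) ^ m ∣ (Nat.card Z : ℤ) * (Nat.card N : ℤ) := by
      rw [← hsum]
      exact Finset.dvd_sum (fun lam _ => h lam)
    have h2 : 2 ^ m ∣ 2 ^ (z + n) := by
      rw [pow_add, ← hz, ← hn]
      exact_mod_cast h1
    exact (Nat.pow_dvd_pow_iff_le_right (by norm_num)).1 h2
  have hmain : g ≤ z + 2 * n := by
    have h1 := hdiv ((g + z + 1) / 2) (fun lam => T_dvd hG hZ hsq hcm _ hg ((Nat.pow_le_pow_right (by norm_num) hzc).trans (hradc _)) (by omega))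
    omega
  have hle : g ≤ 3 * n := by omega
  rw [hNcard, hn, hg, ← pow_mul]
  refine ⟨Nat.pow_le_pow_right (by norm_num) (by omega), fun hns => ?_⟩
  apply Nat.pow_lt_pow_right (by norm_num)
  by_contra hge
  apply hns
  have hgn : g = 3 * n := by omega
  have hz' : z = n := by omega
  have hZeq : Z = N := Subgroup.eq_of_le_of_card_ge hZN (by rw [hz, hn, hz'])
  -- centre has order 2^n
  have hcn : c = n := by
    by_contra hne
    have hlt : n + 1 ≤ c := by omega
    have h1 := hdiv (2 * n + 1) (fun lam => T_dvd hG hZ hsq hcm _ hg ((Nat.pow_le_pow_right (by norm_num) hlt).trans (hradc _)) (by omega))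
    omega
  have hcen : Z = Subgroup.center G := Subgroup.eq_of_le_of_card_ge hZ (by rw [hz, hc, hz', hcn])
  have hcomm : commutator G = Z := by
    have hle1 : commutator G ≤ Z := by
      rw [_root_.commutator_def, Subgroup.commutator_le]
      intro x _ y _
      exact hcm x y
    by_contra hne
    -- a functional vanishing on the commutator subgroup
    let W : Submodule (ZMod 2) (Additive Z) := AddSubgroup.toZModSubmodule 2 (Subgroup.toAddSubgroup ((commutator G).subgroupOf Z))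
    have hWmem : ∀ v : Z, Additive.ofMul v ∈ W ↔ (v : G) ∈ commutator G := fun v => Iff.rfl
    have hWlt : W < ⊤ := by
      rw [lt_top_iff_ne_top]
      intro h
      apply hne
      apply le_antisymm hle1
      intro v hv
      have : Additive.ofMul (⟨v, hv⟩ : Z) ∈ W := by rw [h]; trivial
      exact (hWmem _).1 this
    obtain ⟨ψ, hψ0, hψ⟩ := Submodule.exists_le_ker_of_lt_top W hWlt
    have hψc : ∀ x y : G, chr ψ ⟨⁅x, y⁆, hcm x y⟩ = 1 := by
      intro x y
      rw [chr_apply, s2_eq_one]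
      have h1 : Additive.ofMul (⟨⁅x, y⁆, hcm x y⟩ : Z) ∈ W := 
        (hWmem _).2 (Subgroup.commutator_mem_commutator (mem_top x) (mem_top y))
      exact hψ h1
    have hchr : ∀ (lam : Module.Dual (ZMod 2) (Additive Z)) (v : Z), chr (lam + ψ) v = chr lam v * chr ψ v := by
      intro lam v
      rw [chr_apply, chr_apply, chr_apply, LinearMap.add_apply, s2_add]
    have hbf : ∀ (lam : Module.Dual (ZMod 2) (Additive Z)) (u x : G), bf hcm (chr (lam + ψ)) u x = bf hcm (chr lam) u x := by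
      intro lam u x
      unfold bf
      rw [hchr, hψc, mul_one]
    have hrad : ∀ lam : Module.Dual (ZMod 2) (Additive Z), rad hZ hcm (chr (lam + ψ)) = rad hZ hcm (chr lam) := by
      intro lam
      ext u
      rw [mem_rad, mem_rad]
      simp only [hbf]
    have hTsmall : ∀ lam : Module.Dual (ZMod 2) (Additive Z), Nat.card (rad hZ hcm (chr lam)) = 2 ^ n → TT hsq (chr lam) = 2 ^ (2 * n) ∨ TT hsq (chr lam) = - 2 ^ (2 * n) := by
      intro lam hl
      have h1 : rad hZ hcm (chr lam) = Z := by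
        symm
        apply Subgroup.eq_of_le_of_card_ge (hZ.trans (center_le_rad hZ))
        rw [hl, hz, hz']
      have h2 : ∀ u ∈ rad hZ hcm (chr lam), qf hsq (chr lam) u = 1 := by
        intro u hu
        rw [h1] at hu
        unfold qf
        have : (⟨u ^ 2, hsq u⟩ : Z) = 1 := Subtype.ext (hZN hu)
        rw [this, map_one]
      rcases TT_sq (hsq := hsq) (χ := chr lam) hZ hcm with ⟨-, h⟩ | ⟨h, -⟩
      · rw [hg, hl, hgn] at h
        have h3 : (TT hsq (chr lam)) ^ 2 = (2 ^ (2 * n)) ^ 2 := by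
          rw [h]; push_cast; ring
        exact sq_eq_sq_iff_eq_or_eq_neg.1 h3
      · exact absurd h2 h
    have hTbig : ∀ lam : Module.Dual (ZMod 2) (Additive Z), Nat.card (rad hZ hcm (chr lam)) ≠ 2 ^ n → (2 : ℤ) ^ (2 * n + 1) ∣ TT hsq (chr lam) := by
      intro lam hl
      obtain ⟨r', hr'⟩ := IsPGroup.iff_card.1 (hG.to_subgroup (rad hZ hcm (chr lam)))
      have h1 := hradc (chr lam)
      rw [hr', hcn] at h1
      have h2 := (Nat.pow_le_pow_iff_right (a := 2) (by norm_num)).1 h1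
      have h3 : n + 1 ≤ r' := by
        rcases Nat.lt_or_ge n r' with h | h
        · exact h
        · exact absurd (by rw [hr']; exact congrArg (fun t => 2 ^ t) (le_antisymm h h2)) hl
      exact T_dvd (r := n + 1) hG hZ hsq hcm _ hg (by rw [hr']; exact Nat.pow_le_pow_right (by norm_num) h3) (by omega)
    have hpair : ∀ lam : Module.Dual (ZMod 2) (Additive Z), ((TT hsq (chr lam) : ℤ) : ZMod (2 ^ (2 * n + 1))) + ((TT hsq (chr (lam + ψ)) : ℤ) : ZMod (2 ^ (2 * n + 1))) = 0 := by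
      intro lam
      rw [← Int.cast_add, ZMod.intCast_zmod_eq_zero_iff_dvd]
      push_cast
      by_cases hl : Nat.card (rad hZ hcm (chr lam)) = 2 ^ n
      · have hl2 : Nat.card (rad hZ hcm (chr (lam + ψ))) = 2 ^ n := by rw [hrad, hl]
        have e : (2 : ℤ) ^ (2 * n + 1) = 2 * 2 ^ (2 * n) := by rw [pow_succ']
        rw [e]
        rcases hTsmall lam hl with h | h <;> rcases hTsmall _ hl2 with h' | h' <;> rw [h, h']
        · exact ⟨1, by ring⟩
        · exact ⟨0, by ring⟩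
        · exact ⟨0, by ring⟩
        · exact ⟨-1, by ring⟩
      · have hl2 : Nat.card (rad hZ hcm (chr (lam + ψ))) ≠ 2 ^ n := by rw [hrad]; exact hl
        exact dvd_add (hTbig _ hl) (hTbig _ hl2)
    have hψψ : ψ + ψ = 0 := by
      ext v
      exact CharTwo.add_self_eq_zero _
    have hzero : ∑ lam : Module.Dual (ZMod 2) (Additive Z), ((TT hsq (chr lam) : ℤ) : ZMod (2 ^ (2 * n + 1))) = 0 := by
      apply Finset.sum_involution (fun lam _ => lam + ψ)
      · intro lam _; exact hpair lam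
      · intro lam _ _ h
        exact hψ0 (left_eq_add.1 h.symm)
      · intro lam _; exact Finset.mem_univ _
      · intro lam _
        rw [add_assoc, hψψ, add_zero]
    rw [← Int.cast_sum, hsum, ZMod.intCast_zmod_eq_zero_iff_dvd, hz, hn, hz'] at hzero
    have h5 : 2 ^ (2 * n + 1) ∣ 2 ^ (2 * n) := by
      have : ((2 ^ (2 * n + 1) : ℕ) : ℤ) ∣ ((2 ^ (2 * n) : ℕ) : ℤ) := by
        convert hzero using 1
        push_cast; ring
      exact_mod_cast this
    have := (Nat.pow_dvd_pow_iff_le_right (by norm_num)).1 h5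
    omega
  refine ⟨hG, ?_, ?_⟩
  · apply le_antisymm
    · rw [← hcen]
      apply frattini_le_of_elementary (p := 2) (by rw [hcomm]) hsq
    · rw [← hcen, ← hcomm]
      exact commutator_le_frattini
  · rw [hcomm, hcen]

/-- Let G be a finite 2-group of nilpotency class at most 2 and exponent dividing 4 in which the elements x with x² = 1 form a subgroup N. Then |G| ≤ |N|³, and |G| < |N|³ unless G is special. -/
theorem result {G : Type*} [Group G] [Finite G] (hG : IsPGroup 2 G) (hcl : (⊤ : Subgroup G).lowerCentralSeries 2 = ⊥) (hexp : ∀ x : G, x ^ 4 = 1) (hN : ∀ x y : G, x ^ 2 = 1 → y ^ 2 = 1 → (x * y) ^ 2 = 1) : Nat.card G ≤ Nat.card {x : G // x ^ 2 = 1} ^ 3 ∧ (¬ Cfsg.IsSpecial 2 G → Nat.card G < Nat.card {x : G // x ^ 2 = 1} ^ 3) := by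

  exact main hG hcl hexp hN

end Cfsg.Agent.S3773
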