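import Cfsg.Statements.S3774
import Cfsg.Agent.H1.Basic

set_option autoImplicit false
open Cfsg

namespace Cfsg.Agent.S3774

open scoped commutatorElement Pointwise

theorem main {G : Type*} [Group G] [Finite G] [Nontrivial G] (hG : IsPGroup 2 G) (htrans : ∀ x y : G, x ≠ 1 → x ^ 2 = 1 → y ≠ 1 → y ^ 2 = 1 → ∃ a : MulAut G, a x = y) : (∀ x : G, x ^ 2 = 1 → x ∈ Subgroup.center G) ∧ ∃ m : ℕ, Nat.card G = Nat.card {z : G // z ^ 2 = 1} ^ m := by
  classical
  haveI : Fact (Nat.Prime 2) := ⟨Nat.prime_two⟩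
  have hcen : ∀ x : G, x ^ 2 = 1 → x ∈ Subgroup.center G := by
    have h1 : Nontrivial (Subgroup.center G) := hG.center_nontrivial
    have h2 : 2 ∣ Nat.card (Subgroup.center G) := by
      obtain ⟨n, hn⟩ := IsPGroup.iff_card.1 (hG.to_subgroup (Subgroup.center G))
      rw [hn]
      apply dvd_pow_self
      rintro rfl
      rw [pow_zero] at hn
      have := (Nat.card_eq_one_iff_unique.1 hn).1
      exact not_subsingleton _ this
    obtain ⟨z, hz⟩ := exists_prime_orderOf_dvd_card' (G := Subgroup.center G) 2 h2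
    have hz1 : (z : G) ≠ 1 := by
      intro h
      have : z = 1 := Subtype.ext h
      rw [this, orderOf_one] at hz
      exact absurd hz (by norm_num)
    have hz2 : (z : G) ^ 2 = 1 := by
      have := pow_orderOf_eq_one z
      rw [hz] at this
      exact congrArg Subtype.val this
    intro x hx
    by_cases hx1 : x = 1
    · rw [hx1]; exact Subgroup.one_mem _
    · obtain ⟨a, ha⟩ := htrans z x hz1 hz2 hx1 hx
      rw [← ha, Subgroup.mem_center_iff]
      intro g
      have h3 := Subgroup.mem_center_iff.1 z.2 (a.symm g)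
      have h4 := congrArg a h3
      rw [map_mul, map_mul] at h4
      have e : a (a.symm g) = g := a.apply_symm_apply g
      rwa [e] at h4
  refine ⟨hcen, ?_⟩
  -- the subgroup of involutions
  let Ω : Subgroup G := 
    { carrier := {z | z ^ 2 = 1}
      mul_mem' := by
        intro a b ha hb
        change (a * b) ^ 2 = 1
        have h1 := Subgroup.mem_center_iff.1 (hcen a ha) b
        have h2 : Commute a b := h1.symm
        rw [h2.mul_pow, show a ^ 2 = 1 from ha, show b ^ 2 = 1 from hb, one_mul]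
      one_mem' := one_pow 2
      inv_mem' := by
        intro a ha
        change (a⁻¹) ^ 2 = 1
        rw [inv_pow, show a ^ 2 = 1 from ha, inv_one] }
  have hΩ : Nat.card {z : G // z ^ 2 = 1} = Nat.card Ω := rfl
  obtain ⟨s, hs⟩ := IsPGroup.iff_card.1 (hG.to_subgroup Ω)
  obtain ⟨m, hm⟩ := IsPGroup.iff_card.1 hG
  -- the map
  let X := {x : G // x ≠ 1}
  let T := {t : G // t ≠ 1 ∧ t ^ 2 = 1}
  have hord : ∀ x : G, x ≠ 1 → ∃ k, orderOf x = 2 * k ∧ 0 < k := by
    intro x hx
    obtain ⟨k, hk⟩ := IsPGroup.iff_orderOf.1 hG x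
    have hk0 : k ≠ 0 := by
      rintro rfl
      rw [pow_zero, orderOf_eq_one_iff] at hk
      exact hx hk
    obtain ⟨l, rfl⟩ : ∃ l, k = l + 1 := ⟨k - 1, by omega⟩
    exact ⟨2 ^ l, by rw [hk, pow_succ, mul_comm], by positivity⟩
  have hφ : ∀ x : G, x ≠ 1 → x ^ (orderOf x / 2) ≠ 1 ∧ (x ^ (orderOf x / 2)) ^ 2 = 1 := by
    intro x hx
    obtain ⟨k, hk, hk0⟩ := hord x hx
    have h1 : orderOf x / 2 = k := by omega
    rw [h1]
    constructor
    · intro h
      have := orderOf_dvd_of_pow_eq_one h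
      have := Nat.le_of_dvd hk0 this
      omega
    · rw [← pow_mul, mul_comm, ← hk, pow_orderOf_eq_one]
  let φ : X → T := fun x => ⟨(x : G) ^ (orderOf (x : G) / 2), hφ x x.2⟩
  -- fibres have the same cardinality
  have hTne : Nonempty T := by
    obtain ⟨x, hx⟩ := exists_ne (1 : G)
    exact ⟨φ ⟨x, hx⟩⟩
  obtain ⟨t₀⟩ := hTne
  have hfib : ∀ t : T, Nonempty ({x : X // φ x = t} ≃ {x : X // φ x = t₀}) := by
    intro t
    obtain ⟨a, ha⟩ := htrans t t₀ t.2.1 t.2.2 t₀.2.1 t₀.2.2
    have hao : ∀ x : G, orderOf (a x) = orderOf x := fun x => orderOf_injective a.toMonoidHom a.injective x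
    have hbo : ∀ x : G, orderOf (a.symm x) = orderOf x := fun x => orderOf_injective a.symm.toMonoidHom a.symm.injective x
    have hb : a.symm t₀ = t := by rw [← ha]; exact a.symm_apply_apply _
    refine ⟨⟨fun x => ⟨⟨a x.1, fun h => x.1.2 (a.injective (h.trans (map_one a).symm))⟩, ?_⟩, fun x => ⟨⟨a.symm x.1, fun h => x.1.2 (a.symm.injective (h.trans (map_one a.symm).symm))⟩, ?_⟩, ?_, ?_⟩⟩
    · apply Subtype.ext
      change (a (x.1 : G)) ^ (orderOf (a (x.1 : G)) / 2) = t₀
      rw [hao, ← map_pow, ← ha]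
      congr 1
      exact congrArg Subtype.val x.2
    · apply Subtype.ext
      change (a.symm (x.1 : G)) ^ (orderOf (a.symm (x.1 : G)) / 2) = t
      rw [hbo, ← map_pow, ← hb]
      congr 1
      exact congrArg Subtype.val x.2
    · intro x
      apply Subtype.ext; apply Subtype.ext
      exact a.symm_apply_apply _
    · intro x
      apply Subtype.ext; apply Subtype.ext
      exact a.apply_symm_apply _
  have hX : Nat.card X = Nat.card T * Nat.card {x : X // φ x = t₀} := by
    rw [← Nat.card_prod]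
    apply Nat.card_congr
    exact (Equiv.sigmaFiberEquiv φ).symm.trans ((Equiv.sigmaCongrRight fun t => (hfib t).some).trans (Equiv.sigmaEquivProd _ _))
  have hXc : Nat.card X = 2 ^ m - 1 := by
    rw [← hm]
    have h1 := Nat.card_congr (Equiv.sumCompl (fun x : G => x = 1))
    rw [Nat.card_sum] at h1
    have h2 : Nat.card {x : G // x = 1} = 1 := by simp
    have h3 : Nat.card {x : G // ¬ x = 1} = Nat.card X := rfl
    omega
  have hTc : Nat.card T = 2 ^ s - 1 := by
    rw [← hs, ← hΩ]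
    have h1 := Nat.card_congr (Equiv.sumCompl (fun x : {z : G // z ^ 2 = 1} => (x : G) = 1))
    rw [Nat.card_sum] at h1
    have h2 : Nat.card {x : {z : G // z ^ 2 = 1} // (x : G) = 1} = 1 := by
      rw [Nat.card_eq_one_iff_unique]
      refine ⟨⟨fun a b => ?_⟩, ⟨⟨⟨1, one_pow 2⟩, rfl⟩⟩⟩
      apply Subtype.ext; apply Subtype.ext
      rw [a.2, b.2]
    have h3 : Nat.card {x : {z : G // z ^ 2 = 1} // ¬ (x : G) = 1} = Nat.card T := by
      apply Nat.card_congr
      exact ⟨fun x => ⟨x.1.1, x.2, x.1.2⟩, fun x => ⟨⟨x.1, x.2.2⟩, x.2.1⟩, fun x => rfl, fun x => rfl⟩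
    omega
  rw [hXc, hTc] at hX
  have hdvd : (2 ^ s - 1) ∣ (2 ^ m - 1) := Dvd.intro _ hX.symm
  have hsm : s ∣ m := by
    have h1 := Nat.pow_sub_one_gcd_pow_sub_one 2 s m
    rw [Nat.gcd_eq_left hdvd] at h1
    have h2 : 2 ^ s = 2 ^ Nat.gcd s m := by
      have e1 := Nat.one_le_two_pow (n := s)
      have e2 := Nat.one_le_two_pow (n := Nat.gcd s m)
      omega
    have h3 := Nat.pow_right_injective (le_refl 2) h2
    rw [h3]
    exact Nat.gcd_dvd_right s m
  obtain ⟨c, hc⟩ := hsm
  refine ⟨c, ?_⟩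
  rw [hΩ, hs, hm, hc, pow_mul]

/-- Let G be a nontrivial finite 2-group whose automorphism group permutes the involutions of G transitively. Then every involution of G is central, so that the involutions together with 1 form the subgroup Ω₁(Z(G)), and if this subgroup has order q then |G| is a power of q. -/
theorem result {G : Type*} [Group G] [Finite G] [Nontrivial G] (hG : IsPGroup 2 G) (htrans : ∀ x y : G, x ≠ 1 → x ^ 2 = 1 → y ≠ 1 → y ^ 2 = 1 → ∃ a : MulAut G, a x = y) : (∀ x : G, x ^ 2 = 1 → x ∈ Subgroup.center G) ∧ ∃ m : ℕ, Nat.card G = Nat.card {z : G // z ^ 2 = 1} ^ m := by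

  exact main hG htrans

end Cfsg.Agent.S3774
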