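import Cfsg.Statements.S3775
import Cfsg.Agent.H1.IndecAb

set_option autoImplicit false
open Cfsg

namespace Cfsg.Agent.S3775

open scoped commutatorElement Pointwise

open CfsgH1 Subgroup in
theorem inv_iff {A : Type*} [CommGroup A] (X : Subgroup (MulAut A)) (B : Subgroup A) :
    (∀ x ∈ X, B.map x.toMonoidHom = B) ↔ Inv X B := by
  constructor
  · rintro h ⟨x, hx⟩ b hb
    rw [← h x hx]
    exact ⟨b, hb, rfl⟩
  · intro h x hx
    apply le_antisymm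
    · rintro _ ⟨b, hb, rfl⟩
      exact h ⟨x, hx⟩ b hb
    · intro b hb
      exact ⟨x⁻¹ b, h ⟨x⁻¹, inv_mem hx⟩ b hb, x.apply_symm_apply b⟩

open CfsgH1 Subgroup in
theorem aux32 {A : Type*} [CommGroup A] [Finite A] {p : ℕ} [Fact p.Prime] (hA : IsPGroup p A) (X : Subgroup (MulAut A))
    (h : ∀ B : Subgroup A, Inv X B → (∀ b ∈ B, b ^ p = 1) → B = ⊥ ∨ ∀ a : A, a ∈ B ↔ a ^ p = 1)
    (i : ℕ) : ∀ B : Subgroup A, Inv X B → (∀ b ∈ B, b ^ p ^ i = 1) → (i = 0 ∨ ∃ b ∈ B, b ^ p ^ (i - 1) ≠ 1) →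
      ∀ a : A, a ^ p ^ i = 1 → a ∈ B := by
  induction i with
  | zero =>
    intro B _ _ _ a ha
    rw [pow_zero, pow_one] at ha
    rw [ha]; exact one_mem _
  | succ i ih =>
    intro B hB hB1 hB2 a ha
    obtain ⟨b₀, hb₀, hb₀1⟩ : ∃ b ∈ B, b ^ p ^ i ≠ 1 := by
      rcases hB2 with h0 | h0
      · omega
      · exact h0
    have hB' : ∀ a : A, a ∈ B.map (powMonoidHom (p ^ i) : A →* A) ↔ a ^ p = 1 := by
      rcases h (B.map (powMonoidHom (p ^ i) : A →* A)) (hB.map_pow _) (by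
        rintro _ ⟨b, hb, rfl⟩
        show (b ^ p ^ i) ^ p = 1
        rw [← pow_mul, ← pow_succ]
        exact hB1 b hb) with h0 | h0
      · exfalso
        apply hb₀1
        have : b₀ ^ p ^ i ∈ B.map (powMonoidHom (p ^ i) : A →* A) := ⟨b₀, hb₀, rfl⟩
        rwa [h0, mem_bot] at this
      · exact h0
    have h1 : a ^ p ^ i ∈ B.map (powMonoidHom (p ^ i) : A →* A) := by
      rw [hB', ← pow_mul, ← pow_succ]; exact ha
    obtain ⟨b, hb, hba⟩ := h1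
    have hba' : b ^ p ^ i = a ^ p ^ i := hba
    have h2 : a * b⁻¹ ∈ B ⊓ (⊥ : Subgroup A).comap (powMonoidHom (p ^ i) : A →* A) := by
      apply ih _ (hB.inf (inv_bot.comap_pow _))
      · intro x hx
        exact hx.2
      · rcases Nat.eq_zero_or_pos i with h0 | h0
        · exact Or.inl h0
        · right
          refine ⟨b₀ ^ p, ⟨B.pow_mem hb₀ p, ?_⟩, ?_⟩
          · show (b₀ ^ p) ^ p ^ i = 1
            rw [← pow_mul, ← pow_succ']; exact hB1 b₀ hb₀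
          · rw [← pow_mul, ← pow_succ', Nat.sub_add_cancel h0]; exact hb₀1
      · rw [mul_pow, inv_pow, hba', mul_inv_cancel]
    have h3 := B.mul_mem h2.1 hb
    rwa [inv_mul_cancel_right] at h3

open CfsgH1 Subgroup in
theorem aux3 {A : Type*} [CommGroup A] [Finite A] {p : ℕ} [Fact p.Prime] (hA : IsPGroup p A) (X : Subgroup (MulAut A))
    (h : ∀ B : Subgroup A, Inv X B → (∀ b ∈ B, b ^ p = 1) → B = ⊥ ∨ ∀ a : A, a ∈ B ↔ a ^ p = 1)
    (B : Subgroup A) (hB : Inv X B) : ∃ i : ℕ, ∀ a : A, a ∈ B ↔ a ^ p ^ i = 1 := by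
  classical
  obtain ⟨k, hk⟩ := IsPGroup.iff_card.1 hA
  have hex : ∃ m : ℕ, ∀ x ∈ B, x ^ p ^ m = 1 := ⟨k, fun x _ => by rw [← hk]; exact pow_card_eq_one'⟩
  have hm := Nat.find_spec hex
  refine ⟨Nat.find hex, fun a => ⟨fun ha => hm a ha, aux32 hA X h _ B hB hm ?_ a⟩⟩
  rcases Nat.eq_zero_or_pos (Nat.find hex) with h0 | h0
  · exact Or.inl h0
  · right
    have := Nat.find_min hex (m := Nat.find hex - 1) (by omega)
    push_neg at this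
    exact this

/-- Let A be a finite abelian p-group and X a group of automorphisms of A of order prime to p. Call a subgroup of A invariant when every element of X maps it onto itself. Then the following are equivalent: (i) A is not the direct product of two nontrivial invariant subgroups; (ii) every invariant subgroup of A is one of the subgroups Ω_i(A) = {a : a^(p^i) = 1}; (iii) the subgroup Ω₁(A) of elements of order dividing p has no invariant subgroups other than 1 and itself. -/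
theorem result {A : Type*} [CommGroup A] [Finite A] {p : ℕ} [Fact p.Prime] (hA : IsPGroup p A) (X : Subgroup (MulAut A)) (hX : (Nat.card X).Coprime p) : ((¬ ∃ B C : Subgroup A, B ≠ ⊥ ∧ C ≠ ⊥ ∧ (∀ x ∈ X, B.map x.toMonoidHom = B) ∧ (∀ x ∈ X, C.map x.toMonoidHom = C) ∧ B ⊓ C = ⊥ ∧ B ⊔ C = ⊤) ↔ (∀ B : Subgroup A, (∀ x ∈ X, B.map x.toMonoidHom = B) → ∃ i : ℕ, ∀ a : A, a ∈ B ↔ a ^ p ^ i = 1)) ∧ ((∀ B : Subgroup A, (∀ x ∈ X, B.map x.toMonoidHom = B) → ∃ i : ℕ, ∀ a : A, a ∈ B ↔ a ^ p ^ i = 1) ↔ (∀ B : Subgroup A, (∀ x ∈ X, B.map x.toMonoidHom = B) → (∀ b ∈ B, b ^ p = 1) → B = ⊥ ∨ ∀ a : A, a ∈ B ↔ a ^ p = 1)) := by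

  have e1 : (¬ ∃ B C : Subgroup A, B ≠ ⊥ ∧ C ≠ ⊥ ∧ (∀ x ∈ X, B.map x.toMonoidHom = B) ∧ (∀ x ∈ X, C.map x.toMonoidHom = C) ∧ B ⊓ C = ⊥ ∧ B ⊔ C = ⊤) ↔
      (¬ ∃ B C : Subgroup A, B ≠ ⊥ ∧ C ≠ ⊥ ∧ CfsgH1.Inv X B ∧ CfsgH1.Inv X C ∧ B ⊓ C = ⊥ ∧ B ⊔ C = ⊤) := by
    simp only [inv_iff]
  rw [e1]
  simp only [inv_iff]
  have hcop : (Nat.card X).Coprime (Nat.card A) := by
    obtain ⟨k, hk⟩ := IsPGroup.iff_card.1 hA
    rw [hk]; exact hX.pow_right k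
  have h13 : (¬ ∃ B C : Subgroup A, B ≠ ⊥ ∧ C ≠ ⊥ ∧ CfsgH1.Inv X B ∧ CfsgH1.Inv X C ∧ B ⊓ C = ⊥ ∧ B ⊔ C = ⊤) →
      (∀ B : Subgroup A, CfsgH1.Inv X B → (∀ b ∈ B, b ^ p = 1) → B = ⊥ ∨ ∀ a : A, a ∈ B ↔ a ^ p = 1) :=
    fun h B hB hBp => CfsgH1.omega_irred_of_indec hA hcop h B hB hBp
  have h32 := aux3 hA X
  have hp : p.Prime := Fact.out
  have hΩ : ∀ (B : Subgroup A) (i : ℕ), (∀ a : A, a ∈ B ↔ a ^ p ^ i = 1) → B ≠ ⊥ → ∀ a : A, a ^ p = 1 → a ∈ B := by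
    intro B i hi hB a ha
    rcases Nat.eq_zero_or_pos i with h0 | h0
    · exfalso
      apply hB
      rw [eq_bot_iff]
      intro x hx
      have := (hi x).1 hx
      rw [h0, pow_zero, pow_one] at this
      exact this
    · rw [hi, ← Nat.succ_pred_eq_of_pos h0, pow_succ', pow_mul, ha, one_pow]
  have h23 : (∀ B : Subgroup A, CfsgH1.Inv X B → ∃ i : ℕ, ∀ a : A, a ∈ B ↔ a ^ p ^ i = 1) →
      (∀ B : Subgroup A, CfsgH1.Inv X B → (∀ b ∈ B, b ^ p = 1) → B = ⊥ ∨ ∀ a : A, a ∈ B ↔ a ^ p = 1) := by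
    intro h B hB hBp
    by_cases h0 : B = ⊥
    · exact Or.inl h0
    · obtain ⟨i, hi⟩ := h B hB
      exact Or.inr (fun a => ⟨hBp a, hΩ B i hi h0 a⟩)
  have h21 : (∀ B : Subgroup A, CfsgH1.Inv X B → ∃ i : ℕ, ∀ a : A, a ∈ B ↔ a ^ p ^ i = 1) →
      (¬ ∃ B C : Subgroup A, B ≠ ⊥ ∧ C ≠ ⊥ ∧ CfsgH1.Inv X B ∧ CfsgH1.Inv X C ∧ B ⊓ C = ⊥ ∧ B ⊔ C = ⊤) := by
    rintro h ⟨B, C, hB, hC, hBi, hCi, hBC, -⟩
    obtain ⟨i, hi⟩ := h B hBi
    obtain ⟨j, hj⟩ := h C hCi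
    obtain ⟨k, hk⟩ := IsPGroup.iff_card.1 (hA.to_subgroup B)
    have hk0 : k ≠ 0 := by
      rintro rfl
      rw [pow_zero] at hk
      exact hB (Subgroup.card_eq_one.1 hk)
    obtain ⟨x, hx⟩ := exists_prime_orderOf_dvd_card' (G := B) p (by rw [hk]; exact dvd_pow_self p hk0)
    have hxp : (x : A) ^ p = 1 := by
      have : x ^ p = 1 := by rw [← hx]; exact pow_orderOf_eq_one x
      exact congrArg Subtype.val this
    have h1 : (x : A) ∈ B ⊓ C := ⟨x.2, hΩ C j hj hC _ hxp⟩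
    rw [hBC, Subgroup.mem_bot] at h1
    have : x = 1 := Subtype.ext h1
    rw [this, orderOf_one] at hx
    exact hp.one_lt.ne hx
  exact ⟨⟨fun h => h32 (h13 h), h21⟩, ⟨h23, fun h => h32 h⟩⟩

end Cfsg.Agent.S3775
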