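import Cfsg.Statements.S3778
import Cfsg.Agent.H1.Breadth

set_option autoImplicit false
open Cfsg

namespace Cfsg.Agent.S3778

open scoped commutatorElement Pointwise

/-- If G is a finite p-group in which every conjugacy class has at most p^b elements (every element has centralizer of index at most p^b), then G is abelian when b = 0, and when b ≥ 1 its nilpotency class c satisfies (c − 1)(p − 1) < bp, that is c < bp/(p − 1) + 1, and hence c ≤ 2b. -/
theorem result {G : Type*} [Group G] [Finite G] {p : ℕ} [Fact p.Prime] (hG : IsPGroup p G) (b : ℕ) (hb : ∀ x : G, (Subgroup.centralizer ({x} : Set G)).index ≤ p ^ b) : ∃ c : ℕ, (⊤ : Subgroup G).lowerCentralSeries c = ⊥ ∧ (b ≠ 0 → (c - 1) * (p - 1) < b * p ∧ c ≤ 2 * b) ∧ (b = 0 → c ≤ 1) := by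
  have hp : p.Prime := Fact.out
  haveI hnil : Group.IsNilpotent G := hG.isNilpotent
  set c := Group.nilpotencyClass G with hc
  have hcb : (⊤ : Subgroup G).lowerCentralSeries c = ⊥ := Subgroup.lowerCentralSeries_nilpotencyClass
  have hmin : ∀ n, n < c → (⊤ : Subgroup G).lowerCentralSeries n ≠ ⊥ := by
    intro n hn h
    rw [Subgroup.lowerCentralSeries_eq_bot_iff_nilpotencyClass_le] at h
    omega
  refine ⟨c, hcb, ?_, ?_⟩
  · intro hb0
    have h1 : (c - 1) * (p - 1) < b * p := by
      apply CfsgH1.breadth_class hG (c - 1) b (Nat.pos_of_ne_zero hb0) hb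
      intro i hi
      apply CfsgH1.CL_ne_top
      apply hmin
      omega
    refine ⟨h1, ?_⟩
    have h2 : 2 ≤ p := hp.two_le
    rcases Nat.lt_or_ge p 3 with h3 | h3
    · have h4 : p = 2 := by omega
      subst h4
      omega
    · obtain ⟨p', rfl⟩ : ∃ p', p = p' + 3 := ⟨p - 3, by omega⟩
      have h5 : p' + 3 - 1 = p' + 2 := by omega
      rw [h5] at h1
      by_contra hlt
      push Not at hlt
      obtain ⟨d, hd⟩ : ∃ d, c = 2 * b + 1 + d := ⟨c - (2 * b + 1), by omega⟩
      have h6 : c - 1 = 2 * b + d := by omega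
      rw [h6] at h1
      nlinarith
  · intro hb0
    have h1 : ∀ x y : G, x * y = y * x := by
      intro x y
      have h2 := hb x
      rw [hb0, pow_zero] at h2
      have h3 : (Subgroup.centralizer ({x} : Set G)).index ≠ 0 := Subgroup.index_ne_zero_of_finite
      have h4 : (Subgroup.centralizer ({x} : Set G)).index = 1 := by omega
      rw [Subgroup.index_eq_one] at h4
      have h5 : y ∈ Subgroup.centralizer ({x} : Set G) := by rw [h4]; exact Subgroup.mem_top y
      exact (Subgroup.mem_centralizer_singleton_iff.1 h5).symm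
    rw [← Subgroup.lowerCentralSeries_eq_bot_iff_nilpotencyClass_le, Subgroup.lowerCentralSeries_succ, Subgroup.commutator_eq_bot_iff_le_centralizer]
    intro y _
    rw [Subgroup.mem_centralizer_iff]
    intro x _
    exact h1 x y

end Cfsg.Agent.S3778
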