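import Cfsg.Statements.S3780
import Cfsg.Agent.H1.Basic
import Cfsg.Agent.H1.Frat

set_option autoImplicit false
open Cfsg

namespace Cfsg.Agent.S3780

open scoped commutatorElement Pointwise

/-- a `p`-group of order `p^k` has a generating set of at most `k` elements -/
theorem exists_gens {Q : Type*} [Group Q] [Finite Q] {p k : ℕ} [hp : Fact p.Prime] (hQ : Nat.card Q = p ^ k) : 
    ∃ S : Finset Q, S.card ≤ k ∧ Subgroup.closure (S : Set Q) = ⊤ := by
  classical
  have key : ∀ i : ℕ, ∃ S : Finset Q, S.card ≤ i ∧ (Subgroup.closure (S : Set Q) = ⊤ ∨ p ^ i ≤ Nat.card (Subgroup.closure (S : Set Q))) := by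
    intro i
    induction i with
    | zero => exact ⟨∅, by simp, Or.inr (by rw [pow_zero]; exact Nat.card_pos)⟩
    | succ i ih =>
      obtain ⟨S, hS, hS2⟩ := ih
      by_cases htop : Subgroup.closure (S : Set Q) = ⊤
      · exact ⟨S, by omega, Or.inl htop⟩
      · have h1 := hS2.resolve_left htop
        obtain ⟨x, hx⟩ : ∃ x, x ∉ Subgroup.closure (S : Set Q) := by
          by_contra hcon
          push Not at hcon
          exact htop (eq_top_iff.2 fun g _ => hcon g)
        refine ⟨insert x S, (Finset.card_insert_le x S).trans (by omega), Or.inr ?_⟩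
        have h2 : Subgroup.closure (S : Set Q) < Subgroup.closure ((insert x S : Finset Q) : Set Q) := by
          refine lt_of_le_of_ne (Subgroup.closure_mono (by rw [Finset.coe_insert]; exact Set.subset_insert _ _)) ?_
          intro h
          apply hx
          rw [h]
          exact Subgroup.subset_closure (by simp)
        have h3 := CfsgH1.card_lt_card_of_lt h2
        have hpg : IsPGroup p Q := IsPGroup.of_card hQ
        obtain ⟨a, ha⟩ := IsPGroup.iff_card.1 (hpg.to_subgroup (Subgroup.closure (S : Set Q)))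
        obtain ⟨b, hb⟩ := IsPGroup.iff_card.1 (hpg.to_subgroup (Subgroup.closure ((insert x S : Finset Q) : Set Q)))
        rw [ha] at h1 h3
        rw [hb] at h3 ⊢
        have h4 := (Nat.pow_lt_pow_iff_right hp.out.one_lt).1 h3
        have h5 := (Nat.pow_le_pow_iff_right hp.out.one_lt).1 h1
        exact Nat.pow_le_pow_right hp.out.pos (by omega)
  obtain ⟨S, hS, h | h⟩ := key k
  · exact ⟨S, hS, h⟩
  · refine ⟨S, hS, ?_⟩
    apply Subgroup.eq_top_of_card_eq
    apply le_antisymm (Subgroup.card_le_card_group _)
    rw [hQ]; exact h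

theorem iter_add {V : Type*} [AddCommGroup V] {p : ℕ} [hp : Fact p.Prime] (hV : ∀ v : V, p • v = 0)
    (T : V →+ V) (hT : ∀ v, T^[p] v = v) (v : V) : (fun w => T w - w)^[p] v = 0 := by
  letI : Module (ZMod p) V := AddCommGroup.zmodModule (n := p) hV
  let T' : V →ₗ[ZMod p] V := T.toZModLinearMap p
  have hT' : ∀ v : V, T' v = T v := fun _ => rfl
  have hpow : ∀ (k : ℕ) (v : V), (T' ^ k) v = T^[k] v := by
    intro k
    induction k with
    | zero => intro v; rfl
    | succ k ih =>
      intro v
      rw [pow_succ, Module.End.mul_apply, hT', ih, Function.iterate_succ_apply]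
  have hpow2 : ∀ (k : ℕ) (v : V), ((T' - 1) ^ k) v = (fun w => T w - w)^[k] v := by
    intro k
    induction k with
    | zero => intro v; rfl
    | succ k ih =>
      intro v
      rw [pow_succ, Module.End.mul_apply, ih, Function.iterate_succ_apply]
      rfl
  have h1 : T' ^ p = 1 := by
    apply LinearMap.ext
    intro x
    rw [hpow, hT]; rfl
  have h2 : (T' - 1) ^ p = 0 := by
    have h3 : ((Polynomial.X - 1 : Polynomial (ZMod p)) ^ p) = Polynomial.X ^ p - 1 := by
      rw [sub_pow_char, one_pow]
    have h4 := congrArg (Polynomial.aeval T') h3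
    rw [map_pow, map_sub, map_sub, map_pow, Polynomial.aeval_X, map_one, h1, sub_self] at h4
    exact h4
  rw [← hpow2, h2]; rfl

theorem iter_mul {V : Type*} [CommGroup V] {p : ℕ} [hp : Fact p.Prime] (hV : ∀ v : V, v ^ p = 1)
    (T : V →* V) (hT : ∀ v, T^[p] v = v) (v : V) : (fun w => T w / w)^[p] v = 1 := 
  iter_add (V := Additive V) (p := p) hV (MonoidHom.toAdditive T) hT v

def kch {W : Type*} [Group W] (δ : W →* W) : ℕ → Subgroup W
  | 0 => ⊥
  | i + 1 => (kch δ i).comap δ

theorem main {V : Type*} [CommGroup V] [Finite V] {p : ℕ} [hp : Fact p.Prime] (hV : IsPGroup p V) (α : MulAut V) (hα : orderOf α = p) (n : ℕ) (hfix : Nat.card {v : V // α v = v} = p ^ n) : ∃ S : Finset V, S.card ≤ p * n ∧ Subgroup.closure (S : Set V) = ⊤ := by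
  classical
  let π : V →* V := powMonoidHom p
  have hπ : ∀ v, π v = v ^ p := fun _ => rfl
  set W : Subgroup V := π.ker with hW
  have hWmem : ∀ v, v ∈ W ↔ v ^ p = 1 := fun v => Iff.rfl
  have hαW : ∀ v ∈ W, α v ∈ W := by
    intro v hv
    rw [hWmem] at hv ⊢
    rw [← map_pow, hv, map_one]
  let T : W →* W := 
    { toFun := fun w => ⟨α (w : V), hαW w w.2⟩
      map_one' := Subtype.ext (map_one α)
      map_mul' := fun a b => Subtype.ext (map_mul α (a : V) (b : V)) }
  have hTiter : ∀ (k : ℕ) (w : W), ((T^[k] w : W) : V) = (α ^ k) (w : V) := by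
    intro k
    induction k with
    | zero => intro w; rfl
    | succ k ih =>
      intro w
      rw [Function.iterate_succ_apply, ih, pow_succ]
      rfl
  have hTp : ∀ w : W, T^[p] w = w := by
    intro w
    apply Subtype.ext
    rw [hTiter, ← hα, pow_orderOf_eq_one]; rfl
  have hδp := iter_mul (V := W) (p := p) (fun w => Subtype.ext w.2) T hTp
  let δ : W →* W := 
    { toFun := fun w => T w / w
      map_one' := by simp
      map_mul' := fun a b => by rw [map_mul]; exact mul_div_mul_comm _ _ _ _ }
  -- kernel chain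
  let K : ℕ → Subgroup W := kch δ
  have hK0 : K 0 = ⊥ := rfl
  have hKs : ∀ i, K (i + 1) = (K i).comap δ := fun _ => rfl
  have hKmem : ∀ i w, w ∈ K i ↔ (fun w => T w / w)^[i] w = 1 := by
    intro i
    induction i with
    | zero => intro w; rw [hK0, Subgroup.mem_bot]; rfl
    | succ i ih =>
      intro w
      rw [hKs, Subgroup.mem_comap, ih, Function.iterate_succ_apply]
      rfl
  have hker : Nat.card δ.ker ≤ p ^ n := by
    rw [← hfix]
    apply Nat.card_le_card_of_injective (fun w : δ.ker => (⟨((w : W) : V), by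
      have h1 : T (w : W) / (w : W) = 1 := w.2
      rw [div_eq_one] at h1
      exact congrArg Subtype.val h1⟩ : {v : V // α v = v}))
    intro a b hab
    exact Subtype.ext (Subtype.ext (congrArg (fun z : {v : V // α v = v} => (z : V)) hab))
  have hKcard : ∀ i, Nat.card (K i) ≤ (p ^ n) ^ i := by
    intro i
    induction i with
    | zero => rw [hK0, Subgroup.card_bot, pow_zero]
    | succ i ih =>
      have h1 := CfsgH1.card_map_mul_card_ker δ (K (i + 1))
      have h2 : (K (i + 1)).map δ ≤ K i := by
        rw [hKs]; exact Subgroup.map_comap_le _ _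
      rw [← h1, pow_succ]
      exact Nat.mul_le_mul ((Subgroup.card_le_of_le h2).trans ih) ((Subgroup.card_le_of_le inf_le_right).trans hker)
  have hKtop : K p = ⊤ := by
    rw [eq_top_iff]
    intro w _
    rw [hKmem]
    exact hδp w
  have hWcard : Nat.card W ≤ p ^ (p * n) := by
    have h1 := hKcard p
    rw [hKtop, Subgroup.card_top, ← pow_mul, mul_comm n p] at h1
    exact h1
  -- quotient by p-th powers
  have hrange : Nat.card (V ⧸ π.range) = Nat.card W := by
    have h1 := Subgroup.card_eq_card_quotient_mul_card_subgroup π.range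
    have h2 := Subgroup.card_eq_card_quotient_mul_card_subgroup π.ker
    rw [Nat.card_congr (QuotientGroup.quotientKerEquivRange π).toEquiv] at h2
    rw [h1, mul_comm] at h2
    exact Nat.eq_of_mul_eq_mul_left Nat.card_pos h2
  obtain ⟨k, hk⟩ := IsPGroup.iff_card.1 (hV.to_subgroup W)
  rw [hk] at hrange hWcard
  have hkn : k ≤ p * n := (Nat.pow_le_pow_iff_right hp.out.one_lt).1 hWcard
  obtain ⟨S, hS, hStop⟩ := exists_gens hrange
  refine ⟨S.image Quotient.out, Finset.card_image_le.trans (hS.trans hkn), ?_⟩
  have h1 : Subgroup.closure ((S.image Quotient.out : Finset V) : Set V) ⊔ π.range = ⊤ := by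
    have h2 : (Subgroup.closure ((S.image Quotient.out : Finset V) : Set V)).map (QuotientGroup.mk' π.range) = ⊤ := by
      rw [eq_top_iff, ← hStop, Subgroup.closure_le]
      intro s hs
      refine ⟨Quotient.out s, Subgroup.subset_closure (by
        rw [Finset.coe_image]; exact ⟨s, hs, rfl⟩), ?_⟩
      exact Quotient.out_eq' s
    have h3 := congrArg (Subgroup.comap (QuotientGroup.mk' π.range)) h2
    rw [Subgroup.comap_map_eq, QuotientGroup.ker_mk', Subgroup.comap_top] at h3
    exact h3
  apply CfsgH1.eq_top_of_sup_frattini (F := π.range) _ h1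
  rintro _ ⟨v, rfl⟩
  exact CfsgH1.pow_mem_frattini hV v

/-- Let V be a finite abelian p-group and α an automorphism of V of order p whose fixed-point subgroup has order p^n. Then V can be generated by pn elements: some subset of V with at most pn elements generates V. -/
theorem result {V : Type*} [CommGroup V] [Finite V] {p : ℕ} [Fact p.Prime] (hV : IsPGroup p V) (α : MulAut V) (hα : orderOf α = p) (n : ℕ) (hfix : Nat.card {v : V // α v = v} = p ^ n) : ∃ S : Finset V, S.card ≤ p * n ∧ Subgroup.closure (S : Set V) = ⊤ := by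

  exact main hV α hα n hfix

end Cfsg.Agent.S3780
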