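import Cfsg.Statements.S3781
import Cfsg.Agent.H1.LcsSec
import Cfsg.Agent.H3.Rank2

set_option autoImplicit false
open Cfsg

namespace Cfsg.Agent.S3781

open scoped commutatorElement Pointwise

theorem main {G : Type*} [Group G] [Finite G] {p : ℕ} [hp : Fact p.Prime] (hG : IsPGroup p G) (n : ℕ) (hn : 1 ≤ n) (N : Subgroup G) [hNn : N.Normal] (hN : N ≤ (⊤ : Subgroup G).lowerCentralSeries (n - 1)) (i : ℕ) (hi : 1 < i) (hne : N.lowerCentralSeries i ≠ ⊥) : p ^ n ≤ (N.lowerCentralSeries i).relIndex (N.lowerCentralSeries (i - 1)) := by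
  have hnorm : ∀ k, (N.lowerCentralSeries k).Normal := by
    intro k
    induction k with
    | zero => exact hNn
    | succ k ih => exact @Subgroup.commutator_normal _ _ _ _ ih hNn
  obtain ⟨j, rfl⟩ : ∃ j, i = j + 1 := ⟨i - 1, by omega⟩
  simp only [Nat.add_sub_cancel] at *
  set A := N.lowerCentralSeries j with hA
  set B := N.lowerCentralSeries (j + 1) with hB
  have hBA : B ≤ A := N.lowerCentralSeries_antitone (Nat.le_succ j)
  haveI hAn : A.Normal := hnorm j
  haveI hBn : B.Normal := hnorm (j + 1)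
  by_contra hcon
  push Not at hcon
  -- |A : B| = p^m with m < n
  have hr : B.relIndex A * Nat.card B = Nat.card A := by
    have := Subgroup.relIndex_mul_relIndex (⊥ : Subgroup G) B A bot_le hBA
    rw [Subgroup.relIndex_bot_left, Subgroup.relIndex_bot_left, mul_comm] at this
    exact this
  obtain ⟨a, ha⟩ := IsPGroup.iff_card.1 (hG.to_subgroup A)
  obtain ⟨b, hb⟩ := IsPGroup.iff_card.1 (hG.to_subgroup B)
  have hb0 : b ≠ 0 := by
    rintro rfl
    rw [pow_zero] at hb
    exact hne (Subgroup.card_eq_one.1 hb)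
  -- normal subgroup L of index p in B
  obtain ⟨L, hLB, hLn, hLc⟩ := CfsgH3.exists_normal_card hG B (b - 1) (by rw [hb]; exact Nat.pow_le_pow_right hp.out.pos (Nat.sub_le b 1))
  haveI := hLn
  have hBc : Nat.card B = p * Nat.card L := by
    rw [hb, hLc, ← pow_succ']
    congr 1; omega
  have key := CfsgH1.lcs_cent (p := p) (n - 1) (G ⧸ L) (hG.to_quotient L) (A.map (QuotientGroup.mk' L)) (hAn.map _ (QuotientGroup.mk'_surjective L)) (by
    have h7 := CfsgH1.card_map_mul_card_ker_of_le (QuotientGroup.mk' L) A (by rw [QuotientGroup.ker_mk']; exact hLB.trans hBA)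
    rw [QuotientGroup.ker_mk', ← hr, hBc] at h7
    have h8 : Nat.card ↥(A.map (QuotientGroup.mk' L)) = B.relIndex A * p := by
      apply Nat.eq_of_mul_eq_mul_right (Nat.card_pos (α := L))
      rw [h7]; ring
    rw [h8, Nat.sub_add_cancel hn]
    -- relIndex is a p-power less than p^n
    have h9 : B.relIndex A ∣ p ^ a := by rw [← ha, ← hr]; exact dvd_mul_right _ _
    obtain ⟨m, -, hm⟩ := (Nat.dvd_prime_pow hp.out).1 h9
    rw [hm] at hcon ⊢
    have h10 := (Nat.pow_lt_pow_iff_right hp.out.one_lt).1 hcon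
    rw [← pow_succ]
    exact Nat.pow_le_pow_right hp.out.pos h10)
  have h5 : (⊤ : Subgroup (G ⧸ L)).lowerCentralSeries (n - 1) = ((⊤ : Subgroup G).lowerCentralSeries (n - 1)).map (QuotientGroup.mk' L) := by
    rw [Subgroup.map_lowerCentralSeries]
    congr 1
    exact (Subgroup.map_top_of_surjective _ (QuotientGroup.mk'_surjective L)).symm
  rw [h5, ← Subgroup.map_commutator] at key
  have h6 : B ≤ L := by
    have h7 : B ≤ ⁅A, (⊤ : Subgroup G).lowerCentralSeries (n - 1)⁆ := by
      rw [hB, Subgroup.lowerCentralSeries_succ]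
      exact Subgroup.commutator_mono le_rfl hN
    intro x hx
    have h8 : QuotientGroup.mk' L x ∈ (⁅A, (⊤ : Subgroup G).lowerCentralSeries (n - 1)⁆).map (QuotientGroup.mk' L) := ⟨x, h7 hx, rfl⟩
    rw [key, Subgroup.mem_bot] at h8
    exact (QuotientGroup.eq_one_iff x).1 h8
  have h7 := Subgroup.card_le_of_le h6
  rw [hBc] at h7
  have h8 : 0 < Nat.card L := Nat.card_pos
  have := hp.out.one_lt
  nlinarith

/-- Let G be a finite p-group and n ≥ 1, and write γ_1(G) = G, γ_{k+1}(G) = [γ_k(G), G], and likewise γ_k(N) for a subgroup N. Let N be a normal subgroup of G contained in γ_n(G). If i > 1 and γ_{i+1}(N) ≠ 1, then |γ_i(N) : γ_{i+1}(N)| ≥ p^n. -/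
theorem result {G : Type*} [Group G] [Finite G] {p : ℕ} [Fact p.Prime] (hG : IsPGroup p G) (n : ℕ) (hn : 1 ≤ n) (N : Subgroup G) [N.Normal] (hN : N ≤ (⊤ : Subgroup G).lowerCentralSeries (n - 1)) (i : ℕ) (hi : 1 < i) (hne : N.lowerCentralSeries i ≠ ⊥) : p ^ n ≤ (N.lowerCentralSeries i).relIndex (N.lowerCentralSeries (i - 1)) := by

  exact main hG n hn N hN i hi hne

end Cfsg.Agent.S3781
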