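import Cfsg.Statements.S3783
import Cfsg.Agent.H1.HHAb2

set_option autoImplicit false
open Cfsg

namespace Cfsg.Agent.S3783

open scoped commutatorElement Pointwise

/-- Let G be a finite p-soluble group in which, for every prime q ≠ p, the Sylow q-subgroups are abelian. If the Sylow p-subgroups of G have exponent dividing p^n, then G has p-length at most n. -/
theorem result {G : Type*} [Group G] [Finite G] {p : ℕ} [Fact p.Prime] (hG : Cfsg.IsPSolvable p G) (hab : ∀ (q : ℕ) [Fact q.Prime], q ≠ p → ∀ Q : Sylow q G, IsMulCommutative (Q : Subgroup G)) (n : ℕ) (hexp : ∀ (P : Sylow p G), ∀ x ∈ (P : Subgroup G), x ^ p ^ n = 1) : Cfsg.PLengthLE p n G := by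
  refine CfsgH1.plen_exp _ G p rfl hG ?_ n ?_
  · intro q hq hqp Q hQ a ha b hb
    haveI : Fact q.Prime := ⟨hq⟩
    obtain ⟨S, hS⟩ := hQ.exists_le_sylow
    have h1 := hab q hqp S
    have h2 := h1.is_comm.comm ⟨a, hS ha⟩ ⟨b, hS hb⟩
    exact congrArg Subtype.val h2
  · rintro x ⟨k, hk⟩
    have h1 : IsPGroup p (Subgroup.zpowers x) := by
      rw [IsPGroup.iff_card, Nat.card_zpowers]
      obtain ⟨j, _, hj⟩ := (Nat.dvd_prime_pow (Fact.out : p.Prime)).1 (orderOf_dvd_of_pow_eq_one hk)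
      exact ⟨j, hj⟩
    obtain ⟨S, hS⟩ := h1.exists_le_sylow
    exact hexp S x (hS (Subgroup.mem_zpowers x))

end Cfsg.Agent.S3783
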