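import Cfsg.Statements.S3784
import Mathlib
import Cfsg.Agent.H1.Basic

set_option autoImplicit false
open Cfsg

namespace Cfsg.Agent.S3784

open scoped commutatorElement Pointwise

theorem pow_two_of_dvd {d n : ℕ} (h : d ∣ 2 ^ n) (ho : Odd d) : d = 1 := by
  obtain ⟨k, -, hk⟩ := (Nat.dvd_prime_pow Nat.prime_two).1 h
  rcases Nat.eq_zero_or_pos k with h0 | h0
  · rw [hk, h0, pow_zero]
  · exfalso
    rw [hk] at ho
    have : Even (2 ^ k) := (Nat.even_pow.2 ⟨even_two, h0.ne'⟩)
    exact (Nat.not_even_iff_odd.2 ho) this

/-- Let p, q be primes and a, b positive integers with p^a = q^b + 1. Then either p = 2, b = 1, a is prime and q = 2^a − 1; or q = 2, a = 1, b is a power of 2 and p = 2^b + 1; or p^a = 9 and q^b = 8. -/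
theorem result (p q a b : ℕ) (hp : p.Prime) (hq : q.Prime) (ha : 1 ≤ a) (hb : 1 ≤ b) (h : p ^ a = q ^ b + 1) : (p = 2 ∧ b = 1 ∧ a.Prime ∧ q + 1 = 2 ^ a) ∨ (q = 2 ∧ a = 1 ∧ (∃ m : ℕ, b = 2 ^ m) ∧ p = 2 ^ b + 1) ∨ (p ^ a = 9 ∧ q ^ b = 8) := by

  have hp2 := hp.two_le
  have hq2 := hq.two_le
  by_cases hp' : p = 2
  · subst hp'
    left
    have hqo : Odd q := by
      rcases hq.eq_two_or_odd' with h2 | h2
      · subst h2
        exfalso
        have h3 : Even (2 ^ a) := Nat.even_pow.2 ⟨even_two, by omega⟩
        have h4 : Even (2 ^ b) := Nat.even_pow.2 ⟨even_two, by omega⟩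
        rw [h] at h3
        exact (Nat.even_add_one.1 h3) h4
      · exact h2
    have hqb : 3 ≤ q := by
      rcases hqo with ⟨k, hk⟩; omega
    have ha2 : 2 ≤ a := by
      by_contra h1
      have h2 : a = 1 := by omega
      subst h2
      have h3 : q ≤ q ^ b := Nat.le_self_pow (by omega) q
      omega
    have hb1 : b = 1 := by
      rcases Nat.even_or_odd b with hbe | hbo
      · exfalso
        obtain ⟨c, rfl⟩ := hbe
        have h3 : q ^ (c + c) % 4 = 1 := by
          rw [← two_mul, pow_mul, Nat.pow_mod]
          have : q ^ 2 % 4 = 1 := by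
            rw [Nat.pow_mod]
            have h5 : q % 4 = 1 ∨ q % 4 = 3 := by rcases hqo with ⟨k, hk⟩; omega
            rcases h5 with h5 | h5 <;> norm_num [h5]
          rw [this, one_pow]; rfl
        have h4 : 2 ^ a % 4 = 0 := by
          obtain ⟨d, rfl⟩ : ∃ d, a = 2 + d := ⟨a - 2, by omega⟩
          rw [pow_add]; omega
        omega
      · by_contra hb1
        -- cofactor
        have h5 : ((q : ℤ) + 1) * ∑ i ∈ Finset.range b, (-(q : ℤ)) ^ i = (q : ℤ) ^ b + 1 := by
          have h6 := mul_neg_geom_sum (-(q : ℤ)) b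
          rw [hbo.neg_pow] at h6
          linarith
        set s : ℤ := ∑ i ∈ Finset.range b, (-(q : ℤ)) ^ i with hs
        have hso : Odd s := by
          have hq1 : (q : ZMod 2) = 1 := (ZMod.natCast_eq_one_iff_odd).2 hqo
          have hs2 : (s : ZMod 2) = 1 := by
            rw [hs]
            push_cast
            rw [hq1]
            have h7 : (-1 : ZMod 2) = 1 := by decide
            rw [h7]
            simp only [one_pow, Finset.sum_const, Finset.card_range, nsmul_eq_mul, mul_one]
            exact (ZMod.natCast_eq_one_iff_odd).2 hbo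
          rw [← Int.not_even_iff_odd]
          intro he
          have h8 : (s : ZMod 2) = 0 := (ZMod.intCast_zmod_eq_zero_iff_dvd s 2).2 (by exact_mod_cast he.two_dvd)
          rw [h8] at hs2
          exact zero_ne_one hs2
        have hspos : 0 < s := by
          have h8 : (0 : ℤ) < (q : ℤ) + 1 := by positivity
          have h9 : (0 : ℤ) < (q : ℤ) ^ b + 1 := by positivity
          rw [← h5] at h9
          exact (pos_iff_pos_of_mul_pos h9).1 h8
        have hdvd : s.toNat ∣ 2 ^ a := by
          have : (s.toNat : ℤ) ∣ ((2 ^ a : ℕ) : ℤ) := by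
            rw [h]
            push_cast
            rw [Int.toNat_of_nonneg hspos.le, ← h5]
            exact dvd_mul_left _ _
          exact_mod_cast this
        have h10 := pow_two_of_dvd hdvd (by
          have : Odd ((s.toNat : ℕ) : ℤ) := by rw [Int.toNat_of_nonneg hspos.le]; exact hso
          exact_mod_cast this)
        have h11 : s = 1 := by
          have := Int.toNat_of_nonneg hspos.le
          rw [h10] at this
          exact this.symm
        rw [h11, mul_one] at h5
        have h12 : (q : ℤ) ^ b = q := by linarith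
        have h13 : q ^ b = q ^ 1 := by rw [pow_one]; exact_mod_cast h12
        exact hb1 (Nat.pow_right_injective hq2 h13)
    subst hb1
    rw [pow_one] at h
    refine ⟨rfl, rfl, ?_, h.symm⟩
    have h14 : (2 ^ a - 1).Prime := by
      have : 2 ^ a - 1 = q := by omega
      rw [this]; exact hq
    exact (Nat.prime_of_pow_sub_one_prime (by omega) h14).2
  · right
    have hpo : Odd p := hp.odd_of_ne_two hp'
    have hp3 : 3 ≤ p := by rcases hpo with ⟨k, hk⟩; omega
    have hq' : q = 2 := by
      by_contra hne
      have hqo := hq.odd_of_ne_two hne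
      have h1 : Odd (p ^ a) := hpo.pow
      have h2 : Odd (q ^ b) := hqo.pow
      rw [h] at h1
      exact (Nat.odd_add_one.1 h1) h2
    subst hq'
    by_cases ha1 : a = 1
    · left
      subst ha1
      rw [pow_one] at h
      refine ⟨rfl, rfl, ?_, h⟩
      obtain ⟨m, hm⟩ := Nat.pow_of_pow_add_prime (a := 2) (n := b) (by norm_num) (by omega) (by rw [← h]; exact hp)
      exact ⟨m, hm⟩
    · right
      rcases Nat.even_or_odd a with hae | hao
      · obtain ⟨c, rfl⟩ := hae
        have hc : 1 ≤ c := by omega
        have hpc : 3 ≤ p ^ c := hp3.trans (Nat.le_self_pow (by omega) p)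
        have h1 : (p ^ c - 1) * (p ^ c + 1) = 2 ^ b := by
          have h2 : p ^ (c + c) = p ^ c * p ^ c := pow_add _ _ _
          rw [h2] at h
          have h3 : (p ^ c - 1) * (p ^ c + 1) = p ^ c * p ^ c - 1 := by
            obtain ⟨t, ht⟩ : ∃ t, p ^ c = t + 1 := ⟨p ^ c - 1, by omega⟩
            rw [ht]
            simp only [Nat.add_sub_cancel]
            have : (t + 1) * (t + 1) = t * (t + 1 + 1) + 1 := by ring
            rw [this]; simp
          rw [h3, h, Nat.add_sub_cancel]
        obtain ⟨i, -, hi⟩ := (Nat.dvd_prime_pow Nat.prime_two).1 (Dvd.intro _ h1)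
        obtain ⟨j, -, hj⟩ := (Nat.dvd_prime_pow Nat.prime_two).1 (Dvd.intro_left _ h1)
        have h4 : 2 ^ j = 2 ^ i + 2 := by omega
        have hi1 : i = 1 := by
          have hi0 : i ≠ 0 := by rintro rfl; omega
          have hij : i < j := by
            rw [← Nat.pow_lt_pow_iff_right (a := 2) (by norm_num)]; omega
          by_contra hne
          obtain ⟨u, rfl⟩ : ∃ u, i = 2 + u := ⟨i - 2, by omega⟩
          obtain ⟨v, rfl⟩ : ∃ v, j = 2 + v := ⟨j - 2, by omega⟩
          rw [pow_add, pow_add] at h4
          omega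
        have h5 : p ^ c = 3 := by rw [hi1] at hi; omega
        have h6 : p ^ (c + c) = 9 := by rw [pow_add, h5]; norm_num
        exact ⟨h6, by omega⟩
      · exfalso
        have h5 := Nat.geomSum_eq (m := p) hp2 a
        have h6 : (∑ k ∈ Finset.range a, p ^ k) * (p - 1) = p ^ a - 1 := by
          have := Nat.geomSum_eq (m := p) hp2 a
          have h7 : (p - 1) ∣ p ^ a - 1 := by simpa using Nat.sub_dvd_pow_sub_pow p 1 a
          rw [this, Nat.div_mul_cancel h7]
        have h7 : (∑ k ∈ Finset.range a, p ^ k) ∣ 2 ^ b := by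
          rw [h, Nat.add_sub_cancel] at h6
          exact Dvd.intro _ h6
        have h8 : Odd (∑ k ∈ Finset.range a, p ^ k) := by
          rw [Finset.odd_sum_iff_odd_card_odd]
          have h7 : Finset.filter (fun x => Odd (p ^ x)) (Finset.range a) = Finset.range a := by
            apply Finset.filter_true_of_mem
            intro i _
            exact hpo.pow
          rw [h7, Finset.card_range]
          exact hao
        have h9 := pow_two_of_dvd h7 h8
        have h10 : 1 + p ≤ ∑ k ∈ Finset.range a, p ^ k := by
          have h11 : ∑ k ∈ Finset.range 2, p ^ k ≤ ∑ k ∈ Finset.range a, p ^ k := by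
            apply Finset.sum_le_sum_of_subset
            intro k hk
            rw [Finset.mem_range] at hk ⊢
            omega
          simp [Finset.sum_range_succ] at h11
          exact h11
        omega

end Cfsg.Agent.S3784
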