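import Cfsg.Statements.S3790
import Cfsg.Agent.H1.PLenCh

set_option autoImplicit false
open Cfsg

namespace Cfsg.Agent.S3790

open scoped commutatorElement Pointwise

open Subgroup CfsgH1 in
theorem aux {p : ℕ} [hp : Fact p.Prime] (l : ℕ → ℕ) (π : Finset ℕ) : (∀ q ∈ π, q.Prime ∧ q ≠ p) → ∀ (G : Type _) [Group G] [Finite G], 
    (∀ s : ℕ, s.Prime → s ∣ Nat.card G → s ≠ p → s ∈ π) → (∀ q ∈ π, Cfsg.PLengthLE q (l q) G) → Cfsg.PLengthLE p (∏ q ∈ π, (1 + l q)) G := by
  classical
  induction π using Finset.induction_on with
  | empty =>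
    intro _ G _ _ hcov _
    rw [Finset.prod_empty]
    apply plen_one_of_pgroup
    rw [IsPGroup.iff_card]
    have hne : Nat.card G ≠ 0 := Nat.card_pos.ne'
    refine ⟨(Nat.card G).factorization p, ?_⟩
    have h1 := Nat.eq_prime_pow_of_unique_prime_dvd (n := Nat.card G) (p := p) hne (fun {d} hd hdvd => by
      by_contra hne'
      exact absurd (hcov d hd hdvd hne') (by simp))
    rw [h1]
    congr 1
    rw [← h1]
    have : (Nat.card G).primeFactorsList.length = (Nat.card G).factorization p := by
      rw [h1]
      rw [Nat.Prime.primeFactorsList_pow hp.out, List.length_replicate, Nat.Prime.factorization_pow hp.out]; simp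
    exact this
  | insert q π hq IH =>
    intro hπ
    have hqp := (hπ q (Finset.mem_insert_self q π)).2
    haveI hqf : Fact q.Prime := ⟨(hπ q (Finset.mem_insert_self q π)).1⟩
    have IH' := IH (fun s hs => hπ s (Finset.mem_insert_of_mem hs))
    set M := ∏ q ∈ π, (1 + l q) with hM
    have key : ∀ k : ℕ, ∀ (G : Type _) [Group G] [Finite G], (∀ s : ℕ, s.Prime → s ∣ Nat.card G → s ≠ p → s ∈ insert q π) → 
        (∀ q' ∈ π, Cfsg.PLengthLE q' (l q') G) → Cfsg.PLengthLE q k G → Cfsg.PLengthLE p ((1 + k) * M) G := by
      intro k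
      induction k with
      | zero =>
        intro G _ _ hcov hl hk
        have h1 : UU q G 1 = ⊤ := hk
        have h2 := UU_one_coprime (p := q) (G := G)
        rw [h1, Subgroup.card_top] at h2
        have h3 := IH' G (fun s hs hsd hsp => by
          rcases Finset.mem_insert.1 (hcov s hs hsd hsp) with h | h
          · exfalso
            rw [h] at hsd
            exact (Nat.Prime.coprime_iff_not_dvd hqf.out).1 h2.symm hsd
          · exact h) hl
        simpa using h3
      | succ k ihk =>
        intro G _ _ hcov hl hk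
        set A := UU q G 1 with hA
        set B := UU q G 2 with hB
        have hAB : A ≤ B := UU_le_succ 1
        haveI : A.Normal := Cfsg.upperPSeries_normal q G 1
        haveI : B.Normal := Cfsg.upperPSeries_normal q G 2
        have hAc : (Nat.card A).Coprime q := UU_one_coprime
        -- A.subgroupOf B
        have h1 : Cfsg.PLengthLE p M (A.subgroupOf B) := by
          apply IH' (A.subgroupOf B)
          · intro s hs hsd hsp
            have hcA : Nat.card (A.subgroupOf B) = Nat.card A := by
              rw [← Subgroup.card_map_of_injective (K := A.subgroupOf B) B.subtype_injective, Subgroup.map_subgroupOf_eq_of_le hAB]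
            rw [hcA] at hsd
            rcases Finset.mem_insert.1 (hcov s hs (hsd.trans (Subgroup.card_subgroup_dvd_card A)) hsp) with h | h
            · exfalso
              rw [h] at hsd
              exact (Nat.Prime.coprime_iff_not_dvd hqf.out).1 hAc.symm hsd
            · exact h
          · intro q' hq'
            haveI : Fact q'.Prime := ⟨(hπ q' (Finset.mem_insert_of_mem hq')).1⟩
            exact plen_sub (plen_sub (hl q' hq') B) _
        have h2 : Cfsg.PLengthLE p 0 (B ⧸ A.subgroupOf B) := by
          apply plen_zero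
          intro hd
          obtain ⟨m, hm⟩ := (UU_isCh (p := q) (G := G)).pw 0
          have h3 : Nat.card (B ⧸ A.subgroupOf B) = q ^ m := hm
          rw [h3] at hd
          exact hqp ((Nat.prime_dvd_prime_iff_eq hp.out hqf.out).1 (hp.out.dvd_of_dvd_pow hd)).symm
        have h3 : Cfsg.PLengthLE p (M + 0) B := plen_ext (A.subgroupOf B) h1 h2
        have h4 : Cfsg.PLengthLE p ((1 + k) * M) (G ⧸ B) := by
          apply ihk (G ⧸ B)
          · intro s hs hsd hsp
            exact hcov s hs (hsd.trans (Subgroup.card_quotient_dvd_card B)) hsp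
          · intro q' hq'
            haveI : Fact q'.Prime := ⟨(hπ q' (Finset.mem_insert_of_mem hq')).1⟩
            exact plen_quot (hl q' hq') B
          · exact plen_drop hk B rfl
        have h5 := plen_ext B h3 h4
        have e : M + 0 + (1 + k) * M = (1 + (k + 1)) * M := by ring
        rwa [e] at h5
    intro G _ _ hcov hl
    rw [Finset.prod_insert hq]
    exact key (l q) G hcov (fun q' hq' => hl q' (Finset.mem_insert_of_mem hq')) (hl q (Finset.mem_insert_self q π))

open Subgroup CfsgH1 in
theorem main {G : Type*} [Group G] [Finite G] (p : ℕ) [hp : Fact p.Prime] (r : ℕ) (q : Fin r → ℕ) (hq : ∀ i, (q i).Prime ∧ q i ≠ p) (hinj : Function.Injective q) (hcover : ∀ s : ℕ, s.Prime → s ∣ Nat.card G → s ≠ p → ∃ i, q i = s) (l : Fin r → ℕ) (hl : ∀ i, Cfsg.PLengthLE (q i) (l i) G) : Cfsg.PLengthLE p (Finset.univ.prod fun i => 1 + l i) G := by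
  classical
  let L : ℕ → ℕ := fun s => if h : ∃ i, q i = s then l h.choose else 0
  have hL : ∀ i, L (q i) = l i := by
    intro i
    have h : ∃ j, q j = q i := ⟨i, rfl⟩
    have h1 : L (q i) = l h.choose := dif_pos h
    rw [h1, hinj h.choose_spec]
  have h1 := aux (p := p) L (Finset.univ.image q) (by
    intro s hs
    obtain ⟨i, -, rfl⟩ := Finset.mem_image.1 hs
    exact hq i) G (by
    intro s hs hsd hsp
    obtain ⟨i, hi⟩ := hcover s hs hsd hsp
    exact Finset.mem_image.2 ⟨i, Finset.mem_univ _, hi⟩) (by
    intro s hs
    obtain ⟨i, -, rfl⟩ := Finset.mem_image.1 hs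
    rw [hL]; exact hl i)
  rw [Finset.prod_image (fun i _ j _ hij => hinj hij)] at h1
  simp only [hL] at h1
  exact h1

/-- Let G be a finite solvable group and p a prime. Suppose p₁, …, p_r are distinct primes, all different from p, that include every prime dividing the order of G other than p, and that G has p_i-length at most l_i for each i. Then G has p-length at most the product of the numbers 1 + l_i. -/
theorem result {G : Type*} [Group G] [Finite G] (hG : Group.IsSolvable G) (p : ℕ) [Fact p.Prime] (r : ℕ) (q : Fin r → ℕ) (hq : ∀ i, (q i).Prime ∧ q i ≠ p) (hinj : Function.Injective q) (hcover : ∀ s : ℕ, s.Prime → s ∣ Nat.card G → s ≠ p → ∃ i, q i = s) (l : Fin r → ℕ) (hl : ∀ i, Cfsg.PLengthLE (q i) (l i) G) : Cfsg.PLengthLE p (Finset.univ.prod fun i => 1 + l i) G := by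

  exact main p r q hq hinj hcover l hl

end Cfsg.Agent.S3790
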