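import Cfsg.Statements.S3791
import Cfsg.Agent.H1.PLenCh

set_option autoImplicit false
open Cfsg

namespace Cfsg.Agent.S3791

open scoped commutatorElement Pointwise

/-- relative derived series -/
def dser {G : Type*} [Group G] (H : Subgroup G) : ℕ → Subgroup G
  | 0 => H
  | n + 1 => ⁅dser H n, dser H n⁆

theorem dser_mono {G : Type*} [Group G] {H K : Subgroup G} (h : H ≤ K) (n : ℕ) : dser H n ≤ dser K n := by
  induction n with
  | zero => exact h
  | succ n ih => exact Subgroup.commutator_mono ih ih

theorem dser_map {G : Type*} [Group G] {Q : Type*} [Group Q] (f : G →* Q) (H : Subgroup G) (n : ℕ) : (dser H n).map f = dser (H.map f) n := by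
  induction n with
  | zero => rfl
  | succ n ih => 
    change (⁅dser H n, dser H n⁆).map f = ⁅dser (H.map f) n, dser (H.map f) n⁆
    rw [Subgroup.map_commutator, ih]

theorem dser_top {G : Type*} [Group G] (n : ℕ) : dser (⊤ : Subgroup G) n = derivedSeries G n := by
  induction n with
  | zero => rfl
  | succ n ih => 
    change ⁅dser (⊤ : Subgroup G) n, dser (⊤ : Subgroup G) n⁆ = ⁅derivedSeries G n, derivedSeries G n⁆
    rw [ih]

theorem dser_add {G : Type*} [Group G] (H : Subgroup G) (a b : ℕ) : dser H (a + b) = dser (dser H a) b := by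
  induction b with
  | zero => rfl
  | succ b ih => 
    change ⁅dser H (a + b), dser H (a + b)⁆ = ⁅dser (dser H a) b, dser (dser H a) b⁆
    rw [ih]

theorem dser_sub {G : Type*} [Group G] (H : Subgroup G) (n : ℕ) : dser H n = (derivedSeries ↥H n).map H.subtype := by
  rw [← dser_top, dser_map, ← MonoidHom.range_eq_map, Subgroup.range_subtype]

open Subgroup CfsgH1 in
theorem aux (r : ℕ) (q : Fin r → ℕ) (hq : ∀ i, (q i).Prime) (d : Fin r → ℕ) (n : ℕ) : ∀ (l : Fin r → ℕ), (∑ i, l i) = n → ∀ (G : Type _) [Group G] [Finite G],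
    (∀ s : ℕ, s.Prime → s ∣ Nat.card G → ∃ i, q i = s) → (∀ i, haveI := Fact.mk (hq i); ∃ S : Sylow (q i) G, dser (S : Subgroup G) (d i) = ⊥) → 
    (∀ i, Cfsg.PLengthLE (q i) (l i) G) → dser (⊤ : Subgroup G) (∑ i, d i * l i) = ⊥ := by
  classical
  induction n using Nat.strong_induction_on with
  | _ n IH =>
  intro l hln G _ _ hcov hd hl
  set D := ∑ i, d i * l i with hD
  have key : ∀ i, dser (⊤ : Subgroup G) D ≤ UU (q i) G 1 := by
    intro i
    haveI := Fact.mk (hq i)
    by_cases hli : l i = 0
    · have h1 := hl i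
      rw [hli] at h1
      have h2 : UU (q i) G 1 = ⊤ := h1
      rw [h2]; exact le_top
    · set A := UU (q i) G 1 with hA
      set B := UU (q i) G 2 with hB
      have hAB : A ≤ B := UU_le_succ 1
      haveI : A.Normal := Cfsg.upperPSeries_normal (q i) G 1
      haveI : B.Normal := Cfsg.upperPSeries_normal (q i) G 2
      let l' : Fin r → ℕ := Function.update l i (l i - 1)
      have hl'i : l' i = l i - 1 := Function.update_self i _ l
      have hl'j : ∀ j, j ≠ i → l' j = l j := fun j hj => Function.update_of_ne hj _ l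
      have hsum1 : ∑ j, l' j + 1 = ∑ j, l j := by
        rw [← Finset.add_sum_erase Finset.univ l' (Finset.mem_univ i), ← Finset.add_sum_erase Finset.univ l (Finset.mem_univ i), hl'i]
        have : ∑ x ∈ Finset.univ.erase i, l' x = ∑ x ∈ Finset.univ.erase i, l x := 
          Finset.sum_congr rfl (fun x hx => hl'j x (Finset.ne_of_mem_erase hx))
        rw [this]; omega
      have hsum2 : ∑ j, d j * l' j + d i = D := by
        rw [hD, ← Finset.add_sum_erase Finset.univ (fun j => d j * l' j) (Finset.mem_univ i), ← Finset.add_sum_erase Finset.univ (fun j => d j * l j) (Finset.mem_univ i), hl'i]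
        have : ∑ x ∈ Finset.univ.erase i, d x * l' x = ∑ x ∈ Finset.univ.erase i, d x * l x := 
          Finset.sum_congr rfl (fun x hx => by rw [hl'j x (Finset.ne_of_mem_erase hx)])
        rw [this]
        obtain ⟨m, hm⟩ : ∃ m, l i = m + 1 := ⟨l i - 1, by omega⟩
        rw [hm, Nat.add_sub_cancel]; ring
      have h1 : dser (⊤ : Subgroup (G ⧸ B)) (∑ j, d j * l' j) = ⊥ := by
        apply IH (∑ j, l' j) (by omega) l' rfl (G ⧸ B)
        · intro s hs hsd
          exact hcov s hs (hsd.trans (Subgroup.card_quotient_dvd_card B))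
        · intro j
          haveI := Fact.mk (hq j)
          obtain ⟨S, hS⟩ := hd j
          refine ⟨S.mapSurjective (QuotientGroup.mk'_surjective B), ?_⟩
          change dser ((S : Subgroup G).map (QuotientGroup.mk' B)) (d j) = ⊥
          rw [← dser_map, hS, Subgroup.map_bot]
        · intro j
          haveI := Fact.mk (hq j)
          by_cases hj : j = i
          · subst hj
            rw [hl'i]
            have h2 := hl j
            obtain ⟨m, hm⟩ : ∃ m, l j = m + 1 := ⟨l j - 1, by omega⟩
            rw [hm] at h2 ⊢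
            exact plen_drop h2 B rfl
          · rw [hl'j j hj]
            exact plen_quot (hl j) B
      have h2 : dser (⊤ : Subgroup G) (∑ j, d j * l' j) ≤ B := by
        have h3 : (dser (⊤ : Subgroup G) (∑ j, d j * l' j)).map (QuotientGroup.mk' B) = ⊥ := by
          rw [dser_map, Subgroup.map_top_of_surjective _ (QuotientGroup.mk'_surjective B), h1]
        rw [Subgroup.map_eq_bot_iff, QuotientGroup.ker_mk'] at h3
        exact h3
      rw [← hsum2, dser_add]
      refine (dser_mono h2 _).trans ?_
      -- B/A is a q-group contained in the image of S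
      obtain ⟨S, hS⟩ := hd i
      have hBq : IsPGroup (q i) (B.map (QuotientGroup.mk' A)) := by
        obtain ⟨m, hm⟩ := (UU_isCh (p := q i) (G := G)).pw 0
        have h4 : Nat.card (B.map (QuotientGroup.mk' A)) = q i ^ m := by
          rw [← relIndex_eq_card_map]; exact hm
        exact IsPGroup.of_card h4
      haveI : (B.map (QuotientGroup.mk' A)).Normal := (inferInstance : B.Normal).map _ (QuotientGroup.mk'_surjective A)
      have h5 : B.map (QuotientGroup.mk' A) ≤ (S : Subgroup G).map (QuotientGroup.mk' A) := 
        hBq.le_sylow_of_normal (S.mapSurjective (QuotientGroup.mk'_surjective A))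
      have h6 : (dser B (d i)).map (QuotientGroup.mk' A) = ⊥ := by
        rw [eq_bot_iff, dser_map]
        refine (dser_mono h5 _).trans ?_
        rw [← dser_map, hS, Subgroup.map_bot]
      rw [Subgroup.map_eq_bot_iff, QuotientGroup.ker_mk'] at h6
      exact h6
  -- order coprime to all primes
  by_contra hne
  have h1 : Nat.card (dser (⊤ : Subgroup G) D) ≠ 1 := fun h => hne (Subgroup.card_eq_one.1 h)
  obtain ⟨s, hs, hsd⟩ := Nat.exists_prime_and_dvd h1
  obtain ⟨i, hi⟩ := hcov s hs (hsd.trans (Subgroup.card_subgroup_dvd_card _))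
  haveI := Fact.mk (hq i)
  have h2 := hsd.trans (card_dvd_of_le (key i))
  have h3 := UU_one_coprime (p := q i) (G := G)
  rw [← hi] at h2
  exact (Nat.Prime.coprime_iff_not_dvd (hq i)).1 h3.symm h2

/-- The Hall–Higman bound on derived length: let G be a finite solvable group, let p₁, …, p_r be distinct primes that include every prime dividing the order of G, and suppose that for each i the Sylow p_i-subgroups of G have derived length at most d_i and G has p_i-length at most l_i. Then G has derived length at most Σ d_i l_i. -/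
theorem result {G : Type*} [Group G] [Finite G] (hG : Group.IsSolvable G) (r : ℕ) (q : Fin r → ℕ) (hq : ∀ i, (q i).Prime) (hinj : Function.Injective q) (hcover : ∀ s : ℕ, s.Prime → s ∣ Nat.card G → ∃ i, q i = s) (d l : Fin r → ℕ) (hd : ∀ i, ∀ P : Subgroup G, (haveI := Fact.mk (hq i); ∃ S : Sylow (q i) G, (S : Subgroup G) = P) → derivedSeries ↥P (d i) = ⊥) (hl : ∀ i, Cfsg.PLengthLE (q i) (l i) G) : derivedSeries G (Finset.univ.sum fun i => d i * l i) = ⊥ := by

  rw [← dser_top]
  apply aux r q hq d _ l rfl G hcover _ hl
  intro i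
  haveI := Fact.mk (hq i)
  obtain ⟨S⟩ := (inferInstance : Nonempty (Sylow (q i) G))
  refine ⟨S, ?_⟩
  rw [dser_sub, hd i S ⟨S, rfl⟩, Subgroup.map_bot]

end Cfsg.Agent.S3791
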