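import Cfsg.Statements.S3800
import Cfsg.Agent.H2.LocalQ
import Cfsg.Agent.H1.Bender

set_option autoImplicit false
open Cfsg

namespace Cfsg.Agent.S3800

open scoped commutatorElement Pointwise

/-- Let G be a finite group, N a normal subgroup of G whose order is prime to p, and P a p-subgroup of G. Then in G/N the normalizer of the image of P is the image of N_G(P), and the centralizer of the image of P is the image of C_G(P). -/
theorem result {G : Type*} [Group G] [Finite G] {p : ℕ} [Fact p.Prime] (N : Subgroup G) [N.Normal] (hN : (Nat.card N).Coprime p) (P : Subgroup G) (hP : IsPGroup p P) : Subgroup.normalizer ((P.map (QuotientGroup.mk' N)) : Set (G ⧸ N)) = (Subgroup.normalizer (P : Set G)).map (QuotientGroup.mk' N) ∧ Subgroup.centralizer ((P.map (QuotientGroup.mk' N)) : Set (G ⧸ N)) = (Subgroup.centralizer (P : Set G)).map (QuotientGroup.mk' N) := by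
  have h1 := CfsgH2.normalizer_map_mk' hP hN
  refine ⟨h1, ?_⟩
  apply le_antisymm
  · intro y hy
    have hy2 : y ∈ Subgroup.normalizer ((P.map (QuotientGroup.mk' N)) : Set (G ⧸ N)) := Subgroup.centralizer_le_normalizer _ hy
    rw [h1] at hy2
    obtain ⟨n, hn, rfl⟩ := hy2
    refine ⟨n, ?_, rfl⟩
    rw [SetLike.mem_coe, Subgroup.mem_centralizer_iff]
    intro x hx
    have h2 := Subgroup.mem_centralizer_iff.1 hy (QuotientGroup.mk' N x) ⟨x, hx, rfl⟩
    have h3 : ⁅x, n⁆ ∈ N := by
      apply (QuotientGroup.eq_one_iff _).1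
      change QuotientGroup.mk' N ⁅x, n⁆ = 1
      rw [map_commutatorElement, commutatorElement_eq_one_iff_mul_comm]
      exact h2
    have h4 : ⁅x, n⁆ ∈ P := by
      rw [commutatorElement_def]
      have e : x * n * x⁻¹ * n⁻¹ = x * (n * x⁻¹ * n⁻¹) := by group
      rw [e]
      exact P.mul_mem hx ((Subgroup.mem_normalizer_iff.1 hn _).1 (P.inv_mem hx))
    have h5 : ⁅x, n⁆ ∈ P ⊓ N := ⟨h4, h3⟩
    have h6 : P ⊓ N = ⊥ := CfsgH1.inf_eq_bot_of_coprime (by
      obtain ⟨k, hk⟩ := IsPGroup.iff_card.1 hP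
      rw [hk]
      exact Nat.Coprime.pow_left k hN.symm)
    rw [h6, Subgroup.mem_bot, commutatorElement_eq_one_iff_mul_comm] at h5
    exact h5
  · rintro _ ⟨n, hn, rfl⟩
    rw [Subgroup.mem_centralizer_iff]
    rintro _ ⟨x, hx, rfl⟩
    rw [← map_mul, ← map_mul, Subgroup.mem_centralizer_iff.1 hn x hx]

end Cfsg.Agent.S3800
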