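import Cfsg.Statements.S3950
import Cfsg.Agent.H1.Schur8

set_option autoImplicit false
open Cfsg

namespace Cfsg.Agent.S3950

open scoped commutatorElement Pointwise

theorem two_coords {V : Type*} [AddCommGroup V] [Finite V] (p : ℕ) [Fact p.Prime] (hV : ∀ x : V, p • x = 0)
    (hcardV : p < Nat.card V) : ∃ (α δ : V →+ ZMod p) (x y : V), α x * δ y ≠ α y * δ x := by
  have hp : p.Prime := Fact.out
  letI : Module (ZMod p) V := AddCommGroup.zmodModule (n := p) (G := V) hV
  haveI : Module.Finite (ZMod p) V := Module.Finite.of_finite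
  have hfr : 2 ≤ Module.finrank (ZMod p) V := by
    by_contra hlt
    have h1 : Nat.card V = Nat.card (ZMod p) ^ Module.finrank (ZMod p) V := Module.natCard_eq_pow_finrank
    rw [Nat.card_zmod] at h1
    have h2 : p ^ Module.finrank (ZMod p) V ≤ p ^ 1 := Nat.pow_le_pow_right hp.pos (by omega)
    rw [pow_one, ← h1] at h2
    omega
  let b := Module.finBasis (ZMod p) V
  let i : Fin (Module.finrank (ZMod p) V) := ⟨0, by omega⟩
  let j : Fin (Module.finrank (ZMod p) V) := ⟨1, by omega⟩
  have hij : i ≠ j := by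
    intro h
    have : (0 : ℕ) = 1 := congrArg Fin.val h
    omega
  refine ⟨(b.coord i).toAddMonoidHom, (b.coord j).toAddMonoidHom, b i, b j, ?_⟩
  show b.coord i (b i) * b.coord j (b j) ≠ b.coord i (b j) * b.coord j (b i)
  rw [Module.Basis.coord_apply, Module.Basis.coord_apply, Module.Basis.coord_apply, Module.Basis.coord_apply,
    Module.Basis.repr_self, Module.Basis.repr_self, Finsupp.single_eq_same, Finsupp.single_eq_same,
    Finsupp.single_eq_of_ne hij, zero_mul, mul_one]
  exact one_ne_zero

theorem card_pow_le {G : Type*} [CommGroup G] [Finite G] (h : ∀ p : ℕ, p.Prime → Nat.card (powMonoidHom p : G →* G).ker ≤ p)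
    (n : ℕ) : 0 < n → Nat.card (powMonoidHom n : G →* G).ker ≤ n := by
  induction n using Nat.recOnMul with
  | zero => intro h0; exact absurd h0 (lt_irrefl _)
  | one =>
    intro _
    have : (powMonoidHom 1 : G →* G).ker = ⊥ := by
      rw [eq_bot_iff]
      intro x hx
      have h1 : x ^ 1 = 1 := hx
      rwa [pow_one] at h1
    rw [this, Subgroup.card_bot]
  | prime p hp => intro _; exact h p hp
  | mul a b ha hb =>
    intro hab
    have ha0 : 0 < a := Nat.pos_of_ne_zero (by rintro rfl; simp at hab)
    have hb0 : 0 < b := Nat.pos_of_ne_zero (by rintro rfl; simp at hab)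
    let φ : (powMonoidHom (a * b) : G →* G).ker →* (powMonoidHom b : G →* G).ker :=
      ((powMonoidHom a : G →* G).comp (powMonoidHom (a * b) : G →* G).ker.subtype).codRestrict _ (by
        intro x
        have h1 : (x : G) ^ (a * b) = 1 := x.2
        show ((x : G) ^ a) ^ b = 1
        rw [← pow_mul, h1])
    have h1 : Nat.card φ.ker ≤ Nat.card (powMonoidHom a : G →* G).ker := by
      let ψ : φ.ker → (powMonoidHom a : G →* G).ker := fun x => ⟨((x : (powMonoidHom (a * b) : G →* G).ker) : G), by
        have := congrArg Subtype.val (x.2 : φ x = 1)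
        exact this⟩
      refine Nat.card_le_card_of_injective ψ ?_
      intro x y hxy
      have := congrArg Subtype.val hxy
      exact Subtype.ext (Subtype.ext this)
    have h2 : Nat.card φ.range ≤ Nat.card (powMonoidHom b : G →* G).ker :=
      Nat.card_le_card_of_injective _ Subtype.val_injective
    have h3 : Nat.card (powMonoidHom (a * b) : G →* G).ker = Nat.card φ.range * Nat.card φ.ker := by
      rw [Subgroup.card_eq_card_quotient_mul_card_subgroup φ.ker,
        Nat.card_congr (QuotientGroup.quotientKerEquivRange φ).toEquiv]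
    rw [h3]
    exact (Nat.mul_le_mul (h2.trans (hb hb0)) (h1.trans (ha ha0))).trans (mul_comm b a).le

/-- A finite abelian group has trivial Schur multiplier if and only if it is cyclic. -/
theorem result {G : Type*} [CommGroup G] [Finite G] : Cfsg.HasCyclicSchurMultiplier G 1 ↔ IsCyclic G := by

  classical
  haveI : Subsingleton (Multiplicative (ZMod 1)) := ⟨fun a b => Subsingleton.elim (α := ZMod 1) a b⟩
  constructor
  swap
  · intro h
    exact CfsgH1.schur_cyclic
  intro hG
  by_contra hnc
  -- a prime with many p-torsion elements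
  obtain ⟨p, hp, hpG⟩ : ∃ p : ℕ, p.Prime ∧ p < Nat.card (powMonoidHom p : G →* G).ker := by
    by_contra hall
    push_neg at hall
    apply hnc
    haveI := Fintype.ofFinite G
    apply isCyclic_of_card_pow_eq_one_le
    intro n hn
    have h1 := card_pow_le hall n hn
    have h2 : Nat.card (powMonoidHom n : G →* G).ker = (Finset.univ.filter (fun a : G => a ^ n = 1)).card := by
      rw [Nat.card_eq_fintype_card, ← Fintype.card_subtype]
      exact Fintype.card_congr (Equiv.refl _)
    rwa [h2] at h1
  haveI : Fact p.Prime := ⟨hp⟩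
  have hcardV : p < Nat.card (Additive (G ⧸ (powMonoidHom p : G →* G).range)) := by
    have e1 : Nat.card (G ⧸ (powMonoidHom p : G →* G).range) * Nat.card (powMonoidHom p : G →* G).range = Nat.card G :=
      (Subgroup.card_eq_card_quotient_mul_card_subgroup _).symm
    have e2 : Nat.card (powMonoidHom p : G →* G).range * Nat.card (powMonoidHom p : G →* G).ker = Nat.card G := by
      rw [Subgroup.card_eq_card_quotient_mul_card_subgroup (powMonoidHom p : G →* G).ker,
        Nat.card_congr (QuotientGroup.quotientKerEquivRange (powMonoidHom p : G →* G)).toEquiv]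
    have e3 : Nat.card (Additive (G ⧸ (powMonoidHom p : G →* G).range)) = Nat.card (G ⧸ (powMonoidHom p : G →* G).range) := rfl
    rw [e3]
    rw [mul_comm] at e1
    rw [Nat.eq_of_mul_eq_mul_left (Nat.card_pos (α := (powMonoidHom p : G →* G).range)) (e1.trans e2.symm)]
    exact hpG
  obtain ⟨α, δ, x₀, y₀, hαδ⟩ := two_coords (V := Additive (G ⧸ (powMonoidHom p : G →* G).range)) p (by
    intro x
    obtain ⟨x, rfl⟩ := Additive.ofMul.surjective x
    obtain ⟨x, rfl⟩ := QuotientGroup.mk_surjective x
    have h1 : (QuotientGroup.mk (x ^ p) : G ⧸ (powMonoidHom p : G →* G).range) = 1 :=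
      (QuotientGroup.eq_one_iff _).2 ⟨x, rfl⟩
    exact congrArg Additive.ofMul h1) hcardV
  let cl : G → Additive (G ⧸ (powMonoidHom p : G →* G).range) := fun g => Additive.ofMul (QuotientGroup.mk g)
  have hcl : ∀ g h, cl (g * h) = cl g + cl h := fun _ _ => rfl
  let β : G →* G →* Multiplicative (ZMod p) :=
    MonoidHom.mk' (fun x => MonoidHom.mk' (fun y => Multiplicative.ofAdd (α (cl x) * δ (cl y))) (by
      intro y z
      rw [hcl, map_add, mul_add, ofAdd_add])) (by
      intro x y
      ext z
      show α (cl (x * y)) * δ (cl z) = α (cl x) * δ (cl z) + α (cl y) * δ (cl z)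
      rw [hcl, map_add, add_mul])
  let Γ : Subgroup (CfsgH1.TwP β) :=
    { carrier := {q | q.a = q.b}
      mul_mem' := by
        intro q r hq hr
        show q.a * r.a = q.b * r.b
        rw [show q.a = q.b from hq, show r.a = r.b from hr]
      one_mem' := rfl
      inv_mem' := by
        intro q hq
        show q.a⁻¹ = q.b⁻¹
        rw [show q.a = q.b from hq] }
  let τ : Γ →* G := { toFun := fun q => q.1.a, map_one' := rfl, map_mul' := fun _ _ => rfl }
  have hτs : Function.Surjective τ := fun g => ⟨⟨⟨g, g, 1⟩, rfl⟩, rfl⟩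
  have hτc : τ.ker ≤ Subgroup.center Γ := by
    rintro ⟨⟨x, y, t⟩, hxy⟩ hq
    have hx : x = 1 := hq
    have hy : y = 1 := by
      have h3 : x = y := hxy
      rw [← h3, hx]
    subst hx
    subst hy
    rw [Subgroup.mem_center_iff]
    rintro ⟨⟨x', y', t'⟩, hxy'⟩
    apply Subtype.ext
    show (⟨x', y', t'⟩ : CfsgH1.TwP β) * ⟨1, 1, t⟩ = ⟨1, 1, t⟩ * ⟨x', y', t'⟩
    simp only [CfsgH1.TwP.mul_def, one_mul, mul_one, map_one, MonoidHom.one_apply, mul_comm t t']
  obtain ⟨g, hg⟩ := CfsgH1.schur_image hG τ hτs hτc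
  have hbot : ∀ z, z ∈ τ.ker → z ∈ commutator Γ → z = 1 := by
    intro z h1 h2
    obtain ⟨a, ha⟩ := hg ⟨z, h1, h2⟩
    rw [Subsingleton.elim a 1, map_one] at ha
    exact (congrArg Subtype.val ha).symm
  have hcomm : ∀ x y : G, β x y = β y x := by
    intro x y
    let X : Γ := ⟨⟨x, x, 1⟩, rfl⟩
    let Y : Γ := ⟨⟨y, y, 1⟩, rfl⟩
    have h1 : ⁅X, Y⁆ = 1 := by
      apply hbot
      · rw [MonoidHom.mem_ker, map_commutatorElement, commutatorElement_eq_one_iff_mul_comm]
        exact mul_comm _ _
      · exact Subgroup.commutator_mem_commutator (Subgroup.mem_top _) (Subgroup.mem_top _)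
    rw [commutatorElement_eq_one_iff_mul_comm] at h1
    have h2 : ((⟨x, x, 1⟩ : CfsgH1.TwP β) * ⟨y, y, 1⟩) = ⟨y, y, 1⟩ * ⟨x, x, 1⟩ := congrArg Subtype.val h1
    have h3 := congrArg CfsgH1.TwP.t h2
    simp only [CfsgH1.TwP.mul_def, one_mul, mul_one] at h3
    exact h3.symm
  obtain ⟨x, hx⟩ := QuotientGroup.mk_surjective (Additive.toMul x₀)
  obtain ⟨y, hy⟩ := QuotientGroup.mk_surjective (Additive.toMul y₀)
  have hx' : cl x = x₀ := congrArg Additive.ofMul hx
  have hy' : cl y = y₀ := congrArg Additive.ofMul hy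
  have h1 : α (cl x) * δ (cl y) = α (cl y) * δ (cl x) := congrArg Multiplicative.toAdd (hcomm x y)
  rw [hx', hy'] at h1
  exact hαδ h1

end Cfsg.Agent.S3950
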