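import Cfsg.Statements.S3951
import Cfsg.Agent.H1.Schur8

set_option autoImplicit false
open Cfsg

namespace Cfsg.Agent.S3951

open scoped commutatorElement Pointwise

open scoped TensorProduct in
theorem tens_equiv (m n : ℕ) [NeZero m] [NeZero n] (hnm : n ∣ m) :
    Nonempty (Multiplicative (Additive (Abelianization (Multiplicative (ZMod m))) ⊗[ℤ]
      Additive (Abelianization (Multiplicative (ZMod n)))) ≃* Multiplicative (ZMod n)) := by
  haveI : Finite (Multiplicative (ZMod m)) := inferInstanceAs (Finite (ZMod m))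
  haveI : Finite (Multiplicative (ZMod n)) := inferInstanceAs (Finite (ZMod n))
  let e₁ : Additive (Abelianization (Multiplicative (ZMod m))) ≃+ ZMod m :=
    (MulEquiv.toAdditive (Abelianization.equivOfComm (H := Multiplicative (ZMod m)))).symm
  let e₂ : Additive (Abelianization (Multiplicative (ZMod n))) ≃+ ZMod n :=
    (MulEquiv.toAdditive (Abelianization.equivOfComm (H := Multiplicative (ZMod n)))).symm
  let f : Additive (Abelianization (Multiplicative (ZMod m))) →+ Additive (Abelianization (Multiplicative (ZMod n))) →+ ZMod n :=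
    (AddMonoidHom.mul.comp ((ZMod.castHom hnm (ZMod n)).toAddMonoidHom.comp e₁.toAddMonoidHom)).compl₂ e₂.toAddMonoidHom
  let φ : Additive (Abelianization (Multiplicative (ZMod m))) ⊗[ℤ] Additive (Abelianization (Multiplicative (ZMod n))) →+ ZMod n :=
    TensorProduct.liftAddHom f (by
      intro r a b
      rw [map_zsmul, map_zsmul, AddMonoidHom.zsmul_apply])
  set g := (e₁.symm 1) ⊗ₜ[ℤ] (e₂.symm 1) with hg
  have hφg : φ g = 1 := by
    show ZMod.castHom hnm (ZMod n) (e₁ (e₁.symm 1)) * e₂ (e₂.symm 1) = 1
    rw [AddEquiv.apply_symm_apply, AddEquiv.apply_symm_apply, map_one, mul_one]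
  have hgen₁ : ∀ a : Additive (Abelianization (Multiplicative (ZMod m))), ∃ k : ℤ, a = k • e₁.symm 1 := by
    intro a
    refine ⟨((e₁ a).val : ℤ), ?_⟩
    apply e₁.injective
    rw [map_zsmul, AddEquiv.apply_symm_apply, natCast_zsmul, nsmul_eq_mul, mul_one, ZMod.natCast_zmod_val]
  have hgen₂ : ∀ a : Additive (Abelianization (Multiplicative (ZMod n))), ∃ k : ℤ, a = k • e₂.symm 1 := by
    intro a
    refine ⟨((e₂ a).val : ℤ), ?_⟩
    apply e₂.injective
    rw [map_zsmul, AddEquiv.apply_symm_apply, natCast_zsmul, nsmul_eq_mul, mul_one, ZMod.natCast_zmod_val]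
  have hgen : ∀ z : Additive (Abelianization (Multiplicative (ZMod m))) ⊗[ℤ] Additive (Abelianization (Multiplicative (ZMod n))),
      ∃ k : ℤ, z = k • g := by
    intro z
    induction z using TensorProduct.induction_on with
    | zero => exact ⟨0, by rw [zero_smul]⟩
    | tmul a b =>
      obtain ⟨k, rfl⟩ := hgen₁ a
      obtain ⟨l, rfl⟩ := hgen₂ b
      exact ⟨l * k, by rw [hg, ← TensorProduct.smul_tmul', TensorProduct.tmul_smul, smul_smul, mul_comm]⟩
    | add a b ha hb =>
      obtain ⟨k, rfl⟩ := ha
      obtain ⟨l, rfl⟩ := hb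
      exact ⟨k + l, by rw [add_smul]⟩
  have hng : (n : ℤ) • g = 0 := by
    rw [hg, ← TensorProduct.tmul_smul]
    have : (n : ℤ) • e₂.symm 1 = 0 := by
      apply e₂.injective
      rw [map_zsmul, AddEquiv.apply_symm_apply, map_zero, natCast_zsmul, nsmul_eq_mul, mul_one, ZMod.natCast_self]
    rw [this, TensorProduct.tmul_zero]
  have hbij : Function.Bijective φ := by
    constructor
    · rw [injective_iff_map_eq_zero]
      intro z hz
      obtain ⟨k, rfl⟩ := hgen z
      have h1 : φ (k • g) = (k : ZMod n) := by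
        have : φ (k • g) = k • φ g := by
          have h3 := map_zsmul φ k g
          exact h3
        rw [this, hφg, zsmul_eq_mul, mul_one]
      rw [h1, ZMod.intCast_zmod_eq_zero_iff_dvd] at hz
      obtain ⟨l, rfl⟩ := hz
      rw [mul_comm, mul_smul, hng, smul_zero]
    · intro z
      refine ⟨(z.val : ℤ) • g, ?_⟩
      have : φ ((z.val : ℤ) • g) = (z.val : ℤ) • φ g := map_zsmul φ _ g
      rw [this, hφg, natCast_zsmul, nsmul_eq_mul, mul_one, ZMod.natCast_zmod_val]
  exact ⟨AddEquiv.toMultiplicative (AddEquiv.ofBijective φ hbij)⟩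

/-- For positive integers `m` and `n` with `n` dividing `m`, the Schur multiplier of the abelian group `ZMod m × ZMod n` (written multiplicatively) is cyclic of order `n`. In particular the elementary abelian group of order `p ^ 2` has multiplier of order `p`. -/
theorem result (m n : ℕ) [NeZero m] [NeZero n] (hnm : n ∣ m) : Cfsg.HasCyclicSchurMultiplier (Multiplicative (ZMod m × ZMod n)) n := by

  haveI : Finite (Multiplicative (ZMod m)) := inferInstanceAs (Finite (ZMod m))
  haveI : Finite (Multiplicative (ZMod n)) := inferInstanceAs (Finite (ZMod n))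
  haveI : Subsingleton (Multiplicative (ZMod 1)) := ⟨fun a b => Subsingleton.elim (α := ZMod 1) a b⟩
  have h1 : Cfsg.HasCyclicSchurMultiplier (Multiplicative (ZMod m)) 1 := CfsgH1.schur_cyclic
  have h2 : Cfsg.HasCyclicSchurMultiplier (Multiplicative (ZMod n)) 1 := CfsgH1.schur_cyclic
  have h3 := CfsgH1.schur_prod h1 h2
  obtain ⟨e⟩ := tens_equiv m n hnm
  have h4 := CfsgH1.schur_congr h3 (B := Multiplicative (ZMod n))
    { toFun := fun p => e p.2.2
      invFun := fun t => (1, 1, e.symm t)
      left_inv := by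
        rintro ⟨a, b, t⟩
        rw [Subsingleton.elim a 1, Subsingleton.elim b 1]
        beta_reduce
        rw [MulEquiv.symm_apply_apply]
      right_inv := fun t => e.apply_symm_apply t
      map_mul' := fun a b => map_mul e _ _ }
  exact CfsgH1.schur_congr_left h4 (MulEquiv.prodMultiplicative (ZMod m) (ZMod n)).symm

end Cfsg.Agent.S3951
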