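import Cfsg.Statements.S3952
import Cfsg.Agent.H1.Schur9

set_option autoImplicit false
open Cfsg

namespace Cfsg.Agent.S3952

open scoped commutatorElement Pointwise

/-- If `A` is the Schur multiplier of the finite group `Q`, then the square of the exponent of `A` divides the order of `Q`. -/
theorem result {Q : Type*} [Group Q] [Finite Q] {A : Type*} [CommGroup A] (hA : Cfsg.HasSchurMultiplier Q A) : Monoid.exponent A ^ 2 ∣ Nat.card Q := by
  haveI := CfsgH1.schur_finite hA
  obtain ⟨⟨Γ, _, _, σ, hσ, ⟨e⟩⟩, _⟩ := hA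
  obtain ⟨a, ha⟩ := Monoid.exists_orderOf_eq_exponent (G := A) (Monoid.ExponentExists.of_finite)
  have hexp : Monoid.exponent A ≠ 0 := Monoid.exponent_ne_zero_of_finite
  rw [← Nat.factorization_le_iff_dvd (pow_ne_zero 2 hexp) Nat.card_pos.ne']
  intro p
  by_cases hp : p.Prime
  swap
  · rw [Nat.factorization_eq_zero_of_not_prime _ hp]; exact Nat.zero_le _
  haveI : Fact p.Prime := ⟨hp⟩
  rw [← Nat.Prime.pow_dvd_iff_le_factorization hp Nat.card_pos.ne', Nat.factorization_pow]
  show p ^ (2 * (Monoid.exponent A).factorization p) ∣ Nat.card Q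
  set k := (Monoid.exponent A).factorization p with hk
  obtain ⟨m, hm⟩ : p ^ k ∣ Monoid.exponent A := Nat.ordProj_dvd _ _
  have hm0 : m ≠ 0 := by rintro rfl; rw [mul_zero] at hm; exact hexp hm
  have h1 : orderOf (a ^ m) = p ^ k := by
    rw [orderOf_pow, ha, hm, Nat.gcd_eq_right (dvd_mul_left m _), Nat.mul_div_cancel _ (Nat.pos_of_ne_zero hm0)]
  have h2 : orderOf (e.symm (a ^ m)) = p ^ k := by
    rw [← h1]; exact orderOf_injective e.symm.toMonoidHom e.symm.injective _
  have h3 := CfsgH1.exponent_sq_dvd σ hσ (e.symm (a ^ m)) p k h2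
  rwa [← pow_mul, mul_comm] at h3

end Cfsg.Agent.S3952
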