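import Cfsg.Statements.S3953
import Cfsg.Agent.H1.Schur6
import Cfsg.Agent.H1.Schur5

set_option autoImplicit false
open Cfsg

namespace Cfsg.Agent.S3953

open scoped commutatorElement Pointwise

/-- Let `P` be a Sylow `p`-subgroup of the finite group `G`, let `A` be the Schur multiplier of `G` and `B` that of `P`. Then the `p`-primary component of `A` is isomorphic to a direct factor of `B`: there are subgroups `C` and `D` of `B` meeting trivially and generating `B`, with `C` isomorphic to the `p`-primary component of `A`. -/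
theorem result {G : Type*} [Group G] [Finite G] (p : ℕ) [Fact p.Prime] (P : Sylow p G) {A B : Type*} [CommGroup A] [CommGroup B] (hA : Cfsg.HasSchurMultiplier G A) (hB : Cfsg.HasSchurMultiplier P B) : ∃ C D : Subgroup B, C ⊓ D = ⊥ ∧ C ⊔ D = ⊤ ∧ Nonempty (CommGroup.primaryComponent A p ≃* C) := by
  classical
  obtain ⟨t, c, htc⟩ := CfsgH1.exists_res_cor (P : Subgroup G) hA hB
  haveI := CfsgH1.schur_finite hA
  haveI := CfsgH1.schur_finite hB
  set m := (P : Subgroup G).index with hm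
  have hpm : ¬ p ∣ m := P.not_dvd_index
  obtain ⟨N, q, hq, hN⟩ : ∃ N q : ℕ, ¬ p ∣ q ∧ Nat.card A = p ^ N * q := by
    obtain ⟨N, q, hq, h⟩ := Nat.exists_eq_pow_mul_and_not_dvd (n := Nat.card A) Nat.card_pos.ne' p
      (Fact.out : p.Prime).ne_one
    exact ⟨N, q, hq, h⟩
  have hpq : Nat.Coprime (m * q) (p ^ N) := by
    apply Nat.Coprime.pow_right
    apply Nat.Coprime.mul_left
    · exact ((Nat.Prime.coprime_iff_not_dvd Fact.out).2 hpm).symm
    · exact ((Nat.Prime.coprime_iff_not_dvd Fact.out).2 hq).symm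
  have hApN : ∀ a ∈ CommGroup.primaryComponent A p, a ^ p ^ N = 1 := by
    rintro a ⟨k, hk⟩
    obtain ⟨j, _, hj⟩ := (Nat.dvd_prime_pow Fact.out).1 (orderOf_dvd_of_pow_eq_one hk)
    have h1 : p ^ j ∣ p ^ N * q := by rw [← hj, ← hN]; exact orderOf_dvd_natCard a
    have h2 : p ^ j ∣ p ^ N := (Nat.Coprime.dvd_mul_right
      (((Nat.Prime.coprime_iff_not_dvd Fact.out).2 hq).pow_left j)).1 h1
    exact orderOf_dvd_iff_pow_eq_one.1 (hj ▸ h2)
  have hcan : ∀ a : A, a ^ p ^ N = 1 → a ^ (m * q) = 1 → a = 1 := by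
    intro a h1 h2
    have := Nat.Coprime.eq_one_of_dvd (hpq.coprime_dvd_left (orderOf_dvd_of_pow_eq_one h2)) (orderOf_dvd_of_pow_eq_one h1)
    exact orderOf_eq_one_iff.1 this
  obtain ⟨r, hr⟩ := CfsgH1.inv_modEq_aux hpq
  refine ⟨(CommGroup.primaryComponent A p).map t, ((powMonoidHom q : A →* A).comp c).ker, ?_, ?_, ?_⟩
  · rw [eq_bot_iff]
    rintro _ ⟨⟨a, ha, rfl⟩, hb⟩
    have h1 : (c (t a)) ^ q = 1 := hb
    rw [htc, ← pow_mul] at h1
    rw [hcan a (hApN a ha) h1, map_one]
    exact one_mem _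
  · rw [eq_top_iff]
    intro b _
    have h1 : ((c b) ^ q) ^ p ^ N = 1 := by
      rw [← pow_mul, mul_comm, ← hN]
      exact pow_card_eq_one'
    have h2 : ((c b) ^ q) ^ r ∈ CommGroup.primaryComponent A p := by
      refine ⟨N, ?_⟩
      rw [← pow_mul, mul_comm r, pow_mul, h1, one_pow]
    have h3 : b * (t (((c b) ^ q) ^ r))⁻¹ ∈ ((powMonoidHom q : A →* A).comp c).ker := by
      show (c (b * (t (((c b) ^ q) ^ r))⁻¹)) ^ q = 1
      rw [map_mul, map_inv, htc, mul_pow, inv_pow, mul_inv_eq_one, ← pow_mul, ← pow_mul]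
      have h4 : ((c b) ^ q) ^ (m * q * r) = ((c b) ^ q) ^ 1 :=
        pow_eq_pow_iff_modEq.2 (Nat.ModEq.of_dvd (orderOf_dvd_of_pow_eq_one h1) hr)
      rw [pow_one] at h4
      conv_lhs => rw [← h4]
      congr 1
      ring
    have h5 := mul_mem (Subgroup.mem_sup_right h3 : b * (t (((c b) ^ q) ^ r))⁻¹ ∈ (CommGroup.primaryComponent A p).map t ⊔ _)
      (Subgroup.mem_sup_left (Subgroup.mem_map_of_mem t h2))
    rwa [inv_mul_cancel_right] at h5
  · let j : CommGroup.primaryComponent A p →* (CommGroup.primaryComponent A p).map t := t.subgroupMap _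
    have hj : Function.Bijective j := by
      refine ⟨?_, MonoidHom.subgroupMap_surjective _ _⟩
      rw [injective_iff_map_eq_one]
      intro a ha
      have h1 : t (a : A) = 1 := congrArg Subtype.val ha
      have h2 : (a : A) ^ m = 1 := by rw [← htc, h1, map_one]
      apply Subtype.ext
      exact hcan a (hApN a a.2) (by rw [pow_mul, h2, one_pow])
    exact ⟨MulEquiv.ofBijective j hj⟩

end Cfsg.Agent.S3953
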