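import Cfsg.Statements.S3960
import Cfsg.Agent.H1.Schur4

set_option autoImplicit false
universe u
open Cfsg

namespace Cfsg.Agent.S3960

open scoped commutatorElement Pointwise

open Subgroup CfsgH1 in
theorem aux {Q : Type u} [Group Q] [Finite Q] (hQ : commutator Q = ⊤) : ∃ (G : Type u) (_ : Group G) (_ : Finite G) (π : G →* Q), commutator G = ⊤ ∧ Function.Surjective π ∧ π.ker ≤ Subgroup.center G ∧ ∀ (X : Type u) [Group X] (ξ : X →* Q), Function.Surjective ξ → ξ.ker ≤ Subgroup.center X → ∃! η : G →* X, ξ.comp η = π := by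
  have hmap : (commutator (EE (piQ Q))).map (eps (piQ Q)) = ⊤ := by
    rw [_root_.commutator_def, map_commutator, Subgroup.map_top_of_surjective _ (eps_surj _ (piQ_surj Q)),
      ← _root_.commutator_def, hQ]
  have hdec : ∀ x : EE (piQ Q), ∃ a ∈ commutator (EE (piQ Q)), a⁻¹ * x ∈ center (EE (piQ Q)) := by
    intro x
    obtain ⟨a, ha, hax⟩ := hmap.ge (mem_top (eps (piQ Q) x))
    refine ⟨a, ha, eps_ker_le _ ?_⟩
    rw [MonoidHom.mem_ker, map_mul, map_inv, hax, inv_mul_cancel]
  have hperf : commutator ↥(commutator (EE (piQ Q))) = ⊤ := by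
    have h1 : (commutator ↥(commutator (EE (piQ Q)))).map (commutator (EE (piQ Q))).subtype =
        ⁅commutator (EE (piQ Q)), commutator (EE (piQ Q))⁆ := by
      generalize commutator (EE (piQ Q)) = H
      rw [_root_.commutator_def, map_commutator, ← MonoidHom.range_eq_map, range_subtype]
    have h2 : commutator (EE (piQ Q)) ≤ ⁅commutator (EE (piQ Q)), commutator (EE (piQ Q))⁆ := by
      conv_lhs => rw [_root_.commutator_def]
      rw [commutator_le]
      intro x _ y _
      obtain ⟨a, ha, hx⟩ := hdec x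
      obtain ⟨b, hb, hy⟩ := hdec y
      have h3 := comm_mul_center' (a := a) (b := b) hx hy
      rw [mul_inv_cancel_left, mul_inv_cancel_left] at h3
      rw [h3]
      exact commutator_mem_commutator ha hb
    rw [eq_top_iff]
    intro x _
    have h3 := h2 x.2
    rw [← h1] at h3
    obtain ⟨y, hy, hyx⟩ := h3
    have : y = x := Subtype.ext hyx
    rw [← this]; exact hy
  refine ⟨↥(commutator (EE (piQ Q))), inferInstance, finite_inf (eps_ker_le _), (eps (piQ Q)).comp (commutator (EE (piQ Q))).subtype,
    hperf, ?_, ?_, ?_⟩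
  · intro q
    obtain ⟨a, ha, hax⟩ := hmap.ge (mem_top q)
    exact ⟨⟨a, ha⟩, hax⟩
  · intro x hx
    rw [mem_center_iff]
    intro g
    exact Subtype.ext (mem_center_iff.1 (eps_ker_le _ (hx : eps (piQ Q) (x : EE (piQ Q)) = 1)) g)
  · intro X _ ξ hξ hξc
    obtain ⟨f, hf⟩ := exists_lift_EE (piQ Q) ξ hξ hξc
    refine ⟨f.comp (commutator (EE (piQ Q))).subtype, ?_, ?_⟩
    · show ξ.comp (f.comp _) = _
      rw [← MonoidHom.comp_assoc, hf]
    · intro η hη
      ext x
      have h1 := agree_on_commutator η (f.comp (commutator (EE (piQ Q))).subtype) (by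
        intro y
        apply hξc
        have e1 : ξ (η y) = eps (piQ Q) (y : EE (piQ Q)) := DFunLike.congr_fun hη y
        have e2 : ξ (f (y : EE (piQ Q))) = eps (piQ Q) (y : EE (piQ Q)) := DFunLike.congr_fun hf (y : EE (piQ Q))
        rw [MonoidHom.mem_ker, map_mul, map_inv, e1]
        show (ξ (f (y : EE (piQ Q))))⁻¹ * _ = 1
        rw [e2, inv_mul_cancel]) x (by rw [hperf]; exact mem_top _)
      exact h1

/-- A finite perfect group `Q` has a universal central extension: a finite perfect group `G` in the universe of `Q` and a surjective homomorphism `π : G →* Q` with central kernel such that for every group `X` in that universe and every surjective homomorphism `ξ : X →* Q` with central kernel there is exactly one homomorphism `η : G →* X` with `ξ ∘ η = π`. -/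
theorem result {Q : Type u} [Group Q] [Finite Q] (hQ : Group.IsPerfect Q) : ∃ (G : Type u) (_ : Group G) (_ : Finite G) (π : G →* Q), Group.IsPerfect G ∧ Function.Surjective π ∧ π.ker ≤ Subgroup.center G ∧ ∀ (X : Type u) [Group X] (ξ : X →* Q), Function.Surjective ξ → ξ.ker ≤ Subgroup.center X → ∃! η : G →* X, ξ.comp η = π := by

  obtain ⟨G, i1, i2, π, h1, h2, h3, h4⟩ := aux hQ.commutator_eq_top
  exact ⟨G, i1, i2, π, ⟨h1⟩, h2, h3, h4⟩

end Cfsg.Agent.S3960
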