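import Cfsg.Statements.S3968
import Cfsg.Agent.H4.Burnside
import Cfsg.Agent.H4.Main
import Cfsg.Agent.H4.Corr
import Cfsg.Agent.H2.ClassSize
import Cfsg.Agent.H4.Classes

set_option autoImplicit false
open Cfsg
open scoped commutatorElement

namespace Cfsg.Agent.S3968

open CfsgH4 CfsgH2 in
theorem aux {G : Type*} [Group G] [Finite G] (p : ℕ) (hp : p.Prime) (χ : G → ℂ) (hχ : Cfsg.IsIrrCharacter G χ) (hdeg : χ 1 = p)
    (hfaith : ∀ g : G, χ g = χ 1 → g = 1) (hdiv : p ^ 2 ∣ Nat.card G) : Subgroup.center G ≠ ⊥ := by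
  classical
  haveI : Fact p.Prime := ⟨hp⟩
  intro hZ
  obtain ⟨P⟩ : Nonempty (Sylow p G) := inferInstance
  have hPc := P.card_eq_multiplicity
  have hfac : 2 ≤ (Nat.card G).factorization p := (hp.pow_dvd_iff_le_factorization Nat.card_pos.ne').1 hdiv
  haveI : Fintype (P : Subgroup G) := Fintype.ofFinite _
  haveI : Fintype G := Fintype.ofFinite _
  have hpχ : ((p : ℕ) : ℝ) = ‖χ 1‖ := by rw [hdeg]; simp
  -- elements centralized by `P` have zero value
  have hzero : ∀ x : G, x ∈ Subgroup.centralizer ((P : Subgroup G) : Set G) → x ≠ 1 → χ x = 0 := by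
    intro x hx hx1
    have h1 : ¬ p ∣ csz x := (not_dvd_csz_iff x).2 ⟨P, hx⟩
    rcases burnside_zero_or_norm hχ hdeg x (by
      rw [← csz_eq_card]
      exact (Nat.Prime.coprime_iff_not_dvd hp).2 h1) with h | h
    · exact h
    · exfalso
      have h2 := central_of_norm (IsIrr.isCharacter hχ) hfaith (g := x) (by rw [h, hpχ])
      rw [hZ, Subgroup.mem_bot] at h2
      exact hx1 h2
  set χP : ↥(P : Subgroup G) → ℂ := fun x => χ (x : G) with hχP
  have hcP : Cfsg.IsCharacter (P : Subgroup G) χP := isCharacter_restrict _ (IsIrr.isCharacter hχ)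
  obtain ⟨s, hs⟩ := IsCharacter.decomp hcP
  have hdegs : ∀ ψ : Cfsg.IrrCharacter (P : Subgroup G), ∃ n : ℕ, (ψ : ↥(P : Subgroup G) → ℂ) 1 = n := fun ψ =>
    IsCharacter.one_nat (IsIrr.isCharacter ψ.2)
  choose deg hdeg' using hdegs
  have hpos : ∀ ψ, 0 < deg ψ := by
    intro ψ
    rcases Nat.eq_zero_or_pos (deg ψ) with h | h
    · exfalso
      have := hdeg' ψ
      rw [h, Nat.cast_zero] at this
      exact IsIrr.one_ne_zero ψ.2 this
    · exact h
  have hev : ∀ (t : Multiset (Cfsg.IrrCharacter (P : Subgroup G))) (x : (P : Subgroup G)),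
      ((t.map (fun χ : Cfsg.IrrCharacter (P : Subgroup G) => (χ : ↥(P : Subgroup G) → ℂ))).sum) x =
        (t.map (fun χ : Cfsg.IrrCharacter (P : Subgroup G) => (χ : ↥(P : Subgroup G) → ℂ) x)).sum := by
    intro t x
    induction t using Multiset.induction_on with
    | empty => simp
    | cons a t ih => rw [Multiset.map_cons, Multiset.sum_cons, Multiset.map_cons, Multiset.sum_cons, Pi.add_apply, ih]
  have hsum : p = (s.map deg).sum := by
    have h1 : χP 1 = p := by rw [hχP]; simp only [Subgroup.coe_one]; exact hdeg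
    rw [hs, hev] at h1
    have h2 : ((s.map deg).sum : ℂ) = (s.map (fun χ : Cfsg.IrrCharacter (P : Subgroup G) => (χ : ↥(P : Subgroup G) → ℂ) 1)).sum := by
      rw [Nat.cast_multiset_sum, Multiset.map_map]
      congr 1
      apply Multiset.map_congr rfl
      intro ψ _
      exact (hdeg' ψ).symm
    rw [h1] at h2
    exact_mod_cast h2.symm
  have hPnt : Nontrivial (P : Subgroup G) := by
    rw [← Finite.one_lt_card_iff_nontrivial, hPc]
    exact Nat.one_lt_pow (by omega) hp.one_lt
  by_cases hall : ∀ ψ ∈ s, deg ψ = 1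
  · -- all linear: `P` is abelian
    have hab : ∀ a b : (P : Subgroup G), a * b = b * a := by
      intro a b
      have h1 : χP ⁅a, b⁆ = χP 1 := by
        rw [hs, hev, hev]
        congr 1
        apply Multiset.map_congr rfl
        intro ψ hψ
        obtain ⟨f, hf⟩ := linear_iff.1 ⟨ψ.2, by rw [hdeg' ψ, hall ψ hψ, Nat.cast_one]⟩
        rw [hf]
        simp only [map_commutatorElement, map_one]
        rw [commutatorElement_eq_one_iff_mul_comm.2 (mul_comm _ _)]
      have h2 := hfaith _ (show χ ((⁅a, b⁆ : (P : Subgroup G)) : G) = χ 1 by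
        rw [hχP] at h1
        simpa using h1)
      exact commutatorElement_eq_one_iff_mul_comm.1 (Subtype.ext h2)
    have hin : ∃ n : ℕ, Cfsg.classInner χP (fun _ => (1 : ℂ)) = n :=
      IsCharacter.inner_irr_nat hcP isIrrCharacter_one
    obtain ⟨n, hn⟩ := hin
    have h1 : Cfsg.classInner χP (fun _ => (1 : ℂ)) = (p : ℂ) / (Nat.card (P : Subgroup G) : ℂ) := by
      rw [classInner_def]
      have h2 : ∑ g : (P : Subgroup G), χP g * (starRingEnd ℂ) 1 = p := by
        rw [Finset.sum_eq_single 1]
        · simp [hχP, hdeg]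
        · intro b _ hb
          have : χP b = 0 := by
            apply hzero
            · rw [Subgroup.mem_centralizer_iff]
              intro y hy
              exact congrArg Subtype.val (hab ⟨y, hy⟩ b)
            · exact fun e => hb (Subtype.ext e)
          rw [this, zero_mul]
        · intro h; exact absurd (Finset.mem_univ _) h
      rw [h2]
      ring
    rw [hn] at h1
    have h3 : (n : ℂ) * (Nat.card (P : Subgroup G) : ℂ) = p := by
      rw [h1, div_mul_cancel₀]
      exact_mod_cast Nat.card_pos.ne'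
    have h4 : n * Nat.card (P : Subgroup G) = p := by exact_mod_cast h3
    have h5 : Nat.card (P : Subgroup G) ∣ p := Dvd.intro_left n h4
    rw [hPc] at h5
    have h6 : p ^ 2 ∣ p := (pow_dvd_pow p hfac).trans h5
    have h7 := Nat.le_of_dvd hp.pos h6
    nlinarith [hp.two_le]
  · -- `χP` is irreducible
    push Not at hall
    obtain ⟨ψ, hψ, hψ1⟩ := hall
    obtain ⟨t, rfl⟩ := Multiset.exists_cons_of_mem hψ
    rw [Multiset.map_cons, Multiset.sum_cons] at hsum
    have h1 : deg ψ ∣ Nat.card (P : Subgroup G) := degree_dvd_card ψ.2 (hdeg' ψ)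
    rw [hPc] at h1
    obtain ⟨j, -, hj⟩ := (Nat.dvd_prime_pow hp).1 h1
    have hj0 : j ≠ 0 := by
      intro e
      rw [e, pow_zero] at hj
      exact hψ1 hj
    have h2 : p ≤ deg ψ := by
      rw [hj]
      exact Nat.le_self_pow hj0 p
    have ht : t = 0 := by
      by_contra hne
      obtain ⟨φ, hφ⟩ := Multiset.exists_mem_of_ne_zero hne
      have h3 : deg φ ≤ (t.map deg).sum := Multiset.single_le_sum (by simp) _ (Multiset.mem_map_of_mem deg hφ)
      have := hpos φ
      omega
    rw [ht, Multiset.map_cons, Multiset.sum_cons, Multiset.map_zero, Multiset.sum_zero, add_zero] at hs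
    have hirr : Cfsg.IsIrrCharacter (P : Subgroup G) χP := by rw [hs]; exact ψ.2
    obtain ⟨n, ρ, hρ, hρχ⟩ := hirr
    haveI := P.2.center_nontrivial
    obtain ⟨z, hz⟩ := exists_ne (1 : Subgroup.center (P : Subgroup G))
    obtain ⟨ω, hω⟩ := central_scalar ρ hρ z.2
    have h3 : χP z = 0 := by
      apply hzero
      · rw [Subgroup.mem_centralizer_iff]
        intro y hy
        exact congrArg Subtype.val (Subgroup.mem_center_iff.1 z.2 ⟨y, hy⟩)
      · intro e
        apply hz
        exact Subtype.ext (Subtype.ext e)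
    have h4 : χP z = ω * (Module.finrank ℂ (Fin n → ℂ) : ℂ) := by
      rw [← hρχ, Representation.character, hω, map_smul, LinearMap.trace_id, smul_eq_mul]
    have h5 : χP 1 = (Module.finrank ℂ (Fin n → ℂ) : ℂ) := by
      rw [← hρχ, Representation.char_one]
    have h6 : χP 1 = p := by rw [hχP]; simp only [Subgroup.coe_one]; exact hdeg
    rw [← h5, h6, h3] at h4
    have hp0 : (p : ℂ) ≠ 0 := by exact_mod_cast hp.ne_zero
    have h7 : ω = 0 := by
      rcases mul_eq_zero.1 h4.symm with h | h
      · exact h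
      · exact absurd h hp0
    rw [h7, zero_smul] at hω
    have h8 : ρ (1 : (P : Subgroup G)) = 0 := by
      rw [← mul_inv_cancel ((z : Subgroup.center (P : Subgroup G)) : (P : Subgroup G)), map_mul, hω, zero_mul]
    have h9 : χP 1 = 0 := by
      rw [← hρχ, Representation.character, h8, map_zero]
    rw [h6] at h9
    exact hp0 h9


/-- Let `p` be a prime and `G` a finite group with a faithful irreducible complex character of degree `p` (so `G` is an irreducible linear group in `p` variables). If `p ^ 2` divides the order of `G`, then the centre of `G` is nontrivial. -/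
theorem result {G : Type*} [Group G] [Finite G] (p : ℕ) (hp : p.Prime) (χ : Cfsg.IrrCharacter G) (hdeg : χ.1 1 = p) (hfaith : ∀ g : G, χ.1 g = χ.1 1 → g = 1) (hdiv : p ^ 2 ∣ Nat.card G) : Subgroup.center G ≠ ⊥ := by
  exact aux p hp χ.1 χ.2 hdeg hfaith hdiv

end Cfsg.Agent.S3968
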