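import Cfsg.Statements.S3971
import Cfsg.Agent.H2.RankAct

set_option autoImplicit false
open Cfsg
open scoped commutatorElement

namespace Cfsg.Agent.S3971

/-- Let `G` be a finite group of order `2 ^ a * n` with `n` odd and not divisible by `3`, and suppose `G` has an element of order `2 ^ (a - 1)` (so a Sylow `2`-subgroup has a cyclic subgroup of index at most `2`). Then `G` has a normal subgroup of order `n`. -/
theorem result {G : Type*} [Group G] [Finite G] (a n : ℕ) (hG : Nat.card G = 2 ^ a * n) (hn : Odd n) (h3 : ¬ 3 ∣ n) (hx : ∃ x : G, orderOf x = 2 ^ (a - 1)) : ∃ N : Subgroup G, N.Normal ∧ Nat.card N = n := by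
  obtain ⟨x, hx⟩ := hx
  obtain ⟨N, hN, hNc, k, hk⟩ := CfsgH2.npc_two_of_cyclic_index hG hn h3 hx
  refine ⟨N, hN, ?_⟩
  have h1 := Subgroup.card_mul_index N
  rw [hk, hG] at h1
  have h2 : Nat.card N ∣ 2 ^ a * n := Dvd.intro _ h1
  have h3 : Nat.card N ∣ n := Nat.Coprime.dvd_of_dvd_mul_left (hNc.pow_right a) h2
  have h4 : n ∣ Nat.card N * 2 ^ k := by rw [h1]; exact Dvd.intro_left _ rfl
  have h5 : n.Coprime (2 ^ k) := (Nat.Coprime.pow_right k (Nat.coprime_two_right.2 hn))
  exact Nat.dvd_antisymm h3 (Nat.Coprime.dvd_of_dvd_mul_right h5 h4)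

end Cfsg.Agent.S3971
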