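import Cfsg.Statements.S3992
import Cfsg.Agent.H2.EppoNS

set_option autoImplicit false
open Cfsg
open scoped commutatorElement

namespace Cfsg.Agent.S3992

/-- Let G be a finite non-solvable group in which every element has prime-power order, and let R be its largest solvable normal subgroup. Then R is a p-group for some prime p; G/R has a non-abelian simple normal subgroup contained in every nontrivial normal subgroup of G/R (its unique minimal normal subgroup); and the order of every solvable subgroup of G has at most two prime divisors. -/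
theorem result {G : Type*} [Group G] [Finite G] (hns : ¬ Group.IsSolvable G) (hpp : ∀ g : G, g ≠ 1 → IsPrimePow (orderOf g))
    (R : Subgroup G) [R.Normal] (hRs : Group.IsSolvable ↥R) (hRmax : ∀ N : Subgroup G, N.Normal → Group.IsSolvable ↥N → N ≤ R) :
    (∃ p : ℕ, p.Prime ∧ IsPGroup p ↥R) ∧
      (∃ M : Subgroup (G ⧸ R), M.Normal ∧ IsSimpleGroup ↥M ∧ ¬ IsMulCommutative ↥M ∧
        ∀ N : Subgroup (G ⧸ R), N.Normal → N ≠ ⊥ → M ≤ N) ∧
      ∀ H : Subgroup G, Group.IsSolvable ↥H → (Nat.card ↥H).primeFactors.card ≤ 2 := by
  refine ⟨CfsgH2.eppo_radical hns hpp R hRs hRmax, ?_, ?_⟩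
  · haveI : Nontrivial (G ⧸ R) := by
      by_contra hcon
      rw [not_nontrivial_iff_subsingleton] at hcon
      apply hns
      have h1 : R = ⊤ := QuotientGroup.subsingleton_iff.1 hcon
      subst h1
      haveI := hRs
      exact Group.isSolvable_of_isSolvable_injective (f := (Subgroup.topEquiv (G := G)).symm.toMonoidHom)
        (Subgroup.topEquiv (G := G)).symm.injective
    apply CfsgH2.eppo_min_simple
    · intro x hx
      obtain ⟨g, rfl⟩ := QuotientGroup.mk_surjective x
      have hg : g ≠ 1 := by
        rintro rfl
        exact hx rfl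
      refine (hpp g hg).dvd ?_ ?_
      · exact orderOf_map_dvd (QuotientGroup.mk' R) g
      · rwa [Ne, orderOf_eq_one_iff]
    · intro N hN hNs
      haveI := hN
      have h1 : (N.comap (QuotientGroup.mk' R)) ≤ R := by
        apply hRmax _ inferInstance
        haveI := hRs
        haveI := hNs
        let f : (N.comap (QuotientGroup.mk' R)) →* N := 
          (QuotientGroup.mk' R).subgroupComap N
        have hle : R ≤ N.comap (QuotientGroup.mk' R) := by
          intro x hx
          rw [Subgroup.mem_comap, QuotientGroup.mk'_apply, (QuotientGroup.eq_one_iff x).2 hx]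
          exact N.one_mem
        refine Group.isSolvable_of_ker_le_range (Subgroup.inclusion hle) f ?_
        intro x hx
        rw [MonoidHom.mem_ker] at hx
        have h2 : ((x : G) : G ⧸ R) = 1 := congrArg Subtype.val hx
        rw [QuotientGroup.eq_one_iff] at h2
        exact ⟨⟨x, h2⟩, rfl⟩
      rw [eq_bot_iff]
      intro x hx
      obtain ⟨g, rfl⟩ := QuotientGroup.mk_surjective x
      rw [Subgroup.mem_bot, QuotientGroup.eq_one_iff]
      exact h1 hx
  · intro H hH
    haveI := hH
    apply CfsgH2.eppo_solv_card
    intro h hh
    rw [← Subgroup.orderOf_coe]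
    exact hpp h (fun h' => hh (Subtype.ext h'))

end Cfsg.Agent.S3992
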