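import Cfsg.Statements.S3998
import Cfsg.Agent.H2.SuperSolv
import Cfsg.Agent.H2.OrderType

set_option autoImplicit false
open Cfsg
open scoped commutatorElement

namespace Cfsg.Agent.S3998

open CfsgH2

universe u v

theorem main : ∀ (n : ℕ) (G : Type u) (H : Type v) [Group G] [Finite G] [Group H] [Finite H],
    Nat.card G = n → SameOrderType G H → IsSupersolvable G → Group.IsSolvable H := by
  intro n
  induction n using Nat.strong_induction_on with
  | _ n ih =>
  intro G H _ _ _ _ hn hT hG
  by_cases h1 : Nat.card G = 1
  · rw [hT.card_eq] at h1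
    haveI hss : Subsingleton H := (Nat.card_eq_one_iff_unique.1 h1).1
    exact Group.isSolvable_of_top_eq_bot H (Subsingleton.elim _ _)
  · have hne : (Nat.card G).primeFactors.Nonempty := by
      rw [Nat.nonempty_primeFactors]
      have : 0 < Nat.card G := Nat.card_pos
      omega
    set p := (Nat.card G).primeFactors.max' hne with hp
    have hpm : p ∈ (Nat.card G).primeFactors := Finset.max'_mem _ _
    rw [Nat.mem_primeFactors] at hpm
    haveI : Fact p.Prime := ⟨hpm.1⟩
    obtain ⟨P⟩ : Nonempty (Sylow p G) := inferInstance
    haveI hPn : (P : Subgroup G).Normal := IsSupersolvable.sylow_normal (Nat.card G) G rfl hG (by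
      intro q hq hd
      exact Finset.le_max' _ q (Nat.mem_primeFactors.2 ⟨hq, hd, hpm.2.2⟩)) P
    obtain ⟨Q, hQ, hstep⟩ := hT.step P
    have hP1 : 1 < Nat.card (P : Subgroup G) := by
      have h2 := P.dvd_card_of_dvd_card hpm.2.1
      exact lt_of_lt_of_le hpm.1.one_lt (Nat.le_of_dvd Nat.card_pos h2)
    have hc := Subgroup.card_eq_card_quotient_mul_card_subgroup (P : Subgroup G)
    have hs : Group.IsSolvable (H ⧸ (Q : Subgroup H)) := ih _ (by
      rw [← hn, hc]; exact lt_mul_of_one_lt_right Nat.card_pos hP1) (G ⧸ (P : Subgroup G)) _ rfl hstep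
        (IsSupersolvable.quotient hG _)
    have hs2 : Group.IsSolvable (Q : Subgroup H) := CfsgH1.isSolvable_of_isPGroup Q.2
    exact (Group.isSolvable_iff_subgroup_quotient (Q : Subgroup H)).2 ⟨hs2, hs⟩


/-- Let G and H be finite groups with the same order type (for every m the same number of elements of order m). If G is supersolvable then H is solvable. -/
theorem result {G H : Type*} [Group G] [Finite G] [Group H] [Finite H] (hT : (∀ m : ℕ, Nat.card {g : G // orderOf g = m} = Nat.card {h : H // orderOf h = m})) (hG : Cfsg.IsSupersolvable G) :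
    Group.IsSolvable H := by
  exact main (Nat.card G) G H rfl hT hG

end Cfsg.Agent.S3998
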