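import Cfsg.Statements.S3999
import Cfsg.Agent.H2.FrobType

set_option autoImplicit false
open Cfsg
open scoped commutatorElement

namespace Cfsg.Agent.S3999

/-- Let F be a finite Frobenius group (it has a Frobenius complement) and G a finite group with the same order type as F (for every m the same number of elements of order m). Then G is a Frobenius group; moreover G is solvable if and only if F is. -/
theorem result {F G : Type*} [Group F] [Finite F] [Group G] [Finite G] (hF : (∃ C : Subgroup F, Cfsg.IsFrobeniusComplement C)) (hT : (∀ m : ℕ, Nat.card {g : F // orderOf g = m} = Nat.card {h : G // orderOf h = m})) :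
    (∃ C : Subgroup G, Cfsg.IsFrobeniusComplement C) ∧ (Group.IsSolvable G ↔ Group.IsSolvable F) := by
  have h1 := CfsgH2.frob_type (F := F) (G := G) hT hF
  have h2 := CfsgH2.frob_type (F := G) (G := F) (CfsgH2.SameOrderType.symm hT) h1.1
  exact ⟨h1.1, h2.2, h1.2⟩

end Cfsg.Agent.S3999
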