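import Cfsg.Statements.S4002
import Cfsg.Agent.H2.ThreePrimes

set_option autoImplicit false
open Cfsg
open scoped commutatorElement

namespace Cfsg.Agent.S4002

/-- If the set of element orders of a finite group G is {1, 2, …, n} with n ≥ 7, then G is not solvable. -/
theorem result {G : Type*} [Group G] [Finite G] (n : ℕ) (hn : 7 ≤ n) (h : Set.range (orderOf : G → ℕ) = {k : ℕ | 1 ≤ k ∧ k ≤ n}) : ¬ Group.IsSolvable G := by
  intro hs
  have key : ∃ p q r : ℕ, p.Prime ∧ q.Prime ∧ r.Prime ∧ p < q ∧ q < r ∧ r ≤ n ∧ n < p * q := by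
    by_cases h15 : n < 15
    · exact ⟨3, 5, 7, by norm_num, by norm_num, by norm_num, by norm_num, by norm_num, hn, h15⟩
    by_cases h35 : n < 35
    · exact ⟨5, 7, 11, by norm_num, by norm_num, by norm_num, by norm_num, by norm_num, by omega, h35⟩
    have hm : 4 ≤ n / 8 := by omega
    obtain ⟨p, hp, hp1, hp2⟩ := Nat.exists_prime_lt_and_le_two_mul (n / 8) (by omega)
    obtain ⟨q, hq, hq1, hq2⟩ := Nat.exists_prime_lt_and_le_two_mul (2 * (n / 8)) (by omega)
    obtain ⟨r, hr, hr1, hr2⟩ := Nat.exists_prime_lt_and_le_two_mul (4 * (n / 8)) (by omega)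
    refine ⟨p, q, r, hp, hq, hr, by omega, by omega, by omega, ?_⟩
    have h1 : n < 8 * (n / 8 + 1) := by omega
    have h2 : (n / 8 + 1) * (2 * (n / 8) + 1) ≤ p * q := Nat.mul_le_mul hp1 hq1
    have h3 : 8 * (n / 8 + 1) ≤ (n / 8 + 1) * (2 * (n / 8) + 1) := by
      rw [mul_comm]
      exact Nat.mul_le_mul_left _ (by omega)
    omega
  obtain ⟨p, q, r, hp, hq, hr, hpq, hqr, hrn, hpqn⟩ := key
  have hdiv : ∀ s : ℕ, s.Prime → s ≤ n → s ∣ Nat.card G := by
    intro s hs hsn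
    have : s ∈ Set.range (orderOf : G → ℕ) := by rw [h]; exact ⟨hs.one_lt.le, hsn⟩
    obtain ⟨g, hg⟩ := this
    rw [← hg]; exact orderOf_dvd_natCard g
  obtain ⟨s, t, hs, ht, hst, g, hg⟩ := CfsgH2.three_primes (G := G) hp hq hr hpq.ne (hpq.trans hqr).ne hqr.ne
    (hdiv p hp (by omega)) (hdiv q hq (by omega)) (hdiv r hr hrn)
  have h1 : p * q ≤ s * t := by
    have hge : ∀ a b : ℕ, a ∈ ({p, q, r} : Set ℕ) → b ∈ ({p, q, r} : Set ℕ) → a < b → p * q ≤ a * b := by
      rintro a b (rfl | rfl | rfl) (rfl | rfl | rfl) hab <;> first | omega | exact Nat.mul_le_mul (by omega) (by omega)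
    rcases lt_or_gt_of_ne hst with h2 | h2
    · exact hge s t hs ht h2
    · rw [mul_comm s t]; exact hge t s ht hs h2
  have h2 : s * t ∈ Set.range (orderOf : G → ℕ) := ⟨g, hg⟩
  rw [h] at h2
  have := h2.2
  omega

end Cfsg.Agent.S4002
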