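import Cfsg.Statements.S4003
import Cfsg.Agent.H2.CycCount

set_option autoImplicit false
open Cfsg
open scoped commutatorElement

namespace Cfsg.Agent.S4003

/-- Let G be a finite group, p an odd prime dividing the order of G whose Sylow p-subgroups are not cyclic, and n = p^s·m with s > 1 and m coprime to p. Then the number of elements of G of order n is a multiple of p^s. -/
theorem result {G : Type*} [Group G] [Finite G] (p : ℕ) [Fact p.Prime] (hodd : p ≠ 2) (hpG : p ∣ Nat.card G)
    (P : Sylow p G) (hP : ¬ IsCyclic ↥(P : Subgroup G)) (s m : ℕ) (hs : 1 < s) (hm : Nat.Coprime p m) :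
    p ^ s ∣ Nat.card {g : G // orderOf g = p ^ s * m} := by
  classical
  have hp : p.Prime := Fact.out
  letI : Fintype G := Fintype.ofFinite G
  have hs1 : s - 1 + 1 = s := by omega
  have hm0 : m ≠ 0 := by
    rintro rfl
    rw [Nat.coprime_zero_right] at hm
    exact hp.one_lt.ne' hm
  have hcop : Nat.Coprime (p ^ s) m := Nat.Coprime.pow_left _ hm
  obtain ⟨e, he0, he1⟩ := Nat.chineseRemainder hcop 0 1
  have hsum : Nat.card {g : G // orderOf g = p ^ s * m} =
      ∑ u : G, (Finset.univ.filter (fun g : G => orderOf g = p ^ s * m ∧ g ^ e = u)).card := by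
    rw [Nat.card_eq_fintype_card, Fintype.card_subtype,
      Finset.card_eq_sum_card_fiberwise (f := fun g : G => g ^ e) (t := Finset.univ) (fun _ _ => Finset.mem_coe.2 (Finset.mem_univ _))]
    apply Finset.sum_congr rfl
    intro u _
    rw [Finset.filter_filter]
  rw [hsum]
  apply CfsgH2.dvd_sum_class
  · intro g u
    apply Finset.card_bij (fun x _ => g⁻¹ * x * g)
    · intro x hx
      simp only [Finset.mem_filter, Finset.mem_univ, true_and] at hx ⊢
      obtain ⟨h1, h2⟩ := hx
      have e1 : ∀ n : ℕ, (g⁻¹ * x * g) ^ n = g⁻¹ * x ^ n * g := by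
        intro n
        have := conj_pow (a := g⁻¹) (b := x) (i := n)
        rwa [inv_inv] at this
      refine ⟨?_, ?_⟩
      · rw [← h1]
        have := orderOf_injective (MulAut.conj g⁻¹).toMonoidHom (MulAut.conj g⁻¹).injective x
        rw [← this]
        congr 1
        show g⁻¹ * x * g = g⁻¹ * x * g⁻¹⁻¹
        rw [inv_inv]
      · rw [e1, h2]; group
    · intro a _ b _ hab
      exact mul_left_cancel (mul_right_cancel hab)
    · intro y hy
      simp only [Finset.mem_filter, Finset.mem_univ, true_and] at hy
      obtain ⟨h1, h2⟩ := hy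
      refine ⟨g * y * g⁻¹, ?_, by group⟩
      simp only [Finset.mem_filter, Finset.mem_univ, true_and]
      refine ⟨?_, ?_⟩
      · rw [← h1]
        exact orderOf_injective (MulAut.conj g).toMonoidHom (MulAut.conj g).injective y
      · rw [conj_pow, h2]
  · intro u
    rcases Finset.eq_empty_or_nonempty (Finset.univ.filter (fun g : G => orderOf g = p ^ s * m ∧ g ^ e = u)) with h0 | ⟨g0, hg0⟩
    · rw [h0, Finset.card_empty, mul_zero]; exact dvd_zero _
    simp only [Finset.mem_filter, Finset.mem_univ, true_and] at hg0
    -- e = p^s * e'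
    have hpe : p ^ s ∣ e := (Nat.modEq_zero_iff_dvd).1 he0
    have hgcd : ∀ g : G, orderOf g = p ^ s * m → orderOf (g ^ e) = m := by
      intro g hg
      rw [orderOf_pow, hg]
      have h1 : (p ^ s * m).gcd e = p ^ s := by
        obtain ⟨k, hk⟩ := hpe
        rw [hk, Nat.gcd_mul_left]
        have h2 : m.gcd k = 1 := by
          have h3 : m.gcd e = 1 := by
            have h4 := he1.gcd_eq
            rw [Nat.gcd_one_left, Nat.gcd_comm] at h4
            exact h4
          exact Nat.dvd_one.1 (by rw [← h3, hk]; exact Nat.gcd_dvd_gcd_mul_left_right _ _ _)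
        rw [h2, mul_one]
      rw [h1, Nat.mul_div_cancel_left _ (pow_pos hp.pos _)]
    have hu : orderOf u = m := by rw [← hg0.2]; exact hgcd g0 hg0.1
    have hcard : (Finset.univ.filter (fun g : G => orderOf g = p ^ s * m ∧ g ^ e = u)).card =
        Nat.card {v : Subgroup.centralizer ({u} : Set G) // orderOf v = p ^ s ∧ True} := by
      have hue : u ^ e = u := by
        conv_rhs => rw [← pow_one u]
        exact CfsgH2.pow_eq_of_modEq (P := m) (by rw [← hu]; exact pow_orderOf_eq_one u) he1
      rw [← Fintype.card_subtype, ← Nat.card_eq_fintype_card]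
      have hcu : ∀ g : G, g ^ e = u → u * g = g * u := by
        intro g hg
        rw [← hg, ← pow_succ, ← pow_succ']
      refine Nat.card_congr ⟨fun g => ⟨⟨g.1 * u⁻¹, ?_⟩, ?_, trivial⟩, fun v => ⟨(v.1 : G) * u, ?_, ?_⟩, fun g => ?_, fun v => ?_⟩
      · rw [CfsgH2.mem_centralizer_singleton_iff', ← mul_assoc, hcu g.1 g.2.2]; group
      · rw [Subgroup.orderOf_mk]
        -- g u⁻¹ has order p^s
        have h2 : (g.1 * u⁻¹) ^ (p ^ s) = 1 := by
          have h3 : Commute g.1 u⁻¹ := ((show Commute u g.1 from hcu g.1 g.2.2).symm).inv_right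
          rw [h3.mul_pow, inv_pow, mul_inv_eq_one]
          have h7 : u ^ p ^ s = g.1 ^ (e * p ^ s) := by rw [pow_mul, g.2.2]
          rw [h7]
          apply CfsgH2.pow_eq_of_modEq (P := p ^ s * m) (by
            have h8 := pow_orderOf_eq_one g.1
            rwa [g.2.1] at h8)
          have h4 : p ^ s * 1 ≡ p ^ s * e [MOD p ^ s * m] := Nat.ModEq.mul_left' _ he1.symm
          rw [mul_one] at h4
          rwa [mul_comm e]
        apply Nat.dvd_antisymm (orderOf_dvd_of_pow_eq_one h2)
        have h5 : Commute (g.1 * u⁻¹) u := by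
          have h3 : Commute g.1 u := (show Commute u g.1 from hcu g.1 g.2.2).symm
          exact h3.mul_left (Commute.refl u).inv_left
        have h6 : orderOf (g.1 * u⁻¹ * u) ∣ orderOf (g.1 * u⁻¹) * orderOf u := h5.orderOf_mul_dvd_mul_orderOf
        rw [inv_mul_cancel_right, g.2.1, hu] at h6
        exact Nat.dvd_of_mul_dvd_mul_right (Nat.pos_of_ne_zero hm0) h6
      · have h1 : Commute (v.1 : G) u := (CfsgH2.mem_centralizer_singleton_iff'.1 v.1.2).symm
        have h2 : orderOf (v.1 : G) = p ^ s := by rw [Subgroup.orderOf_coe]; exact v.2.1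
        rw [h1.orderOf_mul_eq_mul_orderOf_of_coprime (by rw [h2, hu]; exact hcop), h2, hu]
      · have h1 : Commute (v.1 : G) u := (CfsgH2.mem_centralizer_singleton_iff'.1 v.1.2).symm
        have h2 : orderOf (v.1 : G) = p ^ s := by rw [Subgroup.orderOf_coe]; exact v.2.1
        have h3 : (v.1 : G) ^ e = 1 := by
          apply orderOf_dvd_iff_pow_eq_one.1
          rw [h2]; exact hpe
        rw [h1.mul_pow, h3, one_mul, hue]
      · apply Subtype.ext
        show g.1 * u⁻¹ * u = g.1
        group
      · apply Subtype.ext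
        apply Subtype.ext
        show (v.1 : G) * u * u⁻¹ = v.1
        group
    rw [hcard, CfsgH2.card_orderOf_zpowers (p ^ s) (fun _ => True), Nat.totient_prime_pow hp (by omega)]
    obtain ⟨S⟩ : Nonempty (Sylow p (Subgroup.centralizer ({u} : Set G))) := inferInstance
    by_cases hS : IsCyclic (S : Subgroup (Subgroup.centralizer ({u} : Set G)))
    · have hdvd : p ∣ CfsgH2.csz u := by
        by_contra hnd
        unfold CfsgH2.csz at hnd
        apply hP
        let P' : Subgroup G := (S : Subgroup (Subgroup.centralizer ({u} : Set G))).map (Subgroup.centralizer ({u} : Set G)).subtype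
        have h1 : IsPGroup p P' := S.2.map _
        have h2 : ¬ p ∣ P'.index := by
          have h3 : P'.index = (S : Subgroup (Subgroup.centralizer ({u} : Set G))).index * (Subgroup.centralizer ({u} : Set G)).index := by
            have h4 := Subgroup.index_map_subtype (H := Subgroup.centralizer ({u} : Set G)) (S : Subgroup (Subgroup.centralizer ({u} : Set G)))
            exact h4
          rw [h3]
          intro h5
          rcases hp.dvd_mul.1 h5 with h6 | h6
          · exact S.not_dvd_index h6
          · exact hnd h6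
        let P'' : Sylow p G := h1.toSylow h2
        have e1 : (S : Subgroup (Subgroup.centralizer ({u} : Set G))) ≃* P' := Subgroup.equivMapOfInjective _ _ (Subgroup.subtype_injective _)
        have e2 : (P'' : Subgroup G) ≃* (P : Subgroup G) := Sylow.equiv P'' P
        haveI : IsCyclic P' := isCyclic_of_surjective e1 e1.surjective
        haveI : IsCyclic (P'' : Subgroup G) := this
        exact isCyclic_of_surjective e2 e2.surjective
      obtain ⟨k, hk⟩ := hdvd
      generalize Nat.card {X : Subgroup (Subgroup.centralizer ({u} : Set G)) // IsCyclic X ∧ Nat.card X = p ^ s ∧ True} = N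
      have h4 : p ^ s = p ^ (s - 1) * p := by rw [← pow_succ]; congr 1; omega
      rw [hk, h4]
      exact ⟨k * ((p - 1) * N), by ring⟩
    · obtain ⟨k, hk⟩ := CfsgH2.cyc_count hodd S hS hs
      rw [hk]
      have h4 : p ^ s = p ^ (s - 1) * p := by rw [← pow_succ]; congr 1; omega
      rw [h4]
      exact ⟨CfsgH2.csz u * ((p - 1) * k), by ring⟩

end Cfsg.Agent.S4003
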