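import Mathlib
import Cfsg.Agent.H3.CommPairs
import Cfsg.Agent.H3.PBasic
import Cfsg.Statements.S4200

set_option autoImplicit false
open Cfsg

namespace Cfsg.Agent.S4200

open scoped Classical in
theorem card_comm_index {X : Type*} [Group X] [Finite X] (Y : Subgroup X) (x : X) :
    Nat.card {y : X // Commute x y} = Y.relIndex (Subgroup.centralizer {x}) * Nat.card {y : Y // Commute x (y : X)} := by
  have h1 : Nat.card {y : X // Commute x y} = Nat.card (Subgroup.centralizer ({x} : Set X)) := by
    refine Nat.card_congr (Equiv.subtypeEquivRight fun y => ?_)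
    rw [Subgroup.mem_centralizer_iff]
    constructor
    · intro h z hz
      rw [Set.mem_singleton_iff.1 hz]
      exact h
    · intro h
      exact h x rfl
  have h2 : Nat.card {y : Y // Commute x (y : X)} = Nat.card (Y.subgroupOf (Subgroup.centralizer ({x} : Set X))) := by
    refine Nat.card_congr
      { toFun := fun y => ⟨⟨y.1, ?_⟩, y.1.2⟩
        invFun := fun z => ⟨⟨z.1, z.2⟩, ?_⟩
        left_inv := fun y => rfl
        right_inv := fun z => rfl }
    · rw [Subgroup.mem_centralizer_iff]
      intro w hw
      rw [Set.mem_singleton_iff.1 hw]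
      exact y.2
    · exact Subgroup.mem_centralizer_iff.1 z.1.2 x rfl
  rw [h1, h2, mul_comm]
  exact (Subgroup.card_mul_index (Y.subgroupOf (Subgroup.centralizer ({x} : Set X)))).symm

theorem relIndex_le {X : Type*} [Group X] [Finite X] (Y C : Subgroup X) : Y.relIndex C ≤ Y.index := by
  rw [← Subgroup.relIndex_top_right]
  apply Subgroup.relIndex_le_of_le_right le_top
  rw [Subgroup.relIndex_top_right]
  exact Subgroup.index_ne_zero_of_finite

theorem relIndex_lt {X : Type*} [Group X] [Finite X] (Y : Subgroup X) (hY : ¬ Y.Normal) :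
    ∃ y : Y, Y.relIndex (Subgroup.centralizer {(y : X)}) < Y.index := by
  by_contra hcon
  push Not at hcon
  apply hY
  constructor
  intro y hy g
  have h1 : Y.relIndex (Subgroup.centralizer {y}) = Y.index := le_antisymm (relIndex_le _ _) (hcon ⟨y, hy⟩)
  set C := Subgroup.centralizer ({y} : Set X) with hC
  let f : C ⧸ Y.subgroupOf C → X ⧸ Y := Quotient.map' (fun c => (c : X)) (by
    intro a b hab
    rw [QuotientGroup.leftRel_apply] at hab ⊢
    exact hab)
  have hf : Function.Injective f := by
    intro a b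
    induction a using QuotientGroup.induction_on with
    | H a =>
    induction b using QuotientGroup.induction_on with
    | H b =>
    intro hab
    have h2 : ((a : X) : X ⧸ Y) = ((b : X) : X ⧸ Y) := hab
    rw [QuotientGroup.eq] at h2
    exact QuotientGroup.eq.2 h2
  have hs : Function.Surjective f := by
    have := (Nat.bijective_iff_injective_and_card f).2 ⟨hf, h1⟩
    exact this.2
  obtain ⟨c, hc⟩ := hs ((g⁻¹ : X) : X ⧸ Y)
  induction c using QuotientGroup.induction_on with
  | H c =>
  have h2 : ((c : X) : X ⧸ Y) = ((g⁻¹ : X) : X ⧸ Y) := hc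
  rw [QuotientGroup.eq] at h2
  have h3 : y * c = c * y := Subgroup.mem_centralizer_iff.1 c.2 y rfl
  have h4 : g * y * g⁻¹ = ((c : X)⁻¹ * g⁻¹)⁻¹ * y * ((c : X)⁻¹ * g⁻¹) := by
    have h5 : ((c : X)⁻¹ * g⁻¹)⁻¹ * y * ((c : X)⁻¹ * g⁻¹) = g * ((c * y) * (c : X)⁻¹) * g⁻¹ := by group
    rw [h5, ← h3]
    group
  rw [h4]
  exact Y.mul_mem (Y.mul_mem (Y.inv_mem h2) hy) h2

/-- Let Y be a subgroup of the finite group X, of index m. Then the numbers of conjugacy classes satisfy k(Y) ≤ m·k(X) and k(X) ≤ m·k(Y), and the second inequality is strict unless Y is normal in X. -/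
theorem result {X : Type*} [Group X] [Finite X] (Y : Subgroup X) : Nat.card (ConjClasses Y) ≤ Y.index * Nat.card (ConjClasses X) ∧ Nat.card (ConjClasses X) ≤ Y.index * Nat.card (ConjClasses Y) ∧ (¬ Y.Normal → Nat.card (ConjClasses X) < Y.index * Nat.card (ConjClasses Y)) := by
  classical
  haveI := Fintype.ofFinite X
  haveI := Fintype.ofFinite Y
  have hm : 0 < Y.index := Nat.pos_of_ne_zero Subgroup.index_ne_zero_of_finite
  have hcX : 0 < Nat.card X := Nat.card_pos
  have hcY : 0 < Nat.card Y := Nat.card_pos
  have hXY : Nat.card Y * Y.index = Nat.card X := Subgroup.card_mul_index Y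
  have hX := card_comm_eq_card_conjClasses_mul_card X
  have hY := card_comm_eq_card_conjClasses_mul_card Y
  have hY' : Nat.card {p : Y × Y // Commute p.1 p.2} = ∑ y : Y, Nat.card {z : Y // Commute (y : X) (z : X)} := by
    rw [← CfsgH3.card_pairs_eq_sum' (fun y z : Y => Commute (y : X) (z : X))]
    refine Nat.card_congr (Equiv.subtypeEquivRight fun p => ?_)
    constructor
    · intro h; exact congrArg Subtype.val h
    · intro h; exact Subtype.ext h
  have hX' : Nat.card {p : X × X // Commute p.1 p.2} = ∑ x : X, Nat.card {z : X // Commute x z} :=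
    CfsgH3.card_pairs_eq_sum' (fun x z : X => Commute x z)
  have h1 : Nat.card {p : X × X // Commute p.1 p.2} ≤ Y.index * ∑ y : Y, Nat.card {x : X // Commute (y : X) x} := by
    rw [hX']
    calc ∑ x : X, Nat.card {z : X // Commute x z} ≤ ∑ x : X, Y.index * Nat.card {y : Y // Commute x (y : X)} := by
          refine Finset.sum_le_sum fun x _ => ?_
          rw [card_comm_index Y x]
          exact Nat.mul_le_mul_right _ (relIndex_le _ _)
      _ = Y.index * Nat.card {p : X × Y // Commute p.1 (p.2 : X)} := by
          rw [← Finset.mul_sum, CfsgH3.card_pairs_eq_sum' (fun (x : X) (y : Y) => Commute x (y : X))]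
      _ = Y.index * Nat.card {p : Y × X // Commute (p.1 : X) p.2} := by
          rw [CfsgH3.card_pairs_swap (fun (x : X) (y : Y) => Commute x (y : X))]
          congr 1
          exact Nat.card_congr (Equiv.subtypeEquivRight fun p => ⟨Commute.symm, Commute.symm⟩)
      _ = Y.index * ∑ y : Y, Nat.card {x : X // Commute (y : X) x} := by
          rw [CfsgH3.card_pairs_eq_sum' (fun (y : Y) (x : X) => Commute (y : X) x)]
  have h2 : ∑ y : Y, Nat.card {x : X // Commute (y : X) x} ≤ Y.index * Nat.card {p : Y × Y // Commute p.1 p.2} := by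
    rw [hY', Finset.mul_sum]
    refine Finset.sum_le_sum fun y _ => ?_
    rw [card_comm_index Y (y : X)]
    exact Nat.mul_le_mul_right _ (relIndex_le _ _)
  refine ⟨?_, ?_, ?_⟩
  · have h3 : Nat.card {p : Y × Y // Commute p.1 p.2} ≤ Nat.card {p : X × X // Commute p.1 p.2} := by
      refine Nat.card_le_card_of_injective (fun p => ⟨((p.1.1 : X), (p.1.2 : X)), congrArg Subtype.val p.2⟩) ?_
      intro p q hpq
      have h4 := congrArg Subtype.val hpq
      have h5 := congrArg Prod.fst h4
      have h6 := congrArg Prod.snd h4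
      exact Subtype.ext (Prod.ext (Subtype.ext h5) (Subtype.ext h6))
    rw [hX, hY, ← hXY] at h3
    apply Nat.le_of_mul_le_mul_right _ hcY
    calc _ ≤ _ := h3
      _ = _ := by ring
  · have h3 := h1.trans (Nat.mul_le_mul_left _ h2)
    rw [hX, hY] at h3
    have h4 : Y.index * (Y.index * (Nat.card (ConjClasses Y) * Nat.card Y)) = (Y.index * Nat.card (ConjClasses Y)) * Nat.card X := by
      rw [← hXY]; ring
    rw [h4] at h3
    exact Nat.le_of_mul_le_mul_right h3 hcX
  · intro hn
    obtain ⟨y, hy⟩ := relIndex_lt Y hn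
    have h2' : ∑ y : Y, Nat.card {x : X // Commute (y : X) x} < Y.index * Nat.card {p : Y × Y // Commute p.1 p.2} := by
      rw [hY', Finset.mul_sum]
      refine Finset.sum_lt_sum (fun y _ => ?_) ⟨y, Finset.mem_univ _, ?_⟩
      · rw [card_comm_index Y (y : X)]
        exact Nat.mul_le_mul_right _ (relIndex_le _ _)
      · rw [card_comm_index Y (y : X)]
        refine Nat.mul_lt_mul_of_pos_right hy ?_
        haveI : Nonempty {z : Y // Commute (y : X) (z : X)} := ⟨⟨1, Commute.one_right _⟩⟩
        exact Nat.card_pos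
    have h3 := lt_of_le_of_lt h1 (Nat.mul_lt_mul_of_pos_left h2' hm)
    rw [hX, hY] at h3
    have h4 : Y.index * (Y.index * (Nat.card (ConjClasses Y) * Nat.card Y)) = (Y.index * Nat.card (ConjClasses Y)) * Nat.card X := by
      rw [← hXY]; ring
    rw [h4] at h3
    exact Nat.lt_of_mul_lt_mul_right h3

end Cfsg.Agent.S4200
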