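import Mathlib
import Cfsg.Agent.H3.CommPairs
import Cfsg.Statements.S4201

set_option autoImplicit false
open Cfsg

namespace Cfsg.Agent.S4201

/-- If N is a normal subgroup of the finite group X then k(X) ≤ k(N)·k(X ⧸ N), where k denotes the number of conjugacy classes. -/
theorem result {X : Type*} [Group X] [Finite X] (N : Subgroup X) [N.Normal] : Nat.card (ConjClasses X) ≤ Nat.card (ConjClasses N) * Nat.card (ConjClasses (X ⧸ N)) := by
  have h := CfsgH3.card_comm_le_quotient N
  rw [card_comm_eq_card_conjClasses_mul_card, card_comm_eq_card_conjClasses_mul_card, card_comm_eq_card_conjClasses_mul_card] at h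
  have h1 := Subgroup.card_eq_card_quotient_mul_card_subgroup N
  have h2 : 0 < Nat.card X := Nat.card_pos
  have h3 : Nat.card (ConjClasses (X ⧸ N)) * Nat.card (X ⧸ N) * (Nat.card (ConjClasses N) * Nat.card N) =
      (Nat.card (ConjClasses N) * Nat.card (ConjClasses (X ⧸ N))) * Nat.card X := by
    rw [h1]; ring
  rw [h3] at h
  exact Nat.le_of_mul_le_mul_right h h2

end Cfsg.Agent.S4201
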