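import Mathlib
import Cfsg.Agent.H3.SylIdx
import Cfsg.Agent.H3.MaxNil
import Cfsg.Agent.S0144
import Cfsg.Statements.S4203

set_option autoImplicit false
open Cfsg

namespace Cfsg.Agent.S4203

universe u

open Subgroup

theorem main (n : ℕ) : ∀ {G : Type u} [Group G] [Finite G], Nat.card G ≤ n →
    (∀ M : Subgroup G, IsCoatom M → ∃ p : ℕ, p.Prime ∧ (M.index = p ∨ M.index = p ^ 2)) → Group.IsSolvable G := by
  induction n with
  | zero =>
    intro G _ _ hc
    exact absurd hc (by have : 0 < Nat.card G := Nat.card_pos; omega)
  | succ n ih =>
    intro G _ _ hcard h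
    by_cases htriv : Nat.card G = 1
    · exact Group.isSolvable_of_comm fun a b => by
        have := (Nat.card_eq_one_iff_unique.1 htriv).1
        exact Subsingleton.elim _ _
    -- the largest prime divisor
    obtain ⟨p, hp, hpG, hmax⟩ : ∃ p : ℕ, p.Prime ∧ p ∣ Nat.card G ∧ ∀ q : ℕ, q.Prime → q ∣ Nat.card G → q ≤ p := by
      have hne : (Nat.card G).primeFactors.Nonempty := Nat.nonempty_primeFactors.2 (by
        have : 0 < Nat.card G := Nat.card_pos
        omega)
      refine ⟨(Nat.card G).primeFactors.max' hne, ?_, ?_, ?_⟩
      · exact Nat.prime_of_mem_primeFactors (Finset.max'_mem _ hne)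
      · exact Nat.dvd_of_mem_primeFactors (Finset.max'_mem _ hne)
      · intro q hq hq'
        exact Finset.le_max' _ _ (Nat.mem_primeFactors.2 ⟨hq, hq', Nat.card_pos.ne'⟩)
    haveI := Fact.mk hp
    let P : Sylow p G := default
    by_cases hP : (P : Subgroup G).Normal
    · have hQ : Group.IsSolvable (G ⧸ (P : Subgroup G)) := by
        apply ih
        · have h1 := Subgroup.card_mul_index (P : Subgroup G)
          have h2 : 1 < Nat.card (P : Subgroup G) := by
            have h3 : p ∣ Nat.card (P : Subgroup G) := P.dvd_card_of_dvd_card hpG
            exact lt_of_lt_of_le hp.one_lt (Nat.le_of_dvd Nat.card_pos h3)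
          have h3 : Nat.card (G ⧸ (P : Subgroup G)) = (P : Subgroup G).index := rfl
          have h4 : 0 < (P : Subgroup G).index := Nat.pos_of_ne_zero Subgroup.FiniteIndex.index_ne_zero
          rw [h3]
          have h5 : (P : Subgroup G).index < Nat.card G := by
            rw [← h1]
            exact lt_mul_of_one_lt_left h4 h2
          omega
        · intro M hM
          have h1 := Subgroup.isCoatom_comap_of_surjective (QuotientGroup.mk'_surjective (P : Subgroup G)) hM
          obtain ⟨q, hq, hq'⟩ := h _ h1
          refine ⟨q, hq, ?_⟩
          rwa [Subgroup.index_comap_of_surjective _ (QuotientGroup.mk'_surjective (P : Subgroup G))] at hq'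
      haveI := P.2.isNilpotent
      exact (Group.isSolvable_iff_subgroup_quotient (P : Subgroup G)).2 ⟨inferInstance, hQ⟩
    · have hne : normalizer ((P : Subgroup G) : Set G) ≠ ⊤ := fun h1 => hP (Subgroup.normalizer_eq_top_iff.1 h1)
      obtain ⟨M, hM, hNM⟩ := (IsCoatomic.eq_top_or_exists_le_coatom _).resolve_left hne
      have hmod := CfsgH3.index_modEq_one_of_normalizer_le P hNM
      have hndvd := CfsgH3.index_coprime_of_sylow_le P (le_normalizer.trans hNM)
      obtain ⟨q, hq, hq'⟩ := h M hM
      have hqG : q ∣ Nat.card G := by
        have h1 : q ∣ M.index := by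
          rcases hq' with h1 | h1
          · rw [h1]
          · rw [h1]; exact Dvd.intro_left (q ^ 1) (by ring)
        exact h1.trans (Subgroup.index_dvd_card M)
      have hqp : q < p := by
        refine lt_of_le_of_ne (hmax q hq hqG) ?_
        rintro rfl
        apply hndvd
        rcases hq' with h1 | h1
        · rw [h1]
        · rw [h1]; exact Dvd.intro_left (q ^ 1) (by ring)
      rcases hq' with h1 | h1
      · exfalso
        rw [h1] at hmod
        have h2 : q % p = 1 % p := hmod
        rw [Nat.mod_eq_of_lt hqp, Nat.mod_eq_of_lt hp.one_lt] at h2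
        exact hq.one_lt.ne' h2
      · rw [h1] at hmod
        have h2 : p ∣ q ^ 2 - 1 := (Nat.modEq_iff_dvd' (Nat.one_le_pow _ _ hq.pos)).1 hmod.symm
        have h3 : q ^ 2 - 1 = (q + 1) * (q - 1) := by
          have := Nat.sq_sub_sq q 1
          simpa using this
        rw [h3] at h2
        have hp3 : p = 3 := by
          rcases (Nat.Prime.dvd_mul hp).1 h2 with h4 | h4
          · have h5 : p ≤ q + 1 := Nat.le_of_dvd (by omega) h4
            have h6 : p = q + 1 := by omega
            rcases hq.eq_two_or_odd with h7 | h7
            · omega
            · exfalso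
              rcases hp.eq_two_or_odd with h8 | h8
              · have := hq.two_le; omega
              · omega
          · have h5 : 0 < q - 1 := by have := hq.two_le; omega
            have := Nat.le_of_dvd h5 h4
            omega
        subst hp3
        have h4 : Nat.card G = 2 ^ (Nat.card G).factorization 2 * 3 ^ (Nat.card G).factorization 3 := by
          have h5 := Nat.prod_factorization_pow_eq_self (n := Nat.card G) Nat.card_pos.ne'
          conv_lhs => rw [← h5]
          have h6 : (Nat.card G).factorization.support ⊆ {2, 3} := by
            intro r hr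
            rw [Nat.support_factorization] at hr
            have hr1 := Nat.prime_of_mem_primeFactors hr
            have hr2 := hmax r hr1 (Nat.dvd_of_mem_primeFactors hr)
            have hr3 := hr1.two_le
            have : r = 2 ∨ r = 3 := by omega
            simpa using this
          rw [Finsupp.prod_of_support_subset _ h6 _ (by intros; rfl)]
          rw [Finset.prod_pair (by norm_num)]
        exact Cfsg.Agent.S0144.result 2 3 _ _ Nat.prime_two Nat.prime_three h4

/-- A finite group in which every maximal subgroup has index a prime or the square of a prime is solvable. -/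
theorem result {G : Type*} [Group G] [Finite G] (h : ∀ M : Subgroup G, IsCoatom M → ∃ p : ℕ, p.Prime ∧ (M.index = p ∨ M.index = p ^ 2)) : Group.IsSolvable G := by
  exact main _ le_rfl h

end Cfsg.Agent.S4203
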