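import Mathlib
import Cfsg.Agent.H3.PGroup
import Cfsg.Statements.S4204

set_option autoImplicit false
open Cfsg

namespace Cfsg.Agent.S4204

open Subgroup
open scoped commutatorElement

/-- shifted lower central series: `⊤, H, [H,H], …` -/
def lc {G : Type*} [Group G] (H : Subgroup G) : ℕ → Subgroup G
  | 0 => ⊤
  | n + 1 => H.lowerCentralSeries n

theorem lc_comm {G : Type*} [Group G] (H : Subgroup G) [H.Normal] (i : ℕ) : ⁅lc H i, H⁆ ≤ lc H (i + 1) := by
  cases i with
  | zero => exact Subgroup.commutator_le_right ⊤ H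
  | succ i => exact le_rfl

theorem lcs_normal {G : Type*} [Group G] (H : Subgroup G) [hH : H.Normal] (i : ℕ) : (H.lowerCentralSeries i).Normal := by
  induction i with
  | zero => exact hH
  | succ i ih => 
    haveI := ih
    exact Subgroup.commutator_normal _ _

instance lc_normal {G : Type*} [Group G] (H : Subgroup G) [H.Normal] (i : ℕ) : (lc H i).Normal := by
  cases i with
  | zero => change (⊤ : Subgroup G).Normal; infer_instance
  | succ i => exact lcs_normal H i

theorem main {G : Type*} [Group G] (H K : Subgroup G) [H.Normal] [K.Normal] (n : ℕ) :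
    (H ⊔ K).lowerCentralSeries n ≤ ⨆ i ∈ Finset.range (n + 2), lc H i ⊓ lc K (n + 1 - i) := by
  induction n with
  | zero =>
    change H ⊔ K ≤ _
    refine sup_le ?_ ?_
    · refine le_trans ?_ (le_iSup₂_of_le 1 (by simp) le_rfl)
      change H ≤ H ⊓ ⊤
      rw [inf_top_eq]
    · refine le_trans ?_ (le_iSup₂_of_le 0 (by simp) le_rfl)
      change K ≤ ⊤ ⊓ K
      rw [top_inf_eq]
  | succ n ih =>
    rw [Subgroup.lowerCentralSeries_succ]
    refine (Subgroup.commutator_mono ih le_rfl).trans ?_
    rw [Subgroup.commutator_le]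
    intro x hx y hy
    set T : Subgroup G := ⨆ i ∈ Finset.range (n + 1 + 2), lc H i ⊓ lc K (n + 1 + 1 - i) with hT
    have hTn : T.Normal := by
      rw [hT]
      exact Subgroup.iSup_normal _
    -- modulo T
    have key : ∀ i ∈ Finset.range (n + 2), ⁅lc H i ⊓ lc K (n + 1 - i), H ⊔ K⁆ ≤ T := by
      intro i hi
      rw [Finset.mem_range] at hi
      have h1 : ⁅lc H i ⊓ lc K (n + 1 - i), H⁆ ≤ T := by
        refine le_trans ?_ (le_iSup₂_of_le (i + 1) (by rw [Finset.mem_range]; omega) le_rfl)
        refine le_inf ((Subgroup.commutator_mono inf_le_left le_rfl).trans (lc_comm H i)) ?_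
        have e : n + 1 + 1 - (i + 1) = n + 1 - i := by omega
        rw [e]
        exact (Subgroup.commutator_mono inf_le_right le_rfl).trans (Subgroup.commutator_le_left _ _)
      have h2 : ⁅lc H i ⊓ lc K (n + 1 - i), K⁆ ≤ T := by
        refine le_trans ?_ (le_iSup₂_of_le i (by rw [Finset.mem_range]; omega) le_rfl)
        refine le_inf ((Subgroup.commutator_mono inf_le_left le_rfl).trans (Subgroup.commutator_le_left _ _)) ?_
        have e : n + 1 + 1 - i = n + 1 - i + 1 := by omega
        rw [e]
        exact (Subgroup.commutator_mono inf_le_right le_rfl).trans (lc_comm K _)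
      rw [Subgroup.commutator_le]
      intro a ha b hb
      obtain ⟨h, hh, k, hk, rfl⟩ := Subgroup.mem_sup_of_normal_right.1 hb
      have e : ⁅a, h * k⁆ = ⁅a, h⁆ * (h * ⁅a, k⁆ * h⁻¹) := by
        simp only [commutatorElement_def]; group
      rw [e]
      exact T.mul_mem (h1 (commutator_mem_commutator ha hh)) (hTn.conj_mem _ (h2 (commutator_mem_commutator ha hk)) _)
    have h3 : ∀ x ∈ (⨆ i ∈ Finset.range (n + 2), lc H i ⊓ lc K (n + 1 - i) : Subgroup G), ∀ y ∈ H ⊔ K, ⁅x, y⁆ ∈ T := by
      intro x hx y hy
      have h4 : (⨆ i ∈ Finset.range (n + 2), lc H i ⊓ lc K (n + 1 - i) : Subgroup G) ≤ 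
          (Subgroup.centralizer (((H ⊔ K).map (QuotientGroup.mk' T) : Subgroup (G ⧸ T)) : Set (G ⧸ T))).comap (QuotientGroup.mk' T) := by
        refine iSup₂_le fun i hi => ?_
        intro z hz
        rw [Subgroup.mem_comap, Subgroup.mem_centralizer_iff]
        rintro _ ⟨w, hw, rfl⟩
        have h5 := key i hi (commutator_mem_commutator hz hw)
        have h6 : (QuotientGroup.mk' T) ⁅z, w⁆ = 1 := (QuotientGroup.eq_one_iff _).2 h5
        rw [map_commutatorElement, commutatorElement_eq_one_iff_mul_comm] at h6
        exact h6.symm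
      have h5 := h4 hx
      rw [Subgroup.mem_comap, Subgroup.mem_centralizer_iff] at h5
      have h6 := h5 _ ⟨y, hy, rfl⟩
      have h7 : (QuotientGroup.mk' T) ⁅x, y⁆ = 1 := by
        rw [map_commutatorElement, commutatorElement_eq_one_iff_mul_comm]
        exact h6.symm
      exact (QuotientGroup.eq_one_iff _).1 h7
    exact h3 x hx y hy

/-- If `H` and `K` are normal subgroups of a finite group with `H` nilpotent of class at most `c` and `K` nilpotent of class at most `d` (the terms with index `c`, respectively `d`, of their lower central series are trivial, indices starting at `0`), then `HK` is nilpotent of class at most `c + d`. -/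
theorem result {G : Type*} [Group G] [Finite G] (H K : Subgroup G) [H.Normal] [K.Normal] (c d : ℕ) (hH : H.lowerCentralSeries c = ⊥) (hK : K.lowerCentralSeries d = ⊥) : (H ⊔ K).lowerCentralSeries (c + d) = ⊥ := by
  rw [eq_bot_iff]
  refine (main H K (c + d)).trans ?_
  refine iSup₂_le fun i hi => ?_
  rw [Finset.mem_range] at hi
  by_cases h : c + 1 ≤ i
  · obtain ⟨j, rfl⟩ : ∃ j, i = j + 1 := ⟨i - 1, by omega⟩
    refine inf_le_left.trans ?_
    change H.lowerCentralSeries j ≤ ⊥
    rw [← hH]
    exact H.lowerCentralSeries_antitone (by omega)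
  · refine inf_le_right.trans ?_
    obtain ⟨j, hj⟩ : ∃ j, c + d + 1 - i = j + 1 := ⟨c + d - i, by omega⟩
    rw [hj]
    change K.lowerCentralSeries j ≤ ⊥
    rw [← hK]
    exact K.lowerCentralSeries_antitone (by omega)

end Cfsg.Agent.S4204
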