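import Mathlib
import Cfsg.Statements.S4205

set_option autoImplicit false
open Cfsg

namespace Cfsg.Agent.S4205

/-- In a finite group whose upper central series reaches the whole group at step `c` (nilpotent of class at most `c`), starting from any subgroup and taking normalizers `c` times reaches the whole group. -/
theorem result {G : Type*} [Group G] [Finite G] (c : ℕ) (hG : Subgroup.upperCentralSeries G c = ⊤) (H : Subgroup G) : (fun K : Subgroup G => Subgroup.normalizer (K : Set G))^[c] H = ⊤ := by
  have key : ∀ i : ℕ, i ≤ c → Subgroup.upperCentralSeries G i ≤ (fun K : Subgroup G => Subgroup.normalizer (K : Set G))^[i] H := by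
    intro i
    induction i with
    | zero => intro _; simp
    | succ i ih =>
      intro hi
      rw [Function.iterate_succ_apply']
      set K := (fun K : Subgroup G => Subgroup.normalizer (K : Set G))^[i] H with hK
      intro x hx
      have h1 := ih (by omega)
      rw [Subgroup.mem_upperCentralSeries_succ_iff] at hx
      rw [Subgroup.mem_normalizer_iff]
      intro y
      have h2 : x * y * x⁻¹ * y⁻¹ ∈ K := h1 (hx y)
      constructor
      · intro hy
        have h3 := K.mul_mem h2 hy
        have h4 : x * y * x⁻¹ * y⁻¹ * y = x * y * x⁻¹ := by group
        rwa [h4] at h3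
      · intro hy
        have h3 := K.mul_mem (K.inv_mem h2) hy
        have h4 : (x * y * x⁻¹ * y⁻¹)⁻¹ * (x * y * x⁻¹) = y := by group
        rwa [h4] at h3
  have h := key c le_rfl
  rw [hG] at h
  exact top_le_iff.1 h

end Cfsg.Agent.S4205
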