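import Cfsg.Statements.S4211
import Cfsg.Agent.H1.Hamil2

set_option autoImplicit false
open Cfsg

namespace Cfsg.Agent.S4211

open scoped commutatorElement Pointwise

/-- A finite non-abelian group in which every subgroup is normal is the internal direct product of a subgroup isomorphic to the quaternion group of order `8`, an elementary abelian `2`-subgroup and an abelian subgroup of odd order. -/
theorem result {G : Type*} [Group G] [Finite G] (hna : ¬ IsMulCommutative G) (hn : ∀ H : Subgroup G, H.Normal) : ∃ Q E A : Subgroup G, Nonempty (Q ≃* QuaternionGroup 2) ∧ Cfsg.IsElementaryAbelian 2 E ∧ IsMulCommutative A ∧ Odd (Nat.card A) ∧ E ⊓ A = ⊥ ∧ Q ⊓ (E ⊔ A) = ⊥ ∧ Q ⊔ (E ⊔ A) = ⊤ := by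
  have hna' : ¬ ∀ x y : G, x * y = y * x := fun h => hna ⟨⟨h⟩⟩
  obtain ⟨Q, E, A, h1, ⟨h2, h3⟩, h4, h5, h6, h7, h8⟩ := CfsgH1.hm_main hn hna'
  exact ⟨Q, E, A, h1, ⟨⟨⟨fun a b => Subtype.ext (h2 a a.2 b b.2)⟩⟩, h3⟩,
    ⟨⟨fun a b => Subtype.ext (h4 a a.2 b b.2)⟩⟩, h5, h6, h7, h8⟩

end Cfsg.Agent.S4211
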