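import Mathlib
import Cfsg.Agent.H3.GaschAb
import Cfsg.Statements.S4217

set_option autoImplicit false
open Cfsg

namespace Cfsg.Agent.S4217

/-- Let `A` be an abelian normal subgroup of the finite group `G`. Then `A` has a complement in `G` if and only if, for every prime `p` dividing the index of `A`, there are a Sylow `p`-subgroup `S` of `G/A` and a subgroup `K` of `G` with `K ∩ A = 1` and `KA` equal to the preimage of `S` (that is, `A` has a complement in the preimage of a Sylow `p`-subgroup of `G/A`). -/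
theorem result {G : Type*} [Group G] [Finite G] (A : Subgroup G) [A.Normal] (hA : IsMulCommutative A) : (∃ K : Subgroup G, K.IsComplement' A) ↔ ∀ p : ℕ, p.Prime → p ∣ A.index → ∃ (S : Sylow p (G ⧸ A)) (K : Subgroup G), K ⊓ A = ⊥ ∧ K ⊔ A = (S : Subgroup (G ⧸ A)).comap (QuotientGroup.mk' A) := by
  have hAc : ∀ x ∈ A, ∀ y ∈ A, x * y = y * x := fun x hx y hy => congrArg Subtype.val (hA.is_comm.comm (⟨x, hx⟩ : A) ⟨y, hy⟩)
  constructor
  · rintro ⟨K, hK⟩ p hp -
    haveI := Fact.mk hp
    obtain ⟨S⟩ : Nonempty (Sylow p (G ⧸ A)) := inferInstance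
    refine ⟨S, K ⊓ (S : Subgroup (G ⧸ A)).comap (QuotientGroup.mk' A), ?_, ?_⟩
    · rw [eq_bot_iff, ← disjoint_iff.1 hK.disjoint]
      exact inf_le_inf_right _ inf_le_left
    · have hle : A ≤ (S : Subgroup (G ⧸ A)).comap (QuotientGroup.mk' A) := by
        intro x hx
        rw [Subgroup.mem_comap]
        rw [show QuotientGroup.mk' A x = 1 from (QuotientGroup.eq_one_iff x).2 hx]
        exact one_mem _
      apply le_antisymm
      · exact sup_le inf_le_right hle
      · intro x hx
        have h1 : x ∈ K ⊔ A := by rw [hK.sup_eq_top]; trivial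
        obtain ⟨k, hk, a, ha, rfl⟩ := Subgroup.mem_sup_of_normal_right.1 h1
        refine Subgroup.mul_mem_sup ⟨hk, ?_⟩ ha
        have := Subgroup.mul_mem _ hx (Subgroup.inv_mem _ (hle ha))
        rwa [mul_inv_cancel_right] at this
  · intro h
    apply CfsgH3.abelian_compl A hAc
    intro p hp
    haveI := Fact.mk hp
    by_cases hpd : p ∣ A.index
    · obtain ⟨S, K, h1, h2⟩ := h p hp hpd
      refine ⟨_, K, ?_, h1, h2⟩
      rw [Subgroup.index_comap_of_surjective _ (QuotientGroup.mk'_surjective A)]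
      exact S.not_dvd_index
    · exact ⟨A, ⊥, hpd, bot_inf_eq _, bot_sup_eq _⟩

end Cfsg.Agent.S4217
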