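import Mathlib
import Cfsg.Agent.H3.PBasic
import Cfsg.Statements.S4219

set_option autoImplicit false
open Cfsg

namespace Cfsg.Agent.S4219

open scoped Pointwise
theorem key {G : Type*} [Group G] [Finite G] {α : Type*} [MulAction G α] {t : ℕ} (hG : MulAction.IsMultiplyPretransitive G α t) (x : Fin t ↪ α)
    {p : ℕ} [Fact p.Prime] (K : Subgroup G) (hK : K = MulAction.stabilizer G x) (P : Sylow p K) (P0 : Subgroup G) (hP0 : P0 = (P : Subgroup K).map K.subtype) :
    ∀ c : Fin t ↪ α, (∀ i, c i ∈ MulAction.fixedPoints P0 α) →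
      ∃ g ∈ Subgroup.normalizer (P0 : Set G), g • x = c := by
  classical
  intro c hc
  obtain ⟨g, hg⟩ := hG.exists_smul_eq x c
  -- g⁻¹ P0 g ≤ K
  have h1 : ∀ y ∈ P0, g⁻¹ * y * g ∈ K := by
    intro y hy
    rw [hK, MulAction.mem_stabilizer_iff, mul_smul, mul_smul, hg, inv_smul_eq_iff, hg]
    ext i
    exact hc i ⟨y, hy⟩
  let φ : P0 →* K := 
    { toFun := fun y => ⟨g⁻¹ * y * g, h1 y y.2⟩
      map_one' := by apply Subtype.ext; simp
      map_mul' := by intro a b; apply Subtype.ext; simp only [Subgroup.coe_mul]; group }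
  have hφ : Function.Injective φ := by
    intro a b hab
    have h2 : g⁻¹ * (a : G) * g = g⁻¹ * b * g := congrArg Subtype.val hab
    apply Subtype.ext
    have h3 : (a : G) = g * (g⁻¹ * (a : G) * g) * g⁻¹ := by group
    rw [h3, h2]
    group
  have hP0p : IsPGroup p P0 := by rw [hP0]; exact P.2.map _
  have hQp : IsPGroup p φ.range := by
    intro z
    obtain ⟨_, y, rfl⟩ := z
    obtain ⟨k, hk⟩ := hP0p y
    exact ⟨k, by apply Subtype.ext; change (φ y) ^ p ^ k = 1; rw [← map_pow, hk, map_one]⟩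
  have hcard : Nat.card φ.range = Nat.card (P : Subgroup K) := by
    rw [← Nat.card_congr (MonoidHom.ofInjective hφ).toEquiv, hP0]
    exact (Nat.card_congr ((P : Subgroup K).equivMapOfInjective K.subtype K.subtype_injective).toEquiv).symm
  obtain ⟨R, hR⟩ := hQp.exists_le_sylow
  have hRe : φ.range = (R : Subgroup K) := by
    apply Subgroup.eq_of_le_of_card_ge hR
    rw [hcard, P.card_eq_multiplicity, R.card_eq_multiplicity]
  obtain ⟨h, hh⟩ := MulAction.exists_smul_eq K R P
  have h3 : ∀ y ∈ P0, (h : G) * (g⁻¹ * y * g) * (h : G)⁻¹ ∈ P0 := by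
    intro y hy
    have h4 : φ ⟨y, hy⟩ ∈ (R : Subgroup K) := by rw [← hRe]; exact ⟨_, rfl⟩
    have h5 : h * φ ⟨y, hy⟩ * h⁻¹ ∈ P := by
      rw [← hh, CfsgH3.mem_smul_sylow_iff]
      have : h⁻¹ * (h * φ ⟨y, hy⟩ * h⁻¹) * h = φ ⟨y, hy⟩ := by group
      rw [this]
      exact h4
    rw [hP0]; exact ⟨_, h5, rfl⟩
  refine ⟨g * (h : G)⁻¹, ?_, ?_⟩
  · rw [← inv_inv (g * (h : G)⁻¹)]
    apply Subgroup.inv_mem
    have h6 : (g * (h : G)⁻¹)⁻¹ = h * g⁻¹ := by group
    rw [h6]
    refine Subgroup.mem_normalizer_fintype (S := (P0 : Set G)) ?_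
    intro y hy
    have h7 := h3 y hy
    have h8 : (h : G) * g⁻¹ * y * ((h : G) * g⁻¹)⁻¹ = (h : G) * (g⁻¹ * y * g) * (h : G)⁻¹ := by group
    rw [h8]
    exact h7
  · rw [mul_smul]
    have h7 : (h : G)⁻¹ • x = x := by
      rw [inv_smul_eq_iff]
      have hKm : ∀ y ∈ K, y • x = x := by
        intro y hy
        rw [hK] at hy
        exact hy
      exact (hKm _ h.2).symm
    rw [h7, hg]

/-- Let a finite group `G` act `t`-fold transitively on a finite set, let `H` be the stabilizer of `t` distinct points and `P` a Sylow `p`-subgroup of `H`. Then the normalizer of `P` in `G` is `t`-fold transitive on the fixed points of `P`: any `t` distinct fixed points of `P` can be carried to any other `t` distinct fixed points of `P` by an element normalizing `P`. -/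
theorem result {G : Type*} [Group G] [Finite G] {α : Type*} [Fintype α] [MulAction G α] {t : ℕ} (hG : MulAction.IsMultiplyPretransitive G α t) (x : Fin t ↪ α) {p : ℕ} [Fact p.Prime] (P : Sylow p (MulAction.stabilizer G x)) (a b : Fin t ↪ α) (ha : ∀ i, a i ∈ MulAction.fixedPoints ((P : Subgroup (MulAction.stabilizer G x)).map (MulAction.stabilizer G x).subtype) α) (hb : ∀ i, b i ∈ MulAction.fixedPoints ((P : Subgroup (MulAction.stabilizer G x)).map (MulAction.stabilizer G x).subtype) α) : ∃ g ∈ Subgroup.normalizer ((((P : Subgroup (MulAction.stabilizer G x)).map (MulAction.stabilizer G x).subtype) : Subgroup G) : Set G), g • a = b := by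
  obtain ⟨g1, hg1, h1⟩ := key hG x _ rfl P _ rfl a ha
  obtain ⟨g2, hg2, h2⟩ := key hG x _ rfl P _ rfl b hb
  refine ⟨g2 * g1⁻¹, Subgroup.mul_mem _ hg2 (Subgroup.inv_mem _ hg1), ?_⟩
  rw [mul_smul, ← h1, inv_smul_smul, h2]

end Cfsg.Agent.S4219
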