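import Mathlib
import Cfsg.Statements.S4222

set_option autoImplicit false
open Cfsg

namespace Cfsg.Agent.S4222

theorem aux {T : Type*} [Group T] (N : Subgroup T) (hN' : N.Normal) (g n : T) (hn : n ∈ N) (h1 : ∀ z ∈ N, n * z * n⁻¹ = g * z * g⁻¹) :
    g * n⁻¹ ∈ Subgroup.centralizer (N : Set T) := by
  rw [Subgroup.mem_centralizer_iff]
  intro y hy
  have h3 : n⁻¹ * y * n ∈ N := by
    have := hN'.conj_mem y hy n⁻¹
    simpa using this
  have h4 := h1 _ h3
  have h6 : n * (n⁻¹ * y * n) * n⁻¹ = y := by group
  rw [h6] at h4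
  nth_rewrite 1 [h4]
  group

/-- If a normal subgroup `N` of a finite group is complete (its centre is trivial and every automorphism of `N` is inner), then the group is the internal direct product of `N` and the centralizer of `N`: the centralizer is a complement to `N`. -/
theorem result {T : Type*} [Group T] [Finite T] (N : Subgroup T) [N.Normal] (hz : Subgroup.center ↥N = ⊥) (ha : Function.Surjective (MulAut.conj : ↥N →* MulAut ↥N)) : (Subgroup.centralizer (N : Set T)).IsComplement' N := by
  classical
  have hNC : N ⊓ Subgroup.centralizer (N : Set T) = ⊥ := by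
    rw [eq_bot_iff]
    intro x hx
    have hx1 := (Subgroup.mem_inf.1 hx).1
    have hx2 := (Subgroup.mem_inf.1 hx).2
    have h1 : (⟨x, hx1⟩ : N) ∈ Subgroup.center N := by
      rw [Subgroup.mem_center_iff]
      intro y
      apply Subtype.ext
      exact Subgroup.mem_centralizer_iff.1 hx2 y y.2
    rw [hz, Subgroup.mem_bot] at h1
    exact Subgroup.mem_bot.2 (congrArg Subtype.val h1)
  apply Subgroup.isComplement'_of_disjoint_and_mul_eq_univ
  · rw [disjoint_iff, inf_comm]
    exact hNC
  · rw [Set.eq_univ_iff_forall]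
    intro g
    obtain ⟨n, hn⟩ := ha (MulAut.conjNormal g)
    rw [Set.mem_mul]
    refine ⟨g * (n : T)⁻¹, aux N inferInstance g n n.2 ?_, n, n.2, by group⟩
    intro z hz'
    have h2 := congrArg (fun f : MulAut N => ((f ⟨z, hz'⟩ : N) : T)) hn
    simpa [MulAut.conj_apply, MulAut.conjNormal_apply] using h2

end Cfsg.Agent.S4222
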