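import Cfsg.Statements.S4227
import Cfsg.Agent.H1.HHAb2
import Cfsg.Agent.H4.Burnside

set_option autoImplicit false
open Cfsg

namespace Cfsg.Agent.S4227

open scoped commutatorElement Pointwise

theorem order_div {G : Type*} [Group G] (h : ∀ x : G, x ^ 6 = 1) {q : ℕ} (hq : q.Prime) {r : ℕ} (hr : r.Prime) (hqr : q ≠ r) (hr6 : 6 = r * (6 / r)) {a : G} {k : ℕ} (hk : a ^ q ^ k = 1) : a ^ (6 / r) = 1 := by
  have h1 : orderOf a ∣ r * (6 / r) := by rw [← hr6]; exact orderOf_dvd_of_pow_eq_one (h a)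
  have h2 : orderOf a ∣ q ^ k := orderOf_dvd_of_pow_eq_one hk
  have h3 : (orderOf a).Coprime r := Nat.Coprime.coprime_dvd_left h2 (Nat.Coprime.pow_left k ((Nat.coprime_primes hq hr).2 hqr))
  exact orderOf_dvd_iff_pow_eq_one.1 (h3.dvd_of_dvd_mul_left h1)

theorem solv {G : Type*} [Group G] [Finite G] (h : ∀ x : G, x ^ 6 = 1) : Group.IsSolvable G := by
  have h1 : ∀ r : ℕ, r.Prime → r ∣ Nat.card G → r = 2 ∨ r = 3 := by
    intro r hr hd
    haveI : Fact r.Prime := ⟨hr⟩
    obtain ⟨x, hx⟩ := exists_prime_orderOf_dvd_card' r hd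
    have h2 : r ∣ 2 * 3 := by rw [← hx]; exact orderOf_dvd_of_pow_eq_one (h x)
    rcases (Nat.Prime.dvd_mul hr).1 h2 with h3 | h3
    · left; exact (Nat.prime_dvd_prime_iff_eq hr Nat.prime_two).1 h3
    · right; exact (Nat.prime_dvd_prime_iff_eq hr Nat.prime_three).1 h3
  obtain ⟨a, m, hm, hcard⟩ := Nat.exists_eq_pow_mul_and_not_dvd (Nat.card_pos (α := G)).ne' 2 (by norm_num)
  have h2 : ∃ b, m = 3 ^ b := by
    have hm0 : m ≠ 0 := by rintro rfl; exact hm (dvd_zero 2)
    refine ⟨_, Nat.eq_prime_pow_of_unique_prime_dvd hm0 (fun {r} hr hrd => ?_)⟩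
    rcases h1 r hr (by rw [hcard]; exact hrd.mul_left _) with h3 | h3
    · exact absurd (h3 ▸ hrd) hm
    · exact h3
  obtain ⟨b, hb⟩ := h2
  exact CfsgH4.burnside_pq Nat.prime_two Nat.prime_three _ G a b rfl (by rw [hcard, hb])

/-- A finite group in which every element has order dividing `6` has `2`-length at most `1` and `3`-length at most `1`. -/
theorem result {G : Type*} [Group G] [Finite G] (h : ∀ x : G, x ^ 6 = 1) : Cfsg.PLengthLE 2 1 G ∧ Cfsg.PLengthLE 3 1 G := by

  haveI hf2 : Fact (Nat.Prime 2) := ⟨Nat.prime_two⟩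
  haveI hf3 : Fact (Nat.Prime 3) := ⟨Nat.prime_three⟩
  have hs := solv h
  constructor
  · have hsol : Cfsg.IsPSolvable 2 G := CfsgH1.isPSolvable_of_isSolvable _ G rfl hs
    obtain ⟨S⟩ := (inferInstance : Nonempty (Sylow 2 G))
    have hcomm : ∀ a b : (S : Subgroup G), a * b = b * a := by
      have hsq : ∀ a : (S : Subgroup G), a * a = 1 := by
        intro a
        obtain ⟨k, hk⟩ := S.2 a
        have h1 := order_div h Nat.prime_two Nat.prime_three (by norm_num) (by norm_num) (a := (a : G)) (k := k) (by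
          rw [← Subgroup.coe_pow, hk]; rfl)
        apply Subtype.ext
        rw [Subgroup.coe_mul, ← sq]
        exact h1
      intro a b
      have h1 := hsq (a * b)
      have h2 : a⁻¹ = a := inv_eq_of_mul_eq_one_right (hsq a)
      have h3 : b⁻¹ = b := inv_eq_of_mul_eq_one_right (hsq b)
      have h4 : (a * b)⁻¹ = a * b := inv_eq_of_mul_eq_one_right h1
      rw [mul_inv_rev, h2, h3] at h4
      exact h4.symm
    have h5 := CfsgH1.ucs_le hsol S 1
    have h6 : Subgroup.upperCentralSeries ↥(S : Subgroup G) 1 = ⊤ := by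
      rw [Subgroup.upperCentralSeries_one, eq_top_iff]
      intro x _
      rw [Subgroup.mem_center_iff]
      intro g
      exact hcomm g x
    rw [h6, ← MonoidHom.range_eq_map, Subgroup.range_subtype] at h5
    exact CfsgH1.UU_top_of_sylow_le S 1 h5
  · have hsol : Cfsg.IsPSolvable 3 G := CfsgH1.isPSolvable_of_isSolvable _ G rfl hs
    refine CfsgH1.plen_exp _ G 3 rfl hsol ?_ 1 ?_
    · intro q hq hq3 Q hQ a ha b hb
      have hsq : ∀ a ∈ Q, a * a = 1 := by
        intro a ha
        obtain ⟨k, hk⟩ := hQ ⟨a, ha⟩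
        have h1 := order_div h hq Nat.prime_three hq3 (by norm_num) (a := a) (k := k) (congrArg Subtype.val hk)
        rw [← sq]; exact h1
      have h1 := hsq (a * b) (Q.mul_mem ha hb)
      have h2 : a⁻¹ = a := inv_eq_of_mul_eq_one_right (hsq a ha)
      have h3 : b⁻¹ = b := inv_eq_of_mul_eq_one_right (hsq b hb)
      have h4 : (a * b)⁻¹ = a * b := inv_eq_of_mul_eq_one_right h1
      rw [mul_inv_rev, h2, h3] at h4
      exact h4.symm
    · rintro x ⟨k, hk⟩
      have h1 := order_div h Nat.prime_three Nat.prime_two (by norm_num) (by norm_num) hk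
      rw [pow_one]; exact h1

end Cfsg.Agent.S4227
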