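import Mathlib
import Cfsg.Statements.S4275

set_option autoImplicit false
open Cfsg

namespace Cfsg.Agent.S4275

open scoped Pointwise

/-- Let G be a transitive group of permutations of a finite set Ω, let o ∈ Ω, and let α be an automorphism of G. Then α is induced by conjugation by a permutation of Ω normalizing G if and only if the image under α of the stabilizer of o fixes some point of Ω. -/
theorem result {Ω : Type*} [Fintype Ω] (G : Subgroup (Equiv.Perm Ω)) (htr : MulAction.IsPretransitive G Ω) (o : Ω) (α : G ≃* G) : (∃ σ : Equiv.Perm Ω, σ ∈ Subgroup.normalizer (G : Set (Equiv.Perm Ω)) ∧ ∀ g : G, ((α g : G) : Equiv.Perm Ω) = σ * (g : Equiv.Perm Ω) * σ⁻¹) ↔ ∃ ω : Ω, ∀ g ∈ (MulAction.stabilizer G o).map α.toMonoidHom, g • ω = ω := by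
  classical
  haveI := htr
  constructor
  · rintro ⟨σ, hσ, h⟩
    refine ⟨σ o, ?_⟩
    rintro g ⟨g', hg', rfl⟩
    have h1 : (g' : Equiv.Perm Ω) o = o := hg'
    change ((α g' : G) : Equiv.Perm Ω) (σ o) = σ o
    rw [h]
    simp [h1]
  · rintro ⟨ω, hω⟩
    have hωst : ∀ g : G, g • o = o ↔ (α g) • ω = ω := by
      have h1 : (MulAction.stabilizer G o).map α.toMonoidHom ≤ MulAction.stabilizer G ω := by
        intro g hg
        exact hω g hg
      have h2 : (MulAction.stabilizer G o).map α.toMonoidHom = MulAction.stabilizer G ω := by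
        apply Subgroup.eq_of_le_of_card_ge h1
        have h3 : Nat.card ((MulAction.stabilizer G o).map α.toMonoidHom) = Nat.card (MulAction.stabilizer G o) :=
          (Nat.card_congr (α.subgroupMap (MulAction.stabilizer G o)).toEquiv).symm
        rw [h3]
        have h4 : ∀ a : Ω, (MulAction.stabilizer G a).index = Fintype.card Ω := by
          intro a
          rw [MulAction.index_stabilizer_of_transitive, Nat.card_eq_fintype_card]
        have h5 := Subgroup.card_mul_index (MulAction.stabilizer G o)
        have h6 := Subgroup.card_mul_index (MulAction.stabilizer G ω)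
        rw [h4] at h5 h6
        have h7 : 0 < Fintype.card Ω := Fintype.card_pos_iff.2 ⟨o⟩
        exact (Nat.eq_of_mul_eq_mul_right h7 (h6.trans h5.symm)).le
      intro g
      constructor
      · intro hg
        exact hω _ ⟨g, hg, rfl⟩
      · intro hg
        have h3 : α g ∈ (MulAction.stabilizer G o).map α.toMonoidHom := by rw [h2]; exact hg
        obtain ⟨g', hg', he⟩ := h3
        have h4 : g' = g := α.injective he
        rw [← h4]
        exact hg'
    have hex : ∀ a : Ω, ∃ g : G, g • o = a := fun a => MulAction.exists_smul_eq G o a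
    choose t ht using hex
    have hwd : ∀ (g : G), (α g) • ω = (α (t (g • o))) • ω := by
      intro g
      have h1 : (g⁻¹ * t (g • o)) • o = o := by
        rw [mul_smul, ht, inv_smul_smul]
      have h2 := (hωst _).1 h1
      rw [map_mul, map_inv, mul_smul, inv_smul_eq_iff] at h2
      exact h2.symm
    let s : Ω → Ω := fun a => (α (t a)) • ω
    have hs : ∀ g : G, s (g • o) = (α g) • ω := fun g => (hwd g).symm
    have hinj : Function.Injective s := by
      intro a b hab
      have h1 : (α (t a)) • ω = (α (t b)) • ω := hab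
      have h2 : (α ((t b)⁻¹ * t a)) • ω = ω := by
        rw [map_mul, map_inv, mul_smul, h1, inv_smul_smul]
      have h3 := (hωst _).2 h2
      rw [mul_smul, inv_smul_eq_iff, ht, ht] at h3
      exact h3
    let σ : Equiv.Perm Ω := Equiv.ofBijective s (Finite.injective_iff_bijective.1 hinj)
    have hσ : ∀ g : G, ((α g : G) : Equiv.Perm Ω) = σ * (g : Equiv.Perm Ω) * σ⁻¹ := by
      intro g
      rw [eq_mul_inv_iff_mul_eq]
      ext a
      change (α g) • s a = s (g • a)
      obtain ⟨b, rfl⟩ := MulAction.exists_smul_eq G o a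
      rw [hs, ← mul_smul, ← mul_smul, hs, map_mul]
    refine ⟨σ, ?_, hσ⟩
    rw [Subgroup.mem_normalizer_iff]
    intro g
    constructor
    · intro hg
      rw [← hσ ⟨g, hg⟩]
      exact SetLike.coe_mem _
    · intro hg
      have h1 := hσ (α.symm ⟨_, hg⟩)
      rw [MulEquiv.apply_symm_apply] at h1
      have h2 : σ * g * σ⁻¹ = σ * ((α.symm ⟨_, hg⟩ : G) : Equiv.Perm Ω) * σ⁻¹ := h1
      have h3 := mul_left_cancel (mul_right_cancel h2)
      rw [h3]
      exact SetLike.coe_mem _

end Cfsg.Agent.S4275
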