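import Mathlib
import Cfsg.Agent.S0035
import Cfsg.Agent.H1.FrobConj
import Cfsg.Agent.H3.PBasic
import Cfsg.Agent.H3.Count
import Cfsg.Statements.S4283

set_option autoImplicit false
open Cfsg

namespace Cfsg.Agent.S4283

open scoped Pointwise

/-- Let G be a finite group with centre Z and let K, H be abelian subgroups of G containing Z such that G/Z is a Frobenius group with complement H/Z and kernel K/Z. Then the conjugacy class sizes of G are exactly 1, [G : K] and [G : H], and these two indices are coprime. (This is the converse half of the characterization of finite groups whose conjugacy class sizes are exactly 1, m and n with m and n coprime.) -/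
theorem result {G : Type*} [Group G] [Finite G] (K H : Subgroup G) (hZK : Subgroup.center G ≤ K) (hZH : Subgroup.center G ≤ H) (hK : IsMulCommutative K) (hH : IsMulCommutative H) (hFrob : Cfsg.IsFrobeniusComplement (H.map (QuotientGroup.mk' (Subgroup.center G)))) (hker : Cfsg.frobeniusKernel (H.map (QuotientGroup.mk' (Subgroup.center G))) = (K.map (QuotientGroup.mk' (Subgroup.center G)) : Set (G ⧸ Subgroup.center G))) : Set.range (fun x : G => (Subgroup.centralizer ({x} : Set G)).index) = ({1, K.index, H.index} : Set ℕ) ∧ K.index.Coprime H.index := by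
  classical
  set Z := Subgroup.center G with hZ
  set π := QuotientGroup.mk' Z with hπ
  have hπs : Function.Surjective π := QuotientGroup.mk'_surjective Z
  have hker' : π.ker = Z := QuotientGroup.ker_mk' Z
  set Hb := H.map π with hHb
  set Kb := K.map π with hKb
  have hTI := hFrob.2.2
  obtain ⟨N, hN, hNn, hNc⟩ := Cfsg.Agent.S0035.result Hb hFrob
  have hNK : N = Kb := by
    apply SetLike.coe_injective
    rw [hN, hker]
  subst hNK
  have hmemK : ∀ x : G, π x ∈ Kb ↔ x ∈ K := by
    intro x
    constructor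
    · rintro ⟨y, hy, hyx⟩
      have h1 : y⁻¹ * x ∈ Z := by
        rw [← hker', MonoidHom.mem_ker, map_mul, map_inv, hyx, inv_mul_cancel]
      have h2 : x = y * (y⁻¹ * x) := by group
      rw [h2]
      exact K.mul_mem hy (hZK h1)
    · intro hx
      exact ⟨x, hx, rfl⟩
  have hmemH : ∀ x : G, π x ∈ Hb ↔ x ∈ H := by
    intro x
    constructor
    · rintro ⟨y, hy, hyx⟩
      have h1 : y⁻¹ * x ∈ Z := by
        rw [← hker', MonoidHom.mem_ker, map_mul, map_inv, hyx, inv_mul_cancel]
      have h2 : x = y * (y⁻¹ * x) := by group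
      rw [h2]
      exact H.mul_mem hy (hZH h1)
    · intro hx
      exact ⟨x, hx, rfl⟩
  have hdisj : ∀ x : G ⧸ Z, x ∈ Kb → x ∈ Hb → x = 1 := by
    intro x h1 h2
    have h3 := hNc.disjoint
    exact Subgroup.disjoint_def.1 h3 h1 h2
  have hmemZ : ∀ x : G, π x = 1 ↔ x ∈ Z := by
    intro x
    exact QuotientGroup.eq_one_iff x
  -- TI consequence
  have hcent : ∀ (x y g : G ⧸ Z), x ≠ 1 → x ∈ MulAut.conj g • Hb → x * y = y * x → y ∈ MulAut.conj g • Hb := by
    intro x y g hx hxg hxy
    rw [CfsgH3.mem_conj_smul_iff] at hxg ⊢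
    by_contra hy
    have h1 := hTI _ hy
    have h2 : g⁻¹ * x * g ∈ Hb ⊓ (MulAut.conj (g⁻¹ * y * g) • Hb) := by
      refine Subgroup.mem_inf.2 ⟨hxg, ?_⟩
      rw [CfsgH3.mem_conj_smul_iff]
      have h3 : (g⁻¹ * y * g)⁻¹ * (g⁻¹ * x * g) * (g⁻¹ * y * g) = g⁻¹ * (y⁻¹ * (x * y)) * g := by group
      rw [h3, hxy, inv_mul_cancel_left]
      exact hxg
    rw [h1, Subgroup.mem_bot] at h2
    apply hx
    have h4 : x = g * (g⁻¹ * x * g) * g⁻¹ := by group
    rw [h4, h2]
    group
  have hcomm : ∀ (x y : G), y ∈ Subgroup.centralizer ({x} : Set G) → x * y = y * x := fun x y h =>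
    Subgroup.mem_centralizer_iff.1 h x rfl
  have hA : ∀ x : G, x ∈ K → x ∉ Z → Subgroup.centralizer ({x} : Set G) = K := by
    intro x hx hxZ
    apply le_antisymm
    · intro y hy
      rw [← hmemK]
      by_contra hyK
      have h1 : ¬ (π y) ∈ Cfsg.frobeniusKernel Hb := by
        rw [← hN]
        exact hyK
      have h2 : ¬ (π y = 1 ∨ ∀ g : G ⧸ Z, π y ∉ MulAut.conj g • Hb) := h1
      push Not at h2
      obtain ⟨hy1, g, hg⟩ := h2
      have h3 := hcent (π y) (π x) g hy1 hg (by rw [← map_mul, ← map_mul, hcomm x y hy])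
      rw [CfsgH3.mem_conj_smul_iff] at h3
      have h4 : g⁻¹ * π x * g ∈ Kb := by
        have := hNn.conj_mem (π x) ((hmemK x).2 hx) g⁻¹
        rwa [inv_inv] at this
      have h5 := hdisj _ h4 h3
      apply hxZ
      rw [← hmemZ]
      have h6 : π x = g * (g⁻¹ * π x * g) * g⁻¹ := by group
      rw [h6, h5]
      group
    · intro y hy
      rw [Subgroup.mem_centralizer_iff]
      intro z hz
      rw [Set.mem_singleton_iff.1 hz]
      exact congrArg Subtype.val (hK.is_comm.comm (⟨x, hx⟩ : K) ⟨y, hy⟩)
  have hB : ∀ x : G, x ∉ K → (Subgroup.centralizer ({x} : Set G)).index = H.index := by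
    intro x hxK
    have h1 : ¬ (π x) ∈ Cfsg.frobeniusKernel Hb := by
      rw [← hN]
      exact fun h => hxK ((hmemK x).1 h)
    have h2 : ¬ (π x = 1 ∨ ∀ g : G ⧸ Z, π x ∉ MulAut.conj g • Hb) := h1
    push Not at h2
    obtain ⟨hx1, g, hg⟩ := h2
    obtain ⟨g, rfl⟩ := hπs g
    have h3 : Subgroup.centralizer ({x} : Set G) = MulAut.conj g • H := by
      ext y
      constructor
      · intro hy
        have h4 := hcent (π x) (π y) (π g) hx1 hg (by rw [← map_mul, ← map_mul, hcomm x y hy])
        rw [CfsgH3.mem_conj_smul_iff] at h4 ⊢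
        rwa [← map_inv, ← map_mul, ← map_mul, hmemH] at h4
      · intro hy
        rw [CfsgH3.mem_conj_smul_iff] at hy hg
        rw [← map_inv, ← map_mul, ← map_mul, hmemH] at hg
        have h5 : (g⁻¹ * x * g) * (g⁻¹ * y * g) = (g⁻¹ * y * g) * (g⁻¹ * x * g) :=
          congrArg Subtype.val (hH.is_comm.comm (⟨_, hg⟩ : H) ⟨_, hy⟩)
        rw [Subgroup.mem_centralizer_iff]
        intro z hz
        rw [Set.mem_singleton_iff.1 hz]
        have h6 : x * y = g * ((g⁻¹ * x * g) * (g⁻¹ * y * g)) * g⁻¹ := by group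
        rw [h6, h5]
        group
    rw [h3]
    exact Subgroup.index_map_equiv H (MulAut.conj g)
  have hZK' : ∃ x ∈ K, x ∉ Z := by
    by_contra hcon
    push Not at hcon
    have h1 : Kb = ⊥ := by
      rw [eq_bot_iff]
      rintro _ ⟨x, hx, rfl⟩
      exact Subgroup.mem_bot.2 ((hmemZ x).2 (hcon x hx))
    have h2 := hNc.sup_eq_top
    rw [h1, bot_sup_eq] at h2
    exact hFrob.2.1 h2
  have hZH' : ∃ x ∈ H, x ∉ Z := by
    by_contra hcon
    push Not at hcon
    apply hFrob.1
    rw [eq_bot_iff]
    rintro _ ⟨x, hx, rfl⟩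
    exact Subgroup.mem_bot.2 ((hmemZ x).2 (hcon x hx))
  constructor
  · ext m
    constructor
    · rintro ⟨x, rfl⟩
      by_cases hxZ : x ∈ Z
      · left
        change (Subgroup.centralizer ({x} : Set G)).index = 1
        rw [Subgroup.index_eq_one, CfsgH3.centralizer_singleton_eq_top_iff]
        exact hxZ
      · right
        by_cases hxK : x ∈ K
        · left
          change (Subgroup.centralizer ({x} : Set G)).index = K.index
          rw [hA x hxK hxZ]
        · right
          exact hB x hxK
    · rintro (h | h | h)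
      · refine ⟨1, ?_⟩
        change (Subgroup.centralizer ({(1 : G)} : Set G)).index = m
        rw [h, Subgroup.index_eq_one, CfsgH3.centralizer_singleton_eq_top_iff]
        exact Subgroup.one_mem _
      · obtain ⟨x, hxK, hxZ⟩ := hZK'
        refine ⟨x, ?_⟩
        change (Subgroup.centralizer ({x} : Set G)).index = m
        rw [h, hA x hxK hxZ]
      · obtain ⟨x, hxH, hxZ⟩ := hZH'
        refine ⟨x, ?_⟩
        change (Subgroup.centralizer ({x} : Set G)).index = m
        rw [h]
        apply hB
        intro hxK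
        apply hxZ
        rw [← hmemZ]
        exact hdisj _ ((hmemK x).2 hxK) ((hmemH x).2 hxH)
  · have h1 : K.index = Kb.index := by
      rw [hKb, Subgroup.index_map_eq _ hπs (by rw [hker']; exact hZK)]
    have h2 : H.index = Hb.index := by
      rw [hHb, Subgroup.index_map_eq _ hπs (by rw [hker']; exact hZH)]
    have h3 : Kb.index = Nat.card Hb := by
      have h4 := hNc.card_mul
      rw [← Subgroup.card_mul_index Kb] at h4
      exact (Nat.eq_of_mul_eq_mul_left Nat.card_pos h4).symm
    rw [h1, h2, h3]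
    exact CfsgH1.coprime_index_of_ti hTI

end Cfsg.Agent.S4283
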