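import Mathlib
import Cfsg.Agent.H3.TwoSq
import Cfsg.Statements.S4295

set_option autoImplicit false
open Cfsg

namespace Cfsg.Agent.S4295

theorem aux_fwd {L : Type} [Group L] [Finite L] (H : Subgroup L) (hF : Cfsg.IsFrobeniusComplement H) 
    (e : H ≃* QuaternionGroup 2) : Odd (Nat.card (Cfsg.frobeniusKernel H)) ∧ IsSquare (Nat.card (Cfsg.frobeniusKernel H)) ∧ 
      1 < Nat.card (Cfsg.frobeniusKernel H) := by
  obtain ⟨hidx, hmod⟩ := Cfsg.Agent.S0034.result H hF
  obtain ⟨i, j, z, h1, h2, h3, h4, h5⟩ := CfsgH3.exists_quat_elems (n := 1) one_ne_zero e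
  have hval : ∀ {x y : H}, x = y → ((x : L)) = (y : L) := fun h => by rw [h]
  have h6 := CfsgH3.frob_card_square H hF (i := (i : L)) (j := (j : L)) (z := (z : L)) (SetLike.coe_mem _) (SetLike.coe_mem _) 
    (hval h1) (hval h2) (hval h3) (fun h => h4 (Subtype.ext h)) (hval h5)
  refine ⟨h6.1, h6.2, ?_⟩
  rw [hidx]
  have h7 : H.index ≠ 1 := fun h => hF.2.1 (Subgroup.index_eq_one.1 h)
  have h8 : H.index ≠ 0 := Subgroup.index_ne_zero_of_finite
  omega

def iHom (s : ℕ) : (ZMod s × ZMod s) ≃+ (ZMod s × ZMod s) where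
  toFun v := (-v.2, v.1)
  invFun v := (v.2, -v.1)
  left_inv v := by ext <;> simp
  right_inv v := by ext <;> simp
  map_add' v w := by ext <;> simp [add_comm]

def jHom (s : ℕ) (a b : ZMod s) (h : a ^ 2 + b ^ 2 = -1) : (ZMod s × ZMod s) ≃+ (ZMod s × ZMod s) where
  toFun v := (a * v.1 + b * v.2, b * v.1 - a * v.2)
  invFun v := (-(a * v.1 + b * v.2), -(b * v.1 - a * v.2))
  left_inv v := by
    ext
    · linear_combination (-v.1) * h
    · linear_combination (-v.2) * h
  right_inv v := by
    ext
    · linear_combination (-v.1) * h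
    · linear_combination (-v.2) * h
  map_add' v w := by
    ext
    · simp; ring
    · simp; ring

/-- For a natural number m the following are equivalent: (a) some finite group has a Frobenius complement isomorphic to the quaternion group of order 8 whose Frobenius kernel (the identity together with the elements lying in no conjugate of the complement) has exactly m elements; (b) m is an odd perfect square greater than 1. -/
theorem result (m : ℕ) :
    (∃ (L : Type) (_ : Group L) (_ : Finite L) (H : Subgroup L), Cfsg.IsFrobeniusComplement H ∧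
        Nonempty (H ≃* QuaternionGroup 2) ∧ Nat.card (Cfsg.frobeniusKernel H) = m) ↔
    (Odd m ∧ IsSquare m ∧ 1 < m) := by
  constructor
  · rintro ⟨L, _, _, H, hF, ⟨e⟩, rfl⟩
    exact aux_fwd H hF e
  · rintro ⟨hodd, ⟨s, rfl⟩, h1⟩
    have hs : Odd s := (Nat.odd_mul.1 hodd).1
    have hs1 : s ≠ 1 := by rintro rfl; omega
    have hs0 : s ≠ 0 := by rintro rfl; simp at h1
    haveI : NeZero s := ⟨hs0⟩
    haveI : Fact (1 < s) := ⟨by omega⟩
    obtain ⟨a, b, hab⟩ := CfsgH3.neg_one_two_squares hs
    have hab' : ((a : ZMod s)) ^ 2 + (b : ZMod s) ^ 2 = -1 := by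
      have : ((a ^ 2 + b ^ 2 + 1 : ℕ) : ZMod s) = 0 := (ZMod.natCast_eq_zero_iff _ _).2 hab
      push_cast at this
      linear_combination this
    let I : MulAut (Multiplicative (ZMod s × ZMod s)) := AddEquiv.toMultiplicative (iHom s)
    let J : MulAut (Multiplicative (ZMod s × ZMod s)) := AddEquiv.toMultiplicative (jHom s a b hab')
    have hI2 : ∀ v : ZMod s × ZMod s, (I ^ 2) (Multiplicative.ofAdd v) = Multiplicative.ofAdd (-v) := by
      intro v; rw [pow_two]; rfl
    have hI4 : I ^ (2 * 2) = 1 := by
      rw [pow_mul]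
      apply MulEquiv.ext
      intro v
      obtain ⟨v, rfl⟩ := Multiplicative.ofAdd.surjective v
      rw [pow_two (I ^ 2), MulAut.mul_apply, hI2, hI2, neg_neg]; rfl
    have hJ2 : J * J = I ^ 2 := by
      apply MulEquiv.ext
      intro v
      obtain ⟨v, rfl⟩ := Multiplicative.ofAdd.surjective v
      rw [hI2]
      apply congrArg Multiplicative.ofAdd
      ext
      · show (a : ZMod s) * (a * v.1 + b * v.2) + b * (b * v.1 - a * v.2) = - v.1
        linear_combination v.1 * hab'
      · show (b : ZMod s) * (a * v.1 + b * v.2) - a * (b * v.1 - a * v.2) = - v.2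
        linear_combination v.2 * hab'
    have hJI : J * I * J⁻¹ = I⁻¹ := by
      rw [mul_inv_eq_iff_eq_mul, eq_inv_mul_iff_mul_eq]
      apply MulEquiv.ext
      intro v
      obtain ⟨v, rfl⟩ := Multiplicative.ofAdd.surjective v
      apply congrArg Multiplicative.ofAdd
      ext
      · show -((b : ZMod s) * (-v.2) - a * v.1) = a * v.1 + b * v.2
        ring
      · show ((a : ZMod s) * (-v.2) + b * v.1) = b * v.1 - a * v.2
        ring
    let φ : QuaternionGroup 2 →* MulAut (Multiplicative (ZMod s × ZMod s)) := CfsgH3.quatHom 2 I J hI4 hJ2 hJI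
    have hneg : ∀ v : ZMod s × ZMod s, -v = v → v = 0 := by
      have h2 : IsUnit (2 : ZMod s) := by
        have := (ZMod.isUnit_iff_coprime 2 s).2 (Nat.coprime_two_left.2 hs)
        exact_mod_cast this
      intro v hv
      have e1 : (2 : ZMod s) * v.1 = 0 := by
        have := congrArg Prod.fst hv
        rw [Prod.fst_neg] at this
        linear_combination -this
      have e2 : (2 : ZMod s) * v.2 = 0 := by
        have := congrArg Prod.snd hv
        rw [Prod.snd_neg] at this
        linear_combination -this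
      ext
      · exact (h2.mul_right_eq_zero).1 e1
      · exact (h2.mul_right_eq_zero).1 e2
    have hz : ∀ h : QuaternionGroup 2, h ≠ 1 → h = QuaternionGroup.a 2 ∨ h * h = QuaternionGroup.a 2 := by decide
    have hφz : ∀ v : Multiplicative (ZMod s × ZMod s), φ (QuaternionGroup.a 2) v = v → v = 1 := by
      intro v hv
      have h3 : φ (QuaternionGroup.a 2) = I ^ 2 := CfsgH3.zmodPow_natCast (2 * 2) I hI4 2
      obtain ⟨v, rfl⟩ := Multiplicative.ofAdd.surjective v
      rw [h3, hI2] at hv
      exact congrArg Multiplicative.ofAdd (hneg v (Multiplicative.ofAdd.injective hv))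
    have hfpf : ∀ h : QuaternionGroup 2, h ≠ 1 → ∀ n : Multiplicative (ZMod s × ZMod s), φ h n = n → n = 1 := by
      intro h hh n hn
      rcases hz h hh with rfl | h2
      · exact hφz n hn
      · apply hφz
        rw [← h2, map_mul, MulAut.mul_apply, hn, hn]
    haveI : Finite (Multiplicative (ZMod s × ZMod s) ⋊[φ] QuaternionGroup 2) := 
      Finite.of_equiv (Multiplicative (ZMod s × ZMod s) × QuaternionGroup 2) (SemidirectProduct.equivProd).symm
    have hF := CfsgH3.frob_semidirect φ hfpf
    refine ⟨Multiplicative (ZMod s × ZMod s) ⋊[φ] QuaternionGroup 2, inferInstance, inferInstance, _, hF, 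
      ⟨(MonoidHom.ofInjective SemidirectProduct.inr_injective).symm⟩, ?_⟩
    rw [(Cfsg.Agent.S0034.result _ hF).1]
    have h5 := Subgroup.card_mul_index (SemidirectProduct.inr : QuaternionGroup 2 →* Multiplicative (ZMod s × ZMod s) ⋊[φ] QuaternionGroup 2).range
    have h6 : Nat.card (SemidirectProduct.inr : QuaternionGroup 2 →* Multiplicative (ZMod s × ZMod s) ⋊[φ] QuaternionGroup 2).range = 8 := by
      rw [← Nat.card_congr (MonoidHom.ofInjective SemidirectProduct.inr_injective).toEquiv, Nat.card_eq_fintype_card]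
      decide
    have h7 : Nat.card (Multiplicative (ZMod s × ZMod s) ⋊[φ] QuaternionGroup 2) = s * s * 8 := by
      rw [Nat.card_congr SemidirectProduct.equivProd, Nat.card_prod]
      congr 1
      · rw [Nat.card_congr Multiplicative.toAdd, Nat.card_prod, Nat.card_zmod]
      · rw [Nat.card_eq_fintype_card]; decide
    rw [h6, h7] at h5
    omega

end Cfsg.Agent.S4295
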