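import Mathlib
import Cfsg.Agent.H3.TwoSq
import Cfsg.Agent.S0040
import Cfsg.Statements.S4296

set_option autoImplicit false
open Cfsg

namespace Cfsg.Agent.S4296

/-- Let H be a Frobenius complement in a finite group, and suppose some Sylow subgroup of H is not cyclic. Then the number of elements of the Frobenius kernel (the identity together with the elements lying in no conjugate of H) is an odd perfect square. -/
theorem result {L : Type*} [Group L] [Finite L] (H : Subgroup L) (hF : Cfsg.IsFrobeniusComplement H)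
    (hZ : ∃ (p : ℕ) (_ : Fact p.Prime) (P : Sylow p H), ¬ IsCyclic P) :
    Odd (Nat.card (Cfsg.frobeniusKernel H)) ∧ IsSquare (Nat.card (Cfsg.frobeniusKernel H)) := by
  obtain ⟨N, hN, hNn, hNc⟩ := Cfsg.Agent.S0035.result H hF
  obtain ⟨hidx, hmod⟩ := Cfsg.Agent.S0034.result H hF
  have hcard : Nat.card (Cfsg.frobeniusKernel H) = Nat.card N := by rw [← hN]; rfl
  have hNbot : N ≠ ⊥ := by
    intro h
    apply hF.2.1
    rw [← Subgroup.index_eq_one, ← hidx, hcard, h, Subgroup.card_bot]
  have hfpf := (Cfsg.Agent.S0039.result N H hNc hNbot hF.1).1 hF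
  obtain ⟨p, hp, P, hP⟩ := hZ
  rcases Cfsg.Agent.S0040.result N H hNc hNbot hfpf p P with h | ⟨n, ⟨e⟩⟩
  · exact absurd h hP
  have hn : n ≠ 0 := by
    rintro rfl
    apply hP
    haveI : IsCyclic (QuaternionGroup (2 ^ 0)) := by
      have : Nat.card (QuaternionGroup (2 ^ 0)) = 4 := by
        rw [Nat.card_eq_fintype_card]; decide
      refine isCyclic_of_orderOf_eq_card (QuaternionGroup.xa 0) ?_
      rw [this]
      exact QuaternionGroup.orderOf_xa 0
    exact isCyclic_of_surjective e.symm e.symm.surjective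
  obtain ⟨i, j, z, h1, h2, h3, h4, h5⟩ := CfsgH3.exists_quat_elems hn e
  have hval : ∀ {x y : P}, x = y → (((x : H) : L)) = ((y : H) : L) := fun h => by rw [h]
  refine CfsgH3.frob_card_square H hF (i := ((i : H) : L)) (j := ((j : H) : L)) (z := ((z : H) : L)) (SetLike.coe_mem _) (SetLike.coe_mem _) 
    (hval h1) (hval h2) (hval h3) ?_ (hval h5)
  intro h
  exact h4 (Subtype.ext (Subtype.ext h))

end Cfsg.Agent.S4296
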