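import Mathlib
import Cfsg.Agent.H3.SemiFrob
import Cfsg.Agent.H3.Dih
import Cfsg.Statements.S4297

set_option autoImplicit false
open Cfsg

namespace Cfsg.Agent.S4297

open Matrix

/-- For every n ≥ 2 the dicyclic group of order 4n (generated by an element a of order 2n and an element x with x² = aⁿ and x a x⁻¹ = a⁻¹) occurs as a Frobenius complement of some finite Frobenius group. -/
theorem result (n : ℕ) (hn : 2 ≤ n) :
    ∃ (L : Type) (_ : Group L) (_ : Finite L) (H : Subgroup L), Cfsg.IsFrobeniusComplement H ∧ Nonempty (H ≃* QuaternionGroup n) := by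
  classical
  obtain ⟨p, hp, hgt, hmod⟩ := Nat.exists_prime_gt_modEq_one (k := 2 * n) (4 * n) (by omega)
  haveI : Fact p.Prime := ⟨hp⟩
  have hdvd : 2 * n ∣ p - 1 := (Nat.modEq_iff_dvd' hp.one_lt.le).1 hmod.symm
  obtain ⟨u, hu⟩ := CfsgH3.exists_unit_order hdvd
  have hun : (u : ZMod p) ^ n = -1 := by
    have h1 : u ^ (2 * n) = 1 := by rw [← hu]; exact pow_orderOf_eq_one u
    have h2 : ((u : ZMod p) ^ n - 1) * ((u : ZMod p) ^ n + 1) = 0 := by
      have h3 : (u : ZMod p) ^ (2 * n) = 1 := by rw [← Units.val_pow_eq_pow_val, h1]; rfl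
      have h4 : (u : ZMod p) ^ (2 * n) = (u : ZMod p) ^ n * (u : ZMod p) ^ n := by rw [two_mul, pow_add]
      rw [h4] at h3
      linear_combination h3
    rcases mul_eq_zero.1 h2 with h3 | h3
    · exfalso
      have h4 : u ^ n = 1 := Units.ext (by rw [Units.val_pow_eq_pow_val]; exact sub_eq_zero.1 h3)
      have h5 := orderOf_dvd_of_pow_eq_one h4
      rw [hu] at h5
      have := Nat.le_of_dvd (by omega) h5
      omega
    · exact eq_neg_of_add_eq_zero_left h3
  set D := CfsgH3.sl2diag (ZMod p) with hD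
  set x := CfsgH3.sl2w (ZMod p) with hx
  have hc : orderOf (D u) = 2 * n := by rw [orderOf_injective D (CfsgH3.sl2diag_injective _), hu]
  have hx2 : x * x = (D u) ^ n := by
    rw [← map_pow]
    exact CfsgH3.sl2w_mul _ _ (by rw [Units.val_pow_eq_pow_val]; exact hun)
  have hxc : x * D u * x⁻¹ = (D u)⁻¹ := CfsgH3.sl2w_conj _ _
  have hxn : x ∉ Subgroup.zpowers (D u) := CfsgH3.sl2w_notMem _ _
  obtain ⟨e⟩ := CfsgH3.nonempty_quaternion_equiv n (D u) x hc hx2 hxc hxn
  haveI : NeZero n := ⟨by omega⟩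
  apply CfsgH3.exists_frob_sl2 (p := p) (Subgroup.closure {D u, x}) ?_ ?_ e
  · intro h
    have h1 : D u ∈ Subgroup.closure {D u, x} := Subgroup.subset_closure (by simp)
    rw [h, Subgroup.mem_bot] at h1
    rw [h1, orderOf_one] at hc
    omega
  · rw [Nat.card_congr e.toEquiv, Nat.card_eq_fintype_card, QuaternionGroup.card]
    apply Nat.Coprime.symm
    rw [Nat.Prime.coprime_iff_not_dvd hp]
    intro h
    have := Nat.le_of_dvd (by omega) h
    omega

end Cfsg.Agent.S4297
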