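import Mathlib
import Cfsg.Agent.H3.SemiFrob
import Cfsg.Statements.S4298

set_option autoImplicit false
open Cfsg

namespace Cfsg.Agent.S4298

open Matrix
def tb : ℕ → (ZMod 5 × ZMod 5 × ZMod 5 × ZMod 5)
  | 15 => (0, 4, 1, 0)
  | 16 => (2, 4, 3, 4)
  | 17 => (3, 2, 1, 1)
  | 21 => (0, 1, 4, 0)
  | 22 => (2, 3, 4, 4)
  | 23 => (3, 1, 2, 1)
  | 28 => (1, 0, 0, 1)
  | 31 => (1, 2, 1, 3)
  | 34 => (3, 3, 4, 1)
  | 37 => (1, 1, 2, 3)
  | 41 => (0, 2, 2, 0)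
  | 42 => (4, 2, 1, 2)
  | 46 => (3, 4, 3, 1)
  | 48 => (4, 1, 2, 2)
  | 53 => (3, 0, 0, 2)
  | 56 => (4, 0, 0, 4)
  | 59 => (2, 2, 1, 4)
  | 62 => (4, 3, 4, 2)
  | 65 => (2, 1, 2, 4)
  | 67 => (2, 0, 0, 3)
  | 69 => (1, 4, 3, 3)
  | 74 => (4, 4, 3, 2)
  | 75 => (1, 3, 4, 3)
  | 79 => (0, 3, 3, 0)
  | _ => (0, 0, 0, 0)

def ff (a b c d : ZMod 3) : ZMod 5 × ZMod 5 × ZMod 5 × ZMod 5 := tb (a.val * 27 + b.val * 9 + c.val * 3 + d.val)

def mm (x y : ZMod 5 × ZMod 5 × ZMod 5 × ZMod 5) : ZMod 5 × ZMod 5 × ZMod 5 × ZMod 5 :=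
  (x.1 * y.1 + x.2.1 * y.2.2.1, x.1 * y.2.1 + x.2.1 * y.2.2.2, x.2.2.1 * y.1 + x.2.2.2 * y.2.2.1, x.2.2.1 * y.2.1 + x.2.2.2 * y.2.2.2)

theorem ff_mul : ∀ a b c d : ZMod 3, a * d - b * c = 1 → ∀ a' b' c' d' : ZMod 3, a' * d' - b' * c' = 1 →
    ff (a * a' + b * c') (a * b' + b * d') (c * a' + d * c') (c * b' + d * d') = mm (ff a b c d) (ff a' b' c' d') := by
  decide +kernel

theorem ff_det : ∀ a b c d : ZMod 3, a * d - b * c = 1 → (ff a b c d).1 * (ff a b c d).2.2.2 - (ff a b c d).2.1 * (ff a b c d).2.2.1 = 1 := by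
  decide +kernel

theorem ff_one' : ∀ a b c d : ZMod 3, a * d - b * c = 1 → (ff a b c d = (1, 0, 0, 1) ↔ (a, b, c, d) = (1, 0, 0, 1)) := by
  decide +kernel

theorem ff_one (a b c d : ZMod 3) (h : a * d - b * c = 1) (h' : ff a b c d = (1, 0, 0, 1)) : a = 1 ∧ b = 0 ∧ c = 0 ∧ d = 1 := by
  have h1 := (ff_one' a b c d h).1 h'
  simp only [Prod.mk.injEq] at h1
  exact h1

theorem card3 : Fintype.card (SpecialLinearGroup (Fin 2) (ZMod 3)) = 24 := by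
  decide +kernel

def toM (x : ZMod 5 × ZMod 5 × ZMod 5 × ZMod 5) : Matrix (Fin 2) (Fin 2) (ZMod 5) := !![x.1, x.2.1; x.2.2.1, x.2.2.2]

theorem toM_mul (x y : ZMod 5 × ZMod 5 × ZMod 5 × ZMod 5) : toM (mm x y) = toM x * toM y := by
  ext i j
  fin_cases i <;> fin_cases j <;> simp [toM, mm, Matrix.mul_apply, Fin.sum_univ_two]

theorem det2 (A : SpecialLinearGroup (Fin 2) (ZMod 3)) : A.1 0 0 * A.1 1 1 - A.1 0 1 * A.1 1 0 = 1 := by
  have h := A.2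
  rw [Matrix.det_fin_two] at h
  exact h

def F (A : SpecialLinearGroup (Fin 2) (ZMod 3)) : SpecialLinearGroup (Fin 2) (ZMod 5) :=
  ⟨toM (ff (A.1 0 0) (A.1 0 1) (A.1 1 0) (A.1 1 1)), by
    rw [Matrix.det_fin_two]
    exact ff_det _ _ _ _ (det2 A)⟩

theorem F_mul (A B : SpecialLinearGroup (Fin 2) (ZMod 3)) : F (A * B) = F A * F B := by
  apply Subtype.ext
  change toM (ff ((A.1 * B.1) 0 0) ((A.1 * B.1) 0 1) ((A.1 * B.1) 1 0) ((A.1 * B.1) 1 1)) =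
    toM (ff (A.1 0 0) (A.1 0 1) (A.1 1 0) (A.1 1 1)) * toM (ff (B.1 0 0) (B.1 0 1) (B.1 1 0) (B.1 1 1))
  rw [← toM_mul, ← ff_mul _ _ _ _ (det2 A) _ _ _ _ (det2 B)]
  simp only [Matrix.mul_apply, Fin.sum_univ_two]

theorem F_one : F 1 = 1 := by
  have h := F_mul 1 1
  rw [one_mul] at h
  exact (mul_eq_left.1 h.symm)

theorem F_inj : Function.Injective F := by
  let f : SpecialLinearGroup (Fin 2) (ZMod 3) →* SpecialLinearGroup (Fin 2) (ZMod 5) := ⟨⟨F, F_one⟩, F_mul⟩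
  have : Function.Injective f := by
    rw [injective_iff_map_eq_one]
    intro A hA
    have h1 : toM (ff (A.1 0 0) (A.1 0 1) (A.1 1 0) (A.1 1 1)) = 1 := congrArg Subtype.val hA
    have e00 := congrFun (congrFun h1 0) 0
    have e01 := congrFun (congrFun h1 0) 1
    have e10 := congrFun (congrFun h1 1) 0
    have e11 := congrFun (congrFun h1 1) 1
    simp [toM] at e00 e01 e10 e11
    obtain ⟨h2, h3, h4, h5⟩ := ff_one _ _ _ _ (det2 A) (Prod.ext e00 (Prod.ext e01 (Prod.ext e10 e11)))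
    apply Subtype.ext
    ext i j
    fin_cases i <;> fin_cases j <;> simp [h2, h3, h4, h5]
  exact this

/-- The group SL(2,3) of order 24 (the binary tetrahedral group) occurs as a Frobenius complement of some finite Frobenius group. -/
theorem result :
    ∃ (L : Type) (_ : Group L) (_ : Finite L) (H : Subgroup L), Cfsg.IsFrobeniusComplement H ∧ Nonempty (H ≃* Matrix.SpecialLinearGroup (Fin 2) (ZMod 3)) := by
  classical
  let f : SpecialLinearGroup (Fin 2) (ZMod 3) →* SpecialLinearGroup (Fin 2) (ZMod 5) := ⟨⟨F, F_one⟩, F_mul⟩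
  have hinj : Function.Injective f := F_inj
  haveI : Fact (Nat.Prime 5) := ⟨by norm_num⟩
  haveI : Fact (Nat.Prime 3) := ⟨by norm_num⟩
  have e := MonoidHom.ofInjective hinj
  apply CfsgH3.exists_frob_sl2 (F := ZMod 5) (p := 5) f.range ?_ ?_ e.symm
  · intro h
    have h2 : Nat.card f.range = 24 := by
      rw [← Nat.card_congr e.toEquiv, Nat.card_eq_fintype_card, card3]
    rw [h, Subgroup.card_bot] at h2
    omega
  · rw [← Nat.card_congr e.toEquiv, Nat.card_eq_fintype_card, card3]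
    norm_num

end Cfsg.Agent.S4298
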