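import Mathlib
import Cfsg.Agent.H3.SemiFrob
import Cfsg.Statements.S4299

set_option autoImplicit false
open Cfsg

namespace Cfsg.Agent.S4299

/-- Every nontrivial finite cyclic group occurs as a Frobenius complement of some finite Frobenius group. -/
theorem result {C : Type*} [Group C] [Finite C] [IsCyclic C] [Nontrivial C] :
    ∃ (L : Type) (_ : Group L) (_ : Finite L) (H : Subgroup L), Cfsg.IsFrobeniusComplement H ∧ Nonempty (C ≃* H) := by
  classical
  have hn : Nat.card C ≠ 0 := Nat.card_pos.ne'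
  obtain ⟨p, hp, -, hmod⟩ := Nat.exists_prime_gt_modEq_one (k := Nat.card C) 0 hn
  haveI : Fact p.Prime := ⟨hp⟩
  have hdvd : Nat.card C ∣ p - 1 := (Nat.modEq_iff_dvd' hp.one_lt.le).1 hmod.symm
  obtain ⟨u, hu⟩ := CfsgH3.exists_unit_order hdvd
  have hcard : Nat.card (Subgroup.zpowers u) = Nat.card C := by rw [Nat.card_zpowers, hu]
  haveI : Nontrivial (Subgroup.zpowers u) := by
    rw [← Finite.one_lt_card_iff_nontrivial, hcard]
    exact Finite.one_lt_card
  have e : Subgroup.zpowers u ≃* C := mulEquivOfCyclicCardEq hcard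
  obtain ⟨L, iL, fL, H, hH, ⟨f⟩⟩ := CfsgH3.exists_frob_distrib (A := ZMod p) (H := Subgroup.zpowers u) (by
    intro h hh a ha
    by_contra ha0
    apply hh
    apply Subtype.ext
    apply Units.ext
    have h1 : (((h : (ZMod p)ˣ) : ZMod p)) * a = a := ha
    have h2 : (((h : (ZMod p)ˣ) : ZMod p) - 1) * a = 0 := by rw [sub_mul, h1, one_mul, sub_self]
    rcases mul_eq_zero.1 h2 with h3 | h3
    · exact sub_eq_zero.1 h3
    · exact absurd h3 ha0) e
  exact ⟨L, iL, fL, H, hH, ⟨f.symm⟩⟩

end Cfsg.Agent.S4299
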