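import Mathlib
import Cfsg.Statements.S4300

set_option autoImplicit false
open Cfsg

namespace Cfsg.Agent.S4300

open scoped Pointwise

/-- Let G act faithfully and primitively on a set X, and suppose the stabilizer of some point is a simple group. Then either G is simple, or G has a normal subgroup, neither trivial nor the whole group, that acts regularly on X (transitively with trivial point stabilizers). -/
theorem result {G : Type*} [Group G] {X : Type*} [MulAction G X] [FaithfulSMul G X]
    (hprim : MulAction.IsPreprimitive G X) (x : X) (hsimple : IsSimpleGroup (MulAction.stabilizer G x)) :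
    IsSimpleGroup G ∨ ∃ N : Subgroup G, N.Normal ∧ N ≠ ⊥ ∧ N ≠ ⊤ ∧
      MulAction.IsPretransitive N X ∧ ∀ y : X, MulAction.stabilizer N y = ⊥ := by
  classical
  by_cases hs : IsSimpleGroup G
  · exact Or.inl hs
  · right
    haveI := hsimple
    haveI := hprim
    haveI : Nontrivial G := by
      obtain ⟨a, b, hab⟩ := exists_pair_ne (MulAction.stabilizer G x)
      exact ⟨a, b, fun h => hab (Subtype.ext h)⟩
    obtain ⟨N, hN, hN1, hN2⟩ : ∃ N : Subgroup G, N.Normal ∧ N ≠ ⊥ ∧ N ≠ ⊤ := by
      by_contra hcon
      push Not at hcon
      apply hs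
      exact ⟨fun N hN => by
        by_cases h : N = ⊥
        · exact Or.inl h
        · exact Or.inr (hcon N hN h)⟩
    haveI := hN
    -- N is transitive
    have hNt : MulAction.IsPretransitive N X := by
      apply MulAction.IsQuasiPreprimitive.isPretransitive_of_normal (G := G)
      intro h
      apply hN1
      rw [eq_bot_iff]
      intro n hn
      rw [Subgroup.mem_bot]
      apply FaithfulSMul.eq_of_smul_eq_smul (α := X)
      intro a
      rw [one_smul]
      have h1 : a ∈ MulAction.fixedPoints N X := by rw [h]; trivial
      exact h1 ⟨n, hn⟩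
    have h0 : (N.subgroupOf (MulAction.stabilizer G x)) = ⊥ := by
      rcases (inferInstance : (N.subgroupOf (MulAction.stabilizer G x)).Normal).eq_bot_or_eq_top with h | h
      · exact h
      · exfalso
        apply hN2
        rw [eq_top_iff]
        intro g _
        rw [Subgroup.subgroupOf_eq_top] at h
        obtain ⟨n, hn⟩ := hNt.exists_smul_eq x (g • x)
        have h1 : (n : G)⁻¹ * g ∈ MulAction.stabilizer G x := by
          rw [MulAction.mem_stabilizer_iff, mul_smul, ← hn]
          exact inv_smul_smul (n : G) x
        have h2 : g = (n : G) * ((n : G)⁻¹ * g) := by group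
        rw [h2]
        exact N.mul_mem n.2 (h h1)
    refine ⟨N, hN, hN1, hN2, hNt, ?_⟩
    intro y
    rw [eq_bot_iff]
    intro m hm
    obtain ⟨n, hn⟩ := hNt.exists_smul_eq x y
    have h1 : (n : G)⁻¹ * m * n ∈ MulAction.stabilizer G x := by
      rw [MulAction.mem_stabilizer_iff, mul_smul, mul_smul]
      have h2 : (n : G) • x = y := hn
      have h3 : (m : G) • y = y := hm
      rw [h2, h3, ← h2, inv_smul_smul]
    have h2 : (⟨_, h1⟩ : MulAction.stabilizer G x) ∈ N.subgroupOf (MulAction.stabilizer G x) := by
      rw [Subgroup.mem_subgroupOf]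
      exact N.mul_mem (N.mul_mem (N.inv_mem n.2) m.2) n.2
    rw [h0, Subgroup.mem_bot] at h2
    have h3 : (n : G)⁻¹ * m * n = 1 := congrArg Subtype.val h2
    rw [Subgroup.mem_bot]
    apply Subtype.ext
    have h4 : (m : G) = n * ((n : G)⁻¹ * m * n) * (n : G)⁻¹ := by group
    rw [h4, h3]
    simp

end Cfsg.Agent.S4300
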