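import Mathlib
import Cfsg.Agent.H1.Basic
import Cfsg.Agent.H2.ClassSize
import Cfsg.Statements.S4309

set_option autoImplicit false
open Cfsg

namespace Cfsg.Agent.S4309

/-- Let `π` be a set of primes, `G` a finite group with a Hall `π`-subgroup `H` (every prime divisor of the order of `H` lies in `π` and no prime of `π` divides its index), and `A` a normal subgroup of `G`. Then `H ∩ A` is a Hall `π`-subgroup of `A` and the image of `H` in `G/A` is a Hall `π`-subgroup of `G/A`. -/
theorem result {G : Type*} [Group G] [Finite G] (π : Set ℕ)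
    (H A : Subgroup G) [A.Normal] (hH : Cfsg.IsPiHall π H) :
    Cfsg.IsPiHall π ((H ⊓ A).subgroupOf A) ∧ Cfsg.IsPiHall π (H.map (QuotientGroup.mk' A)) := by
  constructor
  · constructor
    · intro p hp hd
      apply hH.1 p hp
      refine hd.trans ?_
      rw [Nat.card_congr (Subgroup.subgroupOfEquivOfLe (inf_le_right : H ⊓ A ≤ A)).toEquiv]
      exact Subgroup.card_dvd_of_le inf_le_left
    · intro p hp hpi hd
      apply hH.2 p hp hpi
      refine hd.trans ?_
      have h1 : ((H ⊓ A).subgroupOf A).index = H.relIndex A := by
        rw [Subgroup.inf_subgroupOf_right]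
        rfl
      rw [h1]
      exact CfsgH2.relIndex_normal_dvd_index H A
  · constructor
    · intro p hp hd
      exact hH.1 p hp (hd.trans (Subgroup.card_map_dvd _ _))
    · intro p hp hpi hd
      exact hH.2 p hp hpi (hd.trans (Subgroup.index_map_dvd _ (QuotientGroup.mk'_surjective A)))

end Cfsg.Agent.S4309
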