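import Mathlib
import Cfsg.Statements.S4422

set_option autoImplicit false
open Cfsg

namespace Cfsg.Agent.S4422

/-- Primitive divisors of `q^e - 1` are congruent to 1 modulo `e`. Let `q ≥ 2` and `e ≥ 1` be natural numbers and let `m` be a divisor of `q^e - 1` that is coprime to `q^i - 1` for every `1 ≤ i < e` (so `m` divides the primitive part of `q^e - 1`, the largest such divisor). Then `m ≡ 1 (mod e)`. -/
theorem result (q e m : ℕ) (hq : 2 ≤ q) (he : 1 ≤ e)
    (hm : m ∣ q ^ e - 1) (hcop : ∀ i : ℕ, 1 ≤ i → i < e → Nat.Coprime m (q ^ i - 1)) :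
    m % e = 1 % e := by
  have hq0 : 0 < q := by omega
  have hpos : 0 < q ^ e - 1 := by
    have : 1 < q ^ e := Nat.one_lt_pow (by omega) hq
    omega
  have hm0 : m ≠ 0 := by
    rintro rfl
    rw [Nat.zero_dvd] at hm
    omega
  have key : ∀ r : ℕ, r.Prime → r ∣ m → r % e = 1 % e := by
    intro r hr hrm
    haveI : Fact r.Prime := ⟨hr⟩
    have h1 : r ∣ q ^ e - 1 := hrm.trans hm
    have h2 : ((q : ZMod r)) ^ e = 1 := by
      have h3 : ((q ^ e - 1 : ℕ) : ZMod r) = 0 := (ZMod.natCast_eq_zero_iff _ _).2 h1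
      rw [Nat.cast_sub (Nat.one_le_pow _ _ hq0)] at h3
      push_cast at h3
      exact sub_eq_zero.1 h3
    have hqr : (q : ZMod r) ≠ 0 := by
      intro h
      rw [h, zero_pow (by omega)] at h2
      exact zero_ne_one h2
    have h3 : orderOf (q : ZMod r) ∣ e := orderOf_dvd_of_pow_eq_one h2
    have h4 : orderOf (q : ZMod r) = e := by
      by_contra hne
      have hpos' : 0 < orderOf (q : ZMod r) := Nat.pos_of_dvd_of_pos h3 he
      have hlt : orderOf (q : ZMod r) < e := lt_of_le_of_ne (Nat.le_of_dvd he h3) hne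
      have h5 := hcop _ hpos' hlt
      have h6 : r ∣ q ^ orderOf (q : ZMod r) - 1 := by
        rw [← ZMod.natCast_eq_zero_iff, Nat.cast_sub (Nat.one_le_pow _ _ hq0)]
        push_cast
        rw [pow_orderOf_eq_one, sub_self]
      exact hr.one_lt.ne' (Nat.dvd_one.1 (h5 ▸ Nat.dvd_gcd hrm h6))
    have h5 : e ∣ r - 1 := by
      rw [← h4]
      exact orderOf_dvd_of_pow_eq_one (ZMod.pow_card_sub_one_eq_one hqr)
    have h6 : 1 ≤ r := hr.one_lt.le
    exact ((Nat.modEq_iff_dvd' h6).2 h5).symm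
  have h1 : ∀ l : ℕ, l ≠ 0 → (∀ r : ℕ, r.Prime → r ∣ l → r % e = 1 % e) → l % e = 1 % e := by
    intro l
    induction l using Nat.recOnMul with
    | zero => intro h; exact absurd rfl h
    | one => intros; rfl
    | prime p hp => intro _ h; exact h p hp (dvd_refl p)
    | mul a b iha ihb =>
      intro h0 h
      have ha : a ≠ 0 := fun h' => h0 (by rw [h', zero_mul])
      have hb : b ≠ 0 := fun h' => h0 (by rw [h', mul_zero])
      have h2 : a ≡ 1 [MOD e] := iha ha fun r hr hd => h r hr (hd.mul_right b)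
      have h3 : b ≡ 1 [MOD e] := ihb hb fun r hr hd => h r hr (hd.mul_left a)
      exact h2.mul h3
  exact h1 m hm0 key

end Cfsg.Agent.S4422
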