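import Cfsg.Statements.S4435
import Cfsg.Agent.H4.FR3

set_option autoImplicit false
open Cfsg

namespace Cfsg.Agent.S4435

/-- Let N be a normal subgroup of the finite group G, b a block of N (relative to a maximal ideal M of the algebraic integers containing p), and T the stabilizer of b in G (the elements g such that conjugating any member of b by g gives a member of b); N ≤ T. Say that a block of T (or of G) covers b when some member has a constituent in b on restriction to N. Then: (i) every block B′ of T covering b induces a block B of G, B covers b, every ψ ∈ B′ induces to an irreducible character of G, and B consists exactly of the characters induced from members of B′; (ii) distinct blocks of T covering b induce distinct blocks of G; (iii) every block of G covering b is induced by some block of T covering b. -/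
theorem result {G : Type*} [Group G] [Fintype G] (p : ℕ) [Fact p.Prime] (M : Ideal Cfsg.AlgInt) (hM : Cfsg.IsPModular p M) (N : Subgroup G) [hN : N.Normal] [Fintype N] (b : Set (Cfsg.IrrCharacter N)) (hb : Cfsg.IsPBlock M b) (T : Subgroup G) [Fintype T] (hT : ∀ g : G, g ∈ T ↔ ∀ θ ∈ b, ∀ θ' : Cfsg.IrrCharacter N, (∀ n : N, (θ' : N → ℂ) n = (θ : N → ℂ) ⟨g * n * g⁻¹, hN.conj_mem n n.2 g⟩) → θ' ∈ b) (hNT : N ≤ T) : (∀ B' : Set (Cfsg.IrrCharacter T), Cfsg.IsPBlock M B' → (∃ ψ ∈ B', ∃ θ ∈ b, Cfsg.classInner (fun n : N => (ψ : T → ℂ) ⟨(n : G), hNT n.2⟩) (θ : N → ℂ) ≠ 0) → ∃ B : Set (Cfsg.IrrCharacter G), Cfsg.IsInducedBlock M T B' B ∧ (∃ χ ∈ B, ∃ θ ∈ b, Cfsg.classInner (fun n : N => (χ : G → ℂ) n) (θ : N → ℂ) ≠ 0) ∧ (∀ ψ ∈ B', Cfsg.IsIrrCharacter G (Cfsg.indFun T (ψ : T → ℂ))) ∧ ∀ χ : Cfsg.IrrCharacter G, χ ∈ B ↔ ∃ ψ ∈ B', (χ : G → ℂ) = Cfsg.indFun T (ψ : T →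 ℂ)) ∧ (∀ B'₁ B'₂ : Set (Cfsg.IrrCharacter T), Cfsg.IsPBlock M B'₁ → Cfsg.IsPBlock M B'₂ → (∃ ψ ∈ B'₁, ∃ θ ∈ b, Cfsg.classInner (fun n : N => (ψ : T → ℂ) ⟨(n : G), hNT n.2⟩) (θ : N → ℂ) ≠ 0) → (∃ ψ ∈ B'₂, ∃ θ ∈ b, Cfsg.classInner (fun n : N => (ψ : T → ℂ) ⟨(n : G), hNT n.2⟩) (θ : N → ℂ) ≠ 0) → ∀ B : Set (Cfsg.IrrCharacter G), Cfsg.IsInducedBlock M T B'₁ B → Cfsg.IsInducedBlock M T B'₂ B → B'₁ = B'₂) ∧ (∀ B : Set (Cfsg.IrrCharacter G), Cfsg.IsPBlock M B → (∃ χ ∈ B, ∃ θ ∈ b, Cfsg.classInner (fun n : N => (χ : G → ℂ) n) (θ : N → ℂ) ≠ 0) → ∃ B' : Set (Cfsg.IrrCharacter T), Cfsg.IsPBlock M B' ∧ (∃ ψ ∈ B', ∃ θ ∈ b, Cfsg.classInner (fun n : N => (ψ : T → ℂ) ⟨(n : G), hNT n.2⟩) (θ : N → ℂ) ≠ 0) ∧ Cfsg.IsInducedBlock M T B' B) := by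
  classical
  haveI : M.IsPrime := hM.2.1.isPrime
  have hst := CfsgH4.stab_hT hb hT
  have hTN : T ≤ CfsgH4.nz N := fun x _ => CfsgH4.mem_nz_normal x
  have hcov : ∀ B' : Set (Cfsg.IrrCharacter T), Cfsg.IsPBlock M B' →
      ((∃ ψ ∈ B', ∃ θ ∈ b, Cfsg.classInner (fun n : N => (ψ : T → ℂ) ⟨(n : G), hNT n.2⟩)
        (θ : N → ℂ) ≠ 0) ↔ CfsgH4.idH M T B' * CfsgH4.idH M N b ≠ 0) := fun B' hB' =>
    CfsgH4.cover_iff_rel hNT hTN hB' hb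
  refine ⟨?_, ?_, ?_⟩
  · intro B' hB' h
    have h1 := CfsgH4.FR_of_cover hNT hb hst hB' ((hcov B' hB').1 h)
    obtain ⟨B, hB, hz, hind, hmul, hirr, hmem⟩ := CfsgH4.FR_induced hNT hb hst hB' h1
    refine ⟨B, hind, ?_, hirr, hmem⟩
    rw [CfsgH4.cover_iff hB hb, hmul]
    exact (CfsgH4.isBl_idH hB').ne
  · intro B₁ B₂ hB₁ hB₂ h₁ h₂ B hi₁ hi₂
    have e₁ := CfsgH4.FR_of_cover hNT hb hst hB₁ ((hcov B₁ hB₁).1 h₁)
    have e₂ := CfsgH4.FR_of_cover hNT hb hst hB₂ ((hcov B₂ hB₂).1 h₂)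
    obtain ⟨C₁, hC₁, -, hind₁, hmul₁, -, -⟩ := CfsgH4.FR_induced hNT hb hst hB₁ e₁
    obtain ⟨C₂, hC₂, -, hind₂, hmul₂, -, -⟩ := CfsgH4.FR_induced hNT hb hst hB₂ e₂
    have q₁ := CfsgH5.induced_unique hi₁ hind₁
    have q₂ := CfsgH5.induced_unique hi₂ hind₂
    refine CfsgH4.idH_injective hB₁ hB₂ ?_
    rw [← hmul₁, ← hmul₂, ← q₁, ← q₂]
  · intro B hB h
    obtain ⟨B', hB', h1, hind⟩ := CfsgH4.FR_surj hNT hb hst hB ((CfsgH4.cover_iff hB hb).1 h)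
    refine ⟨B', hB', ?_, hind⟩
    rw [hcov B' hB', h1]
    exact (CfsgH4.isBl_idH hB').ne

end Cfsg.Agent.S4435
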