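import Cfsg.Statements.S4436
import Cfsg.Agent.H4.FR3

set_option autoImplicit false
open Cfsg

namespace Cfsg.Agent.S4436

/-- Let N be a normal subgroup of the finite group G, b a block of N (relative to a maximal ideal M of the algebraic integers containing p), T the stabilizer of b in G, N ≤ T, and B′ a block of T covering b (some member of B′ has a constituent in b on restriction to N) that induces the block B of G. Then every defect group of B′ is a defect group of B, and for every ψ ∈ B′ the induced character ψ^G is an irreducible character of G lying in B with the same height as ψ. -/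
theorem result {G : Type*} [Group G] [Fintype G] (p : ℕ) [Fact p.Prime] (M : Ideal Cfsg.AlgInt) (hM : Cfsg.IsPModular p M) (N : Subgroup G) [hN : N.Normal] [Fintype N] (b : Set (Cfsg.IrrCharacter N)) (hb : Cfsg.IsPBlock M b) (T : Subgroup G) [Fintype T] (hT : ∀ g : G, g ∈ T ↔ ∀ θ ∈ b, ∀ θ' : Cfsg.IrrCharacter N, (∀ n : N, (θ' : N → ℂ) n = (θ : N → ℂ) ⟨g * n * g⁻¹, hN.conj_mem n n.2 g⟩) → θ' ∈ b) (hNT : N ≤ T) (B' : Set (Cfsg.IrrCharacter T)) (hB' : Cfsg.IsPBlock M B') (hcov : (∃ ψ ∈ B', ∃ θ ∈ b, Cfsg.classInner (fun n : N => (ψ : T → ℂ) ⟨(n : G), hNT n.2⟩) (θ : N → ℂ) ≠ 0)) (B : Set (Cfsg.IrrCharacter G)) (hind : Cfsg.IsInducedBlock M T B' B) : (∀ D : Subgroup T, Cfsg.IsDefectGroup p M B' D → Cfsg.IsDefectGroup p M B (D.map T.subtype)) ∧ ∀ ψ ∈ B', ∃ χ ∈ B, (χ : G → ℂ) = Cfsg.indFun T (ψ : T → ℂ) ∧ Cfsg.blockHeight p B (χ : G → ℂ) = Cfsg.blockHeight p B' (ψ : T → ℂ) := by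
  classical
  haveI : M.IsPrime := hM.2.1.isPrime
  have hst := CfsgH4.stab_hT hb hT
  have hTN : T ≤ CfsgH4.nz N := fun x _ => CfsgH4.mem_nz_normal x
  have h1 := CfsgH4.FR_of_cover hNT hb hst hB' ((CfsgH4.cover_iff_rel hNT hTN hB' hb).1 hcov)
  obtain ⟨B₁, hB₁, hz, hind₁, hmul, hirr, hmem⟩ := CfsgH4.FR_induced hNT hb hst hB' h1
  have hq := CfsgH5.induced_unique hind hind₁
  subst hq
  obtain ⟨hdef, hhgt⟩ := CfsgH4.FR_heights (p := p) (CfsgH5.IsPBlock.nonempty hB') hirr hmem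
  obtain ⟨hF, -⟩ := CfsgH4.FRh.of_block hNT hb hst
  refine ⟨fun D hD => ?_, fun ψ hψ => ⟨⟨_, hirr ψ hψ⟩, (hmem _).2 ⟨ψ, hψ, rfl⟩, rfl, hhgt ψ hψ⟩⟩
  rw [CfsgH4.isDefectGroup_iff_DG hM hB₁]
  have hD' := (CfsgH4.isDefectGroup_iff_DG'' hM hB').1 hD
  obtain ⟨P, hP⟩ := CfsgH5.exists_defectGroup hM hB₁
  have hP' := (CfsgH4.isDefectGroup_iff_DG hM hB₁).1 hP
  refine hP'.of_card hM (CfsgH4.isBl_top hB₁) le_top hD'.pg ?_ ?_
  · intro h0
    apply hD'.ne
    haveI : CharP (CfsgH4.kk M) p := CfsgH4.charP_kk hM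
    rw [← hmul, CfsgH4.br_mul hD'.pg ((CfsgH4.isBl_top hB₁).fx.mono le_top)
      (hF.fx.mono hD'.le), h0, zero_mul]
  · rw [CfsgH5.defectGroup_card hM hB₁ hP,
      ← Nat.card_congr (Subgroup.equivMapOfInjective D T.subtype T.subtype_injective).toEquiv,
      CfsgH5.defectGroup_card hM hB' hD, hdef]

end Cfsg.Agent.S4436
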