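import Cfsg.Statements.S4437
import Cfsg.Agent.H4.FR4

set_option autoImplicit false
open Cfsg

namespace Cfsg.Agent.S4437

/-- Let P be a p-subgroup of the finite group G, H = P·C_G(P), and b a block of H (relative to a maximal ideal M of the algebraic integers containing p) having P as a defect group; let B be the block of G induced by b. Let T be the stabilizer of b in N_G(P): the elements g of N_G(P) such that the g-conjugate of every member of b is again a member of b. Then B has defect group P if and only if p does not divide the index of H in T. -/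
theorem result {G : Type*} [Group G] [Fintype G] (p : ℕ) [Fact p.Prime] (M : Ideal Cfsg.AlgInt) (hM : Cfsg.IsPModular p M) (P : Subgroup G) (hP : IsPGroup p P) (H : Subgroup G) [Fintype H] (hH : H = P ⊔ Subgroup.centralizer (P : Set G)) (b : Set (Cfsg.IrrCharacter H)) (hb : Cfsg.IsPBlock M b) (hbP : Cfsg.IsDefectGroup p M b (P.subgroupOf H)) (B : Set (Cfsg.IrrCharacter G)) (hind : Cfsg.IsInducedBlock M H b B) (T : Subgroup G) (hT : ∀ g : G, g ∈ T ↔ (g ∈ Subgroup.normalizer (P : Set G) ∧ ∀ θ ∈ b, ∀ θ' : Cfsg.IrrCharacter H, (∀ h h' : H, (h' : G) = g * h * g⁻¹ → (θ' : H → ℂ) h' = (θ : H → ℂ) h) → θ' ∈ b)) : Cfsg.IsDefectGroup p M B P ↔ ¬ p ∣ H.relIndex T := by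
  classical
  haveI : M.IsPrime := hM.2.1.isPrime
  have hPH : P ≤ H := hH ▸ le_sup_left
  have hCH : CfsgH4.cz P ≤ H := hH ▸ le_sup_right
  have hHN : H ≤ CfsgH4.nz P := hH ▸ sup_le Subgroup.le_normalizer (CfsgH4.cz_le_nz P)
  have hB := hind.2.1
  have hmul := (CfsgH4.ind_iff hM hP hPH hCH hHN hb hB).1 hind
  have hdg := (CfsgH4.isDefectGroup_iff_DG' hM hb hPH).1 hbP
  have hnH : ∀ g ∈ CfsgH4.nz P, g ∈ Subgroup.normalizer (H : Set G) := by
    intro g hg
    refine CfsgH4.mem_nz_of_cj ?_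
    rw [hH, CfsgH4.cj_sup', CfsgH4.cj_eq_of_mem_normalizer hg,
      CfsgH4.cj_eq_of_mem_normalizer (CfsgH4.nz_le_nz_cz P hg)]
  have hTst : T = CfsgH4.st (P, CfsgH4.idH M H b) := by
    ext g
    rw [hT g, CfsgH4.mem_st]
    refine and_congr_right fun hg => ?_
    have hcH : H = CfsgH5.cj g H := (CfsgH4.cj_eq_of_mem_normalizer (hnH g hg)).symm
    have hbc : Cfsg.IsPBlock M (CfsgH4.cjSet g b : Set (Cfsg.IrrCharacter H)) :=
      (CfsgH4.isPBlock_cjSet g hcH).2 hb
    have h3 := CfsgH4.idH_cjSet (M := M) g hcH b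
    constructor
    · intro h
      obtain ⟨θ', hθ'⟩ := CfsgH5.IsPBlock.nonempty hbc
      obtain ⟨θ, hθ, hθθ'⟩ := hθ'
      have h4 : θ' ∈ b := h θ hθ θ' fun h h' hh => hθθ' h h' hh
      have h2 := CfsgH5.IsPBlock.eq_of_mem hbc hb ⟨θ, hθ, hθθ'⟩ h4
      rw [← h3, h2]
    · intro h θ hθ θ' hθθ'
      have h4 := CfsgH4.cjSet_eq_self hb (hnH g hg) h
      rw [← h4]
      exact ⟨θ, hθ, fun h k hk => hθθ' h k hk⟩
  rw [CfsgH4.isDefectGroup_iff_DG hM hB, hTst]
  exact CfsgH4.ext_first_main hM (CfsgH4.isBl_top hB) hP hH (CfsgH4.isBl_idH hb) hdg hmul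

end Cfsg.Agent.S4437
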