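import Cfsg.Statements.S4444
import Cfsg.Agent.H4.Glb2

set_option autoImplicit false
open Cfsg

namespace Cfsg.Agent.S4444

open CfsgH4 in
theorem aux {Γ : Type*} [Group Γ] [Fintype Γ] (G S : Subgroup Γ) [Fintype G]
    (hnorm : ∀ s ∈ S, ∀ g ∈ G, s * g * s⁻¹ ∈ G) (C : Subgroup Γ) [Fintype C]
    (hC : C = G ⊓ Subgroup.centralizer (S : Set Γ)) (hCG : C ≤ G)
    [Fintype (fixS (conjS G S hnorm))] (χ : Cfsg.IrrCharacter G) (β : Cfsg.IrrCharacter C) :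
    Cfsg.classInner (fun c : C => (χ : G → ℂ) ⟨c, hCG c.2⟩) (β : C → ℂ) =
      Cfsg.classInner (fun c : fixS (conjS G S hnorm) => (χ : G → ℂ) c)
        (irrE (fixEquiv hnorm hC hCG) β : fixS (conjS G S hnorm) → ℂ) := by
  rw [← classInner_comp_equiv (fixEquiv hnorm hC hCG)]
  simp only [irrE_apply']
  rfl

/-- The Glauberman correspondence for a p-group of operators. Inside a finite group Γ let S normalise G with the orders of G and S coprime, S a p-group, and let C = G ⊓ C(S) be the fixed points. Call an irreducible character χ of G S-invariant when χ(s g s⁻¹) = χ(g) for s ∈ S, g ∈ G. Then: (i) for every S-invariant χ there is exactly one irreducible character β of C whose multiplicity [χ_C, β] in the restriction of χ is not divisible by p; (ii) that multiplicity is ≡ 1 or ≡ −1 (mod p); (iii) distinct S-invariant χ give distinct β; (iv) every irreducible character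 of C arises in this way. So χ ↦ β is a bijection from the S-invariant irreducible characters of G onto the irreducible characters of C. -/
theorem result {Γ : Type*} [Group Γ] [Fintype Γ] (G S : Subgroup Γ) [Fintype G] (hnorm : ∀ s ∈ S, ∀ g ∈ G, s * g * s⁻¹ ∈ G) (hcop : (Nat.card G).Coprime (Nat.card S)) (p : ℕ) (hp : p.Prime) (hS : IsPGroup p S) (C : Subgroup Γ) [Fintype C] (hC : C = G ⊓ Subgroup.centralizer (S : Set Γ)) (hCG : C ≤ G) : (∀ χ : Cfsg.IrrCharacter G, (∀ s ∈ S, ∀ g g' : G, (g' : Γ) = s * g * s⁻¹ → (χ : G → ℂ) g' = (χ : G → ℂ) g) → ∃! β : Cfsg.IrrCharacter C, ∃ m : ℕ, Cfsg.classInner (fun c : C => (χ : G → ℂ) ⟨c, hCG c.2⟩) (β : C → ℂ) = (m : ℂ) ∧ ¬ p ∣ m) ∧ (∀ χ : Cfsg.IrrCharacter G, (∀ s ∈ S, ∀ g g' : G, (g' : Γ) = s * g * s⁻¹ → (χ : G → ℂ) g' = (χ : G → ℂ) g) → ∀ β : Cfsg.IrrCharacter C, ∀ m : ℕ, Cfsg.classInner (fun c : C => (χ : G → ℂ) ⟨c, hCG c.2⟩)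 (β : C → ℂ) = (m : ℂ) → ¬ p ∣ m → ((m : ℤ) ≡ 1 [ZMOD p] ∨ (m : ℤ) ≡ -1 [ZMOD p])) ∧ (∀ χ χ' : Cfsg.IrrCharacter G, (∀ s ∈ S, ∀ g g' : G, (g' : Γ) = s * g * s⁻¹ → (χ : G → ℂ) g' = (χ : G → ℂ) g) → (∀ s ∈ S, ∀ g g' : G, (g' : Γ) = s * g * s⁻¹ → (χ' : G → ℂ) g' = (χ' : G → ℂ) g) → ∀ β : Cfsg.IrrCharacter C, ∀ m m' : ℕ, Cfsg.classInner (fun c : C => (χ : G → ℂ) ⟨c, hCG c.2⟩) (β : C → ℂ) = (m : ℂ) → ¬ p ∣ m → Cfsg.classInner (fun c : C => (χ' : G → ℂ) ⟨c, hCG c.2⟩) (β : C → ℂ) = (m' : ℂ) → ¬ p ∣ m' → χ = χ') ∧ (∀ β : Cfsg.IrrCharacter C, ∃ χ : Cfsg.IrrCharacter G, (∀ s ∈ S, ∀ g g' : G, (g' : Γ) = s * g * s⁻¹ → (χ : G → ℂ) g' = (χ : G → ℂ) g) ∧ ∃ m : ℕ, Cfsg.classInner (fun c : C => (χ : G → ℂ) ⟨c, hCG c.2⟩) (β : C → ℂ) = (m : ℂ) ∧ ¬ p ∣ m) := by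
  haveI : Fact p.Prime := ⟨hp⟩
  classical
  haveI : Fintype (CfsgH4.fixS (CfsgH4.conjS G S hnorm)) := Fintype.ofFinite _
  have h : (¬ p ∣ Nat.card G ∧ IsPGroup p S) ∨ ∀ s g, CfsgH4.conjS G S hnorm s g = g := by
    by_cases hG : p ∣ Nat.card G
    · right
      intro s g
      have h1 : Nat.card S = 1 := by
        obtain ⟨n, hn⟩ := IsPGroup.iff_card.1 hS
        rw [hn] at hcop ⊢
        rcases Nat.eq_zero_or_pos n with h0 | h0
        · rw [h0, pow_zero]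
        · exfalso
          have h2 : p ∣ Nat.gcd (Nat.card G) (p ^ n) := Nat.dvd_gcd hG (dvd_pow_self p h0.ne')
          rw [hcop] at h2
          exact hp.one_lt.ne' (Nat.dvd_one.1 h2)
      have h2 : s = 1 := by
        haveI : Subsingleton S := (Nat.card_eq_one_iff_unique.1 h1).1
        exact Subsingleton.elim _ _
      rw [h2, map_one]
      rfl
    · exact Or.inl ⟨hG, hS⟩
  obtain ⟨h1, h2, h3, h4⟩ := CfsgH4.glaub (p := p) (φ := CfsgH4.conjS G S hnorm) h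
  refine ⟨fun χ hχ => ?_, fun χ hχ β m hm hpm => ?_, fun χ χ' hχ hχ' β m m' hm hpm hm' hpm' => ?_,
    fun β => ?_⟩
  · obtain ⟨β, hβ, hu⟩ := h1 χ ((CfsgH4.invF_conjS hnorm _).2 hχ)
    refine ⟨(CfsgH4.irrE (CfsgH4.fixEquiv hnorm hC hCG)).symm β, ?_, ?_⟩
    · obtain ⟨m, hm, hpm⟩ := hβ
      refine ⟨m, ?_, hpm⟩
      rw [aux G S hnorm C hC hCG, Equiv.apply_symm_apply]
      exact hm
    · rintro β' ⟨m, hm, hpm⟩
      rw [aux G S hnorm C hC hCG] at hm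
      have := hu _ ⟨m, hm, hpm⟩
      rw [← this, Equiv.symm_apply_apply]
  · rw [aux G S hnorm C hC hCG] at hm
    exact h2 χ ((CfsgH4.invF_conjS hnorm _).2 hχ) _ m hm hpm
  · rw [aux G S hnorm C hC hCG] at hm hm'
    exact h3 χ χ' ((CfsgH4.invF_conjS hnorm _).2 hχ) ((CfsgH4.invF_conjS hnorm _).2 hχ') _
      ⟨m, hm, hpm⟩ ⟨m', hm', hpm'⟩
  · obtain ⟨χ, hχ, m, hm, hpm⟩ := h4 (CfsgH4.irrE (CfsgH4.fixEquiv hnorm hC hCG) β)
    exact ⟨χ, (CfsgH4.invF_conjS hnorm _).1 hχ, m, by rw [aux G S hnorm C hC hCG]; exact hm, hpm⟩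

end Cfsg.Agent.S4444
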