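import Cfsg.Statements.S4446
import Cfsg.Agent.H4.Glb7

set_option autoImplicit false
open Cfsg

namespace Cfsg.Agent.S4446

/-- Let the finite group Γ be generated by a normal subgroup G and a cyclic subgroup S of coprime orders, C = G ⊓ C(S), and let χ be an S-invariant irreducible character of G with canonical extension χ̂ to Γ (the extension whose determinantal order is coprime to the order of S). Then there are exactly one irreducible character β of C and one sign ε such that χ̂(c s) = ε β(c) for every c ∈ C and every generator s of S; this β is a constituent of the restriction of χ to C; distinct S-invariant χ give distinct β; and every irreducible character of C arises in this way. -/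
theorem result {Γ : Type*} [Group Γ] [Fintype Γ] (G S : Subgroup Γ) [Fintype G] (hnorm : ∀ s ∈ S, ∀ g ∈ G, s * g * s⁻¹ ∈ G) (hcop : (Nat.card G).Coprime (Nat.card S)) (htop : G ⊔ S = ⊤) (hcyc : IsCyclic S) (C : Subgroup Γ) [Fintype C] (hC : C = G ⊓ Subgroup.centralizer (S : Set Γ)) (hCG : C ≤ G) : (∀ (χ : Cfsg.IrrCharacter G) (χh : Cfsg.IrrCharacter Γ), (∀ s ∈ S, ∀ g g' : G, (g' : Γ) = s * g * s⁻¹ → (χ : G → ℂ) g' = (χ : G → ℂ) g) → (∀ g : G, (χh : Γ → ℂ) g = (χ : G → ℂ) g) → (Cfsg.detOrder (χh : Γ → ℂ)).Coprime (Nat.card S) → (∃! βε : Cfsg.IrrCharacter C × ℤ, (βε.2 = 1 ∨ βε.2 = -1) ∧ ∀ c : C, ∀ s : Γ, Subgroup.zpowers s = S → (χh : Γ → ℂ) ((c : Γ) * s) = (βε.2 : ℂ) * (βε.1 : C → ℂ) c) ∧ ∀ β : Cfsg.IrrCharacter C, ∀ ε : ℤ, (ε = 1 ∨ ε = -1) → (∀ c : C, ∀ s : Γ, Subgroup.zpowers s = S → (χh : Γ → ℂ) ((c : Γ) * s) = (ε : ℂ) * (β : C → ℂ) c) → Cfsg.classInner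 (fun c : C => (χ : G → ℂ) ⟨c, hCG c.2⟩) (β : C → ℂ) ≠ 0) ∧ (∀ (χ χ' : Cfsg.IrrCharacter G) (χh χh' : Cfsg.IrrCharacter Γ), (∀ s ∈ S, ∀ g g' : G, (g' : Γ) = s * g * s⁻¹ → (χ : G → ℂ) g' = (χ : G → ℂ) g) → (∀ s ∈ S, ∀ g g' : G, (g' : Γ) = s * g * s⁻¹ → (χ' : G → ℂ) g' = (χ' : G → ℂ) g) → (∀ g : G, (χh : Γ → ℂ) g = (χ : G → ℂ) g) → (∀ g : G, (χh' : Γ → ℂ) g = (χ' : G → ℂ) g) → (Cfsg.detOrder (χh : Γ → ℂ)).Coprime (Nat.card S) → (Cfsg.detOrder (χh' : Γ → ℂ)).Coprime (Nat.card S) → ∀ β : Cfsg.IrrCharacter C, ∀ ε ε' : ℤ, (ε = 1 ∨ ε = -1) → (ε' = 1 ∨ ε' = -1) → (∀ c : C, ∀ s : Γ, Subgroup.zpowers s = S → (χh : Γ → ℂ) ((c : Γ) * s) = (ε : ℂ) * (β : C → ℂ) c) → (∀ c : C, ∀ s : Γ, Subgroup.zpowers s = S → (χh' : Γ → ℂ) ((c : Γ) * s) = (ε' : ℂ) * (β : C → ℂ) c) → χ = χ') ∧ (∀ β : Cfsg.IrrCharacter C, ∃ (χ : Cfsg.IrrCharacter G) (χh : Cfsg.IrrCharacter Γ) (ε : ℤ),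 (∀ s ∈ S, ∀ g g' : G, (g' : Γ) = s * g * s⁻¹ → (χ : G → ℂ) g' = (χ : G → ℂ) g) ∧ (∀ g : G, (χh : Γ → ℂ) g = (χ : G → ℂ) g) ∧ (Cfsg.detOrder (χh : Γ → ℂ)).Coprime (Nat.card S) ∧ (ε = 1 ∨ ε = -1) ∧ ∀ c : C, ∀ s : Γ, Subgroup.zpowers s = S → (χh : Γ → ℂ) ((c : Γ) * s) = (ε : ℂ) * (β : C → ℂ) c) := by
  classical
  haveI hG : G.Normal := by
    constructor
    intro n hn g
    have h3 : G ⊔ S ≤ Subgroup.normalizer (G : Set Γ) := by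
      refine sup_le Subgroup.le_normalizer ?_
      intro s hs
      rw [Subgroup.mem_normalizer_iff]
      intro x
      refine ⟨fun hx => hnorm s hs x hx, fun hx => ?_⟩
      have h1 := hnorm s⁻¹ (S.inv_mem hs) _ hx
      have h2 : s⁻¹ * (s * x * s⁻¹) * s⁻¹⁻¹ = x := by group
      rwa [h2] at h1
    rw [htop] at h3
    exact (Subgroup.mem_normalizer_iff.1 (h3 (Subgroup.mem_top g)) n).1 hn
  have hresirr : ∀ (χ : Cfsg.IrrCharacter G) (χh : Cfsg.IrrCharacter Γ),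
      (∀ g : G, (χh : Γ → ℂ) g = (χ : G → ℂ) g) →
      Cfsg.IsIrrCharacter G (fun g : G => (χh : Γ → ℂ) g) := fun χ χh h => by
    have : (fun g : G => (χh : Γ → ℂ) g) = (χ : G → ℂ) := funext h
    rw [this]
    exact χ.2
  obtain ⟨⟨s0, hs0S⟩, hs0⟩ := hcyc.exists_generator
  have hs0' : Subgroup.zpowers s0 = S := by
    apply le_antisymm
    · rw [Subgroup.zpowers_le]; exact hs0S
    · intro x hx
      obtain ⟨k, hk⟩ := Subgroup.mem_zpowers_iff.1 (hs0 ⟨x, hx⟩)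
      exact Subgroup.mem_zpowers_iff.2 ⟨k, congrArg Subtype.val hk⟩
  have hinj : ∀ (χ χ' : Cfsg.IrrCharacter G) (χh χh' : Cfsg.IrrCharacter Γ),
      (∀ g : G, (χh : Γ → ℂ) g = (χ : G → ℂ) g) → (∀ g : G, (χh' : Γ → ℂ) g = (χ' : G → ℂ) g) →
      ∀ β : Cfsg.IrrCharacter C, ∀ ε ε' : ℤ, (ε = 1 ∨ ε = -1) → (ε' = 1 ∨ ε' = -1) →
      (∀ c : C, ∀ s : Γ, Subgroup.zpowers s = S → (χh : Γ → ℂ) ((c : Γ) * s) = (ε : ℂ) * (β : C → ℂ) c) →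
      (∀ c : C, ∀ s : Γ, Subgroup.zpowers s = S → (χh' : Γ → ℂ) ((c : Γ) * s) = (ε' : ℂ) * (β : C → ℂ) c) →
      χ = χ' := by
    intro χ χ' χh χh' h1 h2 β ε ε' hε hε' h3 h4
    have h5 := CfsgH4.cyc_inj htop hcop hC (hresirr χ χh h1) (hresirr χ' χh' h2) hε hε' hs0'
      (fun c => h3 c s0 hs0') (fun c => h4 c s0 hs0')
    apply Subtype.ext
    funext g
    rw [← h1 g, ← h2 g]
    exact congrFun h5 g
  refine ⟨?_, ?_, ?_⟩
  · intro χ χh hinv hext hdet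
    obtain ⟨β, ε, hε, h1⟩ := CfsgH4.cyc_exists htop hcop hcyc hC (hresirr χ χh hext) hdet
    refine ⟨⟨(β, ε), ⟨hε, h1⟩, ?_⟩, ?_⟩
    · rintro ⟨β', ε'⟩ ⟨hε', h2⟩
      obtain ⟨h3, h4⟩ := CfsgH4.sgn_unique hε' hε (fun c => by
        rw [← h2 c s0 hs0']
        exact h1 c s0 hs0')
      exact Prod.ext h3 h4
    · intro β' ε' hε' h2
      have h3 := CfsgH4.slice_const hC hε' hs0S (fun c => h2 c s0 hs0')
      have h4 : (fun c : C => (χh : Γ → ℂ) c) = fun c : C => (χ : G → ℂ) ⟨c, hCG c.2⟩ := by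
        funext c
        exact hext ⟨c, hCG c.2⟩
      rwa [h4] at h3
  · intro χ χ' χh χh' _ _ h1 h2 _ _ β ε ε' hε hε' h3 h4
    exact hinj χ χ' χh χh' h1 h2 β ε ε' hε hε' h3 h4
  · have hsol : Group.IsSolvable S := by
      letI : CommGroup S := hcyc.commGroup
      infer_instance
    have hcard := CfsgH4.card_irr_inv _ S G (CfsgH4.conjS G S hnorm) rfl hsol hcop
    rw [← Nat.card_congr (CfsgH4.irrE (CfsgH4.fixEquiv hnorm hC hCG))] at hcard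
    have hch : ∀ χ : {χ : Cfsg.IrrCharacter G // CfsgH4.InvF (CfsgH4.conjS G S hnorm) (χ : G → ℂ)},
        ∃ (β : Cfsg.IrrCharacter C) (χh : Cfsg.IrrCharacter Γ) (ε : ℤ),
          (∀ g : G, (χh : Γ → ℂ) g = (χ.1 : G → ℂ) g) ∧
          (Cfsg.detOrder (χh : Γ → ℂ)).Coprime (Nat.card S) ∧ (ε = 1 ∨ ε = -1) ∧
          ∀ c : C, ∀ s : Γ, Subgroup.zpowers s = S →
            (χh : Γ → ℂ) ((c : Γ) * s) = (ε : ℂ) * (β : C → ℂ) c := by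
      intro χ
      obtain ⟨χh, h1, h2⟩ := CfsgH4.exists_canon htop hcop hnorm χ.1 χ.2
      obtain ⟨β, ε, hε, h3⟩ := CfsgH4.cyc_exists htop hcop hcyc hC (hresirr χ.1 χh h1) h2
      exact ⟨β, χh, ε, h1, h2, hε, h3⟩
    choose F Fh Fε hF1 hF2 hF3 hF4 using hch
    have hFinj : Function.Injective F := by
      intro χ χ' h
      refine Subtype.ext (hinj χ.1 χ'.1 (Fh χ) (Fh χ') (hF1 χ) (hF1 χ') (F χ) (Fε χ) (Fε χ')
        (hF3 χ) (hF3 χ') (hF4 χ) ?_)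
      rw [h]
      exact hF4 χ'
    have hFbij : Function.Bijective F :=
      (Nat.bijective_iff_injective_and_card F).2 ⟨hFinj, hcard⟩
    intro β
    obtain ⟨χ, rfl⟩ := hFbij.2 β
    exact ⟨χ.1, Fh χ, Fε χ, (CfsgH4.invF_conjS hnorm _).1 χ.2, hF1 χ, hF2 χ, hF3 χ, hF4 χ⟩

end Cfsg.Agent.S4446
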