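import Cfsg.Statements.S4447
import Cfsg.Agent.H4.Glb9

set_option autoImplicit false
open Cfsg

namespace Cfsg.Agent.S4447

/-- Inside a finite group Γ let S normalise G and also normalise a normal subgroup N of G, with the order of S coprime to the index of N in G and S or G/N solvable. Then for every S-invariant irreducible character χ of G, the restriction of χ to N has an S-invariant irreducible constituent. -/
theorem result {Γ : Type*} [Group Γ] [Fintype Γ] (G S N : Subgroup Γ) [Fintype G] [Fintype N] (hnorm : ∀ s ∈ S, ∀ g ∈ G, s * g * s⁻¹ ∈ G) (hNG : N ≤ G) [hNn : (N.subgroupOf G).Normal] (hNS : ∀ s ∈ S, ∀ n ∈ N, s * n * s⁻¹ ∈ N) (hcop : (N.relIndex G).Coprime (Nat.card S)) (hsolv : Group.IsSolvable S ∨ Group.IsSolvable (G ⧸ N.subgroupOf G)) (χ : Cfsg.IrrCharacter G) (hinv : (∀ s ∈ S, ∀ g g' : G, (g' : Γ) = s * g * s⁻¹ → (χ : G → ℂ) g' = (χ : G → ℂ) g)) : ∃ θ : Cfsg.IrrCharacter N, Cfsg.classInner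 (fun n : N => (χ : G → ℂ) ⟨n, hNG n.2⟩) (θ : N → ℂ) ≠ 0 ∧ (∀ s ∈ S, ∀ g g' : N, (g' : Γ) = s * g * s⁻¹ → (θ : N → ℂ) g' = (θ : N → ℂ) g) := by
  classical
  haveI : Fintype (N.subgroupOf G) := Fintype.ofFinite _
  have h : ∀ (s : S), ∀ n ∈ N.subgroupOf G, CfsgH4.conjS G S hnorm s n ∈ N.subgroupOf G :=
    fun s n hn => hNS s s.2 n hn
  obtain ⟨θ, h1, h2⟩ := CfsgH4.exists_inv_below (CfsgH4.conjS G S hnorm) (N.subgroupOf G) h
    hcop.symm hsolv χ ((CfsgH4.invF_conjS hnorm _).2 hinv)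
  let e := Subgroup.subgroupOfEquivOfLe hNG
  refine ⟨CfsgH4.irrE e θ, ?_, ?_⟩
  · rw [← CfsgH4.classInner_comp_equiv e]
    simp only [CfsgH4.irrE_apply']
    exact h1
  · intro s hs g g' hg
    have h3 : g' = e (CfsgH4.resAct (CfsgH4.conjS G S hnorm) (N.subgroupOf G) h ⟨s, hs⟩ (e.symm g)) :=
      Subtype.ext hg
    rw [h3, CfsgH4.irrE_apply', h2 ⟨s, hs⟩ (e.symm g)]
    rfl

end Cfsg.Agent.S4447
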