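import Cfsg.Statements.S4451
import Cfsg.Agent.H4.Glb8

set_option autoImplicit false
open Cfsg

namespace Cfsg.Agent.S4451

/-- Let the finite group Γ be generated by a normal subgroup G and a cyclic subgroup S of coprime orders such that every non-identity element of S has the same centraliser C = G ⊓ C(S) in G. Let χ be an S-invariant irreducible character of G, χ̂ its canonical extension to Γ (determinantal order coprime to the order of S), and β the irreducible character of C with χ̂(c s) = ε₀ β(c) for c ∈ C and generators s of S (ε₀ = ±1). Then there are a sign ε = ±1, which may differ from ε₀, and a linear character μ of S with μ² = 1, such that: (a) χ̂(c x) = ε β(c) μ(x) for all c ∈ C and all x ∈ S other than 1; (b) the restriction of χ to C equals |S|·ϑ + ε β for some character ϑ of C or ϑ = 0; (c) |S| divides χ(1) − ε β(1). -/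
theorem result {Γ : Type*} [Group Γ] [Fintype Γ] (G S : Subgroup Γ) [Fintype G] (hnorm : ∀ s ∈ S, ∀ g ∈ G, s * g * s⁻¹ ∈ G) (hcop : (Nat.card G).Coprime (Nat.card S)) (htop : G ⊔ S = ⊤) (hcyc : IsCyclic S) (C : Subgroup Γ) [Fintype C] (hC : C = G ⊓ Subgroup.centralizer (S : Set Γ)) (hCG : C ≤ G) (hfpf : ∀ x ∈ S, x ≠ 1 → G ⊓ Subgroup.centralizer ({x} : Set Γ) = C) (χ : Cfsg.IrrCharacter G) (hinv : (∀ s ∈ S, ∀ g g' : G, (g' : Γ) = s * g * s⁻¹ → (χ : G → ℂ) g' = (χ : G → ℂ) g)) (χh : Cfsg.IrrCharacter Γ) (hext : (∀ g : G, (χh : Γ → ℂ) g = (χ : G → ℂ) g)) (hdet : (Cfsg.detOrder (χh : Γ → ℂ)).Coprime (Nat.card S)) (β : Cfsg.IrrCharacter C) (ε₀ : ℤ) (hε₀ : ε₀ = 1 ∨ ε₀ = -1) (hβ : ∀ c : C, ∀ s : Γ, Subgroup.zpowers s = S → (χh : Γ → ℂ) ((c : Γ) * s) = (ε₀ : ℂ) * (β : C → ℂ) c) : ∃ ε : ℤ, (ε = 1 ∨ ε = -1) ∧ (∃ μ : S → ℂ, Cfsg.IsCharacter S μ ∧ μ 1 = 1 ∧ (∀ x : S, μ x * μ x = 1) ∧ ∀ c : C,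 ∀ x : S, x ≠ 1 → (χh : Γ → ℂ) ((c : Γ) * x) = (ε : ℂ) * (β : C → ℂ) c * μ x) ∧ (∃ ϑ : C → ℂ, Cfsg.IsCharacter C ϑ ∧ (fun c : C => (χ : G → ℂ) ⟨c, hCG c.2⟩) = fun c => (Nat.card S : ℂ) * ϑ c + (ε : ℂ) * (β : C → ℂ) c) ∧ (Nat.card S : ℤ) ∣ (Cfsg.charDegree (χ : G → ℂ) : ℤ) - ε * (Cfsg.charDegree (β : C → ℂ) : ℤ) := by
  classical
  haveI hG : G.Normal := by
    constructor
    intro n hn g
    have h3 : G ⊔ S ≤ Subgroup.normalizer (G : Set Γ) := by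
      refine sup_le Subgroup.le_normalizer ?_
      intro s hs
      rw [Subgroup.mem_normalizer_iff]
      intro x
      refine ⟨fun hx => hnorm s hs x hx, fun hx => ?_⟩
      have h1 := hnorm s⁻¹ (S.inv_mem hs) _ hx
      have h2 : s⁻¹ * (s * x * s⁻¹) * s⁻¹⁻¹ = x := by group
      rwa [h2] at h1
    rw [htop] at h3
    exact (Subgroup.mem_normalizer_iff.1 (h3 (Subgroup.mem_top g)) n).1 hn
  have hres : Cfsg.IsIrrCharacter G (fun g : G => (χh : Γ → ℂ) g) := by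
    have : (fun g : G => (χh : Γ → ℂ) g) = (χ : G → ℂ) := funext hext
    rw [this]
    exact χ.2
  obtain ⟨ε, hε, hμ, ϑ, hϑ, h1⟩ := CfsgH4.semireg_main htop hcop hcyc hC hfpf hres hdet hε₀ hβ
  refine ⟨ε, hε, hμ, ⟨ϑ, hϑ, ?_⟩, ?_⟩
  · rw [← h1]
    funext c
    exact (hext ⟨c, hCG c.2⟩).symm
  · obtain ⟨t, ht⟩ := CfsgH4.IsCharacter.one_nat hϑ
    have h2 := congrFun h1 1
    simp only [Subgroup.coe_one] at h2
    have h3 : (χh : Γ → ℂ) 1 = (χ : G → ℂ) 1 := hext 1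
    rw [h3, (CfsgH5.IsIrr.one_eq χ.2).1, ht, (CfsgH5.IsIrr.one_eq β.2).1] at h2
    refine ⟨t, ?_⟩
    have h4 : (Cfsg.charDegree (χ : G → ℂ) : ℤ) = Nat.card S * t + ε * Cfsg.charDegree (β : C → ℂ) := by
      exact_mod_cast h2
    rw [h4]
    ring

end Cfsg.Agent.S4451
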