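import Cfsg.Statements.S4479
import Cfsg.Agent.H4.Sec3

set_option autoImplicit false
open Cfsg

namespace Cfsg.Agent.S4479

open CfsgH4 hiding centralChar sum_conj regInner_symm
open CfsgH5 ComplexConjugate

theorem aux {G : Type*} [Group G] [Fintype G] {M : Ideal Cfsg.AlgInt} (hM : Cfsg.IsPModular 2 M) (g₀ : ℕ) (hg₀ : Odd g₀)
    (hG : Nat.card G = 4 * g₀) (hnc : ¬ ∃ N : Subgroup G, N.Normal ∧ Nat.card N = g₀) (P : Sylow 2 G) (J : G)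
    (hJ : J ∈ (P : Subgroup G)) (hJ2 : orderOf J = 2) (χ₁ χ₂ χ₃ : Cfsg.IrrCharacter G) (ε₁ ε₂ ε₃ : ℤ)
    (hB : Cfsg.principalBlock M G = {χ : Cfsg.IrrCharacter G | (χ : G → ℂ) = (fun _ => 1) ∨ χ = χ₁ ∨ χ = χ₂ ∨ χ = χ₃})
    (hdist : (χ₁ : G → ℂ) ≠ (fun _ => 1) ∧ (χ₂ : G → ℂ) ≠ (fun _ => 1) ∧ (χ₃ : G → ℂ) ≠ (fun _ => 1) ∧ χ₁ ≠ χ₂ ∧ χ₁ ≠ χ₃ ∧ χ₂ ≠ χ₃)
    (hε : (ε₁ = 1 ∨ ε₁ = -1) ∧ (ε₂ = 1 ∨ ε₂ = -1) ∧ (ε₃ = 1 ∨ ε₃ = -1))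
    (hval : (χ₁ : G → ℂ) J = ε₁ ∧ (χ₂ : G → ℂ) J = ε₂ ∧ (χ₃ : G → ℂ) J = ε₃) :
    IsKleinFour (P : Subgroup G) ∧ J ≠ 1 ∧
    (1 + ε₁ * (Cfsg.charDegree (χ₁ : G → ℂ) : ℤ) + ε₂ * (Cfsg.charDegree (χ₂ : G → ℂ) : ℤ) +
      ε₃ * (Cfsg.charDegree (χ₃ : G → ℂ) : ℤ) = 0) ∧
    (Nat.card G : ℚ) * (Nat.card (Subgroup.centralizer ((P : Subgroup G) : Set G)) : ℚ) ^ 2 *
      (1 + ε₁ / (Cfsg.charDegree (χ₁ : G → ℂ) : ℚ) + ε₂ / (Cfsg.charDegree (χ₂ : G → ℂ) : ℚ) +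
        ε₃ / (Cfsg.charDegree (χ₃ : G → ℂ) : ℚ)) =
      8 * (Nat.card (Subgroup.centralizer ({J} : Set G)) : ℚ) ^ 3 := by
  classical
  haveI : Fact (Nat.Prime 2) := ⟨Nat.prime_two⟩
  haveI : M.IsPrime := hM.2.1.isPrime
  have hJ1 : J ≠ 1 := by rintro rfl; rw [orderOf_one] at hJ2; omega
  have hfac : (Nat.card G).factorization 2 = 2 := by
    rw [hG, Nat.factorization_mul (by norm_num) hg₀.pos.ne']
    have h1 : (4 : ℕ).factorization 2 = 2 := by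
      rw [show (4 : ℕ) = 2 ^ 2 by norm_num, Nat.Prime.factorization_pow Nat.prime_two]; simp
    have h2 : g₀.factorization 2 = 0 := Nat.factorization_eq_zero_of_not_dvd (by
      rw [← even_iff_two_dvd, Nat.not_even_iff_odd]; exact hg₀)
    simp [h1, h2]
  have hP4 : Nat.card (P : Subgroup G) = 4 := by rw [P.card_eq_multiplicity, hfac]; norm_num
  have hnpc : ¬ CfsgH3.HasNPC 2 G := by
    rintro ⟨N, hN, hNc, k, hk⟩
    refine hnc ⟨N, hN, ?_⟩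
    have h1 := N.card_mul_index
    rw [hk, hG] at h1
    have h2 : (Nat.card N).Coprime 4 := Nat.Coprime.pow_right 2 hNc
    have h3 : Nat.card N ∣ g₀ := h2.dvd_of_dvd_mul_left (Dvd.intro _ h1)
    have h4 : g₀ ∣ Nat.card N := by
      refine Nat.Coprime.dvd_of_dvd_mul_right (k := g₀) (n := 2 ^ k) ?_ (by rw [h1]; exact Dvd.intro_left _ rfl)
      exact Nat.Coprime.pow_right _ (Nat.coprime_two_right.2 hg₀)
    exact Nat.dvd_antisymm h3 h4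
  obtain ⟨hK, hone⟩ := klein_setup P hP4 hnpc
  refine ⟨hK, hJ1, ?_, ?_⟩
  · -- orthogonality
    have h1 := CfsgH5.block_orth hM (g := (1 : G)) (h := J) (x := 1) (y := J)
      (ppart_of_regular (by rw [orderOf_one]; norm_num))
      (isPPart_self ⟨1, by rw [hJ2, pow_one]⟩ (by norm_num))
      (fun h => hJ1 (isConj_one_right.1 h)) (isPBlock_principal (M := M) (G := G))
    rw [block4_sum hB hdist] at h1
    have hJi : J⁻¹ = J := inv_eq_of_mul_eq_one_left (klein_sq hK hJ)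
    rw [hJi, hval.1, hval.2.1, hval.2.2, deg_eq χ₁, deg_eq χ₂, deg_eq χ₃] at h1
    have h2 : ((irrOne G : Cfsg.IrrCharacter G) : G → ℂ) 1 * ((irrOne G : Cfsg.IrrCharacter G) : G → ℂ) J = 1 := mul_one 1
    rw [h2] at h1
    have h3 : ((1 + ε₁ * (Cfsg.charDegree (χ₁ : G → ℂ) : ℤ) + ε₂ * (Cfsg.charDegree (χ₂ : G → ℂ) : ℤ) +
      ε₃ * (Cfsg.charDegree (χ₃ : G → ℂ) : ℤ) : ℤ) : ℂ) = ((0 : ℤ) : ℂ) := by
      push_cast
      rw [← h1]; ring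
    exact_mod_cast h3
  · have h1 := klein_order hM P hK hone hJ hJ1
    rw [block4_sum hB hdist] at h1
    have h2 : ((irrOne G : Cfsg.IrrCharacter G) : G → ℂ) J * conj (((irrOne G : Cfsg.IrrCharacter G) : G → ℂ) J *
      ((irrOne G : Cfsg.IrrCharacter G) : G → ℂ) J) / ((irrOne G : Cfsg.IrrCharacter G) : G → ℂ) 1 = 1 := by
      have : ∀ g : G, ((irrOne G : Cfsg.IrrCharacter G) : G → ℂ) g = 1 := fun _ => rfl
      rw [this, this]; simp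
    have h3 : ∀ (ε : ℤ), (ε = 1 ∨ ε = -1) → ∀ d : ℂ, (ε : ℂ) * conj ((ε : ℂ) * (ε : ℂ)) / d = (ε : ℂ) / d := by
      rintro ε (rfl | rfl) d <;> simp
    rw [h2, hval.1, hval.2.1, hval.2.2, h3 ε₁ hε.1, h3 ε₂ hε.2.1, h3 ε₃ hε.2.2, deg_eq χ₁, deg_eq χ₂, deg_eq χ₃] at h1
    have h4 : (((Nat.card G : ℚ) * (Nat.card (Subgroup.centralizer ((P : Subgroup G) : Set G)) : ℚ) ^ 2 *
      (1 + ε₁ / (Cfsg.charDegree (χ₁ : G → ℂ) : ℚ) + ε₂ / (Cfsg.charDegree (χ₂ : G → ℂ) : ℚ) +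
        ε₃ / (Cfsg.charDegree (χ₃ : G → ℂ) : ℚ)) : ℚ) : ℂ) =
      ((8 * (Nat.card (Subgroup.centralizer ({J} : Set G)) : ℚ) ^ 3 : ℚ) : ℂ) := by
      push_cast
      exact h1
    exact_mod_cast h4

/-- An order formula from the principal 2-block. Let G be a finite group of order 4·g₀ with g₀ odd having no normal 2-complement (no normal subgroup of order g₀); let P be a Sylow 2-subgroup, J an involution of P, and fix a maximal ideal M of the algebraic integers containing 2. Suppose the principal 2-block consists of the principal character and three further distinct characters χ₁, χ₂, χ₃ of degrees x₁, x₂, x₃, with χ_i(J) = ε_i = ±1. Then, writing c(J) and c(P) for the orders of the centralizers of J and of P, the order of G equals 8·α·c(J)³/c(P)² with α = x₁x₂x₃ / ((x₁ + ε₁)(x₂ + ε₂)(x₃ + ε₃)). -/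
theorem result {G : Type*} [Group G] [Finite G] (M : Ideal Cfsg.AlgInt) (hM : Cfsg.IsPModular 2 M) (g₀ : ℕ) (hg₀ : Odd g₀) (hG : Nat.card G = 4 * g₀) (hnc : ¬ ∃ N : Subgroup G, N.Normal ∧ Nat.card N = g₀) (P : Sylow 2 G) (J : G) (hJ : J ∈ (P : Subgroup G)) (hJ2 : orderOf J = 2) (χ₁ χ₂ χ₃ : Cfsg.IrrCharacter G) (ε₁ ε₂ ε₃ : ℤ) (hB : Cfsg.principalBlock M G = {χ : Cfsg.IrrCharacter G | (χ : G → ℂ) = (fun _ => 1) ∨ χ = χ₁ ∨ χ = χ₂ ∨ χ = χ₃}) (hdist : (χ₁ : G → ℂ) ≠ (fun _ => 1) ∧ (χ₂ : G → ℂ) ≠ (fun _ => 1) ∧ (χ₃ : G → ℂ) ≠ (fun _ => 1) ∧ χ₁ ≠ χ₂ ∧ χ₁ ≠ χ₃ ∧ χ₂ ≠ χ₃) (hε : (ε₁ = 1 ∨ ε₁ = -1) ∧ (ε₂ = 1 ∨ ε₂ = -1) ∧ (ε₃ = 1 ∨ ε₃ = -1)) (hval : (χ₁ : G → ℂ) J = ε₁ ∧ (χ₂ : G → ℂ) J = ε₂ ∧ (χ₃ : G → ℂ) J = ε₃) : (Nat.card G : ℚ) = 8 * (((Cfsg.charDegree (χ₁ : G → ℂ) : ℚ) * Cfsg.charDegree (χ₂ : G → ℂ) * Cfsg.charDegree (χ₃ : G → ℂ)) / ((Cfsg.charDegree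 (χ₁ : G → ℂ) + ε₁) * (Cfsg.charDegree (χ₂ : G → ℂ) + ε₂) * (Cfsg.charDegree (χ₃ : G → ℂ) + ε₃))) * (Nat.card (Subgroup.centralizer ({J} : Set G)) : ℚ) ^ 3 / (Nat.card (Subgroup.centralizer ((P : Subgroup G) : Set G)) : ℚ) ^ 2 := by
  classical
  haveI := Fintype.ofFinite G
  obtain ⟨hK, hJ1, h1, h2⟩ := aux hM g₀ hg₀ hG hnc P J hJ hJ2 χ₁ χ₂ χ₃ ε₁ ε₂ ε₃ hB hdist hε hval
  have hx : ∀ χ : Cfsg.IrrCharacter G, (Cfsg.charDegree (χ : G → ℂ) : ℚ) ≠ 0 := fun χ =>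
    by exact_mod_cast (CfsgH4.deg_pos χ).ne'
  have hx1 := hx χ₁
  have hx2 := hx χ₂
  have hx3 := hx χ₃
  have hcP : (Nat.card (Subgroup.centralizer ((P : Subgroup G) : Set G)) : ℚ) ≠ 0 := by exact_mod_cast Nat.card_pos.ne'
  have hcJ : (Nat.card (Subgroup.centralizer ({J} : Set G)) : ℚ) ≠ 0 := by exact_mod_cast Nat.card_pos.ne'
  have h1' : (1 + ε₁ * (Cfsg.charDegree (χ₁ : G → ℂ) : ℚ) + ε₂ * (Cfsg.charDegree (χ₂ : G → ℂ) : ℚ) +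
      ε₃ * (Cfsg.charDegree (χ₃ : G → ℂ) : ℚ)) = 0 := by exact_mod_cast h1
  have hs : ∀ ε : ℤ, (ε = 1 ∨ ε = -1) → (ε : ℚ) * ε = 1 := by rintro ε (rfl | rfl) <;> norm_num
  have s1 := hs ε₁ hε.1
  have s2 := hs ε₂ hε.2.1
  have s3 := hs ε₃ hε.2.2
  set x := (Cfsg.charDegree (χ₁ : G → ℂ) : ℚ)
  set y := (Cfsg.charDegree (χ₂ : G → ℂ) : ℚ)
  set w := (Cfsg.charDegree (χ₃ : G → ℂ) : ℚ)
  set c := (Nat.card (Subgroup.centralizer ({J} : Set G)) : ℚ)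
  set cP := (Nat.card (Subgroup.centralizer ((P : Subgroup G) : Set G)) : ℚ)
  set a : ℚ := (ε₁ : ℚ)
  set b : ℚ := (ε₂ : ℚ)
  set e : ℚ := (ε₃ : ℚ)
  have h3 : 1 + a / x + b / y + e / w = (x + a) * (y + b) * (w + e) / (x * y * w) := by
    field_simp
    have h4 : a * b * w + a * e * y + b * e * x + a * b * e = 0 := by
      calc a * b * w + a * e * y + b * e * x + a * b * e =
          (a * b * e) * (1 + a * x + b * y + e * w) + (a * b * w) * (1 - e * e) + (a * e * y) * (1 - b * b) +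
            (b * e * x) * (1 - a * a) := by ring
        _ = 0 := by rw [h1', s1, s2, s3]; ring
    linear_combination -h4
  rw [h3] at h2
  have h5 : (x + a) * (y + b) * (w + e) ≠ 0 := by
    intro h6
    rw [h6, zero_div, mul_zero] at h2
    exact (mul_ne_zero (by norm_num) (pow_ne_zero 3 hcJ)) h2.symm
  have h6 : (x + a) ≠ 0 := fun h => h5 (by rw [h]; ring)
  have h7 : (y + b) ≠ 0 := fun h => h5 (by rw [h]; ring)
  have h8 : (w + e) ≠ 0 := fun h => h5 (by rw [h]; ring)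
  field_simp
  field_simp at h2
  linear_combination h2

end Cfsg.Agent.S4479
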