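import Cfsg.Statements.S4480
import Cfsg.Agent.H4.Sec3
import Cfsg.Agent.H4.FS
import Cfsg.Agent.S4479

set_option autoImplicit false
open Cfsg

namespace Cfsg.Agent.S4480

open CfsgH4 hiding centralChar sum_conj regInner_symm
open CfsgH5 ComplexConjugate

theorem arith {r q a c cP t K N : ℕ} (ha : a = r + 1) (hq : q = 2 * r + 1) (hr : 0 < r) (hc : c = cP * t) (hcP : 0 < cP)
    (hN : N = K * c) (hmain : K * a ^ 2 = 4 * t ^ 2 * r * q) (hrK : r ∣ K) (hqK : q ∣ K) (ht : 0 < t) :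
    ∃ m : ℕ, 4 * c = m * cP * (q + 1) ∧ 8 * N = m ^ 3 * cP * (q ^ 3 - q) := by
  have hco : Nat.Coprime r q := by
    rw [hq, show 2 * r + 1 = 1 + r * 2 by ring]
    exact (Nat.coprime_add_mul_left_right r 1 2).2 (Nat.coprime_one_right r)
  obtain ⟨L, hL⟩ := hco.mul_dvd_of_dvd_of_dvd hrK hqK
  have hq0 : 0 < q := by omega
  have h1 : L * a ^ 2 = (2 * t) ^ 2 := by
    apply Nat.eq_of_mul_eq_mul_left (Nat.mul_pos hr hq0)
    calc r * q * (L * a ^ 2) = (r * q * L) * a ^ 2 := by ring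
      _ = K * a ^ 2 := by rw [← hL]
      _ = 4 * t ^ 2 * r * q := hmain
      _ = r * q * (2 * t) ^ 2 := by ring
  have h2 : a ∣ 2 * t := by
    rw [← Nat.pow_dvd_pow_iff (n := 2) (by norm_num), ← h1]
    exact Dvd.intro_left _ rfl
  obtain ⟨m, hm⟩ := h2
  have ha0 : 0 < a := by omega
  have h3 : L = m ^ 2 := by
    apply Nat.eq_of_mul_eq_mul_right (pow_pos ha0 2)
    rw [h1, hm]; ring
  refine ⟨m, ?_, ?_⟩
  · have h4 : 4 * c = 2 * (2 * t) * cP := by rw [hc]; ring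
    rw [h4, hm, hq, ha]; ring
  · have h5 : q ^ 3 - q = 4 * r * q * a := by
      have h6 : q ^ 3 = 4 * r * q * a + q := by rw [hq, ha]; ring
      rw [h6]; omega
    rw [h5, hN, hL, h3, hc]
    have h7 : 8 * (r * q * m ^ 2 * (cP * t)) = 4 * (r * q * m ^ 2 * cP) * (2 * t) := by ring
    rw [h7, hm]; ring

/-- Same setting as the Klein-four order formula: G of order 4·g₀ (g₀ odd) with no normal 2-complement, P a Sylow 2-subgroup, J an involution of P, M over 2, principal 2-block {1, χ₁, χ₂, χ₃} with χ_i(J) = ε_i = ±1. Suppose ε₁ε₂ε₃ = −1 and ε₃ = −1, and put q = x₃ = χ₃(1). Then there is a natural number m with 4·c(J) = m·c(P)·(q + 1), and the order of G equals (m³·c(P)/4)·(q³ − q)/2, that is 8·#G = m³·c(P)·(q³ − q). -/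
theorem result {G : Type*} [Group G] [Finite G] (M : Ideal Cfsg.AlgInt) (hM : Cfsg.IsPModular 2 M) (g₀ : ℕ) (hg₀ : Odd g₀) (hG : Nat.card G = 4 * g₀) (hnc : ¬ ∃ N : Subgroup G, N.Normal ∧ Nat.card N = g₀) (P : Sylow 2 G) (J : G) (hJ : J ∈ (P : Subgroup G)) (hJ2 : orderOf J = 2) (χ₁ χ₂ χ₃ : Cfsg.IrrCharacter G) (ε₁ ε₂ ε₃ : ℤ) (hB : Cfsg.principalBlock M G = {χ : Cfsg.IrrCharacter G | (χ : G → ℂ) = (fun _ => 1) ∨ χ = χ₁ ∨ χ = χ₂ ∨ χ = χ₃}) (hdist : (χ₁ : G → ℂ) ≠ (fun _ => 1) ∧ (χ₂ : G → ℂ) ≠ (fun _ => 1) ∧ (χ₃ : G → ℂ) ≠ (fun _ => 1) ∧ χ₁ ≠ χ₂ ∧ χ₁ ≠ χ₃ ∧ χ₂ ≠ χ₃) (hε : (ε₁ = 1 ∨ ε₁ = -1) ∧ (ε₂ = 1 ∨ ε₂ = -1) ∧ (ε₃ = 1 ∨ ε₃ = -1)) (hval : (χ₁ : G → ℂ) J = ε₁ ∧ (χ₂ : G → ℂ) J = ε₂ ∧ (χ₃ : G → ℂ) J = ε₃) (hprod : ε₁ * ε₂ * ε₃ = -1) (hε₃ : ε₃ = -1) : ∃ m : ℕ, 4 * Nat.card (Subgroup.centralizer ({J} : Set G)) = m * Nat.card (Subgroup.centralizer ((P : Subgroup G) : Set G)) * (Cfsg.charDegree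 (χ₃ : G → ℂ) + 1) ∧ 8 * Nat.card G = m ^ 3 * Nat.card (Subgroup.centralizer ((P : Subgroup G) : Set G)) * (Cfsg.charDegree (χ₃ : G → ℂ) ^ 3 - Cfsg.charDegree (χ₃ : G → ℂ)) := by
  classical
  haveI := Fintype.ofFinite G
  haveI : Fact (Nat.Prime 2) := ⟨Nat.prime_two⟩
  haveI : M.IsPrime := hM.2.1.isPrime
  obtain ⟨hK, hJ1, h1, h2⟩ := Cfsg.Agent.S4479.aux hM g₀ hg₀ hG hnc P J hJ hJ2 χ₁ χ₂ χ₃ ε₁ ε₂ ε₃ hB hdist hε hval
  have hJJ : J * J = 1 := klein_sq hK hJ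
  set x₁ := Cfsg.charDegree (χ₁ : G → ℂ) with hx₁
  set x₂ := Cfsg.charDegree (χ₂ : G → ℂ) with hx₂
  set x₃ := Cfsg.charDegree (χ₃ : G → ℂ) with hx₃
  have hp1 : 0 < x₁ := deg_pos χ₁
  have hp2 : 0 < x₂ := deg_pos χ₂
  have hp3 : 0 < x₃ := deg_pos χ₃
  -- signs
  have hs1 : ε₁ = 1 := by
    rcases hε.1 with h | h
    · exact h
    · exfalso
      have h3 : ε₂ = -1 := by
        rcases hε.2.1 with h' | h'
        · rw [h, h', hε₃] at hprod; norm_num at hprod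
        · exact h'
      rw [h, h3, hε₃] at h1
      omega
  have hs2 : ε₂ = 1 := by
    rcases hε.2.1 with h | h
    · exact h
    · rw [hs1, h, hε₃] at hprod; norm_num at hprod
  subst hs1 hs2 hε₃
  -- parity
  have hodd : ∀ χ : Cfsg.IrrCharacter G, ∀ n : ℤ, (χ : G → ℂ) J = n → (n = 1 ∨ n = -1) → Odd (Cfsg.charDegree (χ : G → ℂ)) := by
    intro χ n hn hn1
    obtain ⟨k, m, hk, hm, hd, -⟩ := CfsgH5.invol_val (IsIrr.isCharacter χ.2) (by rw [pow_two, hJJ] : J ^ 2 = 1)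
    have e1 : n = k := by
      have : (n : ℂ) = (k : ℂ) := by rw [← hn, hk]
      exact_mod_cast this
    have e2 : m = Cfsg.charDegree (χ : G → ℂ) := by
      have : (m : ℂ) = (Cfsg.charDegree (χ : G → ℂ) : ℂ) := by rw [← hm, deg_eq χ]
      exact_mod_cast this
    rw [← e2]
    rcases hn1 with h | h
    · rw [← e1, h] at hd
      rcases Nat.even_or_odd m with h' | h'
      · obtain ⟨w, hw⟩ := h'; omega
      · exact h'
    · rw [← e1, h] at hd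
      rcases Nat.even_or_odd m with h' | h'
      · obtain ⟨w, hw⟩ := h'; omega
      · exact h'
  have ho1 := hodd χ₁ 1 hval.1 (Or.inl rfl)
  have ho2 := hodd χ₂ 1 hval.2.1 (Or.inl rfl)
  have ho3 := hodd χ₃ (-1) hval.2.2 (Or.inr rfl)
  -- Frobenius-Schur
  have hfs : ∀ χ : Cfsg.IrrCharacter G, Odd (Cfsg.charDegree (χ : G → ℂ)) →
      ((∃ s : G, ((χ : G → ℂ) s).im ≠ 0) ∧ fs (χ : G → ℂ) = 0) ∨ fs (χ : G → ℂ) = 1 := by
    intro χ hχ
    rcases fs_main χ.2 with h | ⟨h, -⟩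
    · exact Or.inl h
    · exact Or.inr (fs_real_odd χ.2 h (deg_eq χ) hχ)
  obtain ⟨S, hS, hC⟩ := klein_centralizer_npc P hK hJ hJ1
  have h3 := sec_sqrt hM (z := J) ⟨1, by rw [hJ2, pow_one]⟩ hC (no_sqrt_klein P hK hJ1)
  rw [block4_sum hB hdist, hval.1, hval.2.1, hval.2.2] at h3
  have hfs0 : fs ((irrOne G : Cfsg.IrrCharacter G) : G → ℂ) = 1 := by
    have h4 : ∀ g : G, ((irrOne G : Cfsg.IrrCharacter G) : G → ℂ) g = 1 := fun _ => rfl
    rw [fs]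
    simp only [h4, Finset.sum_const, Finset.card_univ, nsmul_eq_mul, mul_one]
    rw [← Nat.card_eq_fintype_card, inv_mul_cancel₀]
    exact_mod_cast Nat.card_pos.ne'
  have hone1 : ((irrOne G : Cfsg.IrrCharacter G) : G → ℂ) J = 1 := rfl
  rw [hfs0, hone1] at h3
  have hc1 : ∃ s : G, ((χ₁ : G → ℂ) s).im ≠ 0 := by
    rcases hfs χ₁ ho1 with h | h
    · exact h.1
    · exfalso
      rcases hfs χ₂ ho2 with ⟨-, h'⟩ | h' <;> rcases hfs χ₃ ho3 with ⟨-, h''⟩ | h'' <;>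
        rw [h, h', h''] at h3 <;> norm_num at h3
  -- the conjugate of χ₁ is χ₂
  have hx12 : x₁ = x₂ := by
    have hmem : χ₁ ∈ Cfsg.principalBlock M G := by rw [hB]; exact Or.inr (Or.inl rfl)
    have hcm := principal_conj hmem
    have hdeg : Cfsg.charDegree ((irrConj χ₁ : Cfsg.IrrCharacter G) : G → ℂ) = x₁ := by
      have h4 : ((irrConj χ₁ : Cfsg.IrrCharacter G) : G → ℂ) 1 = (χ₁ : G → ℂ) 1 := one_conj χ₁
      have h5 : (Cfsg.charDegree ((irrConj χ₁ : Cfsg.IrrCharacter G) : G → ℂ) : ℂ) = (x₁ : ℂ) := by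
        rw [← deg_eq, h4, deg_eq]
      exact_mod_cast h5
    have hJv : ((irrConj χ₁ : Cfsg.IrrCharacter G) : G → ℂ) J = 1 := by
      have h4 : ((irrConj χ₁ : Cfsg.IrrCharacter G) : G → ℂ) J = conj ((χ₁ : G → ℂ) J) := rfl
      rw [h4, hval.1]; simp
    have hne : irrConj χ₁ ≠ χ₁ := by
      intro h
      obtain ⟨s, hs⟩ := hc1
      apply hs
      have h5 : conj ((χ₁ : G → ℂ) s) = (χ₁ : G → ℂ) s := congrFun (congrArg Subtype.val h) s
      exact Complex.conj_eq_iff_im.1 h5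
    rw [hB] at hcm
    rcases hcm with h | h | h | h
    · exfalso
      obtain ⟨s, hs⟩ := hc1
      apply hs
      have h5 : conj ((χ₁ : G → ℂ) s) = 1 := congrFun h s
      have h6 : (χ₁ : G → ℂ) s = 1 := by
        have := congrArg conj h5
        simpa using this
      rw [h6]; simp
    · exact absurd h hne
    · rw [← hdeg, h]
    · exfalso
      rw [h, hval.2.2] at hJv
      norm_num at hJv
  -- arithmetic
  have hq : x₃ = 2 * x₁ + 1 := by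
    have h4 := h1
    rw [← hx12] at h4
    push_cast at h4
    omega
  obtain ⟨t, ht⟩ : Nat.card (Subgroup.centralizer ((P : Subgroup G) : Set G)) ∣ Nat.card (Subgroup.centralizer ({J} : Set G)) :=
    Subgroup.card_dvd_of_le (Subgroup.centralizer_le (Set.singleton_subset_iff.2 hJ))
  set K := (Subgroup.centralizer ({J} : Set G)).index with hKd
  have hcK : Nat.card G = K * Nat.card (Subgroup.centralizer ({J} : Set G)) := by
    rw [hKd, mul_comm]; exact (Subgroup.card_mul_index _).symm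
  have hcP : 0 < Nat.card (Subgroup.centralizer ((P : Subgroup G) : Set G)) := Nat.card_pos
  have hcJ : 0 < Nat.card (Subgroup.centralizer ({J} : Set G)) := Nat.card_pos
  have ht0 : 0 < t := by
    rcases Nat.eq_zero_or_pos t with h | h
    · rw [h, mul_zero] at ht; omega
    · exact h
  have hdvd : ∀ χ : Cfsg.IrrCharacter G, ∀ n : ℤ, (χ : G → ℂ) J = n → (n = 1 ∨ n = -1) → Cfsg.charDegree (χ : G → ℂ) ∣ K := by
    intro χ n hn hn1
    have h4 := isIntegral_central χ.2 J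
    rw [card_isConj_eq_index, hn, deg_eq χ] at h4
    have hd0 : Cfsg.charDegree (χ : G → ℂ) ≠ 0 := (deg_pos χ).ne'
    refine dvd_of_isIntegral_div hd0 ?_
    have h5 : ((K : ℕ) : ℂ) / (Cfsg.charDegree (χ : G → ℂ) : ℂ) =
        (n : ℂ) * (((Subgroup.centralizer ({J} : Set G)).index : ℂ) * (n : ℂ) / (Cfsg.charDegree (χ : G → ℂ) : ℂ)) := by
      rcases hn1 with rfl | rfl <;> (push_cast; ring)
    rw [h5]
    exact (isIntegral_algebraMap (R := ℤ) (x := n)).mul h4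
  refine arith (r := x₁) (q := x₃) (a := x₁ + 1) (K := K) (t := t) rfl hq hp1 ht hcP hcK ?_
    (hdvd χ₁ 1 hval.1 (Or.inl rfl)) (hdvd χ₃ (-1) hval.2.2 (Or.inr rfl)) ht0
  -- main relation
  have h5 : ((K * (x₁ + 1) ^ 2 : ℕ) : ℚ) = ((4 * t ^ 2 * x₁ * x₃ : ℕ) : ℚ) := by
    have e1 : (Nat.card G : ℚ) = (K : ℚ) * (Nat.card (Subgroup.centralizer ({J} : Set G)) : ℚ) := by exact_mod_cast hcK
    have e2 : (Nat.card (Subgroup.centralizer ({J} : Set G)) : ℚ) =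
        (Nat.card (Subgroup.centralizer ((P : Subgroup G) : Set G)) : ℚ) * t := by exact_mod_cast ht
    have e3 : (x₃ : ℚ) = 2 * x₁ + 1 := by exact_mod_cast hq
    have e4 : (x₁ : ℚ) ≠ 0 := by exact_mod_cast hp1.ne'
    have e5 : (x₃ : ℚ) ≠ 0 := by exact_mod_cast hp3.ne'
    have e6 : (Nat.card (Subgroup.centralizer ((P : Subgroup G) : Set G)) : ℚ) ≠ 0 := by exact_mod_cast hcP.ne'
    have e7 : (t : ℚ) ≠ 0 := by exact_mod_cast ht0.ne'
    rw [e1, ← hx12, e2] at h2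
    push_cast at h2 ⊢
    set cP := (Nat.card (Subgroup.centralizer ((P : Subgroup G) : Set G)) : ℚ)
    have e8 : (1 : ℚ) + 1 / x₁ + 1 / x₁ + (-1) / x₃ = 2 * (x₁ + 1) ^ 2 / (x₁ * x₃) := by
      rw [e3] at e5 ⊢
      field_simp
      ring
    rw [e8] at h2
    field_simp at h2
    have e9 : (cP ^ 3 * t) ≠ 0 := mul_ne_zero (pow_ne_zero 3 e6) e7
    have e10 : cP * t * cP ^ 2 ≠ 0 := mul_ne_zero (mul_ne_zero e6 e7) (pow_ne_zero 2 e6)
    first
      | linear_combination h2 / 2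
      | (apply mul_left_cancel₀ e9; linear_combination h2 / 2)
      | (apply mul_left_cancel₀ e10; linear_combination h2 / 2)
  exact_mod_cast h5

end Cfsg.Agent.S4480
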