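import Cfsg.Statements.S4481
import Cfsg.Agent.H4.DihG

set_option autoImplicit false
open Cfsg

namespace Cfsg.Agent.S4481

open CfsgH4 hiding centralChar sum_conj regInner_symm
open CfsgH5 ComplexConjugate

/-- The principal 2-block of a group with dihedral Sylow 2-subgroups. Let G be a finite group whose Sylow 2-subgroup P is dihedral of order 2^n ≥ 8, let σ be an element of P of order 2^(n−1), ζ a primitive 2^(n−1)-th root of unity, and M a maximal ideal of the algebraic integers containing 2. Then the principal 2-block consists of exactly 3 + 2^(n−2) irreducible characters, which can be labelled 1, χ₁, χ₂, χ₃ and χ^(j) for 1 ≤ j ≤ 2^(n−2) − 1 (all distinct), with signs δ₁, δ₂, δ₃ such that for 0 < λ < 2^(n−1): χ₁(σ^λ) = δ₁, χ₂(σ^λ) = δ₂(−1)^(λ+1), χ₃(σ^λ) = δ₃(−1)^(λ+1) and χ^(j)(σ^λ) = δ₁(ζ^(jλ) + ζ^(−jλ)); and for every element ρ of odd order and every j: 1 + δ₁χ₁(ρ) = −δ₂χ₂(ρ)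 − δ₃χ₃(ρ) = δ₁χ^(j)(ρ). -/
theorem result {G : Type*} [Group G] [Finite G] (M : Ideal Cfsg.AlgInt) (hM : Cfsg.IsPModular 2 M) (n : ℕ) (hn : 3 ≤ n) (P : Sylow 2 G) (hP : Nonempty ((P : Subgroup G) ≃* DihedralGroup (2 ^ (n - 1)))) (σ : G) (hσ : σ ∈ (P : Subgroup G)) (hσo : orderOf σ = 2 ^ (n - 1)) (ζ : ℂ) (hζ : IsPrimitiveRoot ζ (2 ^ (n - 1))) : Nat.card (Cfsg.principalBlock M G) = 3 + 2 ^ (n - 2) ∧ ∃ (χ₁ χ₂ χ₃ : Cfsg.IrrCharacter G) (χ' : Fin (2 ^ (n - 2) - 1) → Cfsg.IrrCharacter G) (δ₁ δ₂ δ₃ : ℤ), (δ₁ = 1 ∨ δ₁ = -1) ∧ (δ₂ = 1 ∨ δ₂ = -1) ∧ (δ₃ = 1 ∨ δ₃ = -1) ∧ Function.Injective χ' ∧ (χ₁ : G → ℂ) ≠ (fun _ => 1) ∧ (χ₂ : G → ℂ) ≠ (fun _ => 1) ∧ (χ₃ : G → ℂ) ≠ (fun _ => 1) ∧ χ₁ ≠ χ₂ ∧ χ₁ ≠ χ₃ ∧ χ₂ ≠ χ₃ ∧ (∀ j, χ' j ≠ χ₁ ∧ χ' j ≠ χ₂ ∧ χ' j ≠ χ₃ ∧ (χ' j : G → ℂ) ≠ (fun _ => 1)) ∧ Cfsg.principalBlock M G = {χ : Cfsg.IrrCharacter G | (χ : G → ℂ) = (fun _ => 1) ∨ χ = χ₁ ∨ χ = χ₂ ∨ χ = χ₃ ∨ ∃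 j, χ = χ' j} ∧ (∀ l : ℕ, 0 < l → l < 2 ^ (n - 1) → (χ₁ : G → ℂ) (σ ^ l) = δ₁ ∧ (χ₂ : G → ℂ) (σ ^ l) = δ₂ * (-1) ^ (l + 1) ∧ (χ₃ : G → ℂ) (σ ^ l) = δ₃ * (-1) ^ (l + 1) ∧ ∀ j : Fin (2 ^ (n - 2) - 1), (χ' j : G → ℂ) (σ ^ l) = δ₁ * (ζ ^ (((j : ℕ) + 1) * l) + (ζ ^ (((j : ℕ) + 1) * l))⁻¹)) ∧ ∀ ρ : G, Odd (orderOf ρ) → ∀ j : Fin (2 ^ (n - 2) - 1), 1 + δ₁ * (χ₁ : G → ℂ) ρ = -δ₂ * (χ₂ : G → ℂ) ρ - δ₃ * (χ₃ : G → ℂ) ρ ∧ 1 + δ₁ * (χ₁ : G → ℂ) ρ = δ₁ * (χ' j : G → ℂ) ρ := by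
  classical
  haveI := Fintype.ofFinite G
  haveI : Fact (Nat.Prime 2) := ⟨Nat.prime_two⟩
  haveI : M.IsPrime := hM.2.1.isPrime
  haveI : NeZero (2 ^ (n - 1)) := ⟨by positivity⟩
  obtain ⟨e⟩ := hP
  have h : DihIn (P : Subgroup G) σ n := dihIn_of_equiv hn e hσ hσo
  have hph := pow_half hn
  have he := AddChar.zmodChar_primitive_of_primitive_root (2 ^ (n - 1)) hζ
  set ε : AddChar (ZMod (2 ^ (n - 1))) ℂ := AddChar.zmodChar (2 ^ (n - 1)) ((IsPrimitiveRoot.iff_def ζ (2 ^ (n - 1))).mp hζ).left with hε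
  have hεn : ∀ k : ℕ, ε (k : ZMod (2 ^ (n - 1))) = ζ ^ k := fun k => AddChar.zmodChar_apply' _ k
  obtain ⟨a, b, c, f, v, ha, hb, hc, hf, hfinj, hao, hbo, hco, hab, hac, hbc, hfne, hva, hvb, hvc, hval, hreg, hall⟩ :=
    dih_main hM h he
  have hone : ∀ χ : Cfsg.IrrCharacter G, χ ≠ irrOne G → (χ : G → ℂ) ≠ (fun _ => 1) := fun χ hχ h1 => hχ (Subtype.ext h1)
  have hhalf : ζ ^ (2 ^ (n - 2)) = -1 := by
    have h1 : ζ ^ (2 ^ (n - 2)) * ζ ^ (2 ^ (n - 2)) = 1 := by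
      rw [← pow_add, ← two_mul, ← hph, hζ.pow_eq_one]
    rcases mul_self_eq_one_iff.1 h1 with h2 | h2
    · exfalso
      have h3 := (hζ.pow_eq_one_iff_dvd _).1 h2
      have h4 : 0 < 2 ^ (n - 2) := by positivity
      have h5 := Nat.le_of_dvd h4 h3
      omega
    · exact h2
  refine ⟨?_, a, b, c, f, v a, v b, v c, hva, hvb, hvc, hfinj, hone a hao, hone b hbo, hone c hco, hab, hac, hbc,
    fun j => ⟨(hfne j).2.1, (hfne j).2.2.1, (hfne j).2.2.2, hone _ (hfne j).1⟩, ?_, ?_, ?_⟩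
  · -- the number
    have h1 : (Finset.univ.filter fun χ : Cfsg.IrrCharacter G => χ ∈ Cfsg.principalBlock M G) =
        ({irrOne G, a, b, c} : Finset (Cfsg.IrrCharacter G)) ∪ Finset.univ.image f := by
      ext χ
      simp only [Finset.mem_filter, Finset.mem_univ, true_and, Finset.mem_union, Finset.mem_insert, Finset.mem_singleton,
        Finset.mem_image]
      constructor
      · intro h1
        rcases hall χ h1 with h2 | h2 | h2 | h2 | ⟨i, h2⟩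
        · exact Or.inl (Or.inl h2)
        · exact Or.inl (Or.inr (Or.inl h2))
        · exact Or.inl (Or.inr (Or.inr (Or.inl h2)))
        · exact Or.inl (Or.inr (Or.inr (Or.inr h2)))
        · exact Or.inr ⟨i, h2.symm⟩
      · rintro ((rfl | rfl | rfl | rfl) | ⟨i, rfl⟩)
        · exact irrOne_mem
        · exact ha
        · exact hb
        · exact hc
        · exact hf i
    have h2 : Nat.card (Cfsg.principalBlock M G) = (Finset.univ.filter fun χ : Cfsg.IrrCharacter G => χ ∈ Cfsg.principalBlock M G).card := by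
      rw [Nat.card_eq_fintype_card]
      exact Fintype.card_subtype _
    rw [h2, h1, Finset.card_union_of_disjoint]
    · rw [Finset.card_image_of_injective _ hfinj, Finset.card_univ, Fintype.card_fin,
        Finset.card_insert_of_notMem (by simp [hao.symm, hbo.symm, hco.symm]), Finset.card_insert_of_notMem (by simp [hab, hac]),
        Finset.card_insert_of_notMem (by simp [hbc]), Finset.card_singleton]
      have h3 : 0 < 2 ^ (n - 2) := by positivity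
      omega
    · rw [Finset.disjoint_left]
      intro χ h3 h4
      simp only [Finset.mem_image, Finset.mem_univ, true_and] at h4
      obtain ⟨i, rfl⟩ := h4
      simp only [Finset.mem_insert, Finset.mem_singleton] at h3
      rcases h3 with h3 | h3 | h3 | h3
      · exact (hfne i).1 h3
      · exact (hfne i).2.1 h3
      · exact (hfne i).2.2.1 h3
      · exact (hfne i).2.2.2 h3
  · ext χ
    simp only [Set.mem_setOf_eq]
    constructor
    · intro h1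
      rcases hall χ h1 with h2 | h2 | h2 | h2 | h2
      · exact Or.inl (by rw [h2]; rfl)
      · exact Or.inr (Or.inl h2)
      · exact Or.inr (Or.inr (Or.inl h2))
      · exact Or.inr (Or.inr (Or.inr (Or.inl h2)))
      · exact Or.inr (Or.inr (Or.inr (Or.inr h2)))
    · rintro (h1 | rfl | rfl | rfl | ⟨i, rfl⟩)
      · have : χ = irrOne G := Subtype.ext h1
        rw [this]; exact irrOne_mem
      · exact ha
      · exact hb
      · exact hc
      · exact hf i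
  · intro l hl hl2
    have hx : ((l : ℕ) : ZMod (2 ^ (n - 1))) ≠ 0 := cast_zero hn hl hl2
    obtain ⟨v1, v2, v3, v4⟩ := hval _ hx
    rw [rot_nat] at v1 v2 v3
    have hhl : ε (hh n * (l : ZMod (2 ^ (n - 1)))) = (-1) ^ l := by
      unfold hh
      rw [← Nat.cast_mul, hεn, pow_mul, hhalf]
    rw [hhl] at v2 v3
    refine ⟨v1, ?_, ?_, ?_⟩
    · rw [v2, pow_succ]; ring
    · rw [v3, pow_succ]; ring
    · intro j
      have h4 := v4 j
      rw [rot_nat] at h4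
      rw [h4]
      have h5 : ε (jj n j * (l : ZMod (2 ^ (n - 1)))) = ζ ^ (((j : ℕ) + 1) * l) := by
        unfold jj
        rw [← Nat.cast_mul, hεn]
      rw [AddChar.map_neg_eq_inv, h5]
  · intro ρ hρ j
    have hρ2 : ¬ 2 ∣ orderOf ρ := by
      rw [← even_iff_two_dvd, Nat.not_even_iff_odd]; exact hρ
    obtain ⟨h1, h2⟩ := hreg ρ hρ2
    constructor
    · linear_combination h1
    · linear_combination h2 j

end Cfsg.Agent.S4481
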