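import Cfsg.Statements.S4494
import Cfsg.Agent.H5.Contr

set_option autoImplicit false
open Cfsg

namespace Cfsg.Agent.S4494

theorem feit_aux {G : Type*} [Group G] [Finite G] (p : ℕ) [Fact p.Prime] {M : Ideal Cfsg.AlgInt} (hM : Cfsg.IsPModular p M) {B : Set (Cfsg.IrrCharacter G)} (hB : Cfsg.IsPBlock M B) :
    4 * (∑ᶠ χ ∈ B, p ^ (2 * Cfsg.blockHeight p B (χ : G → ℂ))) ≤ (p ^ Cfsg.blockDefect p B) ^ 2 + 4 := by
  classical
  haveI : M.IsPrime := hM.2.1.isPrime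
  haveI := Fintype.ofFinite G
  obtain ⟨χ, hχ, h0⟩ := CfsgH5.exists_height_zero p (CfsgH5.IsPBlock.nonempty hB)
  obtain ⟨A, -, hA2, hA3, hA4, -, -, hA7, -, -, hA10⟩ := CfsgH5.contr hM hB hχ
  have hne := hA10 h0
  set d := p ^ Cfsg.blockDefect p B with hd
  have hsum : ∑ᶠ χ ∈ B, p ^ (2 * Cfsg.blockHeight p B (χ : G → ℂ)) =
      ∑ ψ : Cfsg.IrrCharacter G, if ψ ∈ B then p ^ (2 * Cfsg.blockHeight p B (ψ : G → ℂ)) else 0 := by
    rw [finsum_mem_eq_finite_toFinset_sum _ (Set.toFinite B), ← Finset.sum_filter]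
    exact Finset.sum_congr (by ext; simp) fun _ _ => rfl
  rw [hsum, ← Finset.add_sum_erase _ _ (Finset.mem_univ χ), if_pos hχ, h0]
  have h1 : ∑ ψ : Cfsg.IrrCharacter G, A ψ ^ 2 =
      A χ ^ 2 + ∑ ψ ∈ Finset.univ.erase χ, A ψ ^ 2 :=
    (Finset.add_sum_erase _ _ (Finset.mem_univ χ)).symm
  have h2 : ((∑ ψ ∈ Finset.univ.erase χ, if ψ ∈ B then
      p ^ (2 * Cfsg.blockHeight p B (ψ : G → ℂ)) else 0 : ℕ) : ℤ) ≤
      ∑ ψ ∈ Finset.univ.erase χ, A ψ ^ 2 := by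
    push_cast
    refine Finset.sum_le_sum fun ψ _ => ?_
    by_cases hψ : ψ ∈ B
    · rw [if_pos hψ]
      obtain ⟨c, hc⟩ := hA7 ψ hψ
      have hc0 : c ≠ 0 := by
        rintro rfl
        exact hne ψ hψ (by rw [hc, mul_zero])
      have hc1 : 1 ≤ c ^ 2 := by
        have : 0 < c ^ 2 := by positivity
        omega
      rw [hc, mul_pow, ← pow_mul, mul_comm (Cfsg.blockHeight p B (ψ : G → ℂ)) 2]
      have hp0 : (0 : ℤ) ≤ (p : ℤ) ^ (2 * Cfsg.blockHeight p B (ψ : G → ℂ)) := by positivity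
      nlinarith
    · rw [if_neg hψ]; positivity
  have h3 : (d : ℤ) = (p : ℤ) ^ Cfsg.blockDefect p B := by rw [hd]; push_cast; rfl
  have h4 : (4 : ℤ) * (p ^ (2 * 0) + ((∑ ψ ∈ Finset.univ.erase χ, if ψ ∈ B then
      p ^ (2 * Cfsg.blockHeight p B (ψ : G → ℂ)) else 0 : ℕ) : ℤ)) ≤ (d : ℤ) ^ 2 + 4 := by
    rw [← h3, h1] at hA3
    have h5 : (p : ℤ) ^ (2 * 0) = 1 := by simp
    rw [h5]
    nlinarith [sq_nonneg ((d : ℤ) - 2 * A χ)]
  exact_mod_cast h4

/-- The Brauer–Feit bound. Let B be a p-block of the finite group G (relative to a maximal ideal M of the algebraic integers containing p) and let d be its defect. Then the number k(B) of irreducible characters in B satisfies k(B) ≤ p^(2d)/4 + 1, stated here as 4·k(B) ≤ p^(2d) + 4. -/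
theorem result {G : Type*} [Group G] [Finite G] (p : ℕ) [Fact p.Prime] (M : Ideal Cfsg.AlgInt) (hM : Cfsg.IsPModular p M) (B : Set (Cfsg.IrrCharacter G)) (hB : Cfsg.IsPBlock M B) : 4 * Nat.card B ≤ p ^ (2 * Cfsg.blockDefect p B) + 4 := by
  classical
  haveI := Fintype.ofFinite G
  have h1 := feit_aux p hM hB
  have h2 : Nat.card B ≤ ∑ᶠ χ ∈ B, p ^ (2 * Cfsg.blockHeight p B (χ : G → ℂ)) := by
    have h3 : Nat.card B = ∑ ψ : Cfsg.IrrCharacter G, if ψ ∈ B then 1 else 0 := by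
      rw [← Finset.card_filter, Nat.card_eq_fintype_card, Fintype.card_subtype]
    rw [h3, finsum_mem_eq_finite_toFinset_sum _ (Set.toFinite B), ← Finset.sum_filter]
    have h4 : (Set.toFinite B).toFinset = Finset.univ.filter (fun a => a ∈ B) := by ext; simp
    rw [h4]
    refine Finset.sum_le_sum fun ψ _ => Nat.one_le_pow _ _ (Fact.out : p.Prime).pos
  rw [mul_comm 2, pow_mul]
  exact (Nat.mul_le_mul_left 4 h2).trans h1

end Cfsg.Agent.S4494
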