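import Cfsg.Statements.S4483
import Cfsg.Agent.H4.RealB
import Cfsg.Agent.S4494

set_option autoImplicit false
open Cfsg

namespace Cfsg.Agent.S4483

/-- Let G be a finite group of order 2^n·g₀ with g₀ odd, and M a maximal ideal of the algebraic integers containing 2. Every real-valued irreducible character of G of odd degree lies in the principal 2-block; consequently G has at most 2^(2n) real-valued irreducible characters of odd degree. -/
theorem result {G : Type*} [Group G] [Finite G] (M : Ideal Cfsg.AlgInt) (hM : Cfsg.IsPModular 2 M) : (∀ χ : Cfsg.IrrCharacter G, (∀ g : G, ((χ : G → ℂ) g).im = 0) → Odd (Cfsg.charDegree (χ : G → ℂ)) → χ ∈ Cfsg.principalBlock M G) ∧ Nat.card {χ : Cfsg.IrrCharacter G // (∀ g : G, ((χ : G → ℂ) g).im = 0) ∧ Odd (Cfsg.charDegree (χ : G → ℂ))} ≤ 2 ^ (2 * (Nat.card G).factorization 2) := by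
  haveI : M.IsPrime := hM.2.1.isPrime
  haveI : Fact (Nat.Prime 2) := ⟨Nat.prime_two⟩
  haveI := Fintype.ofFinite G
  have hpow : ∀ g : G, g ^ (Nat.card G - 1) = g⁻¹ := by
    intro g
    have h1 : g ^ (Nat.card G - 1) * g = 1 := by
      rw [← pow_succ, Nat.sub_add_cancel Nat.card_pos, pow_card_eq_one']
    exact eq_inv_of_mul_eq_one_left h1
  have hcop : Nat.Coprime (Nat.card G - 1) (Nat.card G) := by
    obtain ⟨m, hm⟩ := Nat.exists_eq_succ_of_ne_zero (Nat.card_pos (α := G)).ne'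
    rw [hm]
    simp
  have hfirst : ∀ χ : Cfsg.IrrCharacter G, (∀ g : G, ((χ : G → ℂ) g).im = 0) →
      Odd (Cfsg.charDegree (χ : G → ℂ)) → χ ∈ Cfsg.principalBlock M G := by
    intro χ hreal hodd
    have hreal' : ∀ g : G, (χ : G → ℂ) g⁻¹ = (χ : G → ℂ) g := by
      intro g
      rw [CfsgH4.IsCharacter.inv_eq (CfsgH4.IsIrr.isCharacter χ.2)]
      exact Complex.conj_eq_iff_im.2 (hreal g)
    have hB : Cfsg.IsPBlock M (Cfsg.blockOf M (χ : G → ℂ)) := ⟨χ, rfl⟩
    have hmem : χ ∈ Cfsg.blockOf M (χ : G → ℂ) := CfsgH5.mem_blockOf_self χ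
    have h1 := CfsgH4.stab_principal (k := Nat.card G - 1) hM hcop (fun g _ => hpow g) hB ?_ ?_
    · rw [← h1]; exact hmem
    · have h2 := CfsgH5.degree_eq (p := 2) hmem
      have h3 : (Cfsg.charDegree (χ : G → ℂ)).factorization 2 = 0 :=
        Nat.factorization_eq_zero_of_not_dvd (by
          rw [Nat.odd_iff] at hodd; omega)
      have h4 : Cfsg.blockDefect 2 (Cfsg.blockOf M (χ : G → ℂ)) ≤ (Nat.card G).factorization 2 :=
        Nat.sub_le _ _
      omega
    · intro ψ hψ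
      refine ⟨CfsgH4.irrConj ψ, ?_, fun g => ?_⟩
      · exact CfsgH4.sameBlock_pow (k := Nat.card G - 1) hcop hψ
          (fun g => by rw [hpow g, hreal' g])
          (fun g => by
            rw [hpow g, CfsgH4.IsCharacter.inv_eq (CfsgH4.IsIrr.isCharacter ψ.2)]; rfl)
      · rw [hpow g, CfsgH4.IsCharacter.inv_eq (CfsgH4.IsIrr.isCharacter ψ.2)]
        rfl
  refine ⟨hfirst, ?_⟩
  have h1 : Nat.card {χ : Cfsg.IrrCharacter G // (∀ g : G, ((χ : G → ℂ) g).im = 0) ∧
      Odd (Cfsg.charDegree (χ : G → ℂ))} ≤ Nat.card (Cfsg.principalBlock M G) := by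
    refine Nat.card_le_card_of_injective (fun x => ⟨x.1, hfirst x.1 x.2.1 x.2.2⟩) ?_
    intro x y h
    exact Subtype.ext (congrArg (fun z : Cfsg.principalBlock M G => (z : Cfsg.IrrCharacter G)) h)
  refine h1.trans ?_
  have hB : Cfsg.IsPBlock M (Cfsg.principalBlock M G) := CfsgH5.isPBlock_principal
  have h2 := Cfsg.Agent.S4494.feit_aux 2 hM hB
  have h3 : Nat.card (Cfsg.principalBlock M G) ≤
      ∑ᶠ χ ∈ Cfsg.principalBlock M G, 2 ^ (2 * Cfsg.blockHeight 2 (Cfsg.principalBlock M G) (χ : G → ℂ)) := by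
    classical
    have h4 : Nat.card (Cfsg.principalBlock M G) =
        ∑ ψ : Cfsg.IrrCharacter G, if ψ ∈ Cfsg.principalBlock M G then 1 else 0 := by
      rw [← Finset.card_filter, Nat.card_eq_fintype_card, Fintype.card_subtype]
    rw [h4, CfsgH5.finsum_mem_ite]
    refine Finset.sum_le_sum fun ψ _ => ?_
    split_ifs
    · exact Nat.one_le_pow _ _ (by norm_num)
    · exact le_rfl
  have h5 : Cfsg.blockDefect 2 (Cfsg.principalBlock M G) ≤ (Nat.card G).factorization 2 :=
    Nat.sub_le _ _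
  have h6 : (2 ^ Cfsg.blockDefect 2 (Cfsg.principalBlock M G)) ^ 2 ≤
      2 ^ (2 * (Nat.card G).factorization 2) := by
    rw [← pow_mul]
    exact Nat.pow_le_pow_right (by norm_num) (by omega)
  have h7 : 1 ≤ 2 ^ (2 * (Nat.card G).factorization 2) := Nat.one_le_pow _ _ (by norm_num)
  omega

end Cfsg.Agent.S4483
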