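import Cfsg.Statements.S4487
import Cfsg.Agent.H4.PC

set_option autoImplicit false
open Cfsg

namespace Cfsg.Agent.S4487

/-- Let G be a finite group and p a prime such that G has no non-trivial normal subgroup of order prime to p and C_G(O_p(G)) ≤ O_p(G). Then G has a single p-block: any two irreducible characters lie in the same block relative to every maximal ideal M of the algebraic integers containing p. -/
theorem result {G : Type*} [Group G] [Finite G] (p : ℕ) [Fact p.Prime] (M : Ideal Cfsg.AlgInt) (hM : Cfsg.IsPModular p M) (hcore : Cfsg.pPrimeCore p G = ⊥) (hconstr : Subgroup.centralizer ((Cfsg.pCore p G) : Set G) ≤ Cfsg.pCore p G) (χ ψ : Cfsg.IrrCharacter G) : Cfsg.SameBlock M (χ : G → ℂ) (ψ : G → ℂ) := by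
  haveI : M.IsPrime := hM.2.1.isPrime
  haveI : Fintype G := Fintype.ofFinite G
  have hp := (Fact.out : p.Prime)
  have he : CfsgH4.IsBl (⊥ : Subgroup G) (1 : MonoidAlgebra (CfsgH4.kk M) G) := by
    refine ⟨one_ne_zero, one_mul 1, CfsgH4.sup_one _, CfsgH4.fx_one _, fun w hs _ hww => ?_⟩
    have h1 : w = MonoidAlgebra.single 1 (w.coeff 1) := by
      ext g
      by_cases hg : g = 1
      · subst hg; simp
      · rw [hs g (by rwa [Subgroup.mem_bot])]
        simp [Ne.symm hg]
    have h2 : w.coeff 1 * w.coeff 1 = w.coeff 1 := by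
      have h3 : (w * w).coeff 1 = w.coeff 1 := by rw [hww]
      rw [h1, MonoidAlgebra.single_mul_single] at h3
      simpa using h3
    have h4 : w.coeff 1 = 0 ∨ w.coeff 1 = 1 := by
      by_cases h0 : w.coeff 1 = 0
      · exact Or.inl h0
      · right
        exact mul_left_cancel₀ h0 (by rw [h2, mul_one])
    rw [mul_one]
    rcases h4 with h4 | h4
    · right; rw [h1, h4]; ext g; simp
    · left; rw [h1, h4]; rfl
  haveI hcn : (Cfsg.pCore p G).Normal := inferInstance
  have hcp : IsPGroup p (Cfsg.pCore p G) := CfsgH2.isPGroup_pCore p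
  obtain ⟨j, hj⟩ := (IsPGroup.iff_card (p := p)).1 hcp
  have hsyl : CfsgH5.IsSyl p (Cfsg.pCore p G) (Cfsg.pCore p G) := by
    refine ⟨le_rfl, ?_⟩
    rw [hj, Nat.factorization_pow, Finsupp.smul_apply, hp.factorization_self, smul_eq_mul,
      mul_one]
  have htop := CfsgH4.isBl_top_of_core hM (K := (⊥ : Subgroup G)) (L := Cfsg.pCore p G)
    (Q := Cfsg.pCore p G) (by rw [Subgroup.card_bot]; exact hp.not_dvd_one) bot_le
    ⟨j, by rw [Subgroup.relIndex_bot_left, hj]⟩ hsyl (fun x hx _ => hconstr hx) he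
    (CfsgH4.fx_one _)
  obtain ⟨B, hB, hBe⟩ := CfsgH4.exists_block_of_top htop
  have hmem : ∀ χ : Cfsg.IrrCharacter G, χ ∈ B := by
    classical
    intro χ
    have h1 := CfsgH4.lam_idB (CfsgH5.inS_eSet hB) χ
    rw [← hBe, CfsgH4.lam_one] at h1
    by_contra hc
    rw [if_neg hc] at h1
    exact one_ne_zero h1
  exact (CfsgH5.IsPBlock.mem_iff hB (hmem χ)).1 (hmem ψ)

end Cfsg.Agent.S4487
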