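import Cfsg.Statements.S4490
import Cfsg.Agent.H4.RealB

set_option autoImplicit false
open Cfsg

namespace Cfsg.Agent.S4490

/-- Let G be a finite group and M a maximal ideal of the algebraic integers containing 2. Every 2-block B of G whose defect groups are the Sylow 2-subgroups of G (a block of full defect) and which is not the principal block is different from its complex-conjugate block, the block formed by the complex conjugates of the members of B. -/
theorem result {G : Type*} [Group G] [Finite G] (M : Ideal Cfsg.AlgInt) (hM : Cfsg.IsPModular 2 M) (B : Set (Cfsg.IrrCharacter G)) (hB : Cfsg.IsPBlock M B) (P : Sylow 2 G) (hfull : Cfsg.IsDefectGroup 2 M B (P : Subgroup G)) (hnp : B ≠ Cfsg.principalBlock M G) : {ψ : Cfsg.IrrCharacter G | ∃ χ ∈ B, (ψ : G → ℂ) = fun g => (starRingEnd ℂ) ((χ : G → ℂ) g)} ≠ B := by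
  haveI : M.IsPrime := hM.2.1.isPrime
  haveI : Fact (Nat.Prime 2) := ⟨Nat.prime_two⟩
  intro hst
  apply hnp
  have hpow : ∀ g : G, g ^ (Nat.card G - 1) = g⁻¹ := by
    intro g
    have h1 : g ^ (Nat.card G - 1) * g = 1 := by
      rw [← pow_succ, Nat.sub_add_cancel Nat.card_pos, pow_card_eq_one']
    exact eq_inv_of_mul_eq_one_left h1
  refine CfsgH4.stab_principal (k := Nat.card G - 1) hM ?_ (fun g _ => hpow g) hB ?_ ?_
  · obtain ⟨m, hm⟩ := Nat.exists_eq_succ_of_ne_zero (Nat.card_pos (α := G)).ne'
    rw [hm]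
    simp
  · have h1 := CfsgH5.defectGroup_card hM hB hfull
    rw [P.card_eq_multiplicity] at h1
    exact (Nat.pow_right_injective le_rfl h1).symm
  · intro χ hχ
    refine ⟨CfsgH4.irrConj χ, ?_, fun g => ?_⟩
    · rw [← hst]
      exact ⟨χ, hχ, rfl⟩
    · rw [hpow g, CfsgH4.IsCharacter.inv_eq (CfsgH4.IsIrr.isCharacter χ.2)]
      rfl

end Cfsg.Agent.S4490
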