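import Cfsg.Statements.S4496
import Cfsg.Agent.H4.Pidx2

set_option autoImplicit false
open Cfsg

namespace Cfsg.Agent.S4496

/-- Let the finite group G contain an element x of prime order p with C_G(x) = ⟨x⟩. Then: (a) every normal subgroup of order divisible by p contains the commutator subgroup; (b) every normal subgroup S of order prime to p has order dividing the number of subgroups of order p of G and congruent to 1 modulo p, and in G/S the image of x again has prime order p and commutes only with its own powers. -/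
theorem result {G : Type*} [Group G] [Finite G] (p : ℕ) (hp : p.Prime) (x : G) (hx : orderOf x = p) (hC : Subgroup.centralizer ({x} : Set G) = Subgroup.zpowers x) (S : Subgroup G) [S.Normal] : (p ∣ Nat.card S → commutator G ≤ S) ∧ (¬ p ∣ Nat.card S → Nat.card S ∣ Nat.card {H : Subgroup G // Nat.card H = p} ∧ Nat.card S % p = 1 ∧ orderOf (QuotientGroup.mk x : G ⧸ S) = p ∧ Subgroup.centralizer ({(QuotientGroup.mk x : G ⧸ S)} : Set (G ⧸ S)) = Subgroup.zpowers (QuotientGroup.mk x : G ⧸ S)) := by
  classical
  haveI := Fact.mk hp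
  set X := Subgroup.zpowers x with hX
  have hXc : Nat.card X = p := by rw [hX, Nat.card_zpowers, hx]
  have hx1 : x ≠ 1 := by
    intro h; rw [h, orderOf_one] at hx; exact hp.one_lt.ne hx
  have hmemC : ∀ g : G, g * x = x * g → g ∈ X := fun g hg => by
    rw [← hC]; exact Subgroup.mem_centralizer_singleton_iff.2 hg
  have hXp : IsPGroup p X := IsPGroup.of_card (n := 1) (by rw [hXc, pow_one])
  obtain ⟨P, hP⟩ := hXp.exists_le_sylow
  -- P = X
  have hPX : (P : Subgroup G) = X := by
    apply le_antisymm _ hP
    haveI : Nontrivial P := by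
      rw [Subgroup.nontrivial_iff_exists_ne_one]
      exact ⟨x, hP (Subgroup.mem_zpowers x), hx1⟩
    have hnt := P.2.center_nontrivial
    obtain ⟨⟨z, hz⟩, hz1⟩ := exists_ne (1 : Subgroup.center P)
    have hzx : (z : G) * x = x * z := by
      have := Subgroup.mem_center_iff.1 hz ⟨x, hP (Subgroup.mem_zpowers x)⟩
      exact (congrArg Subtype.val this).symm
    have hzX := hmemC z hzx
    have hz1' : (z : G) ≠ 1 := fun h => hz1 (Subtype.ext (Subtype.ext h))
    have hzz : Subgroup.zpowers (z : G) = X := by
      apply Subgroup.eq_of_le_of_card_ge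
      · rw [Subgroup.zpowers_le]; exact hzX
      · rw [hXc, Nat.card_zpowers]
        have h1 : orderOf (z : G) ∣ p := (Subgroup.orderOf_dvd_natCard X hzX).trans hXc.dvd
        rcases (Nat.dvd_prime hp).1 h1 with h2 | h2
        · exact absurd (orderOf_eq_one_iff.1 h2) hz1'
        · exact h2.ge
    have hxz : x ∈ Subgroup.zpowers (z : G) := by rw [hzz]; exact Subgroup.mem_zpowers x
    obtain ⟨k, hk⟩ := hxz
    intro g hg
    apply hmemC
    have hc : Commute g z := by
      have := Subgroup.mem_center_iff.1 hz ⟨g, hg⟩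
      exact congrArg Subtype.val this
    simp only at hk
    rw [← hk]
    exact (hc.zpow_right k).eq
  have hPc : Nat.card P = p := by
    have : Nat.card (P : Subgroup G) = Nat.card X := by rw [hPX]
    rw [hXc] at this; exact this
  have hSyl : ∀ Q : Sylow p G, Nat.card (Q : Subgroup G) = p := by
    intro Q
    exact (Nat.card_congr (Q.equiv P).toEquiv).trans hPc
  refine ⟨?_, ?_⟩
  · intro hpS
    -- x ∈ S
    have hXS : X ≤ S := by
      obtain ⟨y, hy⟩ := exists_prime_orderOf_dvd_card' p hpS
      have hyo : orderOf (y : G) = p := by rw [← hy]; exact Subgroup.orderOf_coe y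
      have hYp : IsPGroup p (Subgroup.zpowers (y : G)) := IsPGroup.of_card (n := 1) (by
        rw [Nat.card_zpowers, hyo, pow_one])
      obtain ⟨Q, hQ⟩ := hYp.exists_le_sylow
      have hQY : Subgroup.zpowers (y : G) = Q := by
        apply Subgroup.eq_of_le_of_card_ge hQ
        rw [hSyl Q, Nat.card_zpowers, hyo]
      obtain ⟨g, hg⟩ := MulAction.exists_smul_eq G Q P
      rw [← hPX, ← hg]
      intro w hw
      obtain ⟨v, hv, rfl⟩ := hw
      have hv' : v ∈ (Q : Subgroup G) := hv
      rw [← hQY] at hv'
      have hvS : v ∈ S := (Subgroup.zpowers_le.2 y.2) hv'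
      exact (inferInstance : S.Normal).conj_mem v hvS g
    have hfr : Subgroup.normalizer ((P : Subgroup G) : Set G) ⊔ S = ⊤ :=
      Sylow.normalizer_sup_eq_top' P (N := S) (by rw [hPX]; exact hXS)
    have hdec : ∀ g : G, ∃ n ∈ Subgroup.normalizer ((P : Subgroup G) : Set G), ∃ s ∈ S, n * s = g := by
      intro g
      have : g ∈ Subgroup.normalizer ((P : Subgroup G) : Set G) ⊔ S := by rw [hfr]; trivial
      exact Subgroup.mem_sup_of_normal_right.1 this
    have hnm : ∀ n ∈ Subgroup.normalizer ((P : Subgroup G) : Set G), ∃ k : ℤ, n * x * n⁻¹ = x ^ k := by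
      intro n hn
      have h1 := (Subgroup.mem_normalizer_iff.1 hn x).1 (by rw [hPX]; exact Subgroup.mem_zpowers x)
      rw [hPX] at h1
      obtain ⟨k, hk⟩ := h1
      exact ⟨k, hk.symm⟩
    have hcommS : ∀ n ∈ Subgroup.normalizer ((P : Subgroup G) : Set G),
        ∀ m ∈ Subgroup.normalizer ((P : Subgroup G) : Set G), (n * m)⁻¹ * (m * n) ∈ S := by
      intro n hn m hm
      apply hXS
      apply hmemC
      obtain ⟨k, hk⟩ := hnm n hn
      obtain ⟨l, hl⟩ := hnm m hm
      have e1 : (n * m) * x * (n * m)⁻¹ = x ^ (k * l) := by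
        have : (n * m) * x * (n * m)⁻¹ = n * (m * x * m⁻¹) * n⁻¹ := by group
        rw [this, hl, ← conj_zpow, hk, ← zpow_mul]
      have e2 : (m * n) * x * (m * n)⁻¹ = x ^ (k * l) := by
        have : (m * n) * x * (m * n)⁻¹ = m * (n * x * n⁻¹) * m⁻¹ := by group
        rw [this, hk, ← conj_zpow, hl, ← zpow_mul, mul_comm]
      have e3 := e2.trans e1.symm
      calc (n * m)⁻¹ * (m * n) * x = (n * m)⁻¹ * ((m * n) * x * (m * n)⁻¹) * (m * n) := by group
        _ = (n * m)⁻¹ * ((n * m) * x * (n * m)⁻¹) * (m * n) := by rw [e3]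
        _ = x * ((n * m)⁻¹ * (m * n)) := by group
    have hq : ∀ a b : G ⧸ S, a * b = b * a := by
      intro a b
      induction a using QuotientGroup.induction_on with | _ g =>
      induction b using QuotientGroup.induction_on with | _ h =>
      obtain ⟨n, hn, s, hs, rfl⟩ := hdec g
      obtain ⟨m, hm, t, ht, rfl⟩ := hdec h
      have e1 : ((n * s : G) : G ⧸ S) = n := by
        rw [QuotientGroup.mk_mul, (QuotientGroup.eq_one_iff s).2 hs, mul_one]
      have e2 : ((m * t : G) : G ⧸ S) = m := by
        rw [QuotientGroup.mk_mul, (QuotientGroup.eq_one_iff t).2 ht, mul_one]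
      rw [e1, e2, ← QuotientGroup.mk_mul, ← QuotientGroup.mk_mul]
      exact QuotientGroup.eq.2 (hcommS n hn m hm)
    rw [_root_.commutator_def, Subgroup.commutator_le]
    intro a _ b _
    rw [commutatorElement_def, ← QuotientGroup.eq_one_iff]
    simp only [QuotientGroup.mk_mul, QuotientGroup.mk_inv]
    rw [hq (a : G ⧸ S) b]
    group
  · intro hpS
    have hxS : x ∉ S := by
      intro h
      apply hpS
      rw [← hx]
      exact Subgroup.orderOf_dvd_natCard S h
    have hSX : ∀ g ∈ S, g ∈ X → g = 1 := by
      intro g hg hgX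
      have h1 : orderOf g ∣ p := (Subgroup.orderOf_dvd_natCard X hgX).trans hXc.dvd
      rcases (Nat.dvd_prime hp).1 h1 with h2 | h2
      · exact orderOf_eq_one_iff.1 h2
      · exfalso; apply hpS; rw [← h2]; exact Subgroup.orderOf_dvd_natCard S hg
    have hfix : ∀ g ∈ S, g * x = x * g → g = 1 := fun g hg h => hSX g hg (hmemC g h)
    refine ⟨?_, ?_, ?_, ?_⟩
    · -- number of Sylow subgroups
      have e : Nat.card {H : Subgroup G // Nat.card H = p} = Nat.card (Sylow p G) := by
        symm
        refine Nat.card_congr (Equiv.ofBijective (fun Q : Sylow p G => (⟨(Q : Subgroup G), hSyl Q⟩ :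
          {H : Subgroup G // Nat.card H = p})) ⟨?_, ?_⟩)
        · intro Q R h
          exact Sylow.ext (congrArg Subtype.val h)
        · rintro ⟨H, hH⟩
          have hHp : IsPGroup p H := IsPGroup.of_card (n := 1) (by rw [hH, pow_one])
          obtain ⟨Q, hQ⟩ := hHp.exists_le_sylow
          refine ⟨Q, Subtype.ext ?_⟩
          symm
          apply Subgroup.eq_of_le_of_card_ge hQ
          rw [hSyl Q, hH]
      rw [e, Sylow.card_eq_index_normalizer P]
      set N := Subgroup.normalizer ((P : Subgroup G) : Set G) with hN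
      have hdis : Disjoint S N := by
        rw [Subgroup.disjoint_def]
        intro s hs hsN
        have h1 := (Subgroup.mem_normalizer_iff.1 hsN x).1 (by rw [hPX]; exact Subgroup.mem_zpowers x)
        rw [hPX] at h1
        have h2 : s * x * s⁻¹ * x⁻¹ ∈ X := X.mul_mem h1 (X.inv_mem (Subgroup.mem_zpowers x))
        have h3 : s * x * s⁻¹ * x⁻¹ ∈ S := by
          have : s * x * s⁻¹ * x⁻¹ = s * (x * s⁻¹ * x⁻¹) := by group
          rw [this]
          exact S.mul_mem hs ((inferInstance : S.Normal).conj_mem _ (S.inv_mem hs) x)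
        have h4 := hSX _ h3 h2
        apply hfix s hs
        calc s * x = (s * x * s⁻¹ * x⁻¹) * (x * s) := by group
          _ = x * s := by rw [h4, one_mul]
      have hd : Nat.card N ∣ S.index := by
        refine Subgroup.card_dvd_of_injective ((QuotientGroup.mk' S).comp N.subtype) ?_
        rw [injective_iff_map_eq_one]
        intro n hn
        have h1 : (n : G) ∈ S := (QuotientGroup.eq_one_iff (n : G)).1 hn
        exact Subtype.ext (Subgroup.disjoint_def.1 hdis h1 n.2)
      obtain ⟨c, hc⟩ := hd
      have h1 := Subgroup.card_mul_index S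
      have h2 := Subgroup.card_mul_index N
      refine ⟨c, ?_⟩
      apply Nat.eq_of_mul_eq_mul_left (Nat.card_pos (α := N))
      refine Eq.trans (b := Nat.card G) h2 ?_
      rw [← h1, hc]; ring
    · -- fixed points
      letI : MulAction X S := MulAction.compHom S ((MulAut.conjNormal (H := S)).comp X.subtype)
      have hact : ∀ (g : X) (s : S), ((g • s : S) : G) = g * s * (g : G)⁻¹ := by
        intro g s
        show ((MulAut.conjNormal (g : G) s : S) : G) = _
        rw [MulAut.conjNormal_apply]
      have h1 := hXp.card_modEq_card_fixedPoints S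
      have h2 : Nat.card (MulAction.fixedPoints X S) = 1 := by
        rw [Nat.card_eq_one_iff_unique]
        refine ⟨⟨?_⟩, ⟨⟨1, ?_⟩⟩⟩
        · have : ∀ a : MulAction.fixedPoints X S, (a : S) = 1 := by
            intro a
            apply Subtype.ext
            have h3 := a.2 ⟨x, Subgroup.mem_zpowers x⟩
            have h4 := congrArg Subtype.val h3
            rw [hact] at h4
            apply hfix _ (a : S).2
            have h5 : (x * ((a : S) : G) * x⁻¹) * x = ((a : S) : G) * x := by
              exact congrArg (· * x) h4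
            rw [← h5]; group
          intro a b
          exact Subtype.ext ((this a).trans (this b).symm)
        · intro g
          apply Subtype.ext
          rw [hact]; simp
      rw [h2] at h1
      have h3 : Nat.card S % p = 1 % p := h1
      rw [h3, Nat.mod_eq_of_lt hp.one_lt]
    · have h1 : orderOf (QuotientGroup.mk x : G ⧸ S) ∣ p := by
        rw [← hx]; exact orderOf_map_dvd (QuotientGroup.mk' S) x
      rcases (Nat.dvd_prime hp).1 h1 with h2 | h2
      · exact absurd ((QuotientGroup.eq_one_iff x).1 (orderOf_eq_one_iff.1 h2)) hxS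
      · exact h2
    · apply le_antisymm
      · intro q hq
        induction q using QuotientGroup.induction_on with | _ g =>
        have h1 := Subgroup.mem_centralizer_singleton_iff.1 hq
        rw [← QuotientGroup.mk_mul, ← QuotientGroup.mk_mul, eq_comm, QuotientGroup.eq] at h1
        -- commutator map is bijective on S
        let f : S → S := fun s => ⟨s * x * (s : G)⁻¹ * x⁻¹, by
          have : (s : G) * x * (s : G)⁻¹ * x⁻¹ = s * (x * (s : G)⁻¹ * x⁻¹) := by group
          rw [this]
          exact S.mul_mem s.2 ((inferInstance : S.Normal).conj_mem _ (S.inv_mem s.2) x)⟩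
        have hf : Function.Injective f := by
          intro s t hst
          have h2 : (s : G) * x * (s : G)⁻¹ * x⁻¹ = t * x * (t : G)⁻¹ * x⁻¹ := congrArg Subtype.val hst
          have h3 : (s : G) * x * (s : G)⁻¹ = t * x * (t : G)⁻¹ := mul_right_cancel h2
          have h4 : ((t : G)⁻¹ * s) = 1 := by
            apply hfix _ (S.mul_mem (S.inv_mem t.2) s.2)
            calc (t : G)⁻¹ * s * x = (t : G)⁻¹ * (s * x * (s : G)⁻¹) * s := by group
              _ = (t : G)⁻¹ * (t * x * (t : G)⁻¹) * s := by rw [h3]
              _ = x * ((t : G)⁻¹ * s) := by group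
          apply Subtype.ext
          calc (s : G) = t * ((t : G)⁻¹ * s) := by group
            _ = t := by rw [h4, mul_one]
        have hfs := Finite.surjective_of_injective hf
        have hgS : g * x * g⁻¹ * x⁻¹ ∈ S := by
          have e1 : g * x * g⁻¹ * x⁻¹ = (x * g) * ((x * g)⁻¹ * (g * x)) * (x * g)⁻¹ := by group
          rw [e1]
          exact (inferInstance : S.Normal).conj_mem _ h1 _
        obtain ⟨s, hs⟩ := hfs ⟨_, hgS⟩
        have h2 : (s : G) * x * (s : G)⁻¹ * x⁻¹ = g * x * g⁻¹ * x⁻¹ := congrArg Subtype.val hs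
        have h3 : (s : G) * x * (s : G)⁻¹ = g * x * g⁻¹ := mul_right_cancel h2
        have h4 : (s : G)⁻¹ * g ∈ X := by
          apply hmemC
          calc (s : G)⁻¹ * g * x = (s : G)⁻¹ * (g * x * g⁻¹) * g := by group
            _ = (s : G)⁻¹ * (s * x * (s : G)⁻¹) * g := by rw [h3]
            _ = x * ((s : G)⁻¹ * g) := by group
        obtain ⟨k, hk⟩ := h4
        refine ⟨k, ?_⟩
        simp only at hk ⊢
        rw [← QuotientGroup.mk_zpow, hk]
        apply QuotientGroup.eq.2
        have : ((s : G)⁻¹ * g)⁻¹ * g = g⁻¹ * s * g := by group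
        rw [this]
        have h5 := (inferInstance : S.Normal).conj_mem _ s.2 g⁻¹
        rwa [inv_inv] at h5
      · rw [Subgroup.zpowers_le]
        exact Subgroup.mem_centralizer_singleton_iff.2 rfl

end Cfsg.Agent.S4496
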