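import Cfsg.Statements.S4499
import Cfsg.Agent.H5.Contr

set_option autoImplicit false
open Cfsg

namespace Cfsg.Agent.S4499

/-- Let G be a finite group whose order has p-part p^a (a ≥ 1), and fix a maximal ideal M of the algebraic integers containing p. If the degree of one irreducible character of a p-block B is divisible by p^(a−1), then the degree of every irreducible character in B is divisible by p^(a−1) (so B has defect at most 1). -/
theorem result {G : Type*} [Group G] [Finite G] (p : ℕ) [Fact p.Prime] (M : Ideal Cfsg.AlgInt) (hM : Cfsg.IsPModular p M) (hpa : p ∣ Nat.card G) (B : Set (Cfsg.IrrCharacter G)) (hB : Cfsg.IsPBlock M B) (χ : Cfsg.IrrCharacter G) (hχ : χ ∈ B) (hdiv : p ^ ((Nat.card G).factorization p - 1) ∣ Cfsg.charDegree (χ : G → ℂ)) (ψ : Cfsg.IrrCharacter G) (hψ : ψ ∈ B) : p ^ ((Nat.card G).factorization p - 1) ∣ Cfsg.charDegree (ψ : G → ℂ) := by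
  classical
  haveI : M.IsPrime := hM.2.1.isPrime
  haveI := Fintype.ofFinite G
  obtain ⟨A, -, hA2, hA3, hA4, hA5, hA6, hA7, hA8, hA9, hA10⟩ := CfsgH5.contr hM hB hχ
  have hp := (Fact.out : p.Prime)
  set a := (Nat.card G).factorization p with ha
  have ha1 : 1 ≤ a := (hp.dvd_iff_one_le_factorization Nat.card_pos.ne').1 hpa
  have hdeg : ∀ φ ∈ B, (Cfsg.charDegree (φ : G → ℂ)).factorization p + Cfsg.blockDefect p B =
      a + Cfsg.blockHeight p B (φ : G → ℂ) := fun φ hφ => CfsgH5.degree_eq hφ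
  have hχd : a - 1 ≤ (Cfsg.charDegree (χ : G → ℂ)).factorization p :=
    (hp.pow_dvd_iff_le_factorization (CfsgH5.charDegree_ne_zero χ)).1 hdiv
  rw [hp.pow_dvd_iff_le_factorization (CfsgH5.charDegree_ne_zero ψ)]
  obtain ⟨φ, hφ, hφ0⟩ := CfsgH5.exists_height_zero p (CfsgH5.IsPBlock.nonempty hB)
  by_cases h0 : Cfsg.blockHeight p B (χ : G → ℂ) = 0
  · have h1 := hdeg χ hχ
    have h2 := hdeg ψ hψ
    omega
  · exfalso
    have h1 := hdeg χ hχ
    have h2 := hA9 χ hχ h0
    have h3 : (p : ℤ) ^ Cfsg.blockDefect p B ∣ A χ :=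
      (pow_dvd_pow _ (by omega)).trans h2
    have h4 : A χ = (p : ℤ) ^ Cfsg.blockDefect p B := by
      obtain ⟨c, hc⟩ := h3
      have hpos : (0 : ℤ) < (p : ℤ) ^ Cfsg.blockDefect p B := by
        have := hp.pos
        positivity
      have hc1 : 0 < c := by
        rw [hc] at hA4
        exact (mul_pos_iff_of_pos_left hpos).1 hA4
      have hc2 : c ≤ 1 := by
        by_contra hcon
        push_neg at hcon
        rw [hc] at hA5
        nlinarith
      rw [hc, show c = 1 by omega, mul_one]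
    have hφχ : φ ≠ χ := by
      rintro rfl
      exact h0 hφ0
    have h5 : A φ ≠ 0 := by
      intro h
      apply hA8 φ hφ hφ0
      rw [h]; exact dvd_zero _
    have h6 : A χ ^ 2 + A φ ^ 2 ≤ ∑ ψ : Cfsg.IrrCharacter G, A ψ ^ 2 := by
      rw [← Finset.add_sum_erase _ _ (Finset.mem_univ χ)]
      have h7 : A φ ^ 2 ≤ ∑ ψ ∈ Finset.univ.erase χ, A ψ ^ 2 :=
        Finset.single_le_sum (f := fun ψ => A ψ ^ 2) (fun i _ => sq_nonneg _)
          (Finset.mem_erase.2 ⟨hφχ, Finset.mem_univ _⟩)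
      omega
    rw [hA3, ← h4] at h6
    have h8 : 0 < A φ ^ 2 := by positivity
    nlinarith

end Cfsg.Agent.S4499
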