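import Cfsg.Statements.S4512
import Cfsg.Agent.H4.Ker
import Cfsg.Agent.H5.KleinB
import Cfsg.Agent.H3.QDFus

set_option autoImplicit false
open Cfsg

namespace Cfsg.Agent.S4512

/-- If G is a finite group with a Sylow 2-subgroup that is a Klein four-group and a single conjugacy class of involutions, then its principal 2-block (relative to a maximal ideal M of the algebraic integers containing 2) has 2-regular rank 3: the restrictions of its irreducible characters to the elements of odd order span a space of dimension 3 (it has three irreducible Brauer characters). -/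
theorem result {G : Type*} [Group G] [Finite G] (M : Ideal Cfsg.AlgInt) (hM : Cfsg.IsPModular 2 M) (P : Sylow 2 G)
    (hP : Nat.card P = 4) (hexp : ∀ x : P, x * x = 1)
    (hone : ∀ s t : G, orderOf s = 2 → orderOf t = 2 → IsConj s t) :
    Cfsg.blockRank 2 (Cfsg.principalBlock M G) = 3 := by
  classical
  haveI := Fintype.ofFinite G
  haveI : Fact (Nat.Prime 2) := ⟨Nat.prime_two⟩
  haveI : M.IsPrime := hM.2.1.isPrime
  have hK : IsKleinFour (P : Subgroup G) := by
    constructor
    · exact hP
    · apply Nat.dvd_antisymm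
      · exact Monoid.exponent_dvd_of_forall_pow_eq_one fun x => by rw [pow_two]; exact hexp x
      · have h1 : Monoid.exponent P ≠ 1 := by
          intro h
          rw [Monoid.exp_eq_one_iff] at h
          have := (Nat.card_eq_one_iff_unique (α := P)).2 ⟨h, ⟨1⟩⟩
          rw [hP] at this
          omega
        have h2 : Monoid.exponent P ∣ 2 := Monoid.exponent_dvd_of_forall_pow_eq_one fun x => by rw [pow_two]; exact hexp x
        rcases (Nat.dvd_prime Nat.prime_two).1 h2 with h3 | h3
        · exact absurd h3 h1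
        · rw [h3]
  obtain ⟨ζ₂, ζ₃, ζ₄, ε, -, a1, a2, a3, a4, a5, a6, hall, -⟩ := CfsgH5.klein_main hM P hK hone
  have hcard : Nat.card (principalBlock M G) = 4 := by
    have h1 : principalBlock M G = (({CfsgH5.irrOne G, ζ₂, ζ₃, ζ₄} : Finset (IrrCharacter G)) : Set (IrrCharacter G)) := by
      ext χ
      rw [hall]
      simp
    rw [h1, Nat.card_coe_set_eq, Set.ncard_coe_finset]
    rw [Finset.card_insert_of_notMem, Finset.card_insert_of_notMem, Finset.card_insert_of_notMem, Finset.card_singleton]
    · simpa using a6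
    · simp only [Finset.mem_insert, Finset.mem_singleton, not_or]; exact ⟨a4, a5⟩
    · simp only [Finset.mem_insert, Finset.mem_singleton, not_or]; exact ⟨a1.symm, a2.symm, a3.symm⟩
  -- an involution of `P`
  obtain ⟨z, hz, hz1⟩ : ∃ z : G, z ∈ (P : Subgroup G) ∧ z ≠ 1 := by
    by_contra hcon
    push Not at hcon
    have h1 : (P : Subgroup G) = ⊥ := by
      rw [eq_bot_iff]
      intro g hg
      exact Subgroup.mem_bot.2 (hcon g hg)
    have h2 : Nat.card (P : Subgroup G) = 1 := by rw [h1]; simp
    have h3 : Nat.card (P : Subgroup G) = 4 := hP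
    omega
  have hz2 : orderOf z = 2 := by
    apply orderOf_eq_prime
    · have := congrArg Subtype.val (hexp ⟨z, hz⟩)
      rw [pow_two]
      exact this
    · exact hz1
  have hzp : ∃ k, orderOf z = 2 ^ k := ⟨1, by rw [hz2, pow_one]⟩
  obtain ⟨S, -, hS⟩ := CfsgH5.klein_centralizer_npc P hK hz hz1
  have hrk : blockRank 2 (principalBlock M (Subgroup.centralizer ({z} : Set G))) = 1 :=
    CfsgH4.rank_principal hM (CfsgH5.pPrimeCore_index_of_npc hS)
  have hX : ∀ x ∈ ({1, z} : Finset G), ∃ k : ℕ, orderOf x = 2 ^ k := by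
    intro x hx
    rw [Finset.mem_insert, Finset.mem_singleton] at hx
    rcases hx with rfl | rfl
    · exact ⟨0, by simp⟩
    · exact hzp
  have hXrep : ∀ g : G, (∃ k : ℕ, orderOf g = 2 ^ k) → ∃! x, x ∈ ({1, z} : Finset G) ∧ IsConj g x := by
    rintro g ⟨k, hk⟩
    obtain ⟨c, hc⟩ := CfsgH3.exists_conj_mem_sylow2 P (t := g) (k := k) (by rw [← hk]; exact pow_orderOf_eq_one g)
    have h4 : g * g = 1 := by
      have h5 := congrArg Subtype.val (hexp ⟨_, hc⟩)
      have h6 : c * g * c⁻¹ * (c * g * c⁻¹) = 1 := h5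
      have h7 : c * (g * g) * c⁻¹ = 1 := by rw [← h6]; group
      have h8 := congrArg (fun t => c⁻¹ * t * c) h7
      simpa [mul_assoc] using h8
    by_cases hg : g = 1
    · subst hg
      refine ⟨1, ⟨by simp, IsConj.refl _⟩, ?_⟩
      rintro y ⟨-, hy⟩
      exact (isConj_one_right.1 hy)
    · have hg2 : orderOf g = 2 := orderOf_eq_prime (by rw [pow_two]; exact h4) hg
      refine ⟨z, ⟨by simp, hone g z hg2 hz2⟩, ?_⟩
      rintro y ⟨hy, hy2⟩
      rw [Finset.mem_insert, Finset.mem_singleton] at hy
      rcases hy with rfl | rfl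
      · exact absurd (isConj_one_left.1 hy2) hg
      · rfl
  have h1 := CfsgH4.card_block_eq hM (CfsgH5.isPBlock_principalBlock (M := M) (G := G)) hX hXrep
  rw [Finset.sum_insert (by simpa using hz1.symm), Finset.sum_singleton, hcard,
    CfsgH4.sum_rank_at_one hM CfsgH5.isPBlock_principalBlock, CfsgH4.sum_rank_principal hM hzp, hrk] at h1
  have h2 : ((4 : ℕ) : ℂ) = ((blockRank 2 (principalBlock M G) + 1 : ℕ) : ℂ) := by push_cast; exact_mod_cast h1
  have h3 : 4 = blockRank 2 (principalBlock M G) + 1 := by exact_mod_cast h2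
  omega

end Cfsg.Agent.S4512
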