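import Cfsg.Statements.S4710
import Cfsg.Agent.H5.Contr

set_option autoImplicit false
open Cfsg

namespace Cfsg.Agent.S4710

open CfsgH5
open Classical in
theorem card_le_sum {ι : Type*} [Fintype ι] (S : Set ι) (f : ι → ℤ) (c : ℤ) (hf : ∀ i, 0 ≤ f i) (h : ∀ i ∈ S, c ≤ f i) :
    (Nat.card S : ℤ) * c ≤ ∑ i, f i := by
  haveI : Fintype S := Fintype.ofFinite S
  rw [Nat.card_eq_fintype_card, ← Set.toFinset_card]
  calc (S.toFinset.card : ℤ) * c = ∑ i ∈ S.toFinset, c := by rw [Finset.sum_const, nsmul_eq_mul]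
    _ ≤ ∑ i ∈ S.toFinset, f i := Finset.sum_le_sum fun i hi => h i (Set.mem_toFinset.1 hi)
    _ ≤ ∑ i, f i := Finset.sum_le_sum_of_subset_of_nonneg (Finset.subset_univ _) fun i _ _ => hf i


/-- Let p be a prime, M a maximal ideal of the algebraic integers containing p, and B a p-block of defect d of the finite group G containing k irreducible characters. If B contains a character of positive height then 2k ≤ p^(2d − 2); and every character in B has height 0 when d ≤ 1 and height at most d − 2 when d ≥ 2. -/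
theorem result {G : Type*} [Group G] [Finite G] (p : ℕ) [Fact p.Prime] (M : Ideal Cfsg.AlgInt) (hM : Cfsg.IsPModular p M) (B : Set (Cfsg.IrrCharacter G)) (hB : Cfsg.IsPBlock M B) (d : ℕ) (hd : Cfsg.blockDefect p B = d) : ((∃ χ ∈ B, 0 < Cfsg.blockHeight p B (χ : G → ℂ)) → 2 * Nat.card B ≤ p ^ (2 * d - 2)) ∧ ∀ χ ∈ B, (d ≤ 1 → Cfsg.blockHeight p B (χ : G → ℂ) = 0) ∧ (2 ≤ d → Cfsg.blockHeight p B (χ : G → ℂ) ≤ d - 2) := by
  classical
  haveI := Fintype.ofFinite G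
  have hp : p.Prime := Fact.out
  have hp2 : 2 ≤ p := hp.two_le
  -- the height of a character of positive height
  have key : ∀ χ ∈ B, 0 < Cfsg.blockHeight p B (χ : G → ℂ) → Cfsg.blockHeight p B (χ : G → ℂ) + 2 ≤ d ∧
      4 * (Nat.card {ψ : Cfsg.IrrCharacter G // ψ ∈ B ∧ Cfsg.blockHeight p B (ψ : G → ℂ) = 0} : ℤ) ≤ (p : ℤ) ^ (2 * d - 2) := by
    intro χ hχ hh
    obtain ⟨A, hA0, hA1, hA2, hA3, hA4, hA5, hA6, hA7, hA8, hA9⟩ := contr hM hB hχ
    rw [hd] at hA2 hA4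
    set h := Cfsg.blockHeight p B (χ : G → ℂ) with hhdef
    have hhd : h ≤ d := by
      by_contra hlt
      have h1 := Int.le_of_dvd hA3 (hA5 χ)
      have h2 : (p : ℤ) ^ d < (p : ℤ) ^ h := pow_lt_pow_right₀ (by exact_mod_cast hp.one_lt) (by omega)
      linarith
    obtain ⟨k, hk⟩ := Nat.exists_eq_add_of_le hhd
    choose c hc using hA5
    have hph : (0 : ℤ) < (p : ℤ) ^ h := by positivity
    have hsum : ∑ ψ : Cfsg.IrrCharacter G, c ψ ^ 2 = (p : ℤ) ^ k * c χ := by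
      have h1 : ((p : ℤ) ^ h) ^ 2 * ∑ ψ : Cfsg.IrrCharacter G, c ψ ^ 2 = ((p : ℤ) ^ h) ^ 2 * ((p : ℤ) ^ k * c χ) := by
        have h2 : ∑ ψ : Cfsg.IrrCharacter G, A ψ ^ 2 = ((p : ℤ) ^ h) ^ 2 * ∑ ψ : Cfsg.IrrCharacter G, c ψ ^ 2 := by
          rw [Finset.mul_sum]
          exact Finset.sum_congr rfl fun ψ _ => by rw [hc ψ]; ring
        rw [← h2, hA2, hk, hc χ, pow_add]; ring
      exact mul_left_cancel₀ (pow_ne_zero 2 hph.ne') h1
    have hcpos : 0 < c χ := by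
      have := hA3; rw [hc χ] at this
      exact (mul_pos_iff_of_pos_left hph).1 this
    have hc0 : ∀ ψ ∈ B, Cfsg.blockHeight p B (ψ : G → ℂ) = 0 → 1 ≤ c ψ ^ 2 := by
      intro ψ hψ h0
      have h1 := hA7 ψ hψ h0
      have h2 : c ψ ≠ 0 := by
        intro h3
        apply h1; rw [hc ψ, h3, mul_zero]; exact dvd_zero _
      have := sq_pos_of_ne_zero h2
      linarith
    -- number of height zero characters
    have hn0 : (Nat.card {ψ : Cfsg.IrrCharacter G // ψ ∈ B ∧ Cfsg.blockHeight p B (ψ : G → ℂ) = 0} : ℤ) * 1 ≤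
        (p : ℤ) ^ k * c χ - c χ ^ 2 := by
      have h1 : ∑ ψ : Cfsg.IrrCharacter G, (if ψ = χ then 0 else c ψ ^ 2) = (p : ℤ) ^ k * c χ - c χ ^ 2 := by
        rw [← hsum, ← Finset.add_sum_erase Finset.univ (fun ψ => c ψ ^ 2) (Finset.mem_univ χ),
          ← Finset.add_sum_erase Finset.univ (fun ψ => if ψ = χ then 0 else c ψ ^ 2) (Finset.mem_univ χ)]
        rw [if_pos rfl]
        have : ∑ ψ ∈ Finset.univ.erase χ, (if ψ = χ then 0 else c ψ ^ 2) = ∑ ψ ∈ Finset.univ.erase χ, c ψ ^ 2 :=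
          Finset.sum_congr rfl fun ψ hψ => if_neg (Finset.ne_of_mem_erase hψ)
        rw [this]; ring
      rw [← h1]
      refine card_le_sum {ψ | ψ ∈ B ∧ Cfsg.blockHeight p B (ψ : G → ℂ) = 0} _ 1 ?_ ?_
      · intro ψ; split_ifs
        · exact le_rfl
        · positivity
      · rintro ψ ⟨hψ, h0⟩
        rw [if_neg]
        · exact hc0 ψ hψ h0
        · rintro rfl; omega
    have hne : 0 < Nat.card {ψ : Cfsg.IrrCharacter G // ψ ∈ B ∧ Cfsg.blockHeight p B (ψ : G → ℂ) = 0} := by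
      obtain ⟨ψ, hψ, h0⟩ := exists_height_zero p (B := B) ⟨χ, hχ⟩
      haveI : Nonempty {ψ : Cfsg.IrrCharacter G // ψ ∈ B ∧ Cfsg.blockHeight p B (ψ : G → ℂ) = 0} := ⟨⟨ψ, hψ, h0⟩⟩
      exact Nat.card_pos
    have hlt : c χ < (p : ℤ) ^ k := by
      have h1 : (0 : ℤ) < (p : ℤ) ^ k * c χ - c χ ^ 2 := by
        have : (0 : ℤ) < Nat.card {ψ : Cfsg.IrrCharacter G // ψ ∈ B ∧ Cfsg.blockHeight p B (ψ : G → ℂ) = 0} := by exact_mod_cast hne
        linarith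
      nlinarith
    have hpc : (p : ℤ) ∣ c χ := by
      have h1 := hA8 χ hχ (by omega)
      rw [hc χ, pow_succ] at h1
      exact (mul_dvd_mul_iff_left hph.ne').1 h1
    have hpk : (p : ℤ) < (p : ℤ) ^ k := lt_of_le_of_lt (Int.le_of_dvd hcpos hpc) hlt
    have hk2 : 2 ≤ k := by
      by_contra hk2
      have : k = 0 ∨ k = 1 := by omega
      rcases this with rfl | rfl
      · rw [pow_zero] at hpk; have : (2 : ℤ) ≤ p := by exact_mod_cast hp2
        omega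
      · rw [pow_one] at hpk; exact lt_irrefl _ hpk
    refine ⟨by omega, ?_⟩
    have h1 : 4 * ((p : ℤ) ^ k * c χ - c χ ^ 2) ≤ (p : ℤ) ^ (2 * k) := by
      rw [pow_mul', ← sub_nonneg]
      have : ((p : ℤ) ^ k) ^ 2 - 4 * ((p : ℤ) ^ k * c χ - c χ ^ 2) = ((p : ℤ) ^ k - 2 * c χ) ^ 2 := by ring
      rw [this]; positivity
    have h2 : (p : ℤ) ^ (2 * k) ≤ (p : ℤ) ^ (2 * d - 2) :=
      pow_le_pow_right₀ (by exact_mod_cast hp.one_lt.le) (by omega)
    linarith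
  refine ⟨?_, ?_⟩
  · rintro ⟨χ, hχ, hh⟩
    obtain ⟨hd2, hcard⟩ := key χ hχ hh
    obtain ⟨φ, hφ, hφ0⟩ := exists_height_zero p (B := B) ⟨χ, hχ⟩
    obtain ⟨A, hA0, hA1, hA2, hA3, hA4, hA5, hA6, hA7, hA8, hA9⟩ := contr hM hB hφ
    rw [hd] at hA2 hA4
    have h1 : (Nat.card {ψ : Cfsg.IrrCharacter G // ψ ∈ B ∧ Cfsg.blockHeight p B (ψ : G → ℂ) ≠ 0} : ℤ) * (p : ℤ) ^ 2 ≤
        (p : ℤ) ^ d * A φ - A φ ^ 2 := by
      have h1 : ∑ ψ : Cfsg.IrrCharacter G, (if ψ = φ then 0 else A ψ ^ 2) = (p : ℤ) ^ d * A φ - A φ ^ 2 := by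
        rw [← hA2, ← Finset.add_sum_erase Finset.univ (fun ψ => A ψ ^ 2) (Finset.mem_univ φ),
          ← Finset.add_sum_erase Finset.univ (fun ψ => if ψ = φ then 0 else A ψ ^ 2) (Finset.mem_univ φ)]
        rw [if_pos rfl]
        have : ∑ ψ ∈ Finset.univ.erase φ, (if ψ = φ then 0 else A ψ ^ 2) = ∑ ψ ∈ Finset.univ.erase φ, A ψ ^ 2 :=
          Finset.sum_congr rfl fun ψ hψ => if_neg (Finset.ne_of_mem_erase hψ)
        rw [this]; ring
      rw [← h1]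
      refine card_le_sum {ψ | ψ ∈ B ∧ Cfsg.blockHeight p B (ψ : G → ℂ) ≠ 0} _ _ ?_ ?_
      · intro ψ; split_ifs
        · exact le_rfl
        · positivity
      · rintro ψ ⟨hψ, h0⟩
        rw [if_neg]
        · obtain ⟨m, hm⟩ := (dvd_pow_self (p : ℤ) h0).trans (hA6 ψ hψ)
          have hm0 : m ≠ 0 := by
            rintro rfl
            exact hA9 hφ0 ψ hψ (by rw [hm, mul_zero])
          rw [hm, mul_pow]
          have := sq_pos_of_ne_zero hm0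
          nlinarith [sq_nonneg (p : ℤ)]
        · rintro rfl; exact h0 hφ0
    have h2 : 4 * ((p : ℤ) ^ d * A φ - A φ ^ 2) ≤ (p : ℤ) ^ (2 * d) := by
      rw [pow_mul', ← sub_nonneg]
      have : ((p : ℤ) ^ d) ^ 2 - 4 * ((p : ℤ) ^ d * A φ - A φ ^ 2) = ((p : ℤ) ^ d - 2 * A φ) ^ 2 := by ring
      rw [this]; positivity
    have h3 : (p : ℤ) ^ (2 * d) = (p : ℤ) ^ (2 * d - 2) * (p : ℤ) ^ 2 := by
      rw [← pow_add]; congr 1; omega
    have hp2' : (0 : ℤ) < (p : ℤ) ^ 2 := by positivity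
    have h4 : 4 * (Nat.card {ψ : Cfsg.IrrCharacter G // ψ ∈ B ∧ Cfsg.blockHeight p B (ψ : G → ℂ) ≠ 0} : ℤ) ≤ (p : ℤ) ^ (2 * d - 2) := by
      apply le_of_mul_le_mul_right _ hp2'
      rw [← h3]
      linarith
    have h5 : (Nat.card B : ℤ) = (Nat.card {ψ : Cfsg.IrrCharacter G // ψ ∈ B ∧ Cfsg.blockHeight p B (ψ : G → ℂ) = 0} : ℤ) +
        (Nat.card {ψ : Cfsg.IrrCharacter G // ψ ∈ B ∧ Cfsg.blockHeight p B (ψ : G → ℂ) ≠ 0} : ℤ) := by
      have e1 : B = {ψ | ψ ∈ B ∧ Cfsg.blockHeight p B (ψ : G → ℂ) = 0} ∪ {ψ | ψ ∈ B ∧ Cfsg.blockHeight p B (ψ : G → ℂ) ≠ 0} := by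
        ext ψ; simp only [Set.mem_union, Set.mem_setOf_eq]; tauto
      have e2 : Disjoint {ψ : Cfsg.IrrCharacter G | ψ ∈ B ∧ Cfsg.blockHeight p B (ψ : G → ℂ) = 0} {ψ | ψ ∈ B ∧ Cfsg.blockHeight p B (ψ : G → ℂ) ≠ 0} := by
        rw [Set.disjoint_left]; rintro ψ ⟨-, h⟩ ⟨-, h'⟩; exact h' h
      have e3 := Set.ncard_union_eq e2 (Set.toFinite _) (Set.toFinite _)
      rw [← e1] at e3
      exact_mod_cast e3
    have h6 : 2 * (Nat.card B : ℤ) ≤ (p : ℤ) ^ (2 * d - 2) := by rw [h5]; linarith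
    exact_mod_cast h6
  · intro χ hχ
    by_cases hh : 0 < Cfsg.blockHeight p B (χ : G → ℂ)
    · have := (key χ hχ hh).1
      exact ⟨fun h => by omega, fun h => by omega⟩
    · exact ⟨fun _ => by omega, fun _ => by omega⟩

end Cfsg.Agent.S4710
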