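import Cfsg.Statements.S4513
import Cfsg.Agent.H4.Cen2
import Cfsg.Agent.S4710

set_option autoImplicit false
open Cfsg

namespace Cfsg.Agent.S4513

/-- Blocks of defect one for p = 2. Let M be a maximal ideal of the algebraic integers containing 2, B a 2-block of the finite group G whose defect group is the subgroup generated by an involution x, C = C_G(x), b a block of C inducing B and θ a member of b taking the same value at x as at 1 (there is exactly one). Then B consists of exactly two irreducible characters, which agree on every element of odd order, and they can be labelled χ₁, χ₂ with signs ε₁, ε₂ = ±1, ε₁ε₂ = −1, such that χᵢ(x y) = εᵢ θ(y) for every element y of C of odd order. -/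
theorem result {G : Type*} [Group G] [Finite G] (M : Ideal Cfsg.AlgInt) (hM : Cfsg.IsPModular 2 M) (x : G) (hx : orderOf x = 2)
    (B : Set (Cfsg.IrrCharacter G)) (hB : Cfsg.IsPBlock M B) (hBD : Cfsg.IsDefectGroup 2 M B (Subgroup.zpowers x))
    (b : Set (Cfsg.IrrCharacter ↥(Subgroup.centralizer ({x} : Set G)))) (hb : Cfsg.IsInducedBlock M (Subgroup.centralizer ({x} : Set G)) b B)
    (θ : Cfsg.IrrCharacter ↥(Subgroup.centralizer ({x} : Set G))) (hθ : θ ∈ b)
    (hθx : ∀ z : ↥(Subgroup.centralizer ({x} : Set G)), (z : G) = x → (θ : ↥(Subgroup.centralizer ({x} : Set G)) → ℂ) z = (θ : ↥(Subgroup.centralizer ({x} : Set G)) → ℂ) 1) :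
    Nat.card B = 2 ∧ (∀ χ ∈ B, ∀ ψ ∈ B, ∀ g : G, ¬ 2 ∣ orderOf g → (χ : G → ℂ) g = (ψ : G → ℂ) g) ∧
      ∃ χ₁ ∈ B, ∃ χ₂ ∈ B, χ₁ ≠ χ₂ ∧ ∃ ε₁ ε₂ : ℤ, (ε₁ = 1 ∨ ε₁ = -1) ∧ (ε₂ = 1 ∨ ε₂ = -1) ∧ ε₁ * ε₂ = -1 ∧
        ∀ y : ↥(Subgroup.centralizer ({x} : Set G)), ¬ 2 ∣ orderOf y →
          (χ₁ : G → ℂ) (x * y) = (ε₁ : ℂ) * (θ : ↥(Subgroup.centralizer ({x} : Set G)) → ℂ) y ∧ (χ₂ : G → ℂ) (x * y) = (ε₂ : ℂ) * (θ : ↥(Subgroup.centralizer ({x} : Set G)) → ℂ) y := by
  classical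
  haveI := Fintype.ofFinite G
  haveI : Fact (Nat.Prime 2) := ⟨Nat.prime_two⟩
  haveI : M.IsPrime := hM.2.1.isPrime
  haveI := Fintype.ofFinite (Subgroup.centralizer ({x} : Set G))
  have hxC : x ∈ Subgroup.centralizer ({x} : Set G) := Subgroup.mem_centralizer_singleton_iff.2 rfl
  have hxp : ∃ k, orderOf x = 2 ^ k := ⟨1, by rw [hx, pow_one]⟩
  have hxx : x * x = 1 := by rw [← pow_two, ← hx, pow_orderOf_eq_one]
  have hx1 : x ≠ 1 := by
    rintro rfl
    rw [orderOf_one] at hx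
    omega
  have hu := CfsgH5.mem_center_of_eq (u := (⟨x, hxC⟩ : Subgroup.centralizer ({x} : Set G))) rfl
  -- the defect
  have hdB : blockDefect 2 B = 1 := by
    have h1 := CfsgH5.defectGroup_card hM hB hBD
    rw [Nat.card_zpowers, hx] at h1
    have h2 : 2 ^ blockDefect 2 B = 2 ^ 1 := by rw [← h1, pow_one]
    exact Nat.pow_right_injective (le_refl 2) h2
  obtain ⟨D', hD'⟩ := CfsgH5.exists_defectGroup hM hb.1
  have huD := CfsgH5.mem_defect_centralizer hM hxp hb.1 hD' hxC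
  have hcD' : Nat.card D' ≤ 2 := by
    rw [CfsgH5.defectGroup_card hM hb.1 hD']
    calc 2 ^ blockDefect 2 b ≤ 2 ^ 1 := Nat.pow_le_pow_right (by norm_num) (hdB ▸ CfsgH5.defect_le_induced hM hb)
      _ = 2 := pow_one 2
  have hDz : D' = Subgroup.zpowers (⟨x, hxC⟩ : Subgroup.centralizer ({x} : Set G)) := by
    symm
    apply Subgroup.eq_of_le_of_card_ge
    · rw [Subgroup.zpowers_le]; exact huD
    · rw [Nat.card_zpowers, Subgroup.orderOf_mk, hx]; exact hcD'
  have hDc : D' ≤ Subgroup.center (Subgroup.centralizer ({x} : Set G)) := by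
    rw [hDz, Subgroup.zpowers_le]; exact hu
  have hcard2 : Nat.card D' = 2 := by rw [hDz, Nat.card_zpowers, Subgroup.orderOf_mk, hx]
  obtain ⟨θ₀, hθ₀b, hθ₀D, hall, hex, hrk, hcard, hθθ⟩ := CfsgH4.cen_struct hM hb.1 hDc hD'
  rw [hcard2] at hcard
  -- θ is the member trivial on x
  have hθ₀ : θ = θ₀ := by
    obtain ⟨ψ, -, hψu⟩ := hex 1
    have h1 : θ = ψ := by
      apply hψu
      refine ⟨hθ, fun v g => ?_⟩
      have hv : (v : Subgroup.centralizer ({x} : Set G)) ∈ Subgroup.zpowers (⟨x, hxC⟩ : Subgroup.centralizer ({x} : Set G)) := by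
        rw [← hDz]; exact v.2
      obtain ⟨n, hn⟩ := Subgroup.mem_zpowers_iff.1 hv
      rw [MonoidHom.one_apply, Units.val_one, one_mul, ← hn]
      have hbase : ∀ g, (θ : Subgroup.centralizer ({x} : Set G) → ℂ) (⟨x, hxC⟩ * g) = (θ : Subgroup.centralizer ({x} : Set G) → ℂ) g := by
        intro g
        have h2 := CfsgH5.irr_central_mul θ.2 hu g
        rw [hθx ⟨x, hxC⟩ rfl] at h2
        exact (mul_left_cancel₀ (CfsgH4.IsIrr.one_ne_zero θ.2) h2).symm
      have h3 : (⟨x, hxC⟩ : Subgroup.centralizer ({x} : Set G)) * ⟨x, hxC⟩ = 1 := Subtype.ext hxx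
      rcases Int.even_or_odd' n with ⟨m, rfl | rfl⟩
      · rw [zpow_mul]
        have : (⟨x, hxC⟩ : Subgroup.centralizer ({x} : Set G)) ^ (2 : ℤ) = 1 := by rw [zpow_two]; exact h3
        rw [this, one_zpow, one_mul]
      · rw [zpow_add, zpow_mul]
        have : (⟨x, hxC⟩ : Subgroup.centralizer ({x} : Set G)) ^ (2 : ℤ) = 1 := by rw [zpow_two]; exact h3
        rw [this, one_zpow, one_mul, zpow_one]
        exact hbase g
    have h2 : θ₀ = ψ := by
      apply hψu
      refine ⟨hθ₀b, fun v g => ?_⟩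
      rw [MonoidHom.one_apply, Units.val_one, one_mul]
      exact hθ₀D v g
    rw [h1, h2]
  subst hθ₀
  -- the coefficients
  have hwt : ∀ ψ : IrrCharacter (Subgroup.centralizer ({x} : Set G)), ∃ n : ℤ,
      CfsgH5.wt (⟨x, hxC⟩ : Subgroup.centralizer ({x} : Set G)) ψ = n := by
    intro ψ
    have h1 := CfsgH5.mul_wt hu ψ ⟨x, hxC⟩
    have h3 : (⟨x, hxC⟩ : Subgroup.centralizer ({x} : Set G)) * ⟨x, hxC⟩ = 1 := Subtype.ext hxx
    have h0 := CfsgH4.IsIrr.one_ne_zero ψ.2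
    have h4 : CfsgH5.wt (⟨x, hxC⟩ : Subgroup.centralizer ({x} : Set G)) ψ ^ 2 = 1 := by
      rw [h3] at h1
      have h5 : (ψ : Subgroup.centralizer ({x} : Set G) → ℂ) ⟨x, hxC⟩ =
          CfsgH5.wt (⟨x, hxC⟩ : Subgroup.centralizer ({x} : Set G)) ψ * (ψ : Subgroup.centralizer ({x} : Set G) → ℂ) 1 := by
        rw [CfsgH5.wt, div_mul_cancel₀ _ h0]
      rw [h5] at h1
      have h6 : (1 : ℂ) * (ψ : Subgroup.centralizer ({x} : Set G) → ℂ) 1 =
          CfsgH5.wt (⟨x, hxC⟩ : Subgroup.centralizer ({x} : Set G)) ψ ^ 2 * (ψ : Subgroup.centralizer ({x} : Set G) → ℂ) 1 := by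
        rw [one_mul, pow_two, mul_assoc]; exact h1
      exact (mul_right_cancel₀ h0 h6).symm
    rcases mul_self_eq_one_iff.1 ((pow_two _).symm.trans h4) with h5 | h5
    · exact ⟨1, by rw [h5]; simp⟩
    · exact ⟨-1, by rw [h5]; simp⟩
  have hcoef : ∀ χ : IrrCharacter G, ∃ n : ℤ, ∀ s : Subgroup.centralizer ({x} : Set G), ¬ 2 ∣ orderOf s →
      CfsgH5.Xf (⟨x, hxC⟩ : Subgroup.centralizer ({x} : Set G)) b (χ : G → ℂ) s =
        (n : ℂ) * (θ : Subgroup.centralizer ({x} : Set G) → ℂ) s := by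
    intro χ
    choose m hm using fun ψ : IrrCharacter (Subgroup.centralizer ({x} : Set G)) =>
      CfsgH5.mlt_nat (C := Subgroup.centralizer ({x} : Set G)) (CfsgH4.IsIrr.isCharacter χ.2) ψ
    choose w hw using hwt
    refine ⟨∑ ψ : IrrCharacter (Subgroup.centralizer ({x} : Set G)), if ψ ∈ b then (m ψ : ℤ) * w ψ else 0, fun s hs => ?_⟩
    rw [CfsgH4.Xf_rank_one hu hall (χ : G → ℂ) hs]
    congr 1
    rw [Int.cast_sum]
    refine Finset.sum_congr rfl fun ψ _ => ?_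
    split_ifs
    · rw [hm, hw]; push_cast; ring
    · simp
  choose a ha using hcoef
  have hsum := CfsgH4.sum_norm_central hM (u := (⟨x, hxC⟩ : Subgroup.centralizer ({x} : Set G))) rfl hxp hb.1 hall
    (a := fun χ => (a χ : ℂ)) ha
  rw [hcard] at hsum
  have hsumZ : ∑ χ : IrrCharacter G, a χ ^ 2 = 2 := by
    have h1 : ((∑ χ : IrrCharacter G, a χ ^ 2 : ℤ) : ℂ) = ((2 : ℤ) : ℂ) := by
      rw [Int.cast_sum]
      refine Eq.trans (Finset.sum_congr rfl fun χ _ => ?_) hsum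
      rw [map_intCast]; push_cast; ring
    exact_mod_cast h1
  have hreg1 : ¬ 2 ∣ orderOf (1 : Subgroup.centralizer ({x} : Set G)) := by rw [orderOf_one]; omega
  have hθ1 := CfsgH4.IsIrr.one_ne_zero θ.2
  have hzero : ∀ χ : IrrCharacter G, χ ∉ B → a χ = 0 := by
    intro χ hχ
    have h1 := CfsgH4.Xf_zero hM (u := (⟨x, hxC⟩ : Subgroup.centralizer ({x} : Set G))) rfl hxp hb hχ hreg1
    rw [ha χ 1 hreg1] at h1
    rcases mul_eq_zero.1 h1 with h2 | h2
    · exact_mod_cast h2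
    · exact absurd h2 hθ1
  have hht : ∀ χ ∈ B, blockHeight 2 B (χ : G → ℂ) = 0 := fun χ hχ =>
    ((S4710.result 2 M hM B hB 1 hdB).2 χ hχ).1 le_rfl
  have hnz : ∀ χ ∈ B, a χ ≠ 0 := by
    intro χ hχ h0
    obtain ⟨y, hy, hy2⟩ := CfsgH4.Xf_ne_zero hM hu hxp hb hχ (hht χ hχ)
    rw [ha χ y hy, h0] at hy2
    simp at hy2
  -- exactly two members
  have hsumB : ∑ χ ∈ Finset.univ.filter (fun χ : IrrCharacter G => χ ∈ B), a χ ^ 2 = 2 := by
    rw [Finset.sum_filter, ← hsumZ]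
    refine Finset.sum_congr rfl fun χ _ => ?_
    split_ifs with h
    · rfl
    · rw [hzero χ h]; simp
  obtain ⟨S, hSdef⟩ : ∃ S : Finset (IrrCharacter G), S = Finset.univ.filter (fun χ : IrrCharacter G => χ ∈ B) := ⟨_, rfl⟩
  rw [← hSdef] at hsumB
  have hSm : ∀ χ, χ ∈ S ↔ χ ∈ B := fun χ => by rw [hSdef]; simp
  have hge : ∀ χ ∈ S, 1 ≤ a χ ^ 2 := by
    intro χ hχ
    have h1 := hnz χ ((hSm χ).1 hχ)
    have : 0 < a χ ^ 2 := by positivity
    omega
  have hcardS : S.card ≤ 2 := by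
    have h1 : (S.card : ℤ) ≤ ∑ χ ∈ S, a χ ^ 2 := by
      have := Finset.sum_le_sum hge
      simpa using this
    rw [hsumB] at h1
    exact_mod_cast h1
  -- the first main theorem: b is unique
  have hN : Subgroup.centralizer ({x} : Set G) = Subgroup.normalizer (Subgroup.zpowers x : Set G) := by
    apply le_antisymm
    · intro c hc
      rw [Subgroup.mem_centralizer_singleton_iff] at hc
      rw [Subgroup.mem_normalizer_iff]
      have hcc : Commute c x := hc
      intro h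
      constructor
      · rintro ⟨n, rfl⟩
        show c * x ^ n * c⁻¹ ∈ _
        rw [(hcc.zpow_right n).eq, mul_inv_cancel_right]
        exact Subgroup.mem_zpowers_iff.2 ⟨n, rfl⟩
      · rintro ⟨n, hn⟩
        have h1 : h = c⁻¹ * x ^ n * c := by
          rw [show x ^ n = c * h * c⁻¹ from hn]; group
        rw [h1, (hcc.inv_left.zpow_right n).eq, inv_mul_cancel_right]
        exact Subgroup.mem_zpowers_iff.2 ⟨n, rfl⟩
    · intro c hc
      rw [Subgroup.mem_centralizer_singleton_iff]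
      have h1 := (Subgroup.mem_normalizer_iff.1 hc x).1 (Subgroup.mem_zpowers x)
      obtain ⟨n, hn⟩ := Subgroup.mem_zpowers_iff.1 h1
      rcases Int.even_or_odd' n with ⟨m, rfl | rfl⟩
      · rw [zpow_mul, zpow_two, hxx, one_zpow] at hn
        exfalso
        apply hx1
        have h2 : x = c⁻¹ * (c * x * c⁻¹) * c := by group
        rw [h2, ← hn]; simp
      · rw [zpow_add, zpow_mul, zpow_two, hxx, one_zpow, one_mul, zpow_one] at hn
        exact (eq_mul_inv_iff_mul_eq.1 hn).symm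
  have hsub : (Subgroup.zpowers x).subgroupOf (Subgroup.centralizer ({x} : Set G)) = D' := by
    rw [hDz]
    ext ⟨c, hc⟩
    rw [Subgroup.mem_subgroupOf, Subgroup.mem_zpowers_iff, Subgroup.mem_zpowers_iff]
    constructor
    · rintro ⟨n, hn⟩
      exact ⟨n, Subtype.ext (by simpa using hn)⟩
    · rintro ⟨n, hn⟩
      exact ⟨n, by simpa using congrArg Subtype.val hn⟩
  have huniq : ∀ b', IsInducedBlock M (Subgroup.centralizer ({x} : Set G)) b' B → b' = b := by
    intro b' hb'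
    exact (CfsgH4.first_main_unique' hM hN (CfsgH5.isPGroup_zpowers hxp) (by rw [hsub]; exact hD') hb hb').symm
  have hval : ∀ χ ∈ B, ∀ y : Subgroup.centralizer ({x} : Set G), ¬ 2 ∣ orderOf y →
      (χ : G → ℂ) (x * y) = (a χ : ℂ) * (θ : Subgroup.centralizer ({x} : Set G) → ℂ) y := by
    intro χ hχ y hy
    rw [← ha χ y hy]
    exact CfsgH4.value_eq_Xf hM (u := (⟨x, hxC⟩ : Subgroup.centralizer ({x} : Set G))) rfl hxp hb huniq hχ hy
  -- degrees: column orthogonality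
  have horth : ∑ χ ∈ S, (a χ : ℤ) * charDegree (χ : G → ℂ) = 0 := by
    have h1 := CfsgH5.block_orth hM (g := 1) (h := x) (x := 1) (y := x)
      (CfsgH5.ppart_of_regular (by rw [orderOf_one]; omega)) ⟨1, mul_one x, Commute.one_right x, hxp, by rw [orderOf_one]; omega⟩
      (fun h => hx1 (isConj_one_right.1 h)) hB
    have h2 : ((∑ χ ∈ S, (a χ : ℤ) * charDegree (χ : G → ℂ) : ℤ) : ℂ) * (θ : Subgroup.centralizer ({x} : Set G) → ℂ) 1 = 0 := by
      rw [← h1, Int.cast_sum, Finset.sum_mul, hSdef, Finset.sum_filter]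
      refine Finset.sum_congr rfl fun χ _ => ?_
      split_ifs with h
      · have h3 := hval χ h 1 hreg1
        rw [Subgroup.coe_one, mul_one] at h3
        have h4 : x⁻¹ = x := inv_eq_of_mul_eq_one_right hxx
        rw [h4, h3, CfsgH4.deg_eq χ]; push_cast; ring
      · rfl
    rcases mul_eq_zero.1 h2 with h3 | h3
    · exact_mod_cast h3
    · exact absurd h3 hθ1
  have hSne : S.Nonempty := by
    obtain ⟨χ, hχ⟩ := CfsgH5.IsPBlock.nonempty hB
    exact ⟨χ, (hSm χ).2 hχ⟩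
  have hcard2S : S.card = 2 := by
    have h1 : S.card ≠ 0 := Finset.card_ne_zero.2 hSne
    have h2 : S.card ≠ 1 := by
      intro h
      obtain ⟨χ, hχ⟩ := Finset.card_eq_one.1 h
      rw [hχ, Finset.sum_singleton] at horth
      have h3 : a χ ≠ 0 := hnz χ ((hSm χ).1 (by rw [hχ]; simp))
      have h4 : (charDegree (χ : G → ℂ) : ℤ) ≠ 0 := by exact_mod_cast (CfsgH4.deg_pos χ).ne'
      exact mul_ne_zero h3 h4 horth
    omega
  obtain ⟨χ₁, χ₂, hne, hS⟩ := Finset.card_eq_two.1 hcard2S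
  have h1B : χ₁ ∈ B := (hSm χ₁).1 (by rw [hS]; simp)
  have h2B : χ₂ ∈ B := (hSm χ₂).1 (by rw [hS]; simp)
  rw [hS, Finset.sum_pair hne] at hsumB horth
  have ha1 : a χ₁ ^ 2 = 1 := by
    have h1 := hge χ₁ (by rw [hS]; simp)
    have h2 := hge χ₂ (by rw [hS]; simp)
    omega
  have ha2 : a χ₂ ^ 2 = 1 := by omega
  have ha1' := mul_self_eq_one_iff.1 ((pow_two _).symm.trans ha1)
  have ha2' := mul_self_eq_one_iff.1 ((pow_two _).symm.trans ha2)
  have hBcard : Nat.card B = 2 := by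
    rw [Nat.card_eq_fintype_card, ← Set.toFinset_card]
    rw [show B.toFinset = S from by ext χ; rw [Set.mem_toFinset, hSm]]
    exact hcard2S
  -- agreement on regular elements
  have hagree : ∀ χ ∈ B, ∀ ψ ∈ B, ∀ g : G, ¬ 2 ∣ orderOf g → (χ : G → ℂ) g = (ψ : G → ℂ) g := by
    have hrel : ∀ g : G, ¬ 2 ∣ orderOf g → (χ₁ : G → ℂ) g * (a χ₁ : ℂ) + (χ₂ : G → ℂ) g * (a χ₂ : ℂ) = 0 := by
      intro g hg
      have h1 := CfsgH5.block_orth hM (g := g) (h := x) (x := 1) (y := x)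
        (CfsgH5.ppart_of_regular hg) ⟨1, mul_one x, Commute.one_right x, hxp, by rw [orderOf_one]; omega⟩
        (fun h => hx1 (isConj_one_right.1 h)) hB
      have h4 : x⁻¹ = x := inv_eq_of_mul_eq_one_right hxx
      rw [h4] at h1
      have h5 : ∑ χ ∈ S, (χ : G → ℂ) g * (a χ : ℂ) * (θ : Subgroup.centralizer ({x} : Set G) → ℂ) 1 = 0 := by
        rw [← h1, hSdef, Finset.sum_filter]
        refine Finset.sum_congr rfl fun χ _ => ?_
        split_ifs with h
        · have h3 := hval χ h 1 hreg1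
          rw [Subgroup.coe_one, mul_one] at h3
          rw [h3]; ring
        · rfl
      rw [hS, Finset.sum_pair hne, ← add_mul] at h5
      rcases mul_eq_zero.1 h5 with h6 | h6
      · exact h6
      · exact absurd h6 hθ1
    have hopp : a χ₂ = - a χ₁ := by
      have hd1 : 0 < (charDegree (χ₁ : G → ℂ) : ℤ) := by exact_mod_cast CfsgH4.deg_pos χ₁
      have hd2 : 0 < (charDegree (χ₂ : G → ℂ) : ℤ) := by exact_mod_cast CfsgH4.deg_pos χ₂
      rcases ha1' with h1 | h1 <;> rcases ha2' with h2 | h2 <;> rw [h1, h2] at horth ⊢ <;> first | rfl | (exfalso; linarith) | norm_num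
    have h12 : ∀ g : G, ¬ 2 ∣ orderOf g → (χ₁ : G → ℂ) g = (χ₂ : G → ℂ) g := by
      intro g hg
      have h1 := hrel g hg
      rw [hopp] at h1
      have h2 : (a χ₁ : ℂ) ≠ 0 := by exact_mod_cast hnz χ₁ h1B
      have h3 : ((χ₁ : G → ℂ) g - (χ₂ : G → ℂ) g) * (a χ₁ : ℂ) = 0 := by
        rw [← h1]; push_cast; ring
      rcases mul_eq_zero.1 h3 with h4 | h4
      · exact sub_eq_zero.1 h4
      · exact absurd h4 h2
    intro χ hχ ψ hψ g hg
    have h3 : χ = χ₁ ∨ χ = χ₂ := by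
      have := (hSm χ).2 hχ
      rw [hS] at this
      simpa using this
    have h4 : ψ = χ₁ ∨ ψ = χ₂ := by
      have := (hSm ψ).2 hψ
      rw [hS] at this
      simpa using this
    rcases h3 with rfl | rfl <;> rcases h4 with rfl | rfl
    · rfl
    · exact h12 g hg
    · exact (h12 g hg).symm
    · rfl
  refine ⟨hBcard, hagree, χ₁, h1B, χ₂, h2B, hne, a χ₁, a χ₂, ha1', ha2', ?_, fun y hy => ⟨hval χ₁ h1B y hy, hval χ₂ h2B y hy⟩⟩
  have hd := hagree χ₁ h1B χ₂ h2B 1 (by rw [orderOf_one]; omega)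
  rw [CfsgH4.deg_eq, CfsgH4.deg_eq] at hd
  have hd' : (charDegree (χ₁ : G → ℂ) : ℤ) = charDegree (χ₂ : G → ℂ) := by exact_mod_cast hd
  rw [hd', ← add_mul] at horth
  have hd2 : (charDegree (χ₂ : G → ℂ) : ℤ) ≠ 0 := by exact_mod_cast (CfsgH4.deg_pos χ₂).ne'
  have h5 : a χ₁ + a χ₂ = 0 := by
    rcases mul_eq_zero.1 horth with h | h
    · exact h
    · exact absurd h hd2
  have h6 : a χ₂ = - a χ₁ := by linarith
  rw [h6]
  nlinarith

end Cfsg.Agent.S4513
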