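import Cfsg.Statements.S4636
import Cfsg.Agent.H1.Basic

set_option autoImplicit false
open scoped Pointwise
open Cfsg

namespace Cfsg.Agent.S4636

open scoped commutatorElement Pointwise

theorem mem_of_pow {G : Type*} [Group G] [Finite G] {p : ℕ} [hp : Fact p.Prime] {P Z : Subgroup G} (hcyc : IsCyclic P) (hZ : Z ≤ P) (hZcard : Nat.card Z = p) {d : G} (hd : d ∈ P) (hdp : d ^ p = 1) : d ∈ Z := by
  classical
  haveI : Fintype P := Fintype.ofFinite P
  have h1 : (Finset.univ.filter (fun a : P => a ^ p = 1)).card ≤ p := IsCyclic.card_pow_eq_one_le hp.out.pos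
  have h2 : (Finset.univ.filter (fun a : P => (a : G) ∈ Z)) ⊆ (Finset.univ.filter (fun a : P => a ^ p = 1)) := by
    intro a ha
    rw [Finset.mem_filter] at ha ⊢
    refine ⟨Finset.mem_univ _, ?_⟩
    have h3 : (⟨a, ha.2⟩ : Z) ^ p = 1 := by rw [← hZcard]; exact pow_card_eq_one'
    have h4 : (a : G) ^ p = 1 := congrArg Subtype.val h3
    exact Subtype.ext h4
  have h4 : (Finset.univ.filter (fun a : P => (a : G) ∈ Z)).card = p := by
    rw [← hZcard, ← Fintype.card_subtype, ← Nat.card_eq_fintype_card]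
    exact Nat.card_congr ⟨fun a => ⟨a.1, a.2⟩, fun a => ⟨⟨a.1, hZ a.2⟩, a.2⟩, fun _ => rfl, fun _ => rfl⟩
  have h5 := Finset.eq_of_subset_of_card_le h2 (by rw [h4]; exact h1)
  have h6 : (⟨d, hd⟩ : P) ∈ Finset.univ.filter (fun a : P => a ^ p = 1) := by
    rw [Finset.mem_filter]
    exact ⟨Finset.mem_univ _, Subtype.ext hdp⟩
  rw [← h5, Finset.mem_filter] at h6
  exact h6.2

theorem eq_of_mem {G : Type*} [Group G] [Finite G] {p : ℕ} [hp : Fact p.Prime] {Z W : Subgroup G} (hZ : Nat.card Z = p) (hW : Nat.card W = p) {d : G} (h1 : d ≠ 1) (hdZ : d ∈ Z) (hdW : d ∈ W) : Z = W := by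
  have key : ∀ X : Subgroup G, Nat.card X = p → d ∈ X → Subgroup.zpowers d = X := by
    intro X hX hd
    apply Subgroup.eq_of_le_of_card_ge ((Subgroup.zpowers_le).2 hd)
    rw [hX, Nat.card_zpowers]
    have h2 : orderOf d ∣ p := by rw [← hX]; exact Subgroup.orderOf_dvd_natCard _ hd
    rcases (Nat.dvd_prime hp.out).1 h2 with h3 | h3
    · exact absurd (orderOf_eq_one_iff.1 h3) h1
    · exact h3.ge
  rw [← key Z hZ hdZ, key W hW hdW]

/-- Let P be a nontrivial cyclic p-subgroup of the finite group G and Z its subgroup of order p. For every x outside N_G(Z), P meets its conjugate xPx⁻¹ trivially; consequently N_G(Q) ≤ N_G(Z) for every nontrivial subgroup Q of P. -/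
theorem result {G : Type*} [Group G] [Finite G] (p : ℕ) [Fact p.Prime] (P : Subgroup G) (hP : IsPGroup p P) (hP1 : P ≠ ⊥) (hcyc : IsCyclic P) (Z : Subgroup G) (hZ : Z ≤ P) (hZcard : Nat.card Z = p) : (∀ x : G, x ∉ Subgroup.normalizer (Z : Set G) → P ⊓ MulAut.conj x • P = ⊥) ∧ ∀ Q : Subgroup G, Q ≤ P → Q ≠ ⊥ → Subgroup.normalizer (Q : Set G) ≤ Subgroup.normalizer (Z : Set G) := by

  have key : ∀ x : G, x ∉ Subgroup.normalizer (Z : Set G) → P ⊓ MulAut.conj x • P = ⊥ := by
    intro x hx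
    by_contra hne
    apply hx
    have hDp : IsPGroup p (P ⊓ MulAut.conj x • P : Subgroup G) := hP.to_le inf_le_left
    obtain ⟨n, hn⟩ := IsPGroup.iff_card.1 hDp
    have hn0 : n ≠ 0 := by
      rintro rfl
      rw [pow_zero, Subgroup.card_eq_one] at hn
      exact hne hn
    obtain ⟨d, hd⟩ := exists_prime_orderOf_dvd_card' (G := (P ⊓ MulAut.conj x • P : Subgroup G)) p (by rw [hn]; exact dvd_pow_self p hn0)
    have hd1 : (d : G) ≠ 1 := by
      intro h
      have : d = 1 := Subtype.ext h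
      rw [this, orderOf_one] at hd
      exact (Fact.out : p.Prime).one_lt.ne hd
    have hdp : (d : G) ^ p = 1 := by
      rw [← Subgroup.coe_pow, ← hd, pow_orderOf_eq_one]; rfl
    have hdZ : (d : G) ∈ Z := mem_of_pow hcyc hZ hZcard d.2.1 hdp
    have hd2 : x⁻¹ * (d : G) * x ∈ P := by
      have h1 : (d : G) ∈ MulAut.conj x • P := d.2.2
      rw [Subgroup.mem_pointwise_smul_iff_inv_smul_mem] at h1
      simpa [MulAut.smul_def, mul_assoc] using h1
    have hdZ2 : (d : G) ∈ MulAut.conj x • Z := by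
      rw [Subgroup.mem_pointwise_smul_iff_inv_smul_mem]
      have h2 : x⁻¹ * (d : G) * x ∈ Z := by
        apply mem_of_pow hcyc hZ hZcard hd2
        have h3 : x⁻¹ * (d : G) * x = x⁻¹ * (d : G) * (x⁻¹)⁻¹ := by rw [inv_inv]
        rw [h3, conj_pow, hdp]; group
      simpa [MulAut.smul_def, mul_assoc] using h2
    have h4 : Nat.card (MulAut.conj x • Z : Subgroup G) = p := by rw [← hZcard]; exact Nat.card_congr (Subgroup.equivSMul (MulAut.conj x) Z).toEquiv.symm
    have h5 := eq_of_mem hZcard h4 hd1 hdZ hdZ2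
    exact CfsgH1.conj_smul_eq_self_iff.1 h5.symm
  refine ⟨key, fun Q hQ hQ1 x hx => ?_⟩
  by_contra hn
  apply hQ1
  have h1 := key x hn
  rw [eq_bot_iff, ← h1]
  refine le_inf hQ ?_
  rw [← CfsgH1.conj_smul_eq_self_iff.2 hx]
  exact CfsgH1.conj_smul_mono x hQ

end Cfsg.Agent.S4636
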