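import Cfsg.Statements.S4637
import Cfsg.Agent.H4.Ab4

set_option autoImplicit false
open Cfsg

namespace Cfsg.Agent.S4637

open CfsgH4 CfsgAb
open CfsgH5 hiding regInner_symm

theorem odd_mem {G : Type*} [Group G] [Finite G] {H K : Subgroup G} (hHK : H ≤ K) (hn : (H.subgroupOf K).Normal)
    (hodd : ¬ 2 ∣ H.relIndex K) {t : G} (ht : t ∈ K) (ht2 : t ^ 2 ∈ H) : t ∈ H := by
  haveI := hn
  have h1 := Subgroup.pow_index_mem (H.subgroupOf K) (⟨t, ht⟩ : K)
  have h2 : t ^ (H.relIndex K) ∈ H := Subgroup.mem_subgroupOf.1 h1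
  obtain ⟨m, hm⟩ : ∃ m, H.relIndex K = 2 * m + 1 := by
    rcases Nat.even_or_odd' (H.relIndex K) with ⟨m, h | h⟩
    · exact absurd ⟨m, h⟩ hodd
    · exact ⟨m, h⟩
  rw [hm, pow_add, pow_mul, pow_one] at h2
  exact (H.mul_mem_cancel_left (H.pow_mem ht2 m)).1 h2

/-- Let B be a block of the finite group G relative to a maximal ideal M of the algebraic integers containing 2, with a Klein four defect group P. Let c be a block of C_G(P) inducing B, T the stabilizer of c in N_G(P) and e the index of C_G(P) in T (the inertial index). Then e is 1 or 3, B contains exactly four irreducible characters, and the 2-regular rank of B (its number of irreducible Brauer characters) equals e. -/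
theorem result {G : Type*} [Group G] [Finite G] (M : Ideal Cfsg.AlgInt) (hM : Cfsg.IsPModular 2 M) (B : Set (Cfsg.IrrCharacter G)) (hB : Cfsg.IsPBlock M B) (P : Subgroup G) (hPD : Cfsg.IsDefectGroup 2 M B P) (hV : IsKleinFour P) (c : Set (Cfsg.IrrCharacter (Subgroup.centralizer (P : Set G)))) (hc : Cfsg.IsInducedBlock M (Subgroup.centralizer (P : Set G)) c B) (T : Subgroup G) (hT : ∀ g : G, g ∈ T ↔ (g ∈ Subgroup.normalizer (P : Set G) ∧ Cfsg.StabilizesBlock (Subgroup.centralizer (P : Set G)) c g)) (e : ℕ) (he : (Subgroup.centralizer (P : Set G)).relIndex T = e) : (e = 1 ∨ e = 3) ∧ Nat.card B = 4 ∧ Cfsg.blockRank 2 B = e := by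
  classical
  haveI := CfsgH5.IsPModular.isPrime hM
  haveI := Fintype.ofFinite G
  haveI : Fact (Nat.Prime 2) := ⟨Nat.prime_two⟩
  have hPp : IsPGroup 2 P := CfsgH5.IsDefectGroup.isPGroup hPD
  have hc4 : Nat.card P = 4 := hV.card_four
  have hsq : ∀ v ∈ P, v ^ 2 = 1 := by
    intro v hv
    have h1 := Monoid.pow_exponent_eq_one (⟨v, hv⟩ : P)
    rw [hV.exponent_two] at h1
    exact congrArg Subtype.val h1
  have hcomm : ∀ x ∈ P, ∀ y ∈ P, x * y = y * x := by
    intro x hx y hy
    have h1 : (x * y) * (x * y) = 1 := by rw [← pow_two]; exact hsq _ (P.mul_mem hx hy)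
    have h2 : x * x = 1 := by rw [← pow_two]; exact hsq _ hx
    have h3 : y * y = 1 := by rw [← pow_two]; exact hsq _ hy
    calc x * y = x * ((x * y) * (x * y)) * y := by rw [h1, mul_one]
      _ = (x * x) * y * x * (y * y) := by group
      _ = y * x := by rw [h2, h3]; group
  have hab : P ≤ cz P := by
    intro x hx
    rw [Subgroup.mem_centralizer_iff]
    intro y hy
    exact hcomm y hy x hx
  have hBt := isBl_top hB
  have hof : Of 2 ⊤ (idB M B) (P, idH M (cz P) c) :=
    ⟨hPp, le_top, le_top, isBl_idH hc.1, (ind_iff hM hPp hab le_rfl (cz_le_nz P) hc.1 hB).1 hc⟩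
  have hmax := mp_of_dg hof ((isDefectGroup_iff_DG hM hB).1 hPD)
  have hTeq : T = st (P, idH M (cz P) c) := stab_eq hc.1 hT
  have hczst : cz P ≤ st (P, idH M (cz P) c) := cz_le_st (a := (P, idH M (cz P) c)) (isBl_idH hc.1).fx
  have he' : (cz P).relIndex (st (P, idH M (cz P) c)) = e := by rw [← hTeq]; exact he
  have hodd : ¬ 2 ∣ (cz P).relIndex (st (P, idH M (cz P) c)) := by
    have h1 := inertial_index hM hBt hmax
    rwa [sup_eq_right.2 hab] at h1
  have hnor : ((cz P).subgroupOf (st (P, idH M (cz P) c))).Normal := by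
    refine ⟨fun n hn g => ?_⟩
    rw [Subgroup.mem_subgroupOf] at hn ⊢
    have h3 : (g : G) ∈ nz P := g.2.1
    have h4 := nz_le_nz_cz P h3
    exact (Subgroup.mem_normalizer_iff.1 h4 _).1 hn
  have hfree : FreeA (P, idH M (cz P) c) := by
    intro x hx v hv hv1 hxv
    apply odd_mem hczst hnor hodd hx
    rw [Subgroup.mem_centralizer_iff]
    intro w hw
    haveI := hV
    have hxw : x * w * x⁻¹ = w ∨ x * w * x⁻¹ = v * w := by
      by_cases h1 : w = 1
      · left; rw [h1]; group
      by_cases h2 : w = v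
      · left; rw [h2]; exact hxv
      have hxw1 : x * w * x⁻¹ ∈ P := (Subgroup.mem_normalizer_iff.1 (show x ∈ Subgroup.normalizer (P : Set G) from hx.1) w).1 hw
      by_cases h3 : x * w * x⁻¹ = w
      · left; exact h3
      right
      have h4 := IsKleinFour.eq_mul_of_ne_all (x := (⟨v, hv⟩ : P)) (y := ⟨w, hw⟩) (z := ⟨x * w * x⁻¹, hxw1⟩)
        (fun h => hv1 (congrArg Subtype.val h)) (fun h => h1 (congrArg Subtype.val h))
        (fun h => h2 (congrArg Subtype.val h).symm)
        (fun h => h1 (by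
          have h5 : x * w * x⁻¹ = 1 := congrArg Subtype.val h
          have h6 : w = x⁻¹ * (x * w * x⁻¹) * x := by group
          rw [h6, h5]; group))
        (fun h => h2 (by
          have h5 : x * w * x⁻¹ = v := congrArg Subtype.val h
          rw [← hxv] at h5
          exact mul_left_cancel (mul_right_cancel h5)))
        (fun h => h3 (congrArg Subtype.val h))
      exact congrArg Subtype.val h4
    have hx2 : x ^ 2 * w * (x ^ 2)⁻¹ = w := by
      have e1 : x ^ 2 * w * (x ^ 2)⁻¹ = x * (x * w * x⁻¹) * x⁻¹ := by rw [pow_two]; group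
      rw [e1]
      rcases hxw with h | h
      · rw [h, h]
      · rw [h]
        have e2 : x * (v * w) * x⁻¹ = (x * v * x⁻¹) * (x * w * x⁻¹) := by group
        rw [e2, hxv, h, ← mul_assoc, ← pow_two, hsq v hv, one_mul]
    have h7 : x ^ 2 * w = w * x ^ 2 := by
      have := congrArg (· * x ^ 2) hx2
      simpa using this
    exact h7.symm
  have hcount := free_count hM hB hmax hab hfree
  rw [he', show Nat.card ((P, idH M (cz P) c) : Subgroup G × MonoidAlgebra (kk M) G).1 = 4 from hc4] at hcount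
  have hne : P ≠ ⊥ := by
    intro h
    rw [h, Subgroup.card_bot] at hc4
    omega
  obtain ⟨v, hv, hv1⟩ := exists_ne_one hne
  have horb := card_orbit (a := (P, idH M (cz P) c)) hfree hv hv1
  rw [he'] at horb
  have hle3 : e ≤ 3 := by
    rw [← horb]
    haveI := Fintype.ofFinite P
    have h1 : Nat.card {w : P // ∃ t ∈ st (P, idH M (cz P) c), (w : G) = t * v * t⁻¹} ≤ Nat.card {w : P // w ≠ 1} := by
      apply Nat.card_le_card_of_injective (fun w => (⟨w.1, ?_⟩ : {w : P // w ≠ 1}))
      · intro w w' h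
        exact Subtype.ext (congrArg (fun z : {w : P // w ≠ 1} => z.1) h)
      · rintro h
        obtain ⟨t, ht, h2⟩ := w.2
        rw [h] at h2
        apply hv1
        have h3 : v = t⁻¹ * (t * v * t⁻¹) * t := by group
        rw [h3, ← h2]
        simp
    have h2 : Nat.card {w : P // w ≠ 1} = 3 := by
      rw [Nat.card_eq_fintype_card, Fintype.card_subtype_compl, ← Nat.card_eq_fintype_card, hc4]
      simp
    exact h1.trans (le_of_eq h2)
  have he0 : e ≠ 0 := by
    rw [← he']
    exact Subgroup.index_ne_zero_of_finite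
  rw [he'] at hodd
  have he13 : e = 1 ∨ e = 3 := by
    have : e ≠ 2 := fun h => hodd (by rw [h])
    omega
  refine ⟨he13, ?_⟩
  rcases he13 with h1 | h3
  · have hst : st (P, idH M (cz P) c) ≤ cz P := by
      rw [← Subgroup.relIndex_eq_one, he', h1]
    have hn : NilB 2 (idB M B) := (nilB_abelian_iff hM hBt hmax hab).2 hst
    obtain ⟨θ, hθ⟩ := nil_R1 hM hB hn
    have hr := hθ.rank
    rw [h1, hr] at hcount
    refine ⟨by omega, by rw [hr, h1]⟩
  · rw [h3] at hcount
    have hl0 : blockRank 2 B ≠ 0 := by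
      intro h0
      have h4 := card_mul_blockRank hM hB
      rw [h0, Nat.cast_zero, mul_zero] at h4
      obtain ⟨χ, hχ⟩ := IsPBlock.nonempty hB
      have hterm : ∀ ψ : IrrCharacter G, ∃ r : ℝ, 0 ≤ r ∧ (ψ = χ → 0 < r) ∧
          (if ψ ∈ B then regInner 2 (ψ : G → ℂ) (ψ : G → ℂ) else 0) = (r : ℂ) := by
        intro ψ
        obtain ⟨r, hr1, -, hr2⟩ := regInner_self (p := 2) ψ
        by_cases hψ : ψ ∈ B
        · exact ⟨r, by linarith, fun _ => by linarith, by rw [if_pos hψ, hr2]⟩
        · refine ⟨0, le_rfl, fun h => absurd (h ▸ hχ) hψ, by rw [if_neg hψ]; simp⟩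
      choose r hr0 hr1 hr2 using hterm
      have h5 : ((∑ ψ : IrrCharacter G, r ψ : ℝ) : ℂ) = 0 := by
        rw [h4, Complex.ofReal_sum]
        refine Finset.sum_congr rfl fun ψ _ => ?_
        rw [← hr2 ψ]
      have h6 : ∑ ψ : IrrCharacter G, r ψ = 0 := by exact_mod_cast h5
      have h7 : 0 < ∑ ψ : IrrCharacter G, r ψ :=
        Finset.sum_pos' (fun ψ _ => hr0 ψ) ⟨χ, Finset.mem_univ _, hr1 χ rfl⟩
      linarith
    have hloc := free_loc hM hBt hmax hab hfree (Q := Subgroup.zpowers v) (by rw [Subgroup.zpowers_le]; exact hv)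
      (by rw [Ne, Subgroup.zpowers_eq_bot]; exact hv1)
    have h4 := four_count hM hB hmax hab hc4 hv (hsq v hv) hloc (by omega)
    refine ⟨h4, by omega⟩

end Cfsg.Agent.S4637
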