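import Cfsg.Statements.S4642
import Cfsg.Agent.H4.PC3

set_option autoImplicit false
open Cfsg

namespace Cfsg.Agent.S4642

/-- Let G be a finite group, p a prime, M a maximal ideal of the algebraic integers containing p, K the largest normal subgroup of G of order prime to p, and L the preimage in G of the largest normal p-subgroup of G/K. Let Q be a Sylow p-subgroup of L and suppose C_G(Q) ≤ L. Let θ be an irreducible character of K invariant under conjugation by every element of G, and let B be the set of irreducible characters of G whose restriction to K contains θ. Then B is a block of G, every Sylow p-subgroup of G is a defect group of B, and B is of principal type: for every p-subgroup R of G exactly one block of C_G(R) induces B. -/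
theorem result {G : Type*} [Group G] [Fintype G] (p : ℕ) [Fact p.Prime] (M : Ideal Cfsg.AlgInt) (hM : Cfsg.IsPModular p M) (K : Subgroup G) (hK : K = Cfsg.pPrimeCore p G) [Fintype K] (L : Subgroup G) (hL : L = Cfsg.pPrimePCore p G) (Q : Subgroup G) (hQL : Q ≤ L) (hQp : IsPGroup p Q) (hQS : ¬ p ∣ Q.relIndex L) (hCQ : Subgroup.centralizer (Q : Set G) ≤ L) (θ : Cfsg.IrrCharacter K) (hθ : ∀ g : G, Cfsg.IsConjCharOf K g (θ : K → ℂ) (θ : K → ℂ)) (B : Set (Cfsg.IrrCharacter G)) (hBdef : ∀ χ : Cfsg.IrrCharacter G, χ ∈ B ↔ Cfsg.classInner (fun k : K => (χ : G → ℂ) k) (θ : K → ℂ) ≠ 0) : Cfsg.IsPBlock M B ∧ (∀ S : Sylow p G, Cfsg.IsDefectGroup p M B S) ∧ ∀ R : Subgroup G, IsPGroup p R → ∃! f : Set (Cfsg.IrrCharacter (Subgroup.centralizer (R : Set G))), Cfsg.IsInducedBlock M (Subgroup.centralizer (R : Set G)) f B := by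
  classical
  haveI : M.IsPrime := hM.2.1.isPrime
  subst hL
  have hcons : Cfsg.IsPConstrained p G := by
    intro P
    have hP := CfsgH5.isSyl_map P
    have hQ : CfsgH5.IsSyl p (Cfsg.pPrimePCore p G) Q := by
      refine ⟨hQL, ?_⟩
      obtain ⟨j, hj⟩ := (IsPGroup.iff_card (p := p)).1 hQp
      have h1 := CfsgH4.card_mul_relIndex hQL
      rw [← h1, Nat.factorization_mul Nat.card_pos.ne' CfsgH4.relIndex_ne, Finsupp.add_apply,
        Nat.factorization_eq_zero_of_not_dvd hQS, add_zero, hj, Nat.factorization_pow,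
        Finsupp.smul_apply, (Fact.out : p.Prime).factorization_self, smul_eq_mul, mul_one]
    obtain ⟨c, hc, hce⟩ := hQ.conj hP
    rw [hce]
    show CfsgH4.cz (CfsgH5.cj c Q) ≤ _
    rw [CfsgH4.cz_cj]
    have h2 := CfsgH5.cj_mono (x := c) hCQ
    rwa [CfsgH4.cj_normal (N := Cfsg.pPrimePCore p G) c] at h2
  haveI hKn : K.Normal := by rw [hK]; exact CfsgH7.pPrimeCore_normal' p G
  obtain ⟨B₀, h1, h2, h3, -, h5⟩ := CfsgH4.over_core hM hcons hK (θ := θ) hθ
  have hBB : B = B₀ := by
    ext χ
    rw [hBdef χ, h2 χ]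
  rw [hBB]
  exact ⟨h1, h3, h5⟩

end Cfsg.Agent.S4642
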