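import Cfsg.Statements.S4645
import Cfsg.Agent.H4.Ab1
import Cfsg.Agent.H4.Har
import Cfsg.Agent.H5.CentP

set_option autoImplicit false
open Cfsg

namespace Cfsg.Agent.S4645

open Cfsg CfsgH4 CfsgAb
open CfsgH5 (IsPModular.isPrime IsDefectGroup.isPGroup)

theorem cyc_norm {G : Type*} [Group G] [Finite G] {P Q : Subgroup G} (hcyc : IsCyclic P) (hQP : Q ≤ P) {x : G} (hx : x ∈ nz P) : x ∈ nz Q := by
  obtain ⟨g, hg⟩ := hcyc.exists_generator
  have hgen : ∀ w ∈ P, ∃ j : ℕ, w = (g : G) ^ j := by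
    intro w hw
    obtain ⟨j, hj⟩ := (Submonoid.mem_powers_iff _ _).1 ((mem_powers_iff_mem_zpowers).2 (hg ⟨w, hw⟩))
    exact ⟨j, by rw [← Subgroup.coe_pow, hj]⟩
  have key : ∀ y ∈ nz P, ∀ q ∈ Q, y * q * y⁻¹ ∈ Q := by
    intro y hy q hq
    have hyg : y * g * y⁻¹ ∈ P := (Subgroup.mem_normalizer_iff.1 (show y ∈ Subgroup.normalizer (P : Set G) from hy) g).1 g.2
    obtain ⟨k, hk⟩ := hgen _ hyg
    obtain ⟨i, hi⟩ := hgen q (hQP hq)
    have : y * q * y⁻¹ = q ^ k := by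
      rw [hi, ← conj_pow, hk, ← pow_mul, ← pow_mul, mul_comm]
    rw [this]
    exact Q.pow_mem hq k
  show x ∈ Subgroup.normalizer (Q : Set G)
  rw [Subgroup.mem_normalizer_iff]
  intro q
  constructor
  · exact key x hx q
  · intro h
    have := key x⁻¹ ((nz P).inv_mem hx) _ h
    have h2 : x⁻¹ * (x * q * x⁻¹) * x⁻¹⁻¹ = q := by group
    rwa [h2] at this

/-- Let B be a block of the finite group G relative to a maximal ideal M of the algebraic integers containing the prime p, with a nontrivial cyclic defect group P; let c be a block of C_G(P) inducing B and T the stabilizer of c in N_G(P). Let Q be a nontrivial subgroup of P (so C_G(P) ≤ C_G(Q)), f the block of C_G(Q) induced by c inside C_G(Q), and T' the stabilizer of f in N_G(Q). Then T' = T·C_G(Q), the index of C_G(Q) in T' equals the index of C_G(P) in T, f has p-regular rank 1, and f is a nilpotent block of C_G(Q). -/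
theorem result {G : Type*} [Group G] [Finite G] (p : ℕ) [Fact p.Prime] (M : Ideal Cfsg.AlgInt) (hM : Cfsg.IsPModular p M) (B : Set (Cfsg.IrrCharacter G)) (hB : Cfsg.IsPBlock M B) (P : Subgroup G) (hPD : Cfsg.IsDefectGroup p M B P) (hP1 : P ≠ ⊥) (hcyc : IsCyclic P) (c : Set (Cfsg.IrrCharacter (Subgroup.centralizer (P : Set G)))) (hc : Cfsg.IsInducedBlock M (Subgroup.centralizer (P : Set G)) c B) (T : Subgroup G) (hT : ∀ g : G, g ∈ T ↔ (g ∈ Subgroup.normalizer (P : Set G) ∧ Cfsg.StabilizesBlock (Subgroup.centralizer (P : Set G)) c g)) (Q : Subgroup G) (hQP : Q ≤ P) (hQ1 : Q ≠ ⊥) (f : Set (Cfsg.IrrCharacter (Subgroup.centralizer (Q : Set G)))) (hf : Cfsg.IsInducedBlockIn M (Subgroup.centralizer (Q : Set G)) (Subgroup.centralizer (P : Set G)) c f) (T' : Subgroup G) (hT' : ∀ g : G, g ∈ T' ↔ (g ∈ Subgroup.normalizer (Q : Set G) ∧ Cfsg.StabilizesBlock (Subgroup.centralizer (Q : Set G)) f g)) : T' = T ⊔ Subgroup.centralizer (Q : Set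 G) ∧ (Subgroup.centralizer (Q : Set G)).relIndex T' = (Subgroup.centralizer (P : Set G)).relIndex T ∧ Cfsg.blockRank p f = 1 ∧ Cfsg.IsNilpotentBlock p M f := by
  classical
  haveI := CfsgH5.IsPModular.isPrime hM
  have hPp : IsPGroup p P := CfsgH5.IsDefectGroup.isPGroup hPD
  have hab : P ≤ cz P := by
    intro x hx
    rw [Subgroup.mem_centralizer_iff]
    intro y hy
    haveI := hcyc
    letI := IsCyclic.commGroup (α := P)
    have := mul_comm (⟨y, hy⟩ : P) ⟨x, hx⟩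
    exact congrArg Subtype.val this
  have hBt := isBl_top hB
  have hof : Of p ⊤ (idB M B) (P, idH M (cz P) c) :=
    ⟨hPp, le_top, le_top, isBl_idH hc.1, (ind_iff hM hPp hab le_rfl (cz_le_nz P) hc.1 hB).1 hc⟩
  have hmax := mp_of_dg hof ((isDefectGroup_iff_DG hM hB).1 hPD)
  have hfree := free_of_cyclic hM hBt hmax hab hcyc
  have hPQ : P ≤ cz Q := hab.trans (cz_le_cz hQP)
  have hmul := (indIn_iff hM hPp hab (cz_le_cz hQP) inf_le_left (cz_le_nz P) hc.1 hf.2.1).1 hf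
  have hns : NS p (Q, idH M (cz Q) f) (P, idH M (cz P) c) :=
    ⟨hPp.to_le hQP, isBl_idH hf.2.1, hPp, isBl_idH hc.1, hQP, hPQ.trans (cz_le_nz Q), (isBl_idH hf.2.1).fx.mono hPQ, hmul⟩
  have hle : LE p (Q, idH M (cz Q) f) (P, idH M (cz P) c) := hns.le'
  have hTeq : T = st (P, idH M (cz P) c) := stab_eq hc.1 hT
  have hTeq' : T' = st (Q, idH M (cz Q) f) := stab_eq hf.2.1 hT'
  have hTQ : st (P, idH M (cz P) c) ⊓ nz Q = st (P, idH M (cz P) c) :=
    inf_eq_left.2 fun x hx => cyc_norm hcyc hQP hx.1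
  have hczst : cz P ≤ st (P, idH M (cz P) c) := cz_le_st (a := (P, idH M (cz P) c)) (isBl_idH hc.1).fx
  have hinf : st (P, idH M (cz P) c) ⊓ cz Q = cz P := free_inf hfree hQP hQ1 hczst
  have hnl := free_nil hM hBt hmax hab hfree hle hQ1
  rw [rsK_idH] at hnl
  refine ⟨?_, ?_, ?_, (nil_iff hM).2 ⟨hf.2.1, hnl⟩⟩
  · rw [hTeq, hTeq']
    apply le_antisymm
    · intro x hx
      obtain ⟨y, hy, z, hz, rfl⟩ := ab_control hM hBt hmax hab hle hx
      exact Subgroup.mul_mem_sup hy hz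
    · refine sup_le ?_ (cz_le_st (a := (Q, idH M (cz Q) f)) (isBl_idH hf.2.1).fx)
      rw [← hTQ]
      exact st_inf_nz_le hM hle
  · rw [hTeq, hTeq', ab_index hM hBt hmax hab hle, hinf, hTQ]
  · haveI := Fintype.ofFinite (cz Q)
    obtain ⟨θ, hθ⟩ := nil_R1 hM hf.2.1 hnl
    exact hθ.rank

end Cfsg.Agent.S4645
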