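import Cfsg.Statements.S4691
import Cfsg.Agent.H4.Bp12
import Cfsg.Agent.H3.NPC2

set_option autoImplicit false
open Cfsg

namespace Cfsg.Agent.S4691

/-- Fix a prime p and a maximal ideal M of the algebraic integers containing p. A finite group G has a normal p-complement if and only if its principal p-block is nilpotent. -/
theorem result {G : Type*} [Group G] [Fintype G] (p : ℕ) [Fact p.Prime] (M : Ideal Cfsg.AlgInt) (hM : Cfsg.IsPModular p M) : Cfsg.HasNormalPComplement p G ↔ Cfsg.IsNilpotentBlock p M (Cfsg.principalBlock M G) := by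
  haveI : M.IsPrime := hM.2.1.isPrime
  haveI := CfsgH4.charP_kk hM
  have hB := CfsgH5.isPBlock_principal (M := M) (G := G)
  rw [CfsgH3.hasNPC_iff, CfsgH4.nil_iff hM, CfsgH4.idB_principal]
  constructor
  · intro h
    refine ⟨hB, fun Q f hOf x hx hreg => ?_⟩
    have hxn : x ∈ Subgroup.normalizer (Q : Set G) := hx.1
    have hxr : x ∈ Cfsg.pResidual p G := CfsgH3.mem_pResidual
      ((Nat.Prime.coprime_iff_not_dvd (Fact.out : p.Prime)).2 hreg).symm
    haveI := CfsgH3.pResidual_normal' p G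
    show x ∈ Subgroup.centralizer (Q : Set G)
    rw [Subgroup.mem_centralizer_iff]
    intro q hq
    have h1 : x * q * x⁻¹ * q⁻¹ ∈ Q :=
      Q.mul_mem ((Subgroup.mem_normalizer_iff.1 hxn q).1 hq) (Q.inv_mem hq)
    have h2 : x * q * x⁻¹ * q⁻¹ ∈ Cfsg.pResidual p G := by
      have : x * q * x⁻¹ * q⁻¹ = x * (q * x⁻¹ * q⁻¹) := by group
      rw [this]
      exact Subgroup.mul_mem _ hxr (Subgroup.Normal.conj_mem inferInstance _
        (Subgroup.inv_mem _ hxr) q)
    have h3 := (h.mem_iff _).1 h2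
    obtain ⟨k, hk⟩ := (hOf.1) ⟨_, h1⟩
    have h4 : (x * q * x⁻¹ * q⁻¹) ^ p ^ k = 1 := by
      have := congrArg Subtype.val hk
      simpa using this
    have h5 : orderOf (x * q * x⁻¹ * q⁻¹) = 1 :=
      Nat.Coprime.eq_one_of_dvd (h3.pow_right k) (orderOf_dvd_of_pow_eq_one h4)
    have h6 := orderOf_eq_one_iff.1 h5
    have h7 : x * q * x⁻¹ = q := mul_inv_eq_one.1 h6
    exact (mul_inv_eq_iff_eq_mul.1 h7).symm
  · rintro ⟨-, h⟩
    obtain ⟨S⟩ : Nonempty (Sylow p G) := inferInstance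
    have hmax := CfsgH4.MP_pr (M := M) hM S
    have hS : IsPGroup p (S : Subgroup G) := S.isPGroup'
    have hF := CfsgH4.isBF_blFS hM _ hmax.1.1 hmax.1.2.2.2.1
    have hin := (CfsgH4.nilB_iff_inner hM (CfsgH4.isBl_pr ⊤) hmax hF).1 h
    refine CfsgH3.hasNPC_of_controls S fun x hx g hg => ?_
    have hQ : Subgroup.zpowers x ≤ (S : Subgroup G) := by
      rw [Subgroup.zpowers_le]; exact hx
    have hQ' : CfsgH5.cj g (Subgroup.zpowers x) ≤ (S : Subgroup G) := by
      intro y hy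
      obtain ⟨z, hz, rfl⟩ := hy
      obtain ⟨n, rfl⟩ := Subgroup.mem_zpowers_iff.1 hz
      rw [map_zpow]
      exact Subgroup.zpow_mem _ hg n
    have hmor : CfsgH4.BMor p ((S : Subgroup G), CfsgH4.pr M (CfsgH4.cz (S : Subgroup G)))
        (Subgroup.zpowers x) (fun u => g * u * g⁻¹) := by
      refine ⟨g, fun u _ => rfl, CfsgH4.pr M (CfsgH4.cz (Subgroup.zpowers x)),
        CfsgH4.LE_pr hM _ hS hQ rfl, ?_⟩
      have h1 := CfsgH4.LE_pr (M := M) hM _ hS hQ' rfl
      rwa [← CfsgH4.ca_pr_cz] at h1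
    have h2 := (hF _ _).2 hmor
    rw [hin] at h2
    obtain ⟨-, u, hu, hval⟩ := CfsgH8.mor_inner.1 h2
    exact ⟨u, hu, (hval x (Subgroup.mem_zpowers x)).symm⟩

end Cfsg.Agent.S4691
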