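import Cfsg.Statements.S4646
import Cfsg.Agent.H4.Ker
import Cfsg.Agent.H5.KleinB
import Cfsg.Agent.S0938
import Cfsg.Agent.S4691

set_option autoImplicit false
open Cfsg

namespace Cfsg.Agent.S4646

/-- For a finite group G, a prime p and a maximal ideal M of the algebraic integers containing p: the principal block of G is nilpotent if and only if its p-regular rank is 1 (the trivial Brauer character is its only irreducible Brauer character). -/
theorem result {G : Type*} [Group G] [Finite G] (p : ℕ) [Fact p.Prime] (M : Ideal Cfsg.AlgInt) (hM : Cfsg.IsPModular p M) : Cfsg.IsNilpotentBlock p M (Cfsg.principalBlock M G) ↔ Cfsg.blockRank p (Cfsg.principalBlock M G) = 1 := by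
  classical
  haveI := Fintype.ofFinite G
  haveI : M.IsPrime := hM.2.1.isPrime
  have hpp : p.Prime := Fact.out
  have hB := CfsgH5.isPBlock_principalBlock (M := M) (G := G)
  have hone : CfsgH5.irrOne G ∈ principalBlock M G := CfsgH5.mem_blockOf_self (CfsgH5.irrOne G)
  rw [← S4691.result p M hM, CfsgH3.hasNPC_iff]
  constructor
  · intro h
    exact CfsgH4.rank_principal hM (CfsgH5.pPrimeCore_index_of_npc h)
  · intro h
    obtain ⟨K, hKn, hK, hKp, -⟩ := S0938.result p M hM (principalBlock M G) hB (CfsgH5.irrOne G) hone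
    have hreg : ∀ g : G, ¬ p ∣ orderOf g → g ∈ K := by
      intro g hg
      show g ∈ (K : Set G)
      rw [hK]
      intro χ hχ
      have h1 := congrFun (CfsgH4.rank_one_prop h hχ hone) g
      rw [CfsgH4.rho_reg hg, Pi.smul_apply, CfsgH4.rho_reg hg, smul_eq_mul] at h1
      rw [h1]
      show (χ : G → ℂ) 1 / 1 * 1 = _
      rw [div_one, mul_one]
    refine ⟨K, hKn, ((Nat.Prime.coprime_iff_not_dvd hpp).2 hKp).symm, ?_⟩
    have hpg : IsPGroup p (G ⧸ K) := by
      intro x
      obtain ⟨g, rfl⟩ := QuotientGroup.mk'_surjective K x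
      obtain ⟨z, y, hzy, hc, ⟨k, hk⟩, hy⟩ := CfsgH5.exists_ppart (p := p) g
      refine ⟨k, ?_⟩
      have h1 : QuotientGroup.mk' K y = 1 := (QuotientGroup.eq_one_iff y).2 (hreg y hy)
      rw [← hzy, map_mul, h1, mul_one, ← map_pow, ← hk, pow_orderOf_eq_one, map_one]
    obtain ⟨n, hn⟩ := (IsPGroup.iff_card).1 hpg
    exact ⟨n, hn⟩

end Cfsg.Agent.S4646
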