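import Cfsg.Statements.S4654
import Cfsg.Agent.H4.Cov6
import Cfsg.Agent.H4.Bp11

set_option autoImplicit false
open Cfsg

namespace Cfsg.Agent.S4654

/-- Fix a prime p and a maximal ideal M of the algebraic integers containing p. Let P be a normal p-subgroup of the finite group G, B a p-block of G and e a p-block of C_G(P) such that (P, e) is a Brauer pair of B (as P is normal, this says that e occurs in the idempotent of B, which is supported on C_G(P)). Let T be the stabilizer of e in G under conjugation. Then the idempotent of e is a block idempotent of T: some block E of T has, at every element of T, the same idempotent coefficient as e (zero off C_G(P)); and the idempotent of B is the sum of the distinct G-conjugates of the idempotent of e: its coefficient at g is the sum over all x in G of the coefficient of e at x⁻¹ g x, divided by the order of T. -/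
theorem result {G : Type*} [Group G] [Fintype G] (p : ℕ) [Fact p.Prime] (M : Ideal Cfsg.AlgInt) (hM : Cfsg.IsPModular p M) (P : Subgroup G) [P.Normal] (hP : IsPGroup p P) (B : Set (Cfsg.IrrCharacter G)) (e : Set (Cfsg.IrrCharacter (Subgroup.centralizer (P : Set G)))) (hBe : Cfsg.IsBrauerPairOf p M B P e) (T : Subgroup G) (hT : ∀ x : G, x ∈ T ↔ Cfsg.StabilizesBlock (Subgroup.centralizer (P : Set G)) e x) : (∃ E : Set (Cfsg.IrrCharacter T), Cfsg.IsPBlock M E ∧ ∀ t : T, Cfsg.blockCoeff E t = Cfsg.subgroupBlockCoeff (Subgroup.centralizer (P : Set G)) e (t : G)) ∧ ∀ g : G, Cfsg.blockCoeff B g = (Nat.card T : ℂ)⁻¹ * ∑ x : G, Cfsg.subgroupBlockCoeff (Subgroup.centralizer (P : Set G)) e (x⁻¹ * g * x) := by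
  classical
  haveI : M.IsPrime := hM.2.1.isPrime
  haveI := CfsgH4.charP_kk hM
  haveI hCn : (Subgroup.centralizer (P : Set G)).Normal := inferInstance
  obtain ⟨hB, he, hOf⟩ := (CfsgH4.isBrauerPairOf_iff hM).1 hBe
  have heb := CfsgH4.isBl_idH (M := M) he
  have hnz : ∀ x : G, x ∈ CfsgH4.nz P := fun x => CfsgH4.mem_nz_normal x
  have hT' : ∀ x : G, x ∈ T ↔ CfsgH4.ca x (CfsgH4.idH M (Subgroup.centralizer (P : Set G)) e) =
      CfsgH4.idH M (Subgroup.centralizer (P : Set G)) e := by
    intro x
    rw [hT, CfsgH4.stabilizesBlock_iff he]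
    exact ⟨fun h => h.2, fun h => ⟨CfsgH4.mem_nz_normal x, h⟩⟩
  have hfx : CfsgH4.Fx T (CfsgH4.idH M (Subgroup.centralizer (P : Set G)) e) :=
    CfsgH4.fx_iff.2 fun x hx => (hT' x).1 hx
  have hPT : P ≤ T := fun x hx => (hT' x).2
    (CfsgH4.mem_st.1 (CfsgH4.self_le_st (a := (P, CfsgH4.idH M (Subgroup.centralizer (P : Set G)) e)) heb.sup hx)).2
  have hCT : CfsgH4.cz P ≤ T := fun x hx => (hT' x).2 (heb.fx.ca_eq hx)
  refine ⟨?_, fun g => ?_⟩
  · obtain ⟨F, hF, -, hFc⟩ := CfsgH4.exists_stab_block (K := T) hM hP he hPT hCT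
      (fun x _ => hnz x) hfx
    exact ⟨F, hF, hFc⟩
  · refine CfsgH4.orbit_formula he hB ?_ hT' g
    have hBb := CfsgH4.isBl_top (M := M) hB
    have hsup : CfsgH4.Sup (CfsgH4.cz P) (CfsgH4.idB M B) :=
      hBb.sup_cz hM hP le_top (fun x _ => hnz x)
    have h := hOf.2.2.2.2
    rwa [CfsgH4.br_of_sup hsup] at h

end Cfsg.Agent.S4654
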