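import Cfsg.Statements.S4657
import Cfsg.Agent.H4.Bp6

set_option autoImplicit false
open Cfsg

namespace Cfsg.Agent.S4657

/-- Fix a prime p and a maximal ideal M of the algebraic integers containing p. Every Brauer pair (P, e) of the finite group G is a Brauer pair of exactly one p-block B of G. -/
theorem result {G : Type*} [Group G] [Fintype G] (p : ℕ) [Fact p.Prime] (M : Ideal Cfsg.AlgInt) (hM : Cfsg.IsPModular p M) (P : Subgroup G) (e : Set (Cfsg.IrrCharacter (Subgroup.centralizer (P : Set G)))) (hPe : Cfsg.IsBrauerPair p M P e) : ∃! B : Set (Cfsg.IrrCharacter G), Cfsg.IsBrauerPairOf p M B P e := by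
  haveI : M.IsPrime := hM.2.1.isPrime
  obtain ⟨hP, he⟩ := hPe
  obtain ⟨z, ⟨hz, hmul⟩, huniq⟩ :=
    CfsgH4.exists_unique_above (H := (⊤ : Subgroup G)) hM hP le_top le_top (CfsgH4.isBl_idH he)
  obtain ⟨B, hB, rfl⟩ := CfsgH4.exists_block_of_top hz
  refine ⟨B, (CfsgH4.isBrauerPairOf_iff hM).2 ⟨hB, he, hP, le_top, le_top,
    CfsgH4.isBl_idH he, hmul⟩, ?_⟩
  intro B' hB'
  obtain ⟨hB'b, -, hOf⟩ := (CfsgH4.isBrauerPairOf_iff hM).1 hB'
  exact CfsgH4.idB_injective (CfsgH5.inS_eSet hB'b) (CfsgH5.inS_eSet hB) (huniq _ ⟨CfsgH4.isBl_top hB'b, hOf.2.2.2.2⟩)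

end Cfsg.Agent.S4657
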