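import Cfsg.Statements.S4658
import Cfsg.Agent.H4.Bp6

set_option autoImplicit false
open Cfsg

namespace Cfsg.Agent.S4658

/-- Fix a prime p and a maximal ideal M of the algebraic integers containing p. Let (Q, f) ≤ (P, e) be Brauer pairs of the finite group G and B a p-block of G. Then (P, e) is a Brauer pair of B if and only if (Q, f) is. -/
theorem result {G : Type*} [Group G] [Fintype G] (p : ℕ) [Fact p.Prime] (M : Ideal Cfsg.AlgInt) (hM : Cfsg.IsPModular p M) (P Q : Subgroup G) (e : Set (Cfsg.IrrCharacter (Subgroup.centralizer (P : Set G)))) (f : Set (Cfsg.IrrCharacter (Subgroup.centralizer (Q : Set G)))) (hPe : Cfsg.IsBrauerPair p M P e) (hQf : Cfsg.IsBrauerPair p M Q f) (hle : Cfsg.SubpairLE p M Q f P e) (B : Set (Cfsg.IrrCharacter G)) (hB : Cfsg.IsPBlock M B) : Cfsg.IsBrauerPairOf p M B P e ↔ Cfsg.IsBrauerPairOf p M B Q f := by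
  haveI : M.IsPrime := hM.2.1.isPrime
  obtain ⟨hP, he⟩ := hPe
  obtain ⟨hQ, hf⟩ := hQf
  have h1 := (CfsgH4.subpairLE_iff hM hf he).1 hle
  rw [CfsgH4.isBrauerPairOf_iff hM, CfsgH4.isBrauerPairOf_iff hM]
  have h2 := CfsgH4.LE.of_iff hM (CfsgH4.isBl_top hB) h1 le_top le_top
  constructor
  · rintro ⟨-, -, h⟩; exact ⟨hB, hf, h2.2 h⟩
  · rintro ⟨-, -, h⟩; exact ⟨hB, he, h2.1 h⟩

end Cfsg.Agent.S4658
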