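import Cfsg.Statements.S4661
import Cfsg.Agent.H4.Bp8

set_option autoImplicit false
open Cfsg

namespace Cfsg.Agent.S4661

/-- Fix a prime p and a maximal ideal M of the algebraic integers containing p. Let (P, e) be a maximal Brauer pair of the p-block B of the finite group G, Q ≤ P, and f the p-block of C_G(Q) with (Q, f) ≤ (P, e). Then C_P(Q) is contained in a defect group of f (as a block of the group C_G(Q)); and for some x in G the conjugate pair (x Q x⁻¹, conjugate of f) again lies below (P, e) and C_P(x Q x⁻¹) is a defect group of the conjugate of f in C_G(x Q x⁻¹). -/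
theorem result {G : Type*} [Group G] [Fintype G] (p : ℕ) [Fact p.Prime] (M : Ideal Cfsg.AlgInt) (hM : Cfsg.IsPModular p M) (B : Set (Cfsg.IrrCharacter G)) (P Q : Subgroup G) (e : Set (Cfsg.IrrCharacter (Subgroup.centralizer (P : Set G)))) (f : Set (Cfsg.IrrCharacter (Subgroup.centralizer (Q : Set G)))) (hmax : Cfsg.IsMaximalBrauerPair p M B P e) (hQP : Q ≤ P) (hf : Cfsg.IsPBlock M f) (hle : Cfsg.SubpairLE p M Q f P e) : (∃ D : Subgroup (Subgroup.centralizer (Q : Set G)), Cfsg.IsDefectGroup p M f D ∧ (P ⊓ Subgroup.centralizer (Q : Set G)).subgroupOf (Subgroup.centralizer (Q : Set G)) ≤ D) ∧ ∃ x : G, Cfsg.SubpairLE p M (Q.map (MulAut.conj x).toMonoidHom) (Cfsg.conjBlock Q x f) P e ∧ Cfsg.IsDefectGroup p M (Cfsg.conjBlock Q x f) ((P ⊓ Subgroup.centralizer ((Q.map (MulAut.conj x).toMonoidHom) : Set G)).subgroupOf (Subgroup.centralizer ((Q.map (MulAut.conj x).toMonoidHom) : Set G))) := by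
  haveI : M.IsPrime := hM.2.1.isPrime
  obtain ⟨hB, he, hMP⟩ := (CfsgH4.isMaximalBrauerPair_iff hM).1 hmax
  have hle' := (CfsgH4.subpairLE_iff hM hf he).1 hle
  have hP : IsPGroup p P := hMP.1.1
  have hCN : CfsgH4.cz Q ≤ CfsgH4.nz Q := CfsgH4.cz_le_nz Q
  constructor
  · exact CfsgH4.isDG_le_iff hM hf inf_le_right (hP.to_le inf_le_left)
      (CfsgH4.pair_ge hM (CfsgH4.isBl_idH he) hP hle' hCN)
  · obtain ⟨x, -, hx1, hx2⟩ := CfsgH4.pair_defect hM (CfsgH4.isBl_top hB) hMP hle' le_rfl hCN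
      (CfsgH4.isBl_idH hf) le_top
    refine ⟨x, (CfsgH4.subpairLE_iff hM ((CfsgH4.isPBlock_conjBlock Q x f).2 hf) he).2 ?_, ?_⟩
    · rw [CfsgH4.idH_conjBlock]
      exact hx1
    · refine (CfsgH4.isDefectGroup_iff_DG' hM ((CfsgH4.isPBlock_conjBlock Q x f).2 hf)
        inf_le_right).2 ?_
      rw [CfsgH4.idH_conjBlock]
      have h3 := CfsgH4.cz_cj x Q
      rw [← h3] at hx2
      exact hx2

end Cfsg.Agent.S4661
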