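import Cfsg.Statements.S4662
import Cfsg.Agent.H4.Bp8

set_option autoImplicit false
open Cfsg

namespace Cfsg.Agent.S4662

/-- Fix a prime p and a maximal ideal M of the algebraic integers containing p. Let (P, e) be a maximal Brauer pair of the p-block B of the finite group G, Q ≤ P, and f the p-block of C_G(Q) with (Q, f) ≤ (P, e). Let T be the stabilizer of f in N_G(Q). Then the idempotent of f is a block idempotent of T, and N_P(Q) is contained in a defect group of that block of T; moreover for some x in G the conjugate pair (x Q x⁻¹, conjugate of f) again lies below (P, e) and, with T' the stabilizer of the conjugate of f in N_G(x Q x⁻¹), N_P(x Q x⁻¹) is a defect group of the block of T' whose idempotent is that of the conjugate of f. -/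
theorem result {G : Type*} [Group G] [Fintype G] (p : ℕ) [Fact p.Prime] (M : Ideal Cfsg.AlgInt) (hM : Cfsg.IsPModular p M) (B : Set (Cfsg.IrrCharacter G)) (P Q : Subgroup G) (e : Set (Cfsg.IrrCharacter (Subgroup.centralizer (P : Set G)))) (f : Set (Cfsg.IrrCharacter (Subgroup.centralizer (Q : Set G)))) (hmax : Cfsg.IsMaximalBrauerPair p M B P e) (hQP : Q ≤ P) (hf : Cfsg.IsPBlock M f) (hle : Cfsg.SubpairLE p M Q f P e) (T : Subgroup G) (hT : ∀ y : G, y ∈ T ↔ y ∈ Subgroup.normalizer (Q : Set G) ∧ Cfsg.StabilizesBlock (Subgroup.centralizer (Q : Set G)) f y) : (∃ F : Set (Cfsg.IrrCharacter T), Cfsg.IsPBlock M F ∧ (∀ t : T, Cfsg.blockCoeff F t = Cfsg.subgroupBlockCoeff (Subgroup.centralizer (Q : Set G)) f (t : G)) ∧ ∃ D : Subgroup T, Cfsg.IsDefectGroup p M F D ∧ (P ⊓ Subgroup.normalizer (Q : Set G)).subgroupOf T ≤ D) ∧ ∃ x : G, Cfsg.SubpairLE p M (Q.map (MulAut.conj x).toMonoidHom) (Cfsg.conjBlock Q x f) P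 e ∧ ∀ (T' : Subgroup G), (∀ y : G, y ∈ T' ↔ y ∈ Subgroup.normalizer ((Q.map (MulAut.conj x).toMonoidHom) : Set G) ∧ Cfsg.StabilizesBlock (Subgroup.centralizer ((Q.map (MulAut.conj x).toMonoidHom) : Set G)) (Cfsg.conjBlock Q x f) y) → ∃ F' : Set (Cfsg.IrrCharacter T'), Cfsg.IsPBlock M F' ∧ (∀ t : T', Cfsg.blockCoeff F' t = Cfsg.subgroupBlockCoeff (Subgroup.centralizer ((Q.map (MulAut.conj x).toMonoidHom) : Set G)) (Cfsg.conjBlock Q x f) (t : G)) ∧ Cfsg.IsDefectGroup p M F' ((P ⊓ Subgroup.normalizer ((Q.map (MulAut.conj x).toMonoidHom) : Set G)).subgroupOf T') := by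
  haveI : M.IsPrime := hM.2.1.isPrime
  obtain ⟨hB, he, hMP⟩ := (CfsgH4.isMaximalBrauerPair_iff hM).1 hmax
  have hle' := (CfsgH4.subpairLE_iff hM hf he).1 hle
  have hP : IsPGroup p P := hMP.1.1
  have hQp : IsPGroup p Q := hP.to_le hQP
  have hfB := CfsgH4.isBl_idH hf
  obtain rfl := CfsgH4.stab_eq hf hT
  have hTN := CfsgH4.st_le_nz (Q, CfsgH4.idH M (CfsgH4.cz Q) f)
  have hQT := CfsgH4.self_le_st (a := (Q, CfsgH4.idH M (CfsgH4.cz Q) f)) hfB.sup
  have hCT := CfsgH4.cz_le_st (a := (Q, CfsgH4.idH M (CfsgH4.cz Q) f)) hfB.fx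
  constructor
  · obtain ⟨F, hF, hFid, hFc⟩ := CfsgH4.exists_stab_block hM hQp hf hQT hCT hTN
      (CfsgH4.fx_st (Q, CfsgH4.idH M (CfsgH4.cz Q) f))
    refine ⟨F, hF, hFc, ?_⟩
    refine CfsgH4.isDG_le_iff hM hF
      (CfsgH4.LE.inf_nz_le_st hM hle' (CfsgH4.isBl_idH he)) (hP.to_le inf_le_left) ?_
    rw [hFid]
    exact CfsgH4.pair_ge hM (CfsgH4.isBl_idH he) hP hle' le_rfl
  · obtain ⟨x, -, hx1, hx2⟩ := CfsgH4.pair_defect hM (CfsgH4.isBl_top hB) hMP hle' hCT hTN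
      (CfsgH4.IsBl.st hM hQp hfB) le_top
    have hcf := (CfsgH4.isPBlock_conjBlock Q x f).2 hf
    have hx1' : CfsgH4.LE p (Q.map (MulAut.conj x).toMonoidHom,
        CfsgH4.idH M (CfsgH4.cz (CfsgH5.cj x Q)) (conjBlock Q x f)) (P, CfsgH4.idH M (CfsgH4.cz P) e) := by
      rw [CfsgH4.idH_conjBlock]
      exact hx1
    refine ⟨x, (CfsgH4.subpairLE_iff hM hcf he).2 hx1', ?_⟩
    intro T' hT'
    obtain rfl := CfsgH4.stab_eq hcf hT'
    have hfB' := CfsgH4.isBl_idH hcf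
    obtain ⟨F, hF, hFid, hFc⟩ := CfsgH4.exists_stab_block hM (CfsgH4.isPGroup_cj hQp x) hcf
      (CfsgH4.self_le_st (a := (_, CfsgH4.idH M _ (conjBlock Q x f))) hfB'.sup)
      (CfsgH4.cz_le_st (a := (_, CfsgH4.idH M _ (conjBlock Q x f))) hfB'.fx)
      (CfsgH4.st_le_nz (_, CfsgH4.idH M _ (conjBlock Q x f)))
      (CfsgH4.fx_st (_, CfsgH4.idH M _ (conjBlock Q x f)))
    refine ⟨F, hF, hFc, ?_⟩
    have h4 : CfsgH5.cj x (CfsgH4.st (Q, CfsgH4.idH M (CfsgH4.cz Q) f)) =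
        CfsgH4.st (CfsgH5.cj x Q, CfsgH4.idH M (CfsgH4.cz (CfsgH5.cj x Q)) (conjBlock Q x f)) := by
      rw [CfsgH4.cj_st, CfsgH4.idH_conjBlock]
      rfl
    have h5 : P ⊓ CfsgH5.cj x (CfsgH4.st (Q, CfsgH4.idH M (CfsgH4.cz Q) f)) =
        P ⊓ CfsgH4.nz (CfsgH5.cj x Q) := by
      apply le_antisymm
      · rw [h4]
        exact inf_le_inf_left _ (CfsgH4.st_le_nz _)
      · rw [h4]
        refine le_inf inf_le_left ?_
        exact CfsgH4.LE.inf_nz_le_st hM hx1' (CfsgH4.isBl_idH he)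
    have h6 : P ⊓ CfsgH4.nz (CfsgH5.cj x Q) ≤
        CfsgH4.st (CfsgH5.cj x Q, CfsgH4.idH M (CfsgH4.cz (CfsgH5.cj x Q)) (conjBlock Q x f)) := by
      rw [← h4, ← h5]; exact inf_le_right
    refine (CfsgH4.isDefectGroup_iff_DG' hM hF h6).2 ?_
    rw [hFid]
    rw [h5, h4, ← CfsgH4.idH_conjBlock] at hx2
    exact hx2

end Cfsg.Agent.S4662
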