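import Cfsg.Statements.S4663
import Cfsg.Agent.H4.Bp6

set_option autoImplicit false
open Cfsg

namespace Cfsg.Agent.S4663

/-- Fix a prime p and a maximal ideal M of the algebraic integers containing p. Brauer's Third Main Theorem in the language of Brauer pairs: for the principal p-block B₀ of the finite group G and any p-subgroup Q, a p-block e of C_G(Q) makes (Q, e) a Brauer pair of B₀ if and only if e is the principal p-block of C_G(Q). Equivalently, modulo M the truncation to C_G(Q) of the idempotent of B₀ is the idempotent of the principal block of C_G(Q). -/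
theorem result {G : Type*} [Group G] [Fintype G] (p : ℕ) [Fact p.Prime] (M : Ideal Cfsg.AlgInt) (hM : Cfsg.IsPModular p M) (Q : Subgroup G) (hQ : IsPGroup p Q) (e : Set (Cfsg.IrrCharacter (Subgroup.centralizer (Q : Set G)))) (he : Cfsg.IsPBlock M e) : Cfsg.IsBrauerPairOf p M (Cfsg.principalBlock M G) Q e ↔ e = Cfsg.principalBlock M (Subgroup.centralizer (Q : Set G)) := by
  haveI : M.IsPrime := hM.2.1.isPrime
  rw [CfsgH4.isBrauerPairOf_iff hM, CfsgH4.idB_principal]
  constructor
  · rintro ⟨-, -, h⟩
    have h2 := ((CfsgH4.Of_pr_iff hM).1 h).2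
    exact CfsgH4.idH_injective he CfsgH5.isPBlock_principal h2
  · intro h
    subst h
    exact ⟨CfsgH5.isPBlock_principal, he, CfsgH4.Of_pr hM hQ le_top le_top⟩

end Cfsg.Agent.S4663
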