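import Cfsg.Statements.S4665
import Cfsg.Agent.H4.Dec1
import Cfsg.Agent.H5.Fin5

set_option autoImplicit false
open Cfsg

namespace Cfsg.Agent.S4665

/-- Fix a prime p, a maximal ideal M of the algebraic integers containing p, and a p-block B of the finite group G, and let p^a be the p-part of the order of G. Let χ be an integer combination of the irreducible characters in B. If the function that agrees with χ on p-regular elements and vanishes on p-singular elements is again an integer combination of the irreducible characters in B, then p^a divides χ(1). -/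
theorem result {G : Type*} [Group G] [Fintype G] (p : ℕ) [Fact p.Prime] (M : Ideal Cfsg.AlgInt) (hM : Cfsg.IsPModular p M) (B : Set (Cfsg.IrrCharacter G)) (hB : Cfsg.IsPBlock M B) (χ : G → ℂ) (hχ : (∃ n : Cfsg.IrrCharacter G → ℤ, ∀ g : G, χ g = ∑ᶠ ψ ∈ B, (n ψ : ℂ) * (ψ : G → ℂ) g)) (h0 : (∃ n : Cfsg.IrrCharacter G → ℤ, ∀ g : G, Cfsg.pRegularPart p χ g = ∑ᶠ ψ ∈ B, (n ψ : ℂ) * (ψ : G → ℂ) g)) : ∃ k : ℤ, χ 1 = (p ^ (Nat.card G).factorization p : ℂ) * k := by
  classical
  haveI : M.IsPrime := hM.2.1.isPrime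
  obtain ⟨n, hn⟩ := h0
  have hgen : Cfsg.IsGeneralizedCharacter G (Cfsg.pRegularPart p χ) := by
    have h1 : Cfsg.pRegularPart p χ = ∑ ψ : Cfsg.IrrCharacter G,
        (if ψ ∈ B then ((n ψ : ℂ) • (ψ : G → ℂ)) else 0) := by
      funext g
      rw [hn g, CfsgH5.finsum_mem_ite, Finset.sum_apply]
      refine Finset.sum_congr rfl fun ψ _ => ?_
      split_ifs
      · rfl
      · rfl
    rw [h1]
    refine CfsgH4.isGen_sum _ _ fun ψ _ => ?_
    split_ifs
    · exact CfsgH4.isGen_int_smul (CfsgH4.IsCharacter.isGen (CfsgH4.IsIrr.isCharacter ψ.2)) _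
    · exact CfsgH4.isGen_zero
  obtain ⟨P⟩ : Nonempty (Sylow p G) := inferInstance
  have h2 := CfsgH4.isGen_comp (P : Subgroup G).subtype hgen
  obtain ⟨k, hk⟩ := CfsgH4.IsGen.inner_int h2
    (CfsgH4.IsCharacter.isGen (CfsgH4.isCharacter_one (G := (P : Subgroup G))))
  refine ⟨k, ?_⟩
  have hcP : (Nat.card (P : Subgroup G) : ℂ) ≠ 0 := CfsgH4.card_ne_zero _
  have h3 : Nat.card (P : Subgroup G) = p ^ (Nat.card G).factorization p := P.card_eq_multiplicity
  have h4 : Cfsg.classInner (fun x : (P : Subgroup G) => Cfsg.pRegularPart p χ (x : G)) (fun _ => 1) =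
      (Nat.card (P : Subgroup G) : ℂ)⁻¹ * χ 1 := by
    rw [CfsgH4.classInner_def, Finset.sum_eq_single (1 : (P : Subgroup G))]
    · rw [map_one, mul_one]
      show _ * Cfsg.pRegularPart p χ (1 : G) = _
      rw [CfsgH4.rho_reg (by rw [orderOf_one]; exact (Fact.out : p.Prime).not_dvd_one)]
    · intro x _ hx
      rw [CfsgH4.rho_sing, zero_mul]
      obtain ⟨j, hj⟩ := (IsPGroup.iff_orderOf.1 P.isPGroup') x
      rw [Subgroup.orderOf_coe, hj]
      refine dvd_pow_self p ?_
      rintro rfl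
      rw [pow_zero, orderOf_eq_one_iff] at hj
      exact hx hj
    · intro h; exact absurd (Finset.mem_univ _) h
  have h5 : (k : ℂ) = (Nat.card (P : Subgroup G) : ℂ)⁻¹ * χ 1 := by rw [← h4]; exact hk.symm
  rw [h5, h3]
  push_cast
  rw [h3] at hcP
  push_cast at hcP
  field_simp

end Cfsg.Agent.S4665
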