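import Cfsg.Statements.S4666
import Cfsg.Agent.H4.Dec1
import Cfsg.Agent.H5.Fin5

set_option autoImplicit false
open Cfsg

namespace Cfsg.Agent.S4666

/-- Fix a prime p and a maximal ideal M of the algebraic integers containing p, and a p-block B of the finite group G of defect d. For every integer combination χ of the irreducible characters in B, p^d times the function that agrees with χ on p-regular elements and vanishes elsewhere is again an integer combination of the irreducible characters in B. -/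
theorem result {G : Type*} [Group G] [Fintype G] (p : ℕ) [Fact p.Prime] (M : Ideal Cfsg.AlgInt) (hM : Cfsg.IsPModular p M) (B : Set (Cfsg.IrrCharacter G)) (hB : Cfsg.IsPBlock M B) (χ : G → ℂ) (hχ : (∃ n : Cfsg.IrrCharacter G → ℤ, ∀ g : G, χ g = ∑ᶠ ψ ∈ B, (n ψ : ℂ) * (ψ : G → ℂ) g)) : (∃ n : Cfsg.IrrCharacter G → ℤ, ∀ g : G, (p ^ Cfsg.blockDefect p B : ℂ) * Cfsg.pRegularPart p χ g = ∑ᶠ ψ ∈ B, (n ψ : ℂ) * (ψ : G → ℂ) g) := by
  classical
  haveI : M.IsPrime := hM.2.1.isPrime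
  obtain ⟨m, hm⟩ := hχ
  have hex : ∀ ψ : Cfsg.IrrCharacter G, ∃ A : Cfsg.IrrCharacter G → ℤ, ψ ∈ B →
      ∀ θ : Cfsg.IrrCharacter G, (p : ℂ) ^ Cfsg.blockDefect p B *
        CfsgH5.regInner p (ψ : G → ℂ) (θ : G → ℂ) = (Nat.card G : ℂ) * A θ := by
    intro ψ
    by_cases hψ : ψ ∈ B
    · obtain ⟨A, hA, -⟩ := CfsgH5.contr hM hB hψ
      exact ⟨A, fun _ => hA⟩
    · exact ⟨0, fun h => absurd h hψ⟩
  choose A hA using hex
  refine ⟨fun θ => ∑ ψ : Cfsg.IrrCharacter G, if ψ ∈ B then m ψ * A ψ θ else 0, fun g => ?_⟩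
  have hcG : (Nat.card G : ℂ) ≠ 0 := CfsgH4.card_ne_zero _
  rw [CfsgH5.finsum_mem_ite]
  have h1 : Cfsg.pRegularPart p χ g = ∑ ψ : Cfsg.IrrCharacter G,
      if ψ ∈ B then (m ψ : ℂ) * Cfsg.pRegularPart p (ψ : G → ℂ) g else 0 := by
    by_cases hg : p ∣ orderOf g
    · rw [CfsgH4.rho_sing hg]
      symm
      refine Finset.sum_eq_zero fun ψ _ => ?_
      rw [CfsgH4.rho_sing hg, mul_zero, ite_self]
    · rw [CfsgH4.rho_reg hg, hm g, CfsgH5.finsum_mem_ite]
      refine Finset.sum_congr rfl fun ψ _ => ?_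
      rw [CfsgH4.rho_reg hg]
  rw [h1, Finset.mul_sum]
  have h2 : ∀ ψ : Cfsg.IrrCharacter G, (p ^ Cfsg.blockDefect p B : ℂ) *
      (if ψ ∈ B then (m ψ : ℂ) * Cfsg.pRegularPart p (ψ : G → ℂ) g else 0) =
      ∑ θ : Cfsg.IrrCharacter G, if θ ∈ B then
        (if ψ ∈ B then (m ψ : ℂ) * (A ψ θ : ℂ) else 0) * (θ : G → ℂ) g else 0 := by
    intro ψ
    split_ifs with hψ
    · rw [CfsgH4.rho_expand hM hB hψ, Finset.mul_sum, Finset.mul_sum]
      refine Finset.sum_congr rfl fun θ _ => ?_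
      split_ifs
      · have := hA ψ hψ θ
        have h3 : (A ψ θ : ℂ) = (Nat.card G : ℂ)⁻¹ * ((p : ℂ) ^ Cfsg.blockDefect p B *
          CfsgH5.regInner p (ψ : G → ℂ) (θ : G → ℂ)) := by
          rw [this, ← mul_assoc, inv_mul_cancel₀ hcG, one_mul]
        rw [h3]; ring
      · ring
    · rw [mul_zero]
      symm
      refine Finset.sum_eq_zero fun θ _ => ?_
      rw [zero_mul, ite_self]
  rw [Finset.sum_congr rfl fun ψ _ => h2 ψ, Finset.sum_comm]
  refine Finset.sum_congr rfl fun θ _ => ?_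
  split_ifs
  · push_cast
    rw [Finset.sum_mul]
  · exact Finset.sum_const_zero

end Cfsg.Agent.S4666
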