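import Cfsg.Statements.S4668
import Cfsg.Agent.H4.Cov4
import Cfsg.Agent.H2.CopGen

set_option autoImplicit false
open Cfsg

namespace Cfsg.Agent.S4668

/-- Fix a prime p and a maximal ideal M of the algebraic integers containing p. Let Q₀ < Q₁ < ⋯ < Q_m be a strictly increasing chain of p-subgroups of the finite group G and N the intersection of their normalizers. Then every block idempotent of N is supported on C_G(Q_m): for every p-block E of N, the idempotent coefficient of E vanishes at every element of N outside C_G(Q_m). -/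
theorem result {G : Type*} [Group G] [Fintype G] (p : ℕ) [Fact p.Prime] (M : Ideal Cfsg.AlgInt) (hM : Cfsg.IsPModular p M) (m : ℕ) (Q : Fin (m + 1) → Subgroup G) (hQ : StrictMono Q) (hQp : ∀ i, IsPGroup p (Q i)) (N : Subgroup G) (hN : ∀ g : G, g ∈ N ↔ ∀ i, g ∈ Subgroup.normalizer (Q i : Set G)) (E : Set (Cfsg.IrrCharacter N)) (hE : Cfsg.IsPBlock M E) (n : N) (hn : (n : G) ∉ Subgroup.centralizer (Q (Fin.last m) : Set G)) : Cfsg.blockCoeff E n = 0 := by
  classical
  haveI : M.IsPrime := hM.2.1.isPrime
  haveI := CfsgH4.charP_kk hM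
  have hNn : ∀ i, ∀ x ∈ N, x ∈ Subgroup.normalizer (Q i : Set G) := fun i x hx => (hN x).1 hx i
  by_cases hp : p ∣ orderOf n
  · exact CfsgH5.blockCoeff_singular hM (CfsgH5.inS_eSet hE) hp
  haveI hRn : ((Q (Fin.last m)).subgroupOf N).Normal := by
    refine ⟨fun x hx g => ?_⟩
    exact (Subgroup.mem_normalizer_iff.1 (hNn (Fin.last m) g g.2) x).1 hx
  have hRp : IsPGroup p ((Q (Fin.last m)).subgroupOf N) := (hQp _).comap_subtype
  have hsup : CfsgH4.Sup (CfsgH4.cz ((Q (Fin.last m)).subgroupOf N)) (CfsgH4.idB M E) :=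
    (CfsgH4.isBl_top hE).sup_cz hM hRp le_top fun x _ => CfsgH4.mem_nz_normal x
  haveI : (CfsgH4.cz ((Q (Fin.last m)).subgroupOf N)).Normal := by
    show (Subgroup.centralizer (((Q (Fin.last m)).subgroupOf N : Subgroup N) : Set N)).Normal
    infer_instance
  refine CfsgH4.exact_support hE hsup fun hcz => hn ?_
  have hcR : ∀ q ∈ Q (Fin.last m), q ∈ N → (n : G) * q = q * n := by
    intro q hq hqN
    have h1 := (Subgroup.mem_centralizer_iff.1 hcz) ⟨q, hqN⟩ hq
    exact (congrArg Subtype.val h1).symm
  have key : ∀ i : Fin (m + 1), (n : G) ∈ Subgroup.centralizer (Q i : Set G) := by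
    intro i
    induction i using Fin.induction with
    | zero =>
      rw [Subgroup.mem_centralizer_iff]
      intro q hq
      refine (hcR q (hQ.monotone (Fin.zero_le _) hq) ((hN q).2 fun i => ?_)).symm
      exact Subgroup.le_normalizer (hQ.monotone (Fin.zero_le i) hq)
    | succ i ih =>
      have hcop : (Nat.card (Subgroup.zpowers (n : G))).Coprime p := by
        rw [Nat.card_zpowers, Subgroup.orderOf_coe]
        exact ((Nat.Prime.coprime_iff_not_dvd (Fact.out : p.Prime)).2 hp).symm
      have hle : Q i.castSucc ≤ Q i.succ := hQ.monotone (Fin.castSucc_le_succ i)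
      have h1 : ⁅Subgroup.zpowers (n : G), Q i.castSucc⁆ = ⊥ := by
        rw [Subgroup.commutator_eq_bot_iff_le_centralizer, Subgroup.zpowers_le]
        exact ih
      have h2 : ⁅Q i.succ ⊓ Subgroup.centralizer (Q i.castSucc : Set G),
          Subgroup.zpowers (n : G)⁆ = ⊥ := by
        rw [Subgroup.commutator_comm, Subgroup.commutator_eq_bot_iff_le_centralizer,
          Subgroup.zpowers_le, Subgroup.mem_centralizer_iff]
        rintro q ⟨hq1, hq2⟩
        refine (hcR q (hQ.monotone (Fin.le_last _) hq1) ((hN q).2 fun j => ?_)).symm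
        rcases le_or_gt j i.castSucc with hj | hj
        · have h3 : q ∈ Subgroup.centralizer (Q j : Set G) :=
            Subgroup.centralizer_le (hQ.monotone hj) hq2
          exact CfsgH4.cz_le_nz (Q j) h3
        · exact Subgroup.le_normalizer (hQ.monotone (Fin.castSucc_lt_iff_succ_le.1 hj) hq1)
      have h3 := CfsgH2.thompson_axb (hQp i.castSucc) hcop h1 (Q i.succ) (hQp _)
        ((Subgroup.zpowers_le).2 (hNn _ _ n.2)) (hle.trans Subgroup.le_normalizer) h2
      rw [Subgroup.commutator_comm, Subgroup.commutator_eq_bot_iff_le_centralizer,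
        Subgroup.zpowers_le] at h3
      exact h3
  exact key (Fin.last m)

end Cfsg.Agent.S4668
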