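import Cfsg.Statements.S4670
import Cfsg.Agent.H4.Bp6

set_option autoImplicit false
open Cfsg

namespace Cfsg.Agent.S4670

theorem br_eq_iff {G : Type*} [Group G] [Finite G] {M : Ideal Cfsg.AlgInt} [hMp : M.IsPrime]
    {P H : Subgroup G} {B : Set (IrrCharacter G)} {c : Set (IrrCharacter H)}
    (hB : IsPBlock M B) (hc : IsPBlock M c) :
    CfsgH4.br P (CfsgH4.idB M B) = CfsgH4.br P (CfsgH4.idH M H c) ↔
      ∀ x : G, x ∈ Subgroup.centralizer (P : Set G) →
        MemLocalIdeal M (blockCoeff B x - subgroupBlockCoeff H c x) := by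
  have key : ∀ x : G, (CfsgH4.idB M B).coeff x = (CfsgH4.idH M H c).coeff x ↔
      MemLocalIdeal M (blockCoeff B x - subgroupBlockCoeff H c x) := by
    intro x
    have h1 : MemLocalRing M (blockCoeff B x) := CfsgH5.inS_eSet hB x
    rw [CfsgH4.coeff_idB, CfsgH4.coeff_idH,
      CfsgH4.resid_eq_iff h1 (CfsgH4.memLocalRing_sub_coeff hc x)]
  constructor
  · intro h x hx
    rw [← key]
    have := congrArg (fun z : MonoidAlgebra (CfsgH4.kk M) G => z.coeff x) h
    simpa only [CfsgH4.coeff_br, if_pos hx] using this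
  · intro h
    refine CfsgH5.algExt fun x => ?_
    rw [CfsgH4.coeff_br, CfsgH4.coeff_br]
    split_ifs with hx
    · exact (key x).2 (h x hx)
    · rfl

/-- Fix a prime p and a maximal ideal M of the algebraic integers containing p. Let P be a p-subgroup of the finite group G and H a subgroup containing N_G(P). For every p-block B of G with defect group P there is exactly one p-block c of H with defect group P whose idempotent agrees with that of B, modulo the local ideal at M, at every element of C_G(P) (their Brauer-map images at P coincide); and every p-block c of H with defect group P arises in this way from exactly one such B. This is the Brauer correspondence over H. -/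
theorem result {G : Type*} [Group G] [Fintype G] (p : ℕ) [Fact p.Prime] (M : Ideal Cfsg.AlgInt) (hM : Cfsg.IsPModular p M) (P H : Subgroup G) (hP : IsPGroup p P) (hH : Subgroup.normalizer (P : Set G) ≤ H) : (∀ B : Set (Cfsg.IrrCharacter G), Cfsg.IsPBlock M B → Cfsg.IsDefectGroup p M B P → ∃! c : Set (Cfsg.IrrCharacter H), Cfsg.IsPBlock M c ∧ Cfsg.IsDefectGroup p M c (P.subgroupOf H) ∧ ∀ x : G, x ∈ Subgroup.centralizer (P : Set G) → Cfsg.MemLocalIdeal M (Cfsg.blockCoeff B x - Cfsg.subgroupBlockCoeff H c x)) ∧ (∀ c : Set (Cfsg.IrrCharacter H), Cfsg.IsPBlock M c → Cfsg.IsDefectGroup p M c (P.subgroupOf H) → ∃! B : Set (Cfsg.IrrCharacter G), Cfsg.IsPBlock M B ∧ Cfsg.IsDefectGroup p M B P ∧ ∀ x : G, x ∈ Subgroup.centralizer (P : Set G) → Cfsg.MemLocalIdeal M (Cfsg.blockCoeff B x - Cfsg.subgroupBlockCoeff H c x)) := by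
  haveI : M.IsPrime := hM.2.1.isPrime
  have hPH : P ≤ H := le_trans Subgroup.le_normalizer hH
  have hCH : CfsgH4.cz P ≤ H := le_trans (CfsgH4.cz_le_nz P) hH
  have hKN : CfsgH4.nz P ⊓ (⊤ : Subgroup G) = CfsgH4.nz P ⊓ H := by
    rw [inf_top_eq, inf_eq_left.2 hH]
  constructor
  · intro B hB hBP
    obtain ⟨z, ⟨hz, hzP, hbr⟩, huniq⟩ := CfsgH4.corr_exists hM hKN hPH le_top hCH
      (CfsgH4.isBl_top hB) ((CfsgH4.isDefectGroup_iff_DG hM hB).1 hBP)
    obtain ⟨c, hc, rfl⟩ := CfsgH4.exists_block_of_isBl hz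
    refine ⟨c, ⟨hc, (CfsgH4.isDefectGroup_iff_DG' hM hc hPH).2 hzP, (br_eq_iff hB hc).1 hbr⟩, ?_⟩
    rintro c' ⟨hc', hc'P, hc'br⟩
    exact CfsgH4.idH_injective hc' hc (huniq _ ⟨CfsgH4.isBl_idH hc',
      (CfsgH4.isDefectGroup_iff_DG' hM hc' hPH).1 hc'P, (br_eq_iff hB hc').2 hc'br⟩)
  · intro c hc hcP
    obtain ⟨z, ⟨hz, hzP, hbr⟩, huniq⟩ := CfsgH4.corr_exists hM hKN.symm le_top hCH le_top
      (CfsgH4.isBl_idH hc) ((CfsgH4.isDefectGroup_iff_DG' hM hc hPH).1 hcP)
    obtain ⟨B, hB, rfl⟩ := CfsgH4.exists_block_of_top hz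
    refine ⟨B, ⟨hB, (CfsgH4.isDefectGroup_iff_DG hM hB).2 hzP, (br_eq_iff hB hc).1 hbr.symm⟩, ?_⟩
    rintro B' ⟨hB', hB'P, hB'br⟩
    exact CfsgH4.idB_injective (CfsgH5.inS_eSet hB') (CfsgH5.inS_eSet hB) (huniq _ ⟨CfsgH4.isBl_top hB',
      (CfsgH4.isDefectGroup_iff_DG hM hB').1 hB'P, ((br_eq_iff hB' hc).2 hB'br).symm⟩)

end Cfsg.Agent.S4670
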