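import Cfsg.Statements.S4672
import Cfsg.Agent.H4.Cov4

set_option autoImplicit false
open Cfsg

namespace Cfsg.Agent.S4672

/-- Fix a prime p and a maximal ideal M of the algebraic integers containing p. Let N be a normal subgroup of the finite group G of p-power index and c a p-block of N stable under conjugation by G. Then the idempotent of c is a block idempotent of G: there is a p-block B of G whose idempotent coefficients agree with those of c on N and vanish off N; and for every defect group P of such a block B, G = NP and P ∩ N is a defect group of c. -/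
theorem result {G : Type*} [Group G] [Fintype G] (p : ℕ) [Fact p.Prime] (M : Ideal Cfsg.AlgInt) (hM : Cfsg.IsPModular p M) (N : Subgroup G) [N.Normal] (hN : ∃ k : ℕ, N.index = p ^ k) (c : Set (Cfsg.IrrCharacter N)) (hc : Cfsg.IsPBlock M c) (hst : ∀ x : G, Cfsg.StabilizesBlock N c x) : (∃ B : Set (Cfsg.IrrCharacter G), Cfsg.IsPBlock M B ∧ ∀ g : G, Cfsg.blockCoeff B g = Cfsg.subgroupBlockCoeff N c g) ∧ ∀ B : Set (Cfsg.IrrCharacter G), Cfsg.IsPBlock M B → (∀ g : G, Cfsg.blockCoeff B g = Cfsg.subgroupBlockCoeff N c g) → ∀ P : Subgroup G, Cfsg.IsDefectGroup p M B P → N ⊔ P = ⊤ ∧ Cfsg.IsDefectGroup p M c ((P ⊓ N).subgroupOf N) := by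
  haveI : M.IsPrime := hM.2.1.isPrime
  have hfx := (CfsgH4.stab_top_iff hc).1 hst
  have hcN := CfsgH4.isBl_idH hc
  have hcG := CfsgH4.IsBl.of_pIndex hM hN hcN hfx
  constructor
  · obtain ⟨B, hB, hBc⟩ := CfsgH4.exists_block_of_top hcG
    exact ⟨B, hB, CfsgH4.exact_coeff_top hc hB hBc.symm⟩
  · intro B hB hBc P hP
    have h1 : CfsgH4.idB M B = CfsgH4.idH M N c := by
      refine CfsgH5.algExt fun g => ?_
      rw [CfsgH4.coeff_idB, CfsgH4.coeff_idH, hBc]
    rw [CfsgH4.isDefectGroup_iff_DG hM hB, h1] at hP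
    exact ⟨CfsgH4.pIndex_sup hM hN hcN hcG hP,
      (CfsgH4.isDefectGroup_iff_DG' hM hc inf_le_right).2
        (CfsgH4.knorr_stable_block hM hcN hcG hP)⟩

end Cfsg.Agent.S4672
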