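import Cfsg.Statements.S4674
import Cfsg.Agent.H4.Har

set_option autoImplicit false
open Cfsg

namespace Cfsg.Agent.S4674

/-- Fix a prime p and a maximal ideal M of the algebraic integers containing p. Let N be a normal subgroup of the finite group G, Q a p-subgroup of N, H = N_G(Q) and L = H ∩ N = N_N(Q). Let d be a p-block of N with defect group Q and e the p-block of L with defect group Q that induces d inside N (its Brauer correspondent). Then block induction from H to G is a bijection from the p-blocks of H covering e onto the p-blocks of G covering d: every block of H covering e induces exactly one block of G, and that block covers d; and every block of G covering d is induced by exactly one block of H covering e. -/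
theorem result {G : Type*} [Group G] [Fintype G] (p : ℕ) [Fact p.Prime] (M : Ideal Cfsg.AlgInt) (hM : Cfsg.IsPModular p M) (N : Subgroup G) [N.Normal] [Fintype N] (Q : Subgroup G) (hQ : IsPGroup p Q) (hQN : Q ≤ N) [Fintype ↥(Subgroup.normalizer (Q : Set G) ⊓ N)] (d : Set (Cfsg.IrrCharacter N)) (hd : Cfsg.IsPBlock M d) (hdQ : Cfsg.IsDefectGroup p M d (Q.subgroupOf N)) (e : Set (Cfsg.IrrCharacter ↥(Subgroup.normalizer (Q : Set G) ⊓ N))) (he : Cfsg.IsPBlock M e) (heQ : Cfsg.IsDefectGroup p M e (Q.subgroupOf (Subgroup.normalizer (Q : Set G) ⊓ N))) (hed : Cfsg.IsInducedBlockIn M N (Subgroup.normalizer (Q : Set G) ⊓ N) e d) : (∀ c : Set (Cfsg.IrrCharacter ↥(Subgroup.normalizer (Q : Set G))), Cfsg.IsPBlock M c → (∃ ψ ∈ c, ∃ ξ ∈ e, Cfsg.classInner (fun l : ↥(Subgroup.normalizer (Q : Set G) ⊓ N) => (ψ : ↥(Subgroup.normalizer (Q : Set G)) → ℂ) (Subgroup.inclusion inf_le_left l)) (ξ : ↥(Subgroup.normalizer (Q : Set G) ⊓ N)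 → ℂ) ≠ 0) → ∃! B : Set (Cfsg.IrrCharacter G), Cfsg.IsInducedBlock M (Subgroup.normalizer (Q : Set G)) c B ∧ (∃ χ ∈ B, ∃ θ ∈ d, Cfsg.classInner (fun n : N => (χ : G → ℂ) n) (θ : N → ℂ) ≠ 0)) ∧ (∀ B : Set (Cfsg.IrrCharacter G), Cfsg.IsPBlock M B → (∃ χ ∈ B, ∃ θ ∈ d, Cfsg.classInner (fun n : N => (χ : G → ℂ) n) (θ : N → ℂ) ≠ 0) → ∃! c : Set (Cfsg.IrrCharacter ↥(Subgroup.normalizer (Q : Set G))), (Cfsg.IsPBlock M c ∧ ∃ ψ ∈ c, ∃ ξ ∈ e, Cfsg.classInner (fun l : ↥(Subgroup.normalizer (Q : Set G) ⊓ N) => (ψ : ↥(Subgroup.normalizer (Q : Set G)) → ℂ) (Subgroup.inclusion inf_le_left l)) (ξ : ↥(Subgroup.normalizer (Q : Set G) ⊓ N) → ℂ) ≠ 0) ∧ Cfsg.IsInducedBlock M (Subgroup.normalizer (Q : Set G)) c B) := by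
  classical
  haveI : M.IsPrime := hM.2.1.isPrime
  haveI := CfsgH4.charP_kk hM
  have hQL : Q ≤ Subgroup.normalizer (Q : Set G) ⊓ N := le_inf Subgroup.le_normalizer hQN
  have hn : Subgroup.normalizer (Q : Set G) ≤
      CfsgH4.nz (Subgroup.normalizer (Q : Set G) ⊓ N) := by
    intro x hx
    rw [Subgroup.mem_normalizer_iff]
    intro y
    constructor
    · rintro ⟨h1, h2⟩
      exact ⟨Subgroup.mul_mem _ (Subgroup.mul_mem _ hx h1) (Subgroup.inv_mem _ hx),
        Subgroup.Normal.conj_mem inferInstance y h2 x⟩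
    · rintro ⟨h1, h2⟩
      refine ⟨?_, ?_⟩
      · have := Subgroup.mul_mem _ (Subgroup.mul_mem _ (Subgroup.inv_mem _ hx) h1) hx
        simpa [mul_assoc] using this
      · have := Subgroup.Normal.conj_mem (H := N) inferInstance _ h2 x⁻¹
        simpa [mul_assoc] using this
  have hdb := CfsgH4.isBl_idH (M := M) hd
  have heb := CfsgH4.isBl_idH (M := M) he
  have hdg := (CfsgH4.isDefectGroup_iff_DG' hM hd hQN).1 hdQ
  have heg := (CfsgH4.isDefectGroup_iff_DG' hM he hQL).1 heQ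
  have hde := (CfsgH4.indIn_iff (P := Q) hM hQ hQL inf_le_right
    (le_inf (inf_le_left.trans (CfsgH4.cz_le_nz Q)) inf_le_right) inf_le_left he hd).1 hed
  have hbe : CfsgH4.br Q (CfsgH4.idH M N d) = CfsgH4.idH M _ e :=
    (CfsgH4.br_isBl hM hdb hdg).1.eq_of_mul heb (by rw [hde]; exact heb.ne)
  have hQn : Q ≤ Subgroup.normalizer (Q : Set G) := Subgroup.le_normalizer
  have hind : ∀ {c : Set (Cfsg.IrrCharacter ↥(Subgroup.normalizer (Q : Set G)))}
      {B : Set (Cfsg.IrrCharacter G)}, Cfsg.IsPBlock M c → Cfsg.IsPBlock M B →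
      (Cfsg.IsInducedBlock M (Subgroup.normalizer (Q : Set G)) c B ↔
        CfsgH4.br Q (CfsgH4.idB M B) * CfsgH4.idH M (Subgroup.normalizer (Q : Set G)) c =
          CfsgH4.idH M (Subgroup.normalizer (Q : Set G)) c) := fun hc hB =>
    CfsgH4.ind_iff hM hQ hQn (CfsgH4.cz_le_nz Q) le_rfl hc hB
  have hcovH : ∀ {c : Set (Cfsg.IrrCharacter ↥(Subgroup.normalizer (Q : Set G)))},
      Cfsg.IsPBlock M c → ((∃ ψ ∈ c, ∃ ξ ∈ e, Cfsg.classInner (fun l : ↥(Subgroup.normalizer (Q : Set G) ⊓ N) => (ψ : ↥(Subgroup.normalizer (Q : Set G)) → ℂ) (Subgroup.inclusion inf_le_left l)) (ξ : ↥(Subgroup.normalizer (Q : Set G) ⊓ N) → ℂ) ≠ 0) ↔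
      CfsgH4.idH M (Subgroup.normalizer (Q : Set G)) c * CfsgH4.idH M _ e ≠ 0) := fun hc =>
    CfsgH4.cover_iff_rel inf_le_left hn hc he
  constructor
  · intro c hc hcov
    obtain ⟨B, hB⟩ := CfsgH5.inducedBlockDefined hM hQ hQn (CfsgH4.cz_le_nz Q) le_rfl hc
    refine ⟨B, ⟨hB, (CfsgH4.cover_iff hB.2.1 hd).2 ?_⟩, ?_⟩
    · exact CfsgH4.hk_up hM hQ hQN (CfsgH4.isBl_top hB.2.1) hdb (CfsgH4.isBl_idH hc) hde
        ((hcovH hc).1 hcov) ((hind hc hB.2.1).1 hB)
    · rintro B' ⟨hB', -⟩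
      exact CfsgH5.induced_unique hB' hB
  · intro B hB hcov
    have hBd := (CfsgH4.cover_iff hB hd).1 hcov
    have hBb := CfsgH4.isBl_top (M := M) hB
    obtain ⟨z, hz, hze, hBz⟩ := CfsgH4.hk_exists hM hBb hdb hdg hBd
    obtain ⟨c, hc, rfl⟩ := CfsgH4.exists_block_of_isBl hz
    rw [hbe] at hze
    refine ⟨c, ⟨⟨hc, (hcovH hc).2 hze⟩, (hind hc hB).2 hBz⟩, ?_⟩
    rintro c' ⟨⟨hc', hcov'⟩, hind'⟩
    exact CfsgH4.idH_injective hc' hc (CfsgH4.hk_unique hM hQN hBb (CfsgH4.isBl_idH hc') hz heb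
      heg ((hcovH hc').1 hcov') hze ((hind hc' hB).1 hind') hBz)

end Cfsg.Agent.S4674
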