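import Cfsg.Statements.S4679
import Cfsg.Agent.H4.Bp11

set_option autoImplicit false
open Cfsg

namespace Cfsg.Agent.S4679

/-- Fix a prime p and a maximal ideal M of the algebraic integers containing p, a p-block B of the finite group G with maximal Brauer pair (P, e), its fusion system F on P, a Brauer pair (Q, f) ≤ (P, e), and let T be the stabilizer of f in N_G(Q). Then Q is fully normalized in F if and only if N_P(Q) is a defect group of the block of T whose idempotent is that of f. -/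
theorem result {G : Type*} [Group G] [Fintype G] (p : ℕ) [Fact p.Prime] (M : Ideal Cfsg.AlgInt) (hM : Cfsg.IsPModular p M) (B : Set (Cfsg.IrrCharacter G)) (P : Subgroup G) (e : Set (Cfsg.IrrCharacter (Subgroup.centralizer (P : Set G)))) (hmax : Cfsg.IsMaximalBrauerPair p M B P e) (F : Cfsg.FusionSystem P) (hF : Cfsg.IsBlockFusionSystemOn p M B P e F) (Q : Subgroup G) (f : Set (Cfsg.IrrCharacter (Subgroup.centralizer (Q : Set G)))) (hQP : Q ≤ P) (hf : Cfsg.IsPBlock M f) (hle : Cfsg.SubpairLE p M Q f P e) (T : Subgroup G) (hT : ∀ y : G, y ∈ T ↔ y ∈ Subgroup.normalizer (Q : Set G) ∧ Cfsg.StabilizesBlock (Subgroup.centralizer (Q : Set G)) f y) : F.IsFullyNormalized Q ↔ ∃ F' : Set (Cfsg.IrrCharacter T), Cfsg.IsPBlock M F' ∧ (∀ t : T, Cfsg.blockCoeff F' t = Cfsg.subgroupBlockCoeff (Subgroup.centralizer (Q : Set G)) f (t : G)) ∧ Cfsg.IsDefectGroup p M F' ((P ⊓ Subgroup.normalizer (Q : Set G)).subgroupOf T) := by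
  haveI : M.IsPrime := hM.2.1.isPrime
  obtain ⟨hB, he, hMP⟩ := (CfsgH4.isMaximalBrauerPair_iff hM).1 hmax
  have hle' := (CfsgH4.subpairLE_iff hM hf he).1 hle
  have key := CfsgH4.fn_iff (a := (P, CfsgH4.idH M (CfsgH4.cz P) e)) hM (CfsgH4.isBl_top hB) hMP
    (CfsgH4.isBF_of_block hM hF) hle'
  have hQp : IsPGroup p Q := hMP.1.1.to_le hQP
  have hfB := CfsgH4.isBl_idH hf
  obtain rfl := CfsgH4.stab_eq hf hT
  have hTN := CfsgH4.st_le_nz (Q, CfsgH4.idH M (CfsgH4.cz Q) f)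
  have hQT := CfsgH4.self_le_st (a := (Q, CfsgH4.idH M (CfsgH4.cz Q) f)) hfB.sup
  have hCT := CfsgH4.cz_le_st (a := (Q, CfsgH4.idH M (CfsgH4.cz Q) f)) hfB.fx
  have hPT : P ⊓ CfsgH4.nz Q ≤ CfsgH4.st (Q, CfsgH4.idH M (CfsgH4.cz Q) f) :=
    CfsgH4.LE.inf_nz_le_st hM hle' (CfsgH4.isBl_idH he)
  refine key.trans ?_
  constructor
  · intro h
    obtain ⟨F', hF', hFid, hFc⟩ := CfsgH4.exists_stab_block hM hQp hf hQT hCT hTN
      (CfsgH4.fx_st (Q, CfsgH4.idH M (CfsgH4.cz Q) f))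
    refine ⟨F', hF', hFc, (CfsgH4.isDefectGroup_iff_DG' hM hF' hPT).2 ?_⟩
    rw [hFid]; exact h
  · rintro ⟨F', hF', hFc, hD⟩
    have h1 := (CfsgH4.isDefectGroup_iff_DG' hM hF' hPT).1 hD
    rw [CfsgH4.idH_eq_of_coeff hCT hFc] at h1
    exact h1

end Cfsg.Agent.S4679
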