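import Cfsg.Statements.S4681
import Cfsg.Agent.H4.Bp11

set_option autoImplicit false
open Cfsg

namespace Cfsg.Agent.S4681

/-- Fix a prime p and a maximal ideal M of the algebraic integers containing p. Let B₀ be the principal p-block of the finite group G, P a Sylow p-subgroup and e₀ the principal p-block of C_G(P). Then (P, e₀) is a maximal Brauer pair of B₀, and the fusion system of B₀ on (P, e₀) is the fusion system of G on P: its maps from each subgroup of P are exactly the conjugation maps into P by elements of G. -/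
theorem result {G : Type*} [Group G] [Fintype G] (p : ℕ) [Fact p.Prime] (M : Ideal Cfsg.AlgInt) (hM : Cfsg.IsPModular p M) (S : Sylow p G) : Cfsg.IsMaximalBrauerPair p M (Cfsg.principalBlock M G) (S : Subgroup G) (Cfsg.principalBlock M (Subgroup.centralizer ((S : Subgroup G) : Set G))) ∧ ∀ F : Cfsg.FusionSystem (S : Subgroup G), Cfsg.IsBlockFusionSystemOn p M (Cfsg.principalBlock M G) (S : Subgroup G) (Cfsg.principalBlock M (Subgroup.centralizer ((S : Subgroup G) : Set G))) F → ∀ Q : Subgroup G, F.Hom Q = (Cfsg.groupFusionSystem (S : Subgroup G)).Hom Q := by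
  haveI : M.IsPrime := hM.2.1.isPrime
  have hmax : IsMaximalBrauerPair p M (principalBlock M G) (S : Subgroup G)
      (principalBlock M (Subgroup.centralizer ((S : Subgroup G) : Set G))) := by
    refine (CfsgH4.isMaximalBrauerPair_iff hM).2 ⟨CfsgH5.isPBlock_principal,
      CfsgH5.isPBlock_principal, ?_⟩
    rw [CfsgH4.idB_principal]
    exact CfsgH4.MP_pr hM S
  refine ⟨hmax, fun F hF Q => ?_⟩
  have hBF := CfsgH4.isBF_of_block hM hF
  ext φ
  have h1 : φ ∈ F.Hom Q ↔ CfsgH8.Mor F Q (CfsgH8.extF φ) := CfsgH8.hom_iff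
  have h2 : φ ∈ (groupFusionSystem (S : Subgroup G)).Hom Q ↔
    CfsgH8.Mor (groupFusionSystem (S : Subgroup G)) Q (CfsgH8.extF φ) := CfsgH8.hom_iff
  rw [h1, h2, hBF, CfsgH8.mor_group]
  constructor
  · rintro ⟨g, hg, f, h3, h4⟩
    refine ⟨h3.le, fun x hx => ?_, g, hg⟩
    rw [hg x hx]
    exact h4.le (CfsgH5.conj_mem_cj.2 hx)
  · rintro ⟨hQS, hS, g, hg⟩
    have hgQ : CfsgH5.cj g Q ≤ (S : Subgroup G) := by
      intro y hy
      rw [CfsgH5.mem_cj] at hy
      have h5 := hS _ hy
      rw [hg _ hy] at h5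
      have h6 : g * (g⁻¹ * y * g) * g⁻¹ = y := by group
      rwa [h6] at h5
    refine ⟨g, hg, CfsgH4.pr M (CfsgH4.cz Q), CfsgH4.LE_pr hM _ S.isPGroup' hQS rfl, ?_⟩
    have h7 := CfsgH4.LE_pr hM (M := M) _ (P := (S : Subgroup G)) (Q := CfsgH5.cj g Q)
      S.isPGroup' hgQ rfl
    rw [← CfsgH4.ca_pr_cz] at h7
    exact h7

end Cfsg.Agent.S4681
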