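import Cfsg.Statements.S4683
import Cfsg.Agent.H4.Ker

set_option autoImplicit false
open Cfsg

namespace Cfsg.Agent.S4683

theorem aux {G : Type*} [Group G] [Fintype G] (p : ℕ) [Fact p.Prime] (M : Ideal Cfsg.AlgInt) (hM : Cfsg.IsPModular p M) (B : Set (Cfsg.IrrCharacter G)) (u : G) (hu : ∃ k : ℕ, orderOf u = p ^ k) (C : Subgroup G) (e : Set (Cfsg.IrrCharacter C)) (huC : u ∈ C) (hCe : C = Subgroup.centralizer ({u} : Set G)) (he : IsPBlock M e) (hind : IsInducedBlock M C e B) : ∑ᶠ χ ∈ B, ∑ᶠ s : C, Cfsg.pRegularPart p (Cfsg.blockPart e (fun c : C => (χ : G → ℂ) (u * c))) s * Cfsg.blockPart e (fun c : C => (χ : G → ℂ) (u⁻¹ * c)) s⁻¹ = (Nat.card C : ℂ) * (Cfsg.blockRank p e : ℂ) := by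
  classical
  haveI : M.IsPrime := hM.2.1.isPrime
  haveI := Fintype.ofFinite C
  let v : C := ⟨u, huC⟩
  have hC' : C = Subgroup.centralizer ({(v : G)} : Set G) := hCe
  have hv := CfsgH5.mem_center_of_eq hC'
  have h1 := CfsgH5.ctr_trace hM hC' hu he
  have h2 : ∀ χ : IrrCharacter G, ∑ᶠ s : C, pRegularPart p (blockPart e (fun c : C => (χ : G → ℂ) (u * c))) s *
      blockPart e (fun c : C => (χ : G → ℂ) (u⁻¹ * c)) s⁻¹ =
      (Nat.card C : ℂ) * CfsgH5.ctr p v e (χ : G → ℂ) (χ : G → ℂ) := by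
    intro χ
    rw [finsum_eq_sum_of_fintype, CfsgH5.ctr, ← mul_assoc, mul_inv_cancel₀ (CfsgH4.card_ne_zero C), one_mul]
    refine Finset.sum_congr rfl fun s _ => ?_
    rw [CfsgH4.rho_apply]
    split_ifs with hs
    · rw [zero_mul]
    · have h3 := CfsgH4.blockPart_shift hv e (χ : G → ℂ) s
      have h4 := CfsgH4.blockPart_shift (Subgroup.inv_mem _ hv) e (χ : G → ℂ) s⁻¹
      have h5 : (fun c : C => (χ : G → ℂ) (((v⁻¹ : C) : G) * c)) = fun c : C => (χ : G → ℂ) (u⁻¹ * c) := rfl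
      rw [h5, CfsgH4.Xf_inv hv] at h4
      rw [h4]
      congr 1
  have h3 : ∀ χ : IrrCharacter G, χ ∉ B → CfsgH5.ctr p v e (χ : G → ℂ) (χ : G → ℂ) = 0 := by
    intro χ hχ
    rw [CfsgH5.ctr]
    apply mul_eq_zero_of_right
    apply Finset.sum_eq_zero
    intro x _
    split_ifs with h
    · rfl
    · rw [CfsgH4.Xf_zero hM hC' hu hind hχ h, zero_mul]
  rw [finsum_mem_congr rfl fun χ _ => h2 χ, finsum_mem_eq_finite_toFinset_sum _ (Set.toFinite B), ← Finset.mul_sum, ← h1]
  congr 1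
  apply Finset.sum_subset (Finset.subset_univ _)
  intro χ _ hχ
  rw [Set.Finite.mem_toFinset] at hχ
  exact h3 χ hχ

/-- Fix a prime p and a maximal ideal M of the algebraic integers containing p, a p-block B of the finite group G, a p-element u and a p-block e of C = C_G(u) such that (⟨u⟩, e) is a Brauer pair of B (a Brauer element of B). For χ ∈ B let χ_u be the e-part of the class function c ↦ χ(u c) on C and χ_u' the e-part of c ↦ χ(u⁻¹ c). Then the sum over χ ∈ B and over the p-regular elements s of C of χ_u(s)·χ_u'(s⁻¹) equals the order of C times the p-regular rank of e (the number of irreducible Brauer characters of e). -/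
theorem result {G : Type*} [Group G] [Fintype G] (p : ℕ) [Fact p.Prime] (M : Ideal Cfsg.AlgInt) (hM : Cfsg.IsPModular p M) (B : Set (Cfsg.IrrCharacter G)) (u : G) (hu : ∃ k : ℕ, orderOf u = p ^ k) (e : Set (Cfsg.IrrCharacter (Subgroup.centralizer (Subgroup.zpowers u : Set G)))) (hBe : Cfsg.IsBrauerPairOf p M B (Subgroup.zpowers u) e) : ∑ᶠ χ ∈ B, ∑ᶠ s : Subgroup.centralizer (Subgroup.zpowers u : Set G), Cfsg.pRegularPart p (Cfsg.blockPart e (fun c : Subgroup.centralizer (Subgroup.zpowers u : Set G) => (χ : G → ℂ) (u * c))) s * Cfsg.blockPart e (fun c : Subgroup.centralizer (Subgroup.zpowers u : Set G) => (χ : G → ℂ) (u⁻¹ * c)) s⁻¹ = (Nat.card (Subgroup.centralizer (Subgroup.zpowers u : Set G)) : ℂ) * (Cfsg.blockRank p e : ℂ) := by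
  classical
  haveI : M.IsPrime := hM.2.1.isPrime
  have hCe : Subgroup.centralizer (Subgroup.zpowers u : Set G) = Subgroup.centralizer ({u} : Set G) := by
    ext c
    rw [Subgroup.mem_centralizer_singleton_iff]
    constructor
    · intro h
      exact (h u (Subgroup.mem_zpowers u)).symm
    · rintro h _ ⟨n, rfl⟩
      exact ((Commute.zpow_left (show Commute u c from h.symm) n).eq)
  have huC : u ∈ Subgroup.centralizer (Subgroup.zpowers u : Set G) := by
    rw [hCe, Subgroup.mem_centralizer_singleton_iff]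
  obtain ⟨hB, he, hof⟩ := (CfsgH4.isBrauerPairOf_iff hM).1 hBe
  have hind : IsInducedBlock M (Subgroup.centralizer (Subgroup.zpowers u : Set G)) e B :=
    (CfsgH4.ind_iff hM (P := Subgroup.zpowers u) hof.1 (by
      rw [Subgroup.zpowers_le]; exact huC) le_rfl (CfsgH4.cz_le_nz _) he hB).2 hof.2.2.2.2
  exact aux p M hM B u hu _ e huC hCe he hind

end Cfsg.Agent.S4683
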