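import Cfsg.Statements.S4692
import Cfsg.Agent.H4.Bp14

set_option autoImplicit false
open Cfsg

namespace Cfsg.Agent.S4692

/-- Fix a prime p and a maximal ideal M of the algebraic integers containing p. Let N be a normal subgroup of p-power index in the finite group G and c a p-block of N stable under conjugation by G, and let B be the p-block of G whose idempotent is that of c (it exists and is unique). Then c is nilpotent as a block of N if and only if B is nilpotent as a block of G. -/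
theorem result {G : Type*} [Group G] [Fintype G] (p : ℕ) [Fact p.Prime] (M : Ideal Cfsg.AlgInt) (hM : Cfsg.IsPModular p M) (N : Subgroup G) [N.Normal] (hN : ∃ k : ℕ, N.index = p ^ k) (c : Set (Cfsg.IrrCharacter N)) (hc : Cfsg.IsPBlock M c) (hst : ∀ x : G, Cfsg.StabilizesBlock N c x) (B : Set (Cfsg.IrrCharacter G)) (hB : Cfsg.IsPBlock M B) (hBc : ∀ g : G, Cfsg.blockCoeff B g = Cfsg.subgroupBlockCoeff N c g) : Cfsg.IsNilpotentBlock p M c ↔ Cfsg.IsNilpotentBlock p M B := by
  haveI : M.IsPrime := hM.2.1.isPrime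
  have hid : CfsgH4.idB M B = CfsgH4.idH M N c := by
    refine CfsgH5.algExt fun g => ?_
    rw [CfsgH4.coeff_idB, CfsgH4.coeff_idH, hBc]
  have hcN := CfsgH4.isBl_idH hc
  have hcG : CfsgH4.IsBl (⊤ : Subgroup G) (CfsgH4.idH M N c) := hid ▸ CfsgH4.isBl_top hB
  rw [CfsgH4.nil_iff hM, CfsgH4.nil_iff hM, hid, ← CfsgH4.rsK_idH]
  constructor
  · rintro ⟨-, h⟩
    exact ⟨hB, CfsgH4.nilB_up hM hN hcN hcG h⟩
  · rintro ⟨-, h⟩
    exact ⟨hc, CfsgH4.nilB_down hM hN hcN hcG h⟩

end Cfsg.Agent.S4692
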