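import Cfsg.Statements.S4693
import Cfsg.Agent.H4.Bp14

set_option autoImplicit false
open Cfsg

namespace Cfsg.Agent.S4693

/-- Fix a prime p and a maximal ideal M of the algebraic integers containing p, a p-block B of the finite group G with maximal Brauer pair (P, e) and fusion system F on P, and a Brauer pair (Q, f) ≤ (P, e) with Q centric in F. Suppose every element of G normalizes Q and stabilizes f. Then the idempotent of B agrees with that of f modulo M at every element of G, and f is the idempotent of a nilpotent block of Q·C_G(Q): some p-block of Q·C_G(Q) has the idempotent coefficients of f and is nilpotent. -/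
theorem result {G : Type*} [Group G] [Fintype G] (p : ℕ) [Fact p.Prime] (M : Ideal Cfsg.AlgInt) (hM : Cfsg.IsPModular p M) (B : Set (Cfsg.IrrCharacter G)) (P : Subgroup G) (e : Set (Cfsg.IrrCharacter (Subgroup.centralizer (P : Set G)))) (hmax : Cfsg.IsMaximalBrauerPair p M B P e) (F : Cfsg.FusionSystem P) (hF : Cfsg.IsBlockFusionSystemOn p M B P e F) (Q : Subgroup G) (f : Set (Cfsg.IrrCharacter (Subgroup.centralizer (Q : Set G)))) (hQP : Q ≤ P) (hf : Cfsg.IsPBlock M f) (hle : Cfsg.SubpairLE p M Q f P e) (hcen : F.IsCentric Q) (hG : ∀ x : G, x ∈ Subgroup.normalizer (Q : Set G) ∧ Cfsg.StabilizesBlock (Subgroup.centralizer (Q : Set G)) f x) : (∀ g : G, Cfsg.MemLocalIdeal M (Cfsg.blockCoeff B g - Cfsg.subgroupBlockCoeff (Subgroup.centralizer (Q : Set G)) f g)) ∧ ∃ F' : Set (Cfsg.IrrCharacter ↥(Q ⊔ Subgroup.centralizer (Q : Set G))), Cfsg.IsPBlock M F' ∧ (∀ t : ↥(Q ⊔ Subgroup.centralizer (Q : Set G)), Cfsg.blockCoeff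 F' t = Cfsg.subgroupBlockCoeff (Subgroup.centralizer (Q : Set G)) f (t : G)) ∧ Cfsg.IsNilpotentBlock p M F' := by
  haveI : M.IsPrime := hM.2.1.isPrime
  haveI := CfsgH4.charP_kk hM
  obtain ⟨hB, he, hMP⟩ := (CfsgH4.isMaximalBrauerPair_iff hM).1 hmax
  have hLE := (CfsgH4.subpairLE_iff hM hf he).1 hle
  have hBt := CfsgH4.isBl_top (M := M) hB
  have hfb := CfsgH4.isBl_idH (M := M) hf
  have hQp : IsPGroup p Q := hMP.1.1.to_le hQP
  have hst : ∀ x : G, x ∈ CfsgH4.st (Q, CfsgH4.idH M (CfsgH4.cz Q) f) := fun x =>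
    (CfsgH4.mem_st_iff hf).2 (hG x)
  have hNn : (⊤ : Subgroup G) ≤ CfsgH4.nz Q := fun x _ => (hG x).1
  have hfx : CfsgH4.Fx (⊤ : Subgroup G) (CfsgH4.idH M (CfsgH4.cz Q) f) :=
    CfsgH4.fx_iff.2 fun x _ => (hst x).2
  have hft : CfsgH4.IsBl (⊤ : Subgroup G) (CfsgH4.idH M (CfsgH4.cz Q) f) :=
    CfsgH4.IsBl.of_stab hM hQp le_top le_top hNn hfb hfx
  have hOf : CfsgH4.Of p (⊤ : Subgroup G) (CfsgH4.idB M B) (Q, CfsgH4.idH M (CfsgH4.cz Q) f) :=
    (CfsgH4.LE.of_iff hM hBt hLE le_top le_top).2 hMP.1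
  have hBsup : CfsgH4.Sup (CfsgH4.cz Q) (CfsgH4.idB M B) := hBt.sup_cz hM hQp le_top hNn
  have hBf : CfsgH4.idB M B * CfsgH4.idH M (CfsgH4.cz Q) f = CfsgH4.idH M (CfsgH4.cz Q) f := by
    have h := hOf.2.2.2.2
    rwa [CfsgH4.br_of_sup hBsup] at h
  have hid : CfsgH4.idB M B = CfsgH4.idH M (CfsgH4.cz Q) f :=
    hBt.eq_of_mul hft (by rw [hBf]; exact hfb.ne)
  refine ⟨fun g => ?_, ?_⟩
  · have h1 : Cfsg.MemLocalRing M (Cfsg.blockCoeff B g) := CfsgH5.inS_eSet hB g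
    rw [← CfsgH4.resid_eq_iff h1 (CfsgH4.memLocalRing_sub_coeff hf g),
      ← CfsgH4.coeff_idH, ← hid, CfsgH4.coeff_idB]
  · obtain ⟨F', hF', hFid, hFc⟩ := CfsgH4.exists_stab_block (K := Q ⊔ CfsgH4.cz Q) hM hQp hf
      le_sup_left le_sup_right (le_top.trans hNn) (hfx.mono le_top)
    refine ⟨F', hF', hFc, (CfsgH4.nil_iff hM).2 ⟨hF', ?_⟩⟩
    rw [← CfsgH4.rsK_idH, hFid]
    refine CfsgH4.nilB_centric hM hQp hfb ?_ rfl
    exact (CfsgH4.cent_iff (a := (P, CfsgH4.idH M (CfsgH4.cz P) e)) hM hBt hMP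
      (CfsgH4.isBF_of_block hM hF) hLE).1 hcen

end Cfsg.Agent.S4693
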