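import Cfsg.Statements.S4709
import Cfsg.Agent.H5.FrobE

set_option autoImplicit false
open Cfsg

namespace Cfsg.Agent.S4709

open CfsgH5

/-- Let p be a prime, M a maximal ideal of the algebraic integers containing p, and G a finite group with a nontrivial abelian Sylow p-subgroup P; put N = N_G(P), C = C_G(P). Suppose N/C is cyclic of order m with 1 < m < #P − 1 (C has index m in N and N is generated by C and one element), and C_G(y) ∩ N = C for every non-identity y ∈ P. Put r = (#P − 1)/m. Then there is s ≤ m such that the principal p-block is the disjoint union of a set X of s characters containing the principal character and a set Y of r characters, with integers a_χ ≠ 0 (χ ∈ X), d and a sign δ = ±1, such that: every χ ∈ X takes the value a_χ at every element whose p-part is a non-identity element of P; there is a map ζ from the non-principal linear characters ψ of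 P onto Y, constant on N-conjugacy classes, with ζ_ψ(z) = d + δ·Σ ψ'(y) for every z whose p-part y is a non-identity element of P, the sum running over the N-conjugates ψ' of ψ; (d − δ)^2 + (r − 1) d^2 + Σ_{χ ∈ X} a_χ^2 = m + 1; all members of Y agree on p-regular elements; and (r d − δ) η(g) + Σ_{χ ∈ X} a_χ χ(g) = 0 for every η ∈ Y and every p-regular g. -/
theorem result {G : Type*} [Group G] [Finite G] (p : ℕ) [Fact p.Prime] (M : Ideal Cfsg.AlgInt) (hM : Cfsg.IsPModular p M) (P : Sylow p G) (hab : IsMulCommutative P) (hP1 : Nat.card P ≠ 1) (m : ℕ) (hm1 : 1 < m) (hm2 : m + 1 < Nat.card P) (hCN : (Subgroup.centralizer ((P : Subgroup G) : Set G)).relIndex (Subgroup.normalizer ((P : Subgroup G) : Set G)) = m) (hcyc : ∃ g : G, g ∈ Subgroup.normalizer ((P : Subgroup G) : Set G) ∧ Subgroup.centralizer ((P : Subgroup G) : Set G) ⊔ Subgroup.zpowers g = Subgroup.normalizer ((P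 : Subgroup G) : Set G)) (hfrob : ∀ y : G, y ∈ (P : Subgroup G) → y ≠ 1 → Subgroup.centralizer ({y} : Set G) ⊓ Subgroup.normalizer ((P : Subgroup G) : Set G) = Subgroup.centralizer ((P : Subgroup G) : Set G)) : ∃ (s : ℕ) (X Y : Set (Cfsg.IrrCharacter G)), s ≤ m ∧ Cfsg.principalBlock M G = X ∪ Y ∧ Disjoint X Y ∧ Nat.card X = s ∧ Nat.card Y = (Nat.card P - 1) / m ∧ (∃ χ₁ ∈ X, (χ₁ : G → ℂ) = fun _ => 1) ∧ ∃ (a : Cfsg.IrrCharacter G → ℤ) (d δ : ℤ) (ζ : (↥(P : Subgroup G) →* ℂˣ) → Cfsg.IrrCharacter G), (δ = 1 ∨ δ = -1) ∧ (∀ χ ∈ X, a χ ≠ 0 ∧ ∀ z y : G, Cfsg.IsPPart p z y → y ∈ (P : Subgroup G) → y ≠ 1 → (χ : G → ℂ) z = (a χ : ℂ)) ∧ (∀ ψ : ↥(P : Subgroup G) →* ℂˣ, ψ ≠ 1 → ζ ψ ∈ Y) ∧ (∀ η ∈ Y, ∃ ψ : ↥(P : Subgroup G) →* ℂˣ, ψ ≠ 1 ∧ ζ ψ = η) ∧ (∀ ψ ψ' : ↥(P : Subgroup G) →* ℂˣ, ψ ≠ 1 → (∃ n : G, n ∈ Subgroup.normalizer ((P : Subgroup G) : Set G) ∧ ∀ w w' : ↥(P : Subgroup G), (w'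 : G) = n * w * n⁻¹ → ψ' w' = ψ w) → ζ ψ' = ζ ψ) ∧ (∀ ψ : ↥(P : Subgroup G) →* ℂˣ, ψ ≠ 1 → ∀ (z : G) (y : ↥(P : Subgroup G)), Cfsg.IsPPart p z (y : G) → (y : G) ≠ 1 → (ζ ψ : G → ℂ) z = (d : ℂ) + (δ : ℂ) * ∑ᶠ ψ' ∈ {ψ' : ↥(P : Subgroup G) →* ℂˣ | ∃ n : G, n ∈ Subgroup.normalizer ((P : Subgroup G) : Set G) ∧ ∀ w w' : ↥(P : Subgroup G), (w' : G) = n * w * n⁻¹ → ψ' w' = ψ w}, ((ψ' y : ℂˣ) : ℂ)) ∧ ((d - δ) ^ 2 + ((Nat.card P - 1) / m - 1 : ℤ) * d ^ 2 + ∑ᶠ χ ∈ X, a χ ^ 2 = (m : ℤ) + 1) ∧ (∀ η ∈ Y, ∀ η' ∈ Y, ∀ g : G, ¬ p ∣ orderOf g → (η : G → ℂ) g = (η' : G → ℂ) g) ∧ (∀ η ∈ Y, ∀ g : G, ¬ p ∣ orderOf g → ((((Nat.card P - 1) / m : ℕ) : ℂ) * d - δ) * (η : G → ℂ) g + ∑ᶠ χ ∈ X, (a χ : ℂ) * (χ : G → ℂ) g = 0) := by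
  classical
  haveI := Fintype.ofFinite G
  haveI := CfsgH5.IsPModular.isPrime hM
  have h : FH P m := ⟨fun a ha b hb => congrArg Subtype.val (hab.is_comm.comm (⟨a, ha⟩ : (P : Subgroup G)) ⟨b, hb⟩), hCN, hfrob⟩
  obtain ⟨w, d, δ, ζ, D⟩ := h.main hM hm2
  haveI : Finite ((P : Subgroup G) →* ℂˣ) := finite_hom _
  haveI := Fintype.ofFinite ((P : Subgroup G) →* ℂˣ)
  have hcY : Nat.card (YY ζ) = (Nat.card P - 1) / m := by
    have h1 := D.card_Y h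
    rw [Nat.eq_div_iff_mul_eq_left (by omega) ⟨Nat.card (YY ζ), by rw [mul_comm]; exact h1.symm⟩]
    exact h1.symm
  have hcYz : ((Nat.card P : ℤ) - 1) / m = Nat.card (YY ζ) := by
    have h1 := D.card_Y h
    have h2 : ((Nat.card P : ℤ) - 1) = Nat.card (YY ζ) * m := by
      have h3 : 0 < Nat.card P := Nat.card_pos
      have h4 : ((Nat.card (YY ζ) * m : ℕ) : ℤ) = ((Nat.card P - 1 : ℕ) : ℤ) := by exact_mod_cast h1
      push_cast [h3] at h4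
      omega
    rw [h2, Int.mul_ediv_cancel _ (by omega)]
  refine ⟨Nat.card (XX M ζ), XX M ζ, YY ζ, D.card_X_le hM h hm2, XX_union D, XX_disj, rfl, hcY,
    ⟨irrOne G, ⟨irrOne_mem, (D.irrOne_notMem h hm2).1⟩, rfl⟩, w, d, δ, ζ, D.sgn, ?_, ?_, ?_, ?_, ?_, ?_, ?_, ?_⟩
  · intro χ hχ
    refine ⟨D.w_ne_zero hM h hm2 hχ, fun z y hz hy hy1 => D.val_X' hM h hχ hz hy hy1⟩
  · intro ψ hψ; exact ⟨ψ, hψ, rfl⟩
  · rintro η ⟨ψ, hψ, rfl⟩; exact ⟨ψ, hψ, rfl⟩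
  · intro ψ ψ' hψ h1
    exact D.zeta_eq hψ ((rel_iff ψ ψ').1 h1)
  · intro ψ hψ z y hz hy1
    rw [finsum_orb, h.val hM (D.mem ψ) hz y.2 hy1, D.val_Y h hψ (fun h' => hy1 (by rw [h']; rfl))]
  · have h1 := D.norm_split
    rw [finsum_set, hcYz]
    have h2 : δ ^ 2 = 1 := by rcases D.sgn with h' | h' <;> rw [h'] <;> norm_num
    have h3 := hcYz
    linear_combination h1 + h2
  · intro η hη η' hη' g hg
    exact D.reg_agree hM hη hη' hg
  · intro η hη g hg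
    rw [finsum_set, ← hcY]
    exact D.reg hM hη hg

end Cfsg.Agent.S4709
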