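import Cfsg.Statements.S4714
import Cfsg.Agent.H5.PCP

set_option autoImplicit false
open Cfsg

namespace Cfsg.Agent.S4714

open CfsgH5

/-- Let p be a prime, M a maximal ideal of the algebraic integers containing p, D a p-subgroup of the finite group G with G = D·C_G(D), and B a p-block with defect group D. Let χ be a member of B having D in its kernel (there is exactly one, the canonical character of B). Then the irreducible characters in B are exactly the functions θ on G for which there is an irreducible character ζ of D such that θ(yx) = ζ(y)χ(x) whenever y ∈ D, x has order prime to p and x commutes with y, and θ(z) = 0 whenever the p-part of z does not lie in D. -/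
theorem result {G : Type*} [Group G] [Finite G] (p : ℕ) [Fact p.Prime] (M : Ideal Cfsg.AlgInt) (hM : Cfsg.IsPModular p M) (D : Subgroup G) (hD : IsPGroup p D) (hG : D ⊔ Subgroup.centralizer (D : Set G) = ⊤) (B : Set (Cfsg.IrrCharacter G)) (hB : Cfsg.IsPBlock M B) (hBD : Cfsg.IsDefectGroup p M B D) (χ : Cfsg.IrrCharacter G) (hχ : χ ∈ B) (hχD : ∀ y ∈ D, (χ : G → ℂ) y = (χ : G → ℂ) 1) : (∀ θ : Cfsg.IrrCharacter G, θ ∈ B ↔ ∃ ζ : Cfsg.IrrCharacter D, (∀ (y : D) (x : G), ¬ p ∣ orderOf x → Commute (y : G) x → (θ : G → ℂ) ((y : G) * x) = (ζ : D → ℂ) y * (χ : G → ℂ) x) ∧ (∀ z : G, (∀ y : G, Cfsg.IsPPart p z y → y ∉ D) → (θ : G → ℂ) z = 0)) ∧ ∀ ζ : Cfsg.IrrCharacter D, ∃ θ ∈ B, (∀ (y : D) (x : G), ¬ p ∣ orderOf x → Commute (y : G) x → (θ : G → ℂ) ((y : G) * x) = (ζ : D → ℂ) y * (χ : G → ℂ) x) ∧ (∀ z : G, (∀ y : G, Cfsg.IsPPart p z y → y ∉ D) → (θ : G → ℂ) z = 0) := by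
  haveI := IsPModular.isPrime hM
  obtain ⟨κ, hκ⟩ := CfsgH5.exists_pexp p G
  obtain ⟨hu, -, -⟩ := CfsgH5.pcp_thm hM hD hG hB hBD
  obtain ⟨θ, hθ, h1, h2, h3, h4⟩ := CfsgH5.pcp_main hM hκ hD hG hB hBD
  obtain rfl : θ = χ := hu.unique ⟨hθ, h1⟩ ⟨hχ, hχD⟩
  have hiff : ∀ (ψ : IrrCharacter G) (ζ : IrrCharacter D), ((∀ (y : D) (x : G), ¬ p ∣ orderOf x → Commute (y : G) x → (ψ : G → ℂ) ((y : G) * x) = (ζ : D → ℂ) y * (θ : G → ℂ) x) ∧ (∀ z : G, (∀ y : G, IsPPart p z y → y ∉ D) → (ψ : G → ℂ) z = 0)) ↔ (ψ : G → ℂ) = CfsgH5.tw κ D (ζ : D → ℂ) (θ : G → ℂ) := by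
    intro ψ ζ
    constructor
    · rintro ⟨ha, hb⟩
      funext g
      by_cases hg : g ^ κ ∈ D
      · rw [CfsgH5.tw_of_mem _ _ hg]
        have hc := ha ⟨g ^ κ, hg⟩ ((g ^ κ)⁻¹ * g) (CfsgH5.IsPExp.reg hκ g) (by
          show Commute (g ^ κ) ((g ^ κ)⁻¹ * g)
          exact (Commute.refl (g ^ κ)).inv_right.mul_right (Commute.pow_self g κ))
        rw [← hc]
        congr 1
        simp
      · rw [CfsgH5.tw_of_notMem _ _ hg]
        apply hb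
        intro y hy
        rwa [(hκ g y).1 hy]
    · intro h
      rw [h]
      refine ⟨fun y x hx hc => CfsgH5.tw_mul hκ hD _ _ y hx hc, fun z hz => ?_⟩
      apply CfsgH5.tw_of_notMem
      exact hz _ ((hκ z _).2 rfl)
  refine ⟨fun ψ => ⟨fun hψ => ?_, ?_⟩, fun ζ => ?_⟩
  · obtain ⟨ζ, hζ⟩ := h3 ψ hψ
    exact ⟨ζ, (hiff ψ ζ).2 hζ⟩
  · rintro ⟨ζ, hζ⟩
    obtain ⟨ψ', hψ', he⟩ := h4 ζ
    have : ψ = ψ' := Subtype.ext (((hiff ψ ζ).1 hζ).trans he.symm)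
    rw [this]; exact hψ'
  · obtain ⟨ψ', hψ', he⟩ := h4 ζ
    exact ⟨ψ', hψ', (hiff ψ' ζ).2 he⟩

end Cfsg.Agent.S4714
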