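import Cfsg.Statements.S4717
import Cfsg.Agent.H5.BrCoeff
import Cfsg.Agent.H5.Third

set_option autoImplicit false
open Cfsg

namespace Cfsg.Agent.S4717

open CfsgH5

/-- Let p be a prime, M a maximal ideal of the algebraic integers containing p, and r a natural number; say that a finite group X has deficiency class r when X has no non-principal p-block of defect ≥ r. If G has deficiency class r then so does the centralizer of every p-element of G; conversely, if r > 0 and the centralizer of every element of order p has deficiency class r, then G has deficiency class r. -/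
theorem result {G : Type*} [Group G] [Finite G] (p : ℕ) [Fact p.Prime] (M : Ideal Cfsg.AlgInt) (hM : Cfsg.IsPModular p M) (r : ℕ) : ((∀ B' : Set (Cfsg.IrrCharacter G), Cfsg.IsPBlock M B' → B' ≠ Cfsg.principalBlock M G → Cfsg.blockDefect p B' < r) → ∀ y : G, (∃ k : ℕ, orderOf y = p ^ k) → (∀ B' : Set (Cfsg.IrrCharacter ↥(Subgroup.centralizer ({y} : Set G))), Cfsg.IsPBlock M B' → B' ≠ Cfsg.principalBlock M ↥(Subgroup.centralizer ({y} : Set G)) → Cfsg.blockDefect p B' < r)) ∧ (0 < r → (∀ y : G, orderOf y = p → (∀ B' : Set (Cfsg.IrrCharacter ↥(Subgroup.centralizer ({y} : Set G))), Cfsg.IsPBlock M B' → B' ≠ Cfsg.principalBlock M ↥(Subgroup.centralizer ({y} : Set G)) → Cfsg.blockDefect p B' < r)) → (∀ B' : Set (Cfsg.IrrCharacter G), Cfsg.IsPBlock M B' → B' ≠ Cfsg.principalBlock M G → Cfsg.blockDefect p B' < r)) := by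
  haveI := IsPModular.isPrime hM
  have hp : p.Prime := Fact.out
  refine ⟨?_, ?_⟩
  · intro hG y hy b hb hne
    obtain ⟨B, hB⟩ := centralizer_induced hM hy hb
    have hBne : B ≠ Cfsg.principalBlock M G := by
      rintro rfl
      exact hne ((third_main hM ⟨_, hB⟩).1 hB)
    have h1 := hG B hB.2.1 hBne
    obtain ⟨Q, hQ⟩ := exists_defectGroup hM hb
    obtain ⟨E, hE, hQE⟩ := defect_map_le hM hB hQ
    have h4 := Subgroup.card_le_of_le hQE
    rw [Subgroup.card_map_of_injective (Subgroup.subtype_injective _), defectGroup_card hM hb hQ,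
      defectGroup_card hM hB.2.1 hE] at h4
    exact lt_of_le_of_lt ((Nat.pow_le_pow_iff_right hp.one_lt).1 h4) h1
  · intro hr hC B hB hne
    by_contra hlt
    push Not at hlt
    obtain ⟨D, hD⟩ := exists_defectGroup hM hB
    have hDc := defectGroup_card hM hB hD
    have hDp := IsDefectGroup.isPGroup hD
    -- a central element of order `p`
    obtain ⟨y, hy1, hy2⟩ : ∃ y : Subgroup.center D, orderOf y = p ∧ True := by
      haveI : Nontrivial D := by
        rw [← Finite.one_lt_card_iff_nontrivial, hDc]
        exact Nat.one_lt_pow (by omega) hp.one_lt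
      haveI : Nontrivial (Subgroup.center D) := hDp.center_nontrivial
      have h2 : IsPGroup p (Subgroup.center D) := hDp.to_subgroup _
      obtain ⟨n, hn, hn2⟩ := h2.nontrivial_iff_card.1 inferInstance
      obtain ⟨y, hy⟩ := exists_prime_orderOf_dvd_card' (G := Subgroup.center D) p (by rw [hn2]; exact dvd_pow_self p hn.ne')
      exact ⟨y, hy, trivial⟩
    have hyD : ((y : D) : G) ∈ D := (y : D).2
    have hyC : ((y : D) : G) ∈ Subgroup.centralizer (D : Set G) := by
      rw [Subgroup.mem_centralizer_iff]
      intro h hh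
      have := (Subgroup.mem_center_iff.1 y.2) ⟨h, hh⟩
      exact congrArg Subtype.val this
    have hyo : orderOf ((y : D) : G) = p := by rw [Subgroup.orderOf_coe, Subgroup.orderOf_coe, hy1]
    obtain ⟨b, hb, hbd⟩ := exists_inducing_defect hM hB hD hyD hyC
    have hbne : b ≠ Cfsg.principalBlock M _ := by
      rintro rfl
      have := (third_main hM (⟨_, hb⟩ : Cfsg.InducedBlockDefined M _ _)).2 rfl
      exact hne (induced_unique hb this)
    have := hC _ hyo b hb.1 hbne
    omega

end Cfsg.Agent.S4717
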