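import Cfsg.Statements.S4718
import Cfsg.Agent.H5.Landau

set_option autoImplicit false
universe u
open Cfsg

namespace Cfsg.Agent.S4718

open CfsgH5

/-- Let p be a prime and a a natural number. There is a bound N such that every finite group whose Sylow p-subgroups have order p^a and whose only p-block (relative to a maximal ideal of the algebraic integers containing p) is the principal block has order at most N. -/
theorem result (p : ℕ) [Fact p.Prime] (a : ℕ) : ∃ N : ℕ, ∀ (G : Type u) [Group G] [Finite G] (M : Ideal Cfsg.AlgInt), Cfsg.IsPModular p M → (Nat.card G).factorization p = a → (∀ B : Set (Cfsg.IrrCharacter G), Cfsg.IsPBlock M B → B = Cfsg.principalBlock M G) → Nat.card G ≤ N := by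
  obtain ⟨N, hN⟩ := landau.{u} (p ^ (2 * a))
  refine ⟨N, fun G _ _ M hM ha hB => hN G ?_⟩
  haveI := IsPModular.isPrime hM
  rw [← CfsgH4.card_irr]
  have h1 : Cfsg.principalBlock M G = Set.univ := by
    rw [Set.eq_univ_iff_forall]
    intro χ
    rw [← hB _ (isPBlock_blockOf χ)]
    exact mem_blockOf_self χ
  have h2 := card_block_le hM (G := G) isPBlock_principalBlock
  rw [h1, Nat.card_univ] at h2
  refine h2.trans (Nat.pow_le_pow_right (Fact.out : p.Prime).pos ?_)
  have : Cfsg.blockDefect p (Set.univ : Set (Cfsg.IrrCharacter G)) ≤ a := by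
    rw [Cfsg.blockDefect, ← ha]; exact Nat.sub_le _ _
  omega

end Cfsg.Agent.S4718
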