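import Cfsg.Statements.S4720
import Cfsg.Agent.H5.Fin5

set_option autoImplicit false
open Cfsg

namespace Cfsg.Agent.S4720

open CfsgH5
open scoped ComplexConjugate


/-- Let p be a prime, M a maximal ideal of the algebraic integers containing p, P a p-subgroup of the finite group G, N a subgroup with P ≤ N ≤ N_G(P), and U a nonempty subset of P normalized by N such that an element of U and an element of P that are conjugate in G are already conjugate in N, and such that λ(C_G(y)) = w·#C_N(y) for every y ∈ U with one rational number w, where λ(X) denotes the sum of the squares of the degrees of the irreducible characters in the principal p-block of X. For a complex function θ on P and χ in the principal block of G put a_χ(θ) = #P⁻¹ Σ_{y ∈ P} χ(y) θ(y⁻¹). Then for generalized characters θ, η of P with θ vanishing outside U, Σ_χ a_χ(θ)·conj(a_χ(η)) = (w/#P²)·Σ_{y ∈ P} θ(y)·conj(Σ_{x ∈ N} η(x y x⁻¹)) (η extended by zero off P;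 the conjugates lie in P), the first sum over the principal p-block of G. -/
theorem result {G : Type*} [Group G] [Finite G] (p : ℕ) [Fact p.Prime] (M : Ideal Cfsg.AlgInt) (hM : Cfsg.IsPModular p M) (P : Subgroup G) (hP : IsPGroup p P) (N : Subgroup G) (hPN : P ≤ N) (hNN : N ≤ Subgroup.normalizer (P : Set G)) (U : Set G) (hUne : U.Nonempty) (hUP : U ⊆ (P : Set G)) (hUN : ∀ n ∈ N, ∀ u ∈ U, n * u * n⁻¹ ∈ U) (hfus : ∀ u ∈ U, ∀ g : G, g * u * g⁻¹ ∈ (P : Set G) → ∃ n ∈ N, n * u * n⁻¹ = g * u * g⁻¹) (w : ℚ) (hw : ∀ y ∈ U, ((∑ᶠ ψ ∈ Cfsg.principalBlock M ↥(Subgroup.centralizer ({y} : Set G)), Cfsg.charDegree (ψ : ↥(Subgroup.centralizer ({y} : Set G)) → ℂ) ^ 2) : ℚ) = w * Nat.card ↥(N ⊓ Subgroup.centralizer ({y} : Set G))) (θ η : ↥P → ℂ) (hθ : Cfsg.IsGeneralizedCharacter ↥P θ) (hη : Cfsg.IsGeneralizedCharacter ↥P η) (hθU : ∀ y : ↥P, (y : G) ∉ U → θ y = 0) : ∑ᶠ χ ∈ Cfsg.principalBlock M G, ((Nat.card ↥P : ℂ)⁻¹ * ∑ᶠ y : ↥P, (χ : G → ℂ)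 (y : G) * θ y⁻¹) * (starRingEnd ℂ) ((Nat.card ↥P : ℂ)⁻¹ * ∑ᶠ y : ↥P, (χ : G → ℂ) (y : G) * η y⁻¹) = ((w : ℂ) / ((Nat.card ↥P : ℂ) ^ 2)) * ∑ᶠ y : ↥P, θ y * (starRingEnd ℂ) (∑ᶠ x : ↥N, Cfsg.extendByZero P η ((x : G) * (y : G) * (x : G)⁻¹)) := by
  classical
  haveI := IsPModular.isPrime hM
  haveI := Fintype.ofFinite G
  haveI : Fintype P := Fintype.ofFinite P
  haveI : Fintype N := Fintype.ofFinite N
  have hpel : ∀ y ∈ P, ∃ k, orderOf y = p ^ k := by
    intro y hy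
    obtain ⟨k, hk⟩ := (IsPGroup.iff_orderOf.1 hP) ⟨y, hy⟩
    rw [Subgroup.orderOf_mk] at hk
    exact ⟨k, hk⟩
  have hpp : ∀ y ∈ P, Cfsg.IsPPart p y y := fun y hy =>
    ⟨1, mul_one y, Commute.one_right y, hpel y hy, by rw [orderOf_one]; exact (Fact.out : p.Prime).one_lt.ne' ∘ Nat.dvd_one.1⟩
  have hcP : (Nat.card P : ℂ) ≠ 0 := by exact_mod_cast Nat.card_pos.ne'
  -- coefficients
  have ha : ∀ (χ : Cfsg.IrrCharacter G) (f : P → ℂ),
      ∑ᶠ y : ↥P, (χ : G → ℂ) (y : G) * f y⁻¹ = ∑ y : P, (χ : G → ℂ) ((y : G)⁻¹) * f y := by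
    intro χ f
    rw [finsum_eq_sum_of_fintype]
    refine Fintype.sum_equiv (Equiv.inv P) _ _ fun y => ?_
    simp
  have hb : ∀ (χ : Cfsg.IrrCharacter G) (f : P → ℂ), conj (∑ y : P, (χ : G → ℂ) ((y : G)⁻¹) * f y) =
      ∑ y : P, (χ : G → ℂ) (y : G) * conj (f y) := by
    intro χ f
    rw [map_sum]
    refine Finset.sum_congr rfl fun y _ => ?_
    rw [map_mul, CfsgH4.IsCharacter.inv_eq (CfsgH4.IsIrr.isCharacter χ.2), Complex.conj_conj]
  have hL : ∑ᶠ χ ∈ Cfsg.principalBlock M G, ((Nat.card ↥P : ℂ)⁻¹ * ∑ᶠ y : ↥P, (χ : G → ℂ) (y : G) * θ y⁻¹) * (starRingEnd ℂ) ((Nat.card ↥P : ℂ)⁻¹ * ∑ᶠ y : ↥P, (χ : G → ℂ) (y : G) * η y⁻¹) =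
      ((Nat.card P : ℂ) ^ 2)⁻¹ * ∑ y : P, θ y * ∑ z : P, conj (η z) *
        ∑ χ : Cfsg.IrrCharacter G, (if χ ∈ Cfsg.principalBlock M G then (χ : G → ℂ) z * (χ : G → ℂ) (y : G)⁻¹ else 0) := by
    rw [finsum_mem_ite]
    have h1 : ∀ χ : Cfsg.IrrCharacter G, (if χ ∈ Cfsg.principalBlock M G then ((Nat.card ↥P : ℂ)⁻¹ * ∑ᶠ y : ↥P, (χ : G → ℂ) (y : G) * θ y⁻¹) * (starRingEnd ℂ) ((Nat.card ↥P : ℂ)⁻¹ * ∑ᶠ y : ↥P, (χ : G → ℂ) (y : G) * η y⁻¹) else 0) =
        ((Nat.card P : ℂ) ^ 2)⁻¹ * ∑ y : P, ∑ z : P, (if χ ∈ Cfsg.principalBlock M G then θ y * (conj (η z) * ((χ : G → ℂ) z * (χ : G → ℂ) (y : G)⁻¹)) else 0) := by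
      intro χ
      split_ifs
      · rw [ha, ha, map_mul, hb, map_inv₀, Complex.conj_natCast]
        have : (∑ y : P, (χ : G → ℂ) ((y : G)⁻¹) * θ y) * ∑ y : P, (χ : G → ℂ) (y : G) * conj (η y) =
            ∑ y : P, ∑ z : P, θ y * (conj (η z) * ((χ : G → ℂ) z * (χ : G → ℂ) (y : G)⁻¹)) := by
          rw [Finset.sum_mul_sum]
          exact Finset.sum_congr rfl fun y _ => Finset.sum_congr rfl fun z _ => by ring
        rw [← this]
        field_simp
      · simp
    rw [Finset.sum_congr rfl fun χ _ => h1 χ, ← Finset.mul_sum, Finset.sum_comm]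
    congr 1
    refine Finset.sum_congr rfl fun y _ => ?_
    rw [Finset.sum_comm, Finset.mul_sum]
    refine Finset.sum_congr rfl fun z _ => ?_
    rw [Finset.mul_sum, Finset.mul_sum]
    refine Finset.sum_congr rfl fun χ _ => ?_
    split_ifs <;> simp
  rw [hL, finsum_eq_sum_of_fintype, Finset.mul_sum, Finset.mul_sum]
  refine Finset.sum_congr rfl fun y _ => ?_
  by_cases hy : (y : G) ∈ U
  swap
  · rw [hθU y hy]; simp
  have hyN : (y : G) ∈ N := hPN y.2
  -- the right side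
  have hR : ∑ᶠ x : ↥N, Cfsg.extendByZero P η ((x : G) * (y : G) * (x : G)⁻¹) =
      (Nat.card ↥(N ⊓ Subgroup.centralizer ({(y : G)} : Set G)) : ℂ) *
        ∑ z : P, (if IsConj (y : G) (z : G) then η z else 0) := by
    rw [finsum_eq_sum_of_fintype]
    have h1 := CfsgH5.sum_conj (G := N) (fun x : N => Cfsg.extendByZero P η (x : G)) ⟨y, hyN⟩
    refine Eq.trans (Eq.trans (Finset.sum_congr rfl fun x _ => ?_) h1) ?_
    · rfl
    rw [nsmul_eq_mul]
    congr 1
    · norm_cast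
      apply Nat.card_congr
      refine ⟨fun x => ⟨(x : G), x.1.2, Subgroup.mem_centralizer_singleton_iff.2 (congrArg Subtype.val (Subgroup.mem_centralizer_singleton_iff.1 x.2))⟩,
        fun x => ⟨⟨(x : G), x.2.1⟩, Subgroup.mem_centralizer_singleton_iff.2 (Subtype.ext (Subgroup.mem_centralizer_singleton_iff.1 x.2.2))⟩,
        fun x => rfl, fun x => rfl⟩
    · -- transfer the sum over N to the sum over P
      let F : G → ℂ := fun g => if hg : g ∈ P then (if IsConj (y : G) g then η ⟨g, hg⟩ else 0) else 0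
      have e1 : ∑ z : P, (if IsConj (y : G) (z : G) then η z else 0) = ∑ g : G, F g := by
        rw [sum_of_support F (H := P) fun x hx => dif_neg hx]
        refine Finset.sum_congr rfl fun z _ => ?_
        show _ = if hg : (z : G) ∈ P then (if IsConj (y : G) (z : G) then η ⟨z, hg⟩ else 0) else 0
        rw [dif_pos z.2]
      have e2 : ∑ g : G, F g = ∑ z : N, F z := sum_of_support F (H := N) fun x hx => dif_neg fun h => hx (hPN h)
      rw [e1, e2]
      refine Finset.sum_congr rfl fun z _ => ?_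
      show _ = if hg : (z : G) ∈ P then (if IsConj (y : G) (z : G) then η ⟨z, hg⟩ else 0) else 0
      by_cases hz : (z : G) ∈ P
      · rw [dif_pos hz]
        have h2 : IsConj (⟨(y : G), hyN⟩ : N) z ↔ IsConj (y : G) (z : G) := by
          constructor
          · intro h
            obtain ⟨c, rfl⟩ := isConj_iff.1 h
            exact isConj_iff.2 ⟨c, rfl⟩
          · intro h
            obtain ⟨c, hc⟩ := isConj_iff.1 h
            obtain ⟨n, hn, hn2⟩ := hfus y hy c (by rw [hc]; exact hz)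
            exact isConj_iff.2 ⟨⟨n, hn⟩, Subtype.ext (by rw [← hc]; exact hn2)⟩
        simp only [h2]
        rw [CfsgH4.extendByZero_of_mem P _ hz]
      · rw [dif_neg hz, CfsgH4.extendByZero_of_not_mem P _ hz]; simp
  rw [hR]
  -- the inner sum on the left side
  have hI : ∀ z : P, ∑ χ : Cfsg.IrrCharacter G, (if χ ∈ Cfsg.principalBlock M G then (χ : G → ℂ) z * (χ : G → ℂ) (y : G)⁻¹ else 0) =
      if IsConj (y : G) (z : G) then (w : ℂ) * (Nat.card ↥(N ⊓ Subgroup.centralizer ({(y : G)} : Set G)) : ℂ) else 0 := by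
    intro z
    by_cases hyz : IsConj (y : G) (z : G)
    · rw [if_pos hyz, principal_pair hM (hpel _ y.2) hyz]
      have h4 : (∑ᶠ ψ ∈ Cfsg.principalBlock M ↥(Subgroup.centralizer ({(y : G)} : Set G)), ((Cfsg.charDegree (ψ : ↥(Subgroup.centralizer ({(y : G)} : Set G)) → ℂ) : ℚ)) ^ 2) =
          ((∑ᶠ ψ ∈ Cfsg.principalBlock M ↥(Subgroup.centralizer ({(y : G)} : Set G)), Cfsg.charDegree (ψ : ↥(Subgroup.centralizer ({(y : G)} : Set G)) → ℂ) ^ 2 : ℕ) : ℚ) := by
        rw [finsum_mem_ite, finsum_mem_ite]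
        push_cast
        rfl
      have h5 := h4.symm.trans (hw y hy)
      have h3 := congrArg (fun q : ℚ => (q : ℂ)) h5
      simp only [Rat.cast_natCast, Rat.cast_mul] at h3
      exact h3
    · rw [if_neg hyz]
      exact block_orth hM (hpp z z.2) (hpp y y.2) (fun h => hyz h.symm) isPBlock_principalBlock
  simp only [hI]
  rw [map_mul, map_sum, Complex.conj_natCast, Finset.mul_sum]
  simp only [Finset.mul_sum]
  refine Finset.sum_congr rfl fun z _ => ?_
  split_ifs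
  · field_simp
  · simp

end Cfsg.Agent.S4720
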