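import Cfsg.Statements.S4721
import Cfsg.Agent.H5.FrobK

set_option autoImplicit false
open Cfsg

namespace Cfsg.Agent.S4721

open CfsgH5

/-- Let p be a prime, M a maximal ideal of the algebraic integers containing p, and G a finite group with a nontrivial abelian Sylow p-subgroup P, N = N_G(P), C = C_G(P), such that N/C is cyclic of order 3, #P > 4, and C_G(y) ∩ N = C for every non-identity y ∈ P. Then the principal p-block is the disjoint union of a set X of exactly 3 characters containing the principal character and a set Y of (#P − 1)/3 characters, with signs a_χ = ±1 (χ ∈ X, a = 1 at the principal character) and δ = ±1 such that every χ ∈ X takes the value a_χ at every element whose p-part is a non-identity element of P, and there is a map ζ from the non-principal linear characters of P onto Y, constant on N-conjugacy classes, with ζ_ψ(z) = δ·Σ ψ'(y) over the N-orbit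 of ψ, for z with p-part y ≠ 1 in P. If moreover G has an involution lying in no proper normal subgroup of G, then exactly two of the three numbers −δ and a_χ (χ ∈ X non-principal) equal −1, and the product of the degrees of the two non-principal members of X and of any member of Y is a perfect square. -/
theorem result {G : Type*} [Group G] [Finite G] (p : ℕ) [Fact p.Prime] (M : Ideal Cfsg.AlgInt) (hM : Cfsg.IsPModular p M) (P : Sylow p G) (hab : IsMulCommutative P) (hP1 : Nat.card P ≠ 1) (hCN : (Subgroup.centralizer ((P : Subgroup G) : Set G)).relIndex (Subgroup.normalizer ((P : Subgroup G) : Set G)) = 3) (hcyc : ∃ g : G, g ∈ Subgroup.normalizer ((P : Subgroup G) : Set G) ∧ Subgroup.centralizer ((P : Subgroup G) : Set G) ⊔ Subgroup.zpowers g = Subgroup.normalizer ((P : Subgroup G) : Set G)) (hm2 : 3 + 1 < Nat.card P) (hfrob : ∀ y : G, y ∈ (P : Subgroup G) → y ≠ 1 → Subgroup.centralizer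 ({y} : Set G) ⊓ Subgroup.normalizer ((P : Subgroup G) : Set G) = Subgroup.centralizer ((P : Subgroup G) : Set G)) : ∃ (X Y : Set (Cfsg.IrrCharacter G)), Cfsg.principalBlock M G = X ∪ Y ∧ Disjoint X Y ∧ Nat.card X = 3 ∧ Nat.card Y = (Nat.card P - 1) / 3 ∧ (∃ χ₁ ∈ X, (χ₁ : G → ℂ) = fun _ => 1) ∧ ∃ (a : Cfsg.IrrCharacter G → ℤ) (δ : ℤ) (ζ : (↥(P : Subgroup G) →* ℂˣ) → Cfsg.IrrCharacter G), (δ = 1 ∨ δ = -1) ∧ (∀ χ ∈ X, (a χ = 1 ∨ a χ = -1) ∧ ∀ z y : G, Cfsg.IsPPart p z y → y ∈ (P : Subgroup G) → y ≠ 1 → (χ : G → ℂ) z = (a χ : ℂ)) ∧ (∀ ψ : ↥(P : Subgroup G) →* ℂˣ, ψ ≠ 1 → ζ ψ ∈ Y) ∧ (∀ η ∈ Y, ∃ ψ : ↥(P : Subgroup G) →* ℂˣ, ψ ≠ 1 ∧ ζ ψ = η) ∧ (∀ ψ ψ' : ↥(P : Subgroup G) →* ℂˣ, ψ ≠ 1 → (∃ n : G, n ∈ Subgroup.normalizer ((P : Subgroup G) : Set G) ∧ ∀ w w' : ↥(P : Subgroup G), (w' : G) = n * w * n⁻¹ → ψ' w' = ψ w) → ζ ψ' = ζ ψ) ∧ (∀ ψ : ↥(P : Subgroup G) →* ℂˣ, ψ ≠ 1 → ∀ (z : G) (y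 : ↥(P : Subgroup G)), Cfsg.IsPPart p z (y : G) → (y : G) ≠ 1 → (ζ ψ : G → ℂ) z = (δ : ℂ) * ∑ᶠ ψ' ∈ {ψ' : ↥(P : Subgroup G) →* ℂˣ | ∃ n : G, n ∈ Subgroup.normalizer ((P : Subgroup G) : Set G) ∧ ∀ w w' : ↥(P : Subgroup G), (w' : G) = n * w * n⁻¹ → ψ' w' = ψ w}, ((ψ' y : ℂˣ) : ℂ)) ∧ ((∃ t : G, orderOf t = 2 ∧ ∀ K : Subgroup G, K.Normal → t ∈ K → K = ⊤) → Nat.card {χ : Cfsg.IrrCharacter G // χ ∈ X ∧ (χ : G → ℂ) ≠ (fun _ => 1) ∧ a χ = -1} + (if δ = 1 then 1 else 0) = 2 ∧ ∀ η ∈ Y, IsSquare (Cfsg.charDegree (η : G → ℂ) * ∏ᶠ χ ∈ {χ : Cfsg.IrrCharacter G | χ ∈ X ∧ (χ : G → ℂ) ≠ fun _ => 1}, Cfsg.charDegree (χ : G → ℂ))) := by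
  classical
  haveI := Fintype.ofFinite G
  haveI := CfsgH5.IsPModular.isPrime hM
  have h : FH P 3 := ⟨fun a ha b hb => congrArg Subtype.val (hab.is_comm.comm (⟨a, ha⟩ : (P : Subgroup G)) ⟨b, hb⟩), hCN, hfrob⟩
  obtain ⟨w, δ, ζ, a, b, S⟩ := h.exists_SX hM hm2
  have D := S.D
  haveI : Finite ((P : Subgroup G) →* ℂˣ) := finite_hom _
  haveI := Fintype.ofFinite ((P : Subgroup G) →* ℂˣ)
  have hcY : Nat.card (YY ζ) = (Nat.card P - 1) / 3 := by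
    have h1 := D.card_Y h
    rw [Nat.eq_div_iff_mul_eq_left (by omega) ⟨Nat.card (YY ζ), by rw [mul_comm]; exact h1.symm⟩]
    exact h1.symm
  refine ⟨XX M ζ, YY ζ, XX_union D, XX_disj, S.card_X, hcY,
    ⟨irrOne G, ⟨irrOne_mem, (D.irrOne_notMem h hm2).1⟩, rfl⟩, w, δ, ζ, D.sgn, ?_, ?_, ?_, ?_, ?_, ?_⟩
  · intro χ hχ
    refine ⟨S.w_pm hχ, fun z y hz hy hy1 => D.val_X' hM h hχ hz hy hy1⟩
  · intro ψ hψ; exact ⟨ψ, hψ, rfl⟩
  · rintro η ⟨ψ, hψ, rfl⟩; exact ⟨ψ, hψ, rfl⟩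
  · intro ψ ψ' hψ h1
    exact D.zeta_eq hψ ((rel_iff ψ ψ').1 h1)
  · intro ψ hψ z y hz hy1
    rw [finsum_orb, h.val hM (D.mem ψ) hz y.2 hy1, D.val_Y h hψ (fun h' => hy1 (by rw [h']; rfl))]
    push_cast
    ring
  · rintro ⟨t, ht, htop⟩
    obtain ⟨ψ, -, hψ, -⟩ := h.exists_nonrel hm2
    refine ⟨?_, fun η hη => ?_⟩
    · rw [S.card_neg]
      exact (S.all h hM hm2 ht htop (η := ζ ψ) ⟨ψ, hψ, rfl⟩).1
    · rw [S.prod]
      exact (S.all h hM hm2 ht htop hη).2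

end Cfsg.Agent.S4721
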