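import Cfsg.Statements.S4722
import Cfsg.Agent.H5.Inv2

set_option autoImplicit false
open Cfsg

namespace Cfsg.Agent.S4722

open CfsgH5
open scoped ComplexConjugate

theorem quad {ι : Type*} (S : Finset ι) (a d w : ι → ℝ) (hd : ∀ i ∈ S, 0 < d i)
    (E1 : ∑ i ∈ S, a i * w i ^ 2 / d i = 0) (E2 : ∑ i ∈ S, a i * d i = 0) (E3 : ∑ i ∈ S, a i * w i = 0) (α β : ℝ) :
    ∑ i ∈ S, a i * ((α * d i + β * w i) ^ 2 / d i) = 0 := by
  have : ∀ i ∈ S, a i * ((α * d i + β * w i) ^ 2 / d i) = α ^ 2 * (a i * d i) + 2 * α * β * (a i * w i) + β ^ 2 * (a i * w i ^ 2 / d i) := by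
    intro i hi
    have := (hd i hi).ne'
    field_simp
    ring
  rw [Finset.sum_congr rfl this, Finset.sum_add_distrib, Finset.sum_add_distrib, ← Finset.mul_sum, ← Finset.mul_sum,
    ← Finset.mul_sum, E1, E2, E3]
  ring

theorem signs {ι : Type*} (S : Finset ι) (a d w : ι → ℝ) (hd : ∀ i ∈ S, 0 < d i) (i0 : ι) (hi0 : i0 ∈ S)
    (hd0 : d i0 = 1) (hw0 : w i0 = 1) (hne : ∀ i ∈ S, i ≠ i0 → w i ≠ d i)
    (E1 : ∑ i ∈ S, a i * w i ^ 2 / d i = 0) (E2 : ∑ i ∈ S, a i * d i = 0) (E3 : ∑ i ∈ S, a i * w i = 0)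
    (h0 : 0 < a i0) : (∃ i ∈ S, i ≠ i0 ∧ 0 < a i) ∧ ∃ i ∈ S, ∃ j ∈ S, i ≠ j ∧ a i < 0 ∧ a j < 0 := by
  have hQ := quad S a d w hd E1 E2 E3
  obtain ⟨i1, hi1, hi1n⟩ : ∃ i ∈ S, a i < 0 := by
    by_contra hcon
    push Not at hcon
    have h1 : 0 < ∑ i ∈ S, a i * d i :=
      Finset.sum_pos' (fun i hi => mul_nonneg (hcon i hi) (hd i hi).le) ⟨i0, hi0, mul_pos h0 (hd i0 hi0)⟩
    rw [E2] at h1
    exact lt_irrefl _ h1
  have h10 : i1 ≠ i0 := by rintro rfl; linarith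
  have hw1 := hne i1 hi1 h10
  refine ⟨?_, ?_⟩
  · by_contra hcon
    push Not at hcon
    have h1 : ∑ i ∈ S, a i * ((1 * d i + (-1) * w i) ^ 2 / d i) < 0 := by
      apply Finset.sum_neg' 
      · intro i hi
        by_cases h : i = i0
        · subst h
          rw [hd0, hw0]; norm_num
        · exact mul_nonpos_of_nonpos_of_nonneg (hcon i hi h) (div_nonneg (sq_nonneg _) (hd i hi).le)
      · refine ⟨i1, hi1, mul_neg_of_neg_of_pos hi1n (div_pos ?_ (hd i1 hi1))⟩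
        apply sq_pos_of_ne_zero
        intro h
        apply hw1
        linarith
    rw [hQ] at h1
    exact lt_irrefl _ h1
  · by_contra hcon
    push Not at hcon
    have h1 : 0 < ∑ i ∈ S, a i * (((-w i1) * d i + (d i1) * w i) ^ 2 / d i) := by
      apply Finset.sum_pos'
      · intro i hi
        by_cases h : i = i1
        · subst h
          have : (-w i * d i + d i * w i) = 0 := by ring
          rw [this]; simp
        · exact mul_nonneg (hcon i1 hi1 i hi (Ne.symm h) hi1n) (div_nonneg (sq_nonneg _) (hd i hi).le)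
      · refine ⟨i0, hi0, mul_pos h0 (div_pos ?_ (hd i0 hi0))⟩
        apply sq_pos_of_ne_zero
        rw [hd0, hw0]
        intro h
        apply hw1
        linarith
    rw [hQ] at h1
    exact lt_irrefl _ h1

theorem two_le_card {ι : Type*} [Finite ι] {q : ι → Prop} {i j : ι} (hij : i ≠ j) (hi : q i) (hj : q j) :
    2 ≤ Nat.card {x // q x} := by
  haveI : Nontrivial {x // q x} := ⟨⟨i, hi⟩, ⟨j, hj⟩, fun h => hij (congrArg Subtype.val h)⟩
  exact Finite.one_lt_card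


/-- Let M be a maximal ideal of the algebraic integers containing 2, P a 2-subgroup of the finite group G, U a subset of P, and t an involution of G such that no element of U is inverted by any conjugate of t. Let θ be a generalized character of P vanishing outside U, and for χ in the principal 2-block B₀ put a_χ = #P⁻¹ Σ_{y ∈ P} χ(y) θ(y⁻¹). Then Σ_{χ ∈ B₀} a_χ χ(t)^2/χ(1) = 0, Σ_{χ ∈ B₀} a_χ χ(1) = 0 and Σ_{χ ∈ B₀} a_χ χ(t) = 0. If moreover #P⁻¹ Σ_{y ∈ P} θ(y) ≠ 0, then either at least two of the a_χ have positive real part and at least two have negative real part, or G has a proper normal subgroup containing O_2'(G) and t. -/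
theorem result {G : Type*} [Group G] [Finite G] (M : Ideal Cfsg.AlgInt) (hM : Cfsg.IsPModular 2 M) (P : Subgroup G) (hP : IsPGroup 2 P) (U : Set G) (hUP : U ⊆ (P : Set G)) (t : G) (ht : orderOf t = 2) (hinv : ∀ u ∈ U, ∀ g : G, (g * t * g⁻¹) * u * (g * t * g⁻¹)⁻¹ ≠ u⁻¹) (θ : ↥P → ℂ) (hθ : Cfsg.IsGeneralizedCharacter ↥P θ) (hθU : ∀ y : ↥P, (y : G) ∉ U → θ y = 0) : (∑ᶠ χ ∈ Cfsg.principalBlock M G, ((Nat.card ↥P : ℂ)⁻¹ * ∑ᶠ y : ↥P, (χ : G → ℂ) (y : G) * θ y⁻¹) * (χ : G → ℂ) t ^ 2 / (χ : G → ℂ) 1 = 0) ∧ (∑ᶠ χ ∈ Cfsg.principalBlock M G, ((Nat.card ↥P : ℂ)⁻¹ * ∑ᶠ y : ↥P, (χ : G → ℂ) (y : G) * θ y⁻¹) * (χ : G → ℂ) 1 = 0) ∧ (∑ᶠ χ ∈ Cfsg.principalBlock M G, ((Nat.card ↥P : ℂ)⁻¹ * ∑ᶠ y : ↥P, (χ : G → ℂ) (y : G) * θ y⁻¹) * (χ : G → ℂ) t = 0) ∧ ((Nat.card ↥P : ℂ)⁻¹ * ∑ᶠ y : ↥P, θ y ≠ 0 → (2 ≤ Nat.card {χ : Cfsg.IrrCharacter G // χ ∈ Cfsg.principalBlock M G ∧ 0 < (((Nat.card ↥P : ℂ)⁻¹ * ∑ᶠ y : ↥P, (χ : G → ℂ) (y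 : G) * θ y⁻¹)).re} ∧ 2 ≤ Nat.card {χ : Cfsg.IrrCharacter G // χ ∈ Cfsg.principalBlock M G ∧ (((Nat.card ↥P : ℂ)⁻¹ * ∑ᶠ y : ↥P, (χ : G → ℂ) (y : G) * θ y⁻¹)).re < 0}) ∨ ∃ K : Subgroup G, K.Normal ∧ K ≠ ⊤ ∧ Cfsg.pPrimeCore 2 G ≤ K ∧ t ∈ K) := by
  classical
  haveI := IsPModular.isPrime hM
  haveI := Fintype.ofFinite G
  haveI : Fintype P := Fintype.ofFinite P
  have ht2 : t * t = 1 := by rw [← pow_two, ← ht, pow_orderOf_eq_one]
  have hpel : ∀ y ∈ P, ∃ k, orderOf y = 2 ^ k := by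
    intro y hy
    obtain ⟨k, hk⟩ := (IsPGroup.iff_orderOf.1 hP) ⟨y, hy⟩
    rw [Subgroup.orderOf_mk] at hk
    exact ⟨k, hk⟩
  have hpp : ∀ y ∈ P, Cfsg.IsPPart 2 y y := fun y hy =>
    ⟨1, mul_one y, Commute.one_right y, hpel y hy, by rw [orderOf_one]; norm_num⟩
  have hcP : (Nat.card P : ℂ) ≠ 0 := by exact_mod_cast Nat.card_pos.ne'
  obtain ⟨n, hn⟩ : ∃ n : Cfsg.IrrCharacter G → ℤ, ∀ χ : Cfsg.IrrCharacter G,
      ((Nat.card ↥P : ℂ)⁻¹ * ∑ᶠ y : ↥P, (χ : G → ℂ) (y : G) * θ y⁻¹) = n χ := by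
    have : ∀ χ : Cfsg.IrrCharacter G, ∃ m : ℤ, ((Nat.card ↥P : ℂ)⁻¹ * ∑ᶠ y : ↥P, (χ : G → ℂ) (y : G) * θ y⁻¹) = m := by
      intro χ
      obtain ⟨m, hm⟩ := CfsgH4.IsGen.inner_int (CfsgH4.IsCharacter.isGen (CfsgH4.isCharacter_restrict P (CfsgH4.IsIrr.isCharacter χ.2))) hθ
      refine ⟨m, ?_⟩
      rw [← hm, CfsgH4.classInner_def, finsum_eq_sum_of_fintype]
      congr 1
      refine Finset.sum_congr rfl fun y _ => ?_
      rw [CfsgH4.IsGen.inv_eq hθ]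
    choose n hn using this
    exact ⟨n, hn⟩
  have hU1 : ∀ u ∈ U, u ≠ 1 := by
    rintro u hu rfl
    exact hinv 1 hu 1 (by group)
  have hpartU : ∀ u ∈ U, Cfsg.IsPPart 2 u⁻¹ u⁻¹ := fun u hu => hpp _ (P.inv_mem (hUP hu))
  -- transfer lemma
  have key : ∀ F : Cfsg.IrrCharacter G → ℂ, (∀ u ∈ U, ∑ χ : Cfsg.IrrCharacter G, (if χ ∈ Cfsg.principalBlock M G then F χ * (χ : G → ℂ) u⁻¹ else 0) = 0) →
      ∑ χ : Cfsg.IrrCharacter G, (if χ ∈ Cfsg.principalBlock M G then (n χ : ℂ) * F χ else 0) = 0 := by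
    intro F hF
    have h1 : ∀ χ : Cfsg.IrrCharacter G, (if χ ∈ Cfsg.principalBlock M G then (n χ : ℂ) * F χ else 0) =
        (Nat.card P : ℂ)⁻¹ * ∑ y : P, θ y * (if χ ∈ Cfsg.principalBlock M G then F χ * (χ : G → ℂ) ((y : G)⁻¹) else 0) := by
      intro χ
      split_ifs
      · rw [← hn χ, finsum_eq_sum_of_fintype]
        have : ∑ y : P, (χ : G → ℂ) (y : G) * θ y⁻¹ = ∑ y : P, (χ : G → ℂ) ((y : G)⁻¹) * θ y := by
          refine Fintype.sum_equiv (Equiv.inv P) _ _ fun y => ?_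
          simp
        rw [this, mul_assoc, Finset.sum_mul]
        congr 1
        exact Finset.sum_congr rfl fun y _ => by ring
      · simp
    rw [Finset.sum_congr rfl fun χ _ => h1 χ, ← Finset.mul_sum, Finset.sum_comm]
    have h2 : ∑ y : P, ∑ χ : Cfsg.IrrCharacter G, θ y * (if χ ∈ Cfsg.principalBlock M G then F χ * (χ : G → ℂ) ((y : G)⁻¹) else 0) = 0 := by
      refine Finset.sum_eq_zero fun y _ => ?_
      rw [← Finset.mul_sum]
      by_cases hy : (y : G) ∈ U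
      · rw [hF _ hy, mul_zero]
      · rw [hθU y hy, zero_mul]
    rw [h2, mul_zero]
  have K1 : ∑ χ : Cfsg.IrrCharacter G, (if χ ∈ Cfsg.principalBlock M G then (n χ : ℂ) * ((χ : G → ℂ) t * (χ : G → ℂ) t / (χ : G → ℂ) 1) else 0) = 0 := by
    apply key
    intro u hu
    refine invol_section hM ht2 ht2 (hpartU u hu) (fun c hc => ?_) isPBlock_principalBlock
    apply hinv u hu c
    have h1 := congrArg (fun z => z⁻¹) hc
    simp only [inv_inv] at h1
    calc (c * t * c⁻¹) * u * (c * t * c⁻¹)⁻¹ = (c * t * c⁻¹ * u⁻¹ * (c * t * c⁻¹)⁻¹)⁻¹ := by group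
      _ = u⁻¹ := h1
  have K2 : ∑ χ : Cfsg.IrrCharacter G, (if χ ∈ Cfsg.principalBlock M G then (n χ : ℂ) * (χ : G → ℂ) 1 else 0) = 0 := by
    apply key
    intro u hu
    refine block_orth hM (x := 1) (y := u) (h := u) ⟨1, one_mul 1, Commute.one_right 1, ⟨0, by rw [orderOf_one, pow_zero]⟩, by rw [orderOf_one]; norm_num⟩ (hpp _ (hUP hu)) (fun h => hU1 u hu (isConj_one_right.1 h)) isPBlock_principalBlock
  have K3 : ∑ χ : Cfsg.IrrCharacter G, (if χ ∈ Cfsg.principalBlock M G then (n χ : ℂ) * (χ : G → ℂ) t else 0) = 0 := by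
    apply key
    intro u hu
    refine block_orth hM (x := t) (y := u) (h := u) ⟨1, mul_one t, Commute.one_right t, ⟨1, by rw [ht, pow_one]⟩, by rw [orderOf_one]; norm_num⟩ (hpp _ (hUP hu)) (fun h => ?_) isPBlock_principalBlock
    obtain ⟨c, hc⟩ := isConj_iff.1 h
    apply hinv u hu c
    rw [hc, mul_inv_cancel_right, eq_comm, inv_eq_iff_mul_eq_one, ← hc]
    calc c * t * c⁻¹ * (c * t * c⁻¹) = c * (t * t) * c⁻¹ := by group
      _ = 1 := by rw [ht2]; group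
  simp only [hn]
  refine ⟨?_, ?_, ?_, ?_⟩
  · rw [finsum_mem_ite]
    refine (Finset.sum_congr rfl fun χ _ => ?_).trans K1
    split_ifs
    · ring
    · rfl
  · rw [finsum_mem_ite]
    exact K2
  · rw [finsum_mem_ite]
    exact K3
  · intro hne0
    by_cases hK : ∃ K : Subgroup G, K.Normal ∧ K ≠ ⊤ ∧ Cfsg.pPrimeCore 2 G ≤ K ∧ t ∈ K
    · right; exact hK
    left
    have hval : ∀ χ : Cfsg.IrrCharacter G, ∃ m : ℤ, (χ : G → ℂ) t = m := by
      intro χ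
      obtain ⟨m, _, hm, -⟩ := invol_val (CfsgH4.IsIrr.isCharacter χ.2) (u := t) (by rw [pow_two]; exact ht2)
      exact ⟨m, hm⟩
    choose v hv using hval
    let S : Finset (Cfsg.IrrCharacter G) := Finset.univ.filter fun χ => χ ∈ Cfsg.principalBlock M G
    let d : Cfsg.IrrCharacter G → ℝ := fun χ => (Cfsg.charDegree (χ : G → ℂ) : ℝ)
    let w : Cfsg.IrrCharacter G → ℝ := fun χ => (v χ : ℝ)
    have hd : ∀ i ∈ S, 0 < d i := fun i _ => by
      show (0 : ℝ) < (Cfsg.charDegree (i : G → ℂ) : ℝ)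
      exact_mod_cast (IsIrr.one_eq i.2).2
    have hmem : ∀ χ, χ ∈ S ↔ χ ∈ Cfsg.principalBlock M G := fun χ => by simp [S]
    have i0S : irrOne G ∈ S := (hmem _).2 irrOne_mem
    have hd0 : d (irrOne G) = 1 := by
      show (Cfsg.charDegree (fun _ : G => (1 : ℂ)) : ℝ) = 1
      rw [charDegree_one]; norm_num
    have hw0 : w (irrOne G) = 1 := by
      have : ((v (irrOne G) : ℤ) : ℂ) = 1 := (hv (irrOne G)).symm
      have h2 : v (irrOne G) = 1 := by exact_mod_cast this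
      show (v (irrOne G) : ℝ) = 1
      rw [h2]; norm_num
    have hne : ∀ i ∈ S, i ≠ irrOne G → w i ≠ d i := by
      intro i hi hi1 hwd
      apply hK
      have h1 : (i : G → ℂ) t = (i : G → ℂ) 1 := by
        rw [hv i, (IsIrr.one_eq i.2).1]
        have : (v i : ℝ) = (Cfsg.charDegree (i : G → ℂ) : ℝ) := hwd
        exact_mod_cast this
      refine ⟨CfsgH4.charKerSub (CfsgH4.IsIrr.isCharacter i.2), CfsgH4.charKerSub_normal _, ?_, ?_, h1⟩
      · intro htop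
        apply hi1
        apply Subtype.ext
        have h2 : ∀ g : G, (i : G → ℂ) g = (i : G → ℂ) 1 := fun g => by
          have : g ∈ CfsgH4.charKerSub (CfsgH4.IsIrr.isCharacter i.2) := by rw [htop]; trivial
          exact this
        -- constant irreducible character is principal
        have h3 := CfsgH4.classInner_irr_self i.2
        by_contra hcon
        have h4 := CfsgH4.classInner_irr_ne i.2 (irrOne G).2 hcon
        rw [CfsgH4.classInner_def] at h4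
        have h5 : ∑ g : G, (i : G → ℂ) g * conj (((irrOne G : Cfsg.IrrCharacter G) : G → ℂ) g) = (Nat.card G : ℂ) * (i : G → ℂ) 1 := by
          rw [Finset.sum_congr rfl fun g _ => by rw [h2 g, show ((irrOne G : Cfsg.IrrCharacter G) : G → ℂ) g = 1 from rfl, map_one, mul_one],
            Finset.sum_const, Finset.card_univ, nsmul_eq_mul, Nat.card_eq_fintype_card]
        rw [h5, ← mul_assoc, inv_mul_cancel₀ (CfsgH4.card_ne_zero G), one_mul] at h4
        exact CfsgH4.IsIrr.one_ne_zero i.2 h4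
      · intro x hx
        exact principal_ker hM ((hmem i).1 hi) hx
    have E : ∀ (F : Cfsg.IrrCharacter G → ℝ) (F' : Cfsg.IrrCharacter G → ℂ), (∀ χ, ((F χ : ℝ) : ℂ) = F' χ) →
        ∑ χ : Cfsg.IrrCharacter G, (if χ ∈ Cfsg.principalBlock M G then F' χ else 0) = 0 → ∑ i ∈ S, F i = 0 := by
      intro F F' hF h
      have h1 : ((∑ i ∈ S, F i : ℝ) : ℂ) = 0 := by
        rw [← h, Finset.sum_filter]
        push_cast
        refine Finset.sum_congr rfl fun χ _ => ?_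
        split_ifs
        · exact hF χ
        · simp
      exact_mod_cast h1
    have E1 : ∑ i ∈ S, (n i : ℝ) * w i ^ 2 / d i = 0 := by
      refine E _ _ (fun χ => ?_) K1
      show ((((n χ : ℝ) * (v χ : ℝ) ^ 2 / (Cfsg.charDegree (χ : G → ℂ) : ℝ) : ℝ)) : ℂ) = _
      rw [hv χ, (IsIrr.one_eq χ.2).1]; push_cast; ring
    have E2 : ∑ i ∈ S, (n i : ℝ) * d i = 0 := by
      refine E _ _ (fun χ => ?_) K2
      show ((((n χ : ℝ) * (Cfsg.charDegree (χ : G → ℂ) : ℝ) : ℝ)) : ℂ) = _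
      rw [(IsIrr.one_eq χ.2).1]; push_cast; ring
    have E3 : ∑ i ∈ S, (n i : ℝ) * w i = 0 := by
      refine E _ _ (fun χ => ?_) K3
      show ((((n χ : ℝ) * (v χ : ℝ) : ℝ)) : ℂ) = _
      rw [hv χ]; push_cast; ring
    have ha0 : (n (irrOne G) : ℝ) ≠ 0 := by
      intro h
      apply hne0
      have h1 : n (irrOne G) = 0 := by exact_mod_cast h
      have h2 := hn (irrOne G)
      rw [h1, Int.cast_zero] at h2
      rw [← h2, finsum_eq_sum_of_fintype, finsum_eq_sum_of_fintype]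
      congr 1
      refine Fintype.sum_equiv (Equiv.inv P) _ _ fun y => ?_
      show θ y = 1 * θ (y⁻¹)⁻¹
      rw [inv_inv, one_mul]
    simp only [Complex.intCast_re]
    rcases lt_or_gt_of_ne ha0 with hneg | hpos
    · obtain ⟨⟨i, hi, hi0, hia⟩, j, hj, k, hk, hjk, hja, hka⟩ := signs S (fun i => -(n i : ℝ)) d w hd (irrOne G) i0S hd0 hw0 hne
        (by simp only [neg_mul, neg_div, Finset.sum_neg_distrib, E1, neg_zero]) (by simp only [neg_mul, Finset.sum_neg_distrib, E2, neg_zero])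
        (by simp only [neg_mul, Finset.sum_neg_distrib, E3, neg_zero]) (by simpa using hneg)
      refine ⟨two_le_card hjk ⟨(hmem j).1 hj, by simpa using hja⟩ ⟨(hmem k).1 hk, by simpa using hka⟩,
        two_le_card hi0 ⟨(hmem i).1 hi, by simpa using hia⟩ ⟨irrOne_mem, hneg⟩⟩
    · obtain ⟨⟨i, hi, hi0, hia⟩, j, hj, k, hk, hjk, hja, hka⟩ := signs S (fun i => (n i : ℝ)) d w hd (irrOne G) i0S hd0 hw0 hne E1 E2 E3 hpos
      exact ⟨two_le_card hi0 ⟨(hmem i).1 hi, hia⟩ ⟨irrOne_mem, hpos⟩,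
        two_le_card hjk ⟨(hmem j).1 hj, hja⟩ ⟨(hmem k).1 hk, hka⟩⟩

end Cfsg.Agent.S4722
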