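import Cfsg.Statements.S4726
import Cfsg.Agent.H5.IndPair

set_option autoImplicit false
open Cfsg

namespace Cfsg.Agent.S4726

open CfsgH5

/-- Let p be a prime, M a maximal ideal of the algebraic integers containing p, H a subgroup of the finite group G and b a p-block of H with defect group D₀ such that C_G(D₀) ≤ H. Then b induces a block of G, and for every block B of G induced by b there is a defect group D of B with Z(D) ≤ Z(D₀) ≤ D₀ ≤ D (as subgroups of G). In particular, if the defect groups of B are abelian then D₀ is a defect group of B. -/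
theorem result {G : Type*} [Group G] [Finite G] (p : ℕ) [Fact p.Prime] (M : Ideal Cfsg.AlgInt) (hM : Cfsg.IsPModular p M) (H : Subgroup G) (b : Set (Cfsg.IrrCharacter ↥H)) (hb : Cfsg.IsPBlock M b) (D₀ : Subgroup ↥H) (hD₀ : Cfsg.IsDefectGroup p M b D₀) (hC : Subgroup.centralizer ((D₀.map H.subtype : Subgroup G) : Set G) ≤ H) : Cfsg.InducedBlockDefined M H b ∧ ∀ B : Set (Cfsg.IrrCharacter G), Cfsg.IsInducedBlock M H b B → (∃ D : Subgroup G, Cfsg.IsDefectGroup p M B D ∧ (Subgroup.center ↥D).map D.subtype ≤ ((Subgroup.center ↥D₀).map D₀.subtype).map H.subtype ∧ ((Subgroup.center ↥D₀).map D₀.subtype).map H.subtype ≤ D₀.map H.subtype ∧ D₀.map H.subtype ≤ D) ∧ (∀ D : Subgroup G, Cfsg.IsDefectGroup p M B D → IsMulCommutative ↥D → Cfsg.IsDefectGroup p M B (D₀.map H.subtype)) := by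
  haveI := IsPModular.isPrime hM
  have hDG : CfsgH4.DG p H (CfsgH4.idH M H b) (D₀.map H.subtype) := (CfsgH4.isDefectGroup_iff_DG'' hM hb).1 hD₀
  obtain ⟨B, hB, D, hD, h1, h2⟩ := CfsgH5.s4726_aux hM hb hDG hC
  refine ⟨⟨B, hB⟩, fun B' hB' => ?_⟩
  obtain rfl := CfsgH5.induced_unique hB hB'
  have hcen : ∀ x : D, x ∈ Subgroup.center D → (x : G) ∈ D ⊓ CfsgH4.cz D := by
    intro x hx
    refine ⟨x.2, ?_⟩
    show (x : G) ∈ Subgroup.centralizer (D : Set G)
    rw [Subgroup.mem_centralizer_iff]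
    intro y hy
    exact congrArg Subtype.val (Subgroup.mem_center_iff.1 hx ⟨y, hy⟩)
  refine ⟨⟨D, hD, ?_, ?_, h2⟩, fun D' hD' hab => ?_⟩
  · rintro _ ⟨x, hx, rfl⟩
    have h3 : (x : G) ∈ D₀.map H.subtype := h1 (hcen x hx)
    obtain ⟨y, hy, hyx⟩ := h3
    refine ⟨y, ⟨⟨y, hy⟩, ?_, rfl⟩, hyx⟩
    rw [SetLike.mem_coe, Subgroup.mem_center_iff]
    intro w
    apply Subtype.ext
    apply Subtype.ext
    have h4 : ((w : H) : G) ∈ D := h2 ⟨(w : H), w.2, rfl⟩
    have h5 := congrArg Subtype.val (Subgroup.mem_center_iff.1 hx ⟨_, h4⟩)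
    have h6 : ((w : H) : G) * (x : G) = (x : G) * ((w : H) : G) := h5
    have h7 : ((y : H) : G) = (x : G) := hyx
    show ((w : H) : G) * ((y : H) : G) = ((y : H) : G) * ((w : H) : G)
    rw [h7, h6]
  · exact Subgroup.map_mono (Subgroup.map_subtype_le _)
  · -- abelian case
    obtain ⟨x, hx⟩ := CfsgH5.defect_conj hM hB.2.1 hD hD'
    have hDab : D ≤ CfsgH4.cz D := by
      intro a ha
      rw [Subgroup.mem_centralizer_iff]
      intro c hc
      rw [← hx] at ha hc
      obtain ⟨a', ha', rfl⟩ := ha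
      obtain ⟨c', hc', rfl⟩ := hc
      rw [← map_mul, ← map_mul]
      congr 1
      have := hab.is_comm.comm ⟨c', hc'⟩ ⟨a', ha'⟩
      exact congrArg Subtype.val this
    have h3 : D = D₀.map H.subtype := by
      apply le_antisymm _ h2
      rwa [inf_eq_left.2 hDab] at h1
    rw [← h3]; exact hD

end Cfsg.Agent.S4726
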