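import Cfsg.Statements.S4729
import Cfsg.Agent.H5.Misc3

set_option autoImplicit false
open Cfsg

namespace Cfsg.Agent.S4729

open CfsgH5

/-- Let p be a prime, M a maximal ideal of the algebraic integers containing p, G a finite perfect group and P a Sylow p-subgroup. If the principal p-block of G contains a faithful irreducible character of degree less than 2p, then the centralizer of P is a p-group. -/
theorem result {G : Type*} [Group G] [Finite G] (p : ℕ) [Fact p.Prime] (M : Ideal Cfsg.AlgInt) (hM : Cfsg.IsPModular p M) (hperf : commutator G = ⊤) (P : Sylow p G) (χ : Cfsg.IrrCharacter G) (hχ : χ ∈ Cfsg.principalBlock M G) (hfaith : ∀ g : G, (χ : G → ℂ) g = (χ : G → ℂ) 1 → g = 1) (hdeg : Cfsg.charDegree (χ : G → ℂ) < 2 * p) : IsPGroup p ↥(Subgroup.centralizer ((P : Subgroup G) : Set G)) := by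
  haveI := Fintype.ofFinite G
  intro x
  obtain ⟨u, y, -, h2, h3, ⟨k, hk⟩, h5⟩ := CfsgH5.exists_decomp (p := p) (x : G)
  obtain ⟨κ, hκ⟩ := CfsgH5.exists_pexp p G
  have hu : u = (x : G) ^ κ := (hκ _ _).1 ⟨y, h2, h3, ⟨k, hk⟩, h5⟩
  have hyC : y ∈ Subgroup.centralizer ((P : Subgroup G) : Set G) := by
    have h6 : y = u⁻¹ * (x : G) := by rw [← h2]; group
    rw [h6, hu]
    exact Subgroup.mul_mem _ (Subgroup.inv_mem _ (Subgroup.pow_mem _ x.2 _)) x.2
  have hy1 := CfsgH5.perfect_small hM hperf P hχ hfaith hdeg hyC h5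
  refine ⟨k, ?_⟩
  apply Subtype.ext
  rw [Subgroup.coe_pow, ← h2, hy1, mul_one, ← hk, pow_orderOf_eq_one, Subgroup.coe_one]

end Cfsg.Agent.S4729
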