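import Mathlib
import Cfsg.Agent.H3.RankOne
import Cfsg.Statements.S5015

set_option autoImplicit false
open Cfsg

namespace Cfsg.Agent.S5015

/-- Let a group Y act doubly transitively on a set Ω with at least three points, and suppose that the stabilizer of a point α contains a nilpotent subgroup A, normalized by that stabilizer, which acts regularly on the points other than α. Then for any y in Y moving α, the subgroups A and y A y⁻¹ are the unipotent subgroups of a rank one group, and the normal closure of A in Y (the subgroup generated by all conjugates of A) is generated by A and y A y⁻¹ alone. -/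
theorem result {Y Ω : Type*} [Group Y] [MulAction Y Ω]
    (h2 : MulAction.IsMultiplyPretransitive Y Ω 2) (hΩ : 3 ≤ ENat.card Ω) (α : Ω) (A : Subgroup Y)
    (hA : A ≤ MulAction.stabilizer Y α) (hAn : ∀ y ∈ MulAction.stabilizer Y α, Cfsg.conjBy A y = A)
    (hnil : Group.IsNilpotent A) (hreg : ∀ β γ : Ω, β ≠ α → γ ≠ α → ∃! a : Y, a ∈ A ∧ a • β = γ)
    (y : Y) (hy : y ∉ MulAction.stabilizer Y α) :
    Cfsg.IsRankOnePair A (Cfsg.conjBy A y) ∧ Subgroup.normalClosure (A : Set Y) = A ⊔ Cfsg.conjBy A y := by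
  classical
  have hcjA : ∀ s ∈ MulAction.stabilizer Y α, CfsgH7.cj s A = A := hAn
  set β := y • α with hβ
  have hβα : β ≠ α := fun e => hy e
  -- B = cj y A
  have hBdef : Cfsg.conjBy A y = CfsgH7.cj y A := rfl
  rw [hBdef]
  set B := CfsgH7.cj y A with hB
  have hBreg : ∀ γ δ : Ω, γ ≠ β → δ ≠ β → ∃! b : Y, b ∈ B ∧ b • γ = δ := by
    intro γ δ hγ hδ
    have h1 : y⁻¹ • γ ≠ α := fun e => hγ (by rw [hβ, ← e, smul_inv_smul])
    have h3 : y⁻¹ • δ ≠ α := fun e => hδ (by rw [hβ, ← e, smul_inv_smul])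
    obtain ⟨a, ⟨ha, e⟩, hu⟩ := hreg _ _ h1 h3
    refine ⟨y * a * y⁻¹, ⟨CfsgH7.conj_mem_cj ha, ?_⟩, ?_⟩
    · rw [mul_smul, mul_smul, e, smul_inv_smul]
    · rintro b ⟨hb, hbe⟩
      rw [hB, CfsgH7.mem_cj] at hb
      have h4 := hu (y⁻¹ * b * y) ⟨hb, by rw [mul_smul, mul_smul, smul_inv_smul, hbe]⟩
      rw [← h4]; group
  -- conjugates of A: cj g A depends only on g • α
  have hsame : ∀ g k : Y, g • α = k • α → CfsgH7.cj g A = CfsgH7.cj k A := by
    intro g k e
    have h1 : k⁻¹ * g ∈ MulAction.stabilizer Y α := by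
      rw [MulAction.mem_stabilizer_iff, mul_smul, e, inv_smul_smul]
    have h3 := hcjA _ h1
    have h4 : CfsgH7.cj k (CfsgH7.cj (k⁻¹ * g) A) = CfsgH7.cj k A := by rw [h3]
    rw [← CfsgH7.cj_mul, mul_inv_cancel_left] at h4
    exact h4
  have hAα : ∀ a ∈ A, a • α = α := fun a ha => hA ha
  obtain ⟨γ, hγα, hγβ⟩ : ∃ γ : Ω, γ ≠ α ∧ γ ≠ β := by
    by_contra hcon
    push Not at hcon
    have h1 : (Set.univ : Set Ω) ⊆ {α, β} := by
      intro γ _
      by_cases h : γ = α
      · exact Or.inl h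
      · exact Or.inr (hcon γ h)
    have h3 := Set.encard_le_encard h1
    rw [Set.encard_univ] at h3
    have h4 : ({α, β} : Set Ω).encard ≤ 2 := by
      refine (Set.encard_insert_le _ _).trans ?_
      rw [Set.encard_singleton]; rfl
    have h5 := hΩ.trans (h3.trans h4)
    exact absurd h5 (by decide)
  have hne : A ≠ B := by
    intro e
    obtain ⟨a, ⟨ha, hae⟩, -⟩ := hreg β γ hβα hγα
    apply hγβ
    rw [← hae]
    -- a ∈ B = cj y A fixes β
    rw [e, hB, CfsgH7.mem_cj] at ha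
    have h1 := hAα _ ha
    rw [hβ]
    calc a • y • α = y • ((y⁻¹ * a * y) • α) := by rw [← mul_smul, ← mul_smul]; congr 1; group
      _ = y • α := by rw [h1]
  refine ⟨⟨hne, hnil, ?_, ?_, ?_⟩, ?_⟩
  · haveI := hnil
    exact Group.nilpotent_of_mulEquiv (Subgroup.equivMapOfInjective A _ (MulAut.conj y).injective)
  · -- condition left
    intro a ha ha1
    have h1 : a⁻¹ • β ≠ β := by
      intro e
      obtain ⟨a', -, hu⟩ := hreg β β hβα hβα
      have h3 := hu a⁻¹ ⟨A.inv_mem ha, e⟩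
      have h4 := hu 1 ⟨A.one_mem, one_smul _ _⟩
      exact ha1 (inv_eq_one.1 (h3.trans h4.symm))
    have h3 : a⁻¹ • β ≠ α := by
      intro e
      apply hβα
      have := congrArg (fun t => a • t) e
      simp only [smul_inv_smul] at this
      rw [this, hAα a ha]
    obtain ⟨b, ⟨hb, hbe⟩, -⟩ := hBreg (a⁻¹ • β) α h1 (Ne.symm hβα)
    refine ⟨b, hb, ?_, ?_⟩
    · rintro rfl
      rw [one_smul] at hbe
      exact h3 hbe
    · change CfsgH7.cj b⁻¹ A = CfsgH7.cj a⁻¹ B
      rw [hB, ← CfsgH7.cj_mul]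
      apply hsame
      rw [mul_smul, ← hβ, ← hbe, inv_smul_smul]
  · intro b hb hb1
    have h1 : b⁻¹ • α ≠ α := by
      intro e
      obtain ⟨b', -, hu⟩ := hBreg α α (Ne.symm hβα) (Ne.symm hβα)
      have h3 := hu b⁻¹ ⟨B.inv_mem hb, e⟩
      have h4 := hu 1 ⟨B.one_mem, one_smul _ _⟩
      exact hb1 (inv_eq_one.1 (h3.trans h4.symm))
    obtain ⟨a, ⟨ha, hae⟩, -⟩ := hreg (b⁻¹ • α) β h1 hβα
    refine ⟨a, ha, ?_, ?_⟩
    · rintro rfl
      rw [one_smul] at hae
      -- b fixes β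
      have h3 : b ∈ B := hb
      rw [hB, CfsgH7.mem_cj] at h3
      have h4 := hAα _ h3
      apply hβα
      have h5 : b • β = β := by
        rw [hβ]
        calc b • y • α = y • ((y⁻¹ * b * y) • α) := by rw [← mul_smul, ← mul_smul]; congr 1; group
          _ = y • α := by rw [h4]
      rw [← h5, ← hae, smul_inv_smul]
    · change CfsgH7.cj a⁻¹ B = CfsgH7.cj b⁻¹ A
      rw [hB, ← CfsgH7.cj_mul]
      apply hsame
      rw [mul_smul, ← hβ, ← hae, inv_smul_smul]
  · apply le_antisymm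
    · rw [Subgroup.normalClosure]
      rw [Subgroup.closure_le]
      intro x hx
      obtain ⟨a, ha, hax⟩ := Group.mem_conjugatesOfSet_iff.1 hx
      obtain ⟨g, hg⟩ := isConj_iff.1 hax
      have h1 : x ∈ CfsgH7.cj g A := by rw [← hg]; exact CfsgH7.conj_mem_cj ha
      by_cases hgα : g • α = α
      · rw [hsame g 1 (by rw [hgα, one_smul]), CfsgH7.cj_one] at h1
        exact (le_sup_left : A ≤ A ⊔ B) h1
      · obtain ⟨a', ⟨ha', hae⟩, -⟩ := hreg β (g • α) hβα hgα
        have h3 : CfsgH7.cj g A = CfsgH7.cj a' B := by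
          rw [hB, ← CfsgH7.cj_mul]
          apply hsame
          rw [mul_smul, ← hβ, hae]
        rw [h3, CfsgH7.mem_cj] at h1
        have h4 : x = a' * (a'⁻¹ * x * a') * a'⁻¹ := by group
        rw [h4]
        exact (A ⊔ B).mul_mem ((A ⊔ B).mul_mem ((le_sup_left : A ≤ A ⊔ B) ha') ((le_sup_right : B ≤ A ⊔ B) h1)) ((A ⊔ B).inv_mem ((le_sup_left : A ≤ A ⊔ B) ha'))
    · refine sup_le Subgroup.le_normalClosure ?_
      intro x hx
      rw [hB, CfsgH7.mem_cj] at hx
      have h1 := (Subgroup.normalClosure_normal (s := (A : Set Y))).conj_mem _ (Subgroup.le_normalClosure hx) y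
      have h3 : y * (y⁻¹ * x * y) * y⁻¹ = x := by group
      rwa [h3] at h1

end Cfsg.Agent.S5015
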