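import Mathlib
import Cfsg.Agent.H3.RankOne
import Cfsg.Statements.S5017

set_option autoImplicit false
open Cfsg

namespace Cfsg.Agent.S5017

theorem nilp {X Q : Type*} [Group X] [Group Q] (f : X →* Q) (hf : Function.Surjective f) (A : Subgroup X) [Group.IsNilpotent A]
    (h : f.ker ⊔ A = ⊤) : Group.IsNilpotent Q := by
  have h1 : A.map f = ⊤ := by
    have h2 := congrArg (Subgroup.map f) h
    rw [Subgroup.map_sup, Subgroup.map_top_of_surjective f hf] at h2
    have h3 : f.ker.map f = ⊥ := by
      rw [Subgroup.map_eq_bot_iff]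
    rwa [h3, bot_sup_eq] at h2
  apply Group.nilpotent_of_surjective (f.comp A.subtype)
  intro q
  have h2 : q ∈ A.map f := by rw [h1]; trivial
  obtain ⟨a, ha, rfl⟩ := h2
  exact ⟨⟨a, ha⟩, rfl⟩

/-- Let X be a rank one group with unipotent subgroups A and B and N a normal subgroup of X. Then either X = N A or N lies in the centre of X. Consequently a perfect rank one group is quasisimple. -/
theorem result {X : Type*} [Group X] {A B : Subgroup X} (h : Cfsg.IsRankOneGroup X A B) :
    (∀ N : Subgroup X, N.Normal → N ⊔ A = ⊤ ∨ N ≤ Subgroup.center X) ∧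
    (Group.IsPerfect X → Cfsg.IsQuasisimple X) := by
  refine ⟨fun N hN => CfsgH3.R1.normal_cases h N, ?_⟩
  intro hperf
  refine ⟨hperf, ?_⟩
  have hnt : Nontrivial (X ⧸ Subgroup.center X) := by
    obtain ⟨x, hx⟩ : ∃ x, x ∉ Subgroup.center X := by
      by_contra hcon
      push Not at hcon
      exact CfsgH3.R1.center_ne_top h (by rw [eq_top_iff]; exact fun x _ => hcon x)
    exact ⟨⟨x, 1, fun e => hx ((QuotientGroup.eq_one_iff x).1 e)⟩⟩
  refine { toNontrivial := hnt, eq_bot_or_eq_top_of_normal := fun H hH => ?_ }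
  have hsurj := QuotientGroup.mk'_surjective (Subgroup.center X)
  rcases CfsgH3.R1.normal_cases h (H.comap (QuotientGroup.mk' (Subgroup.center X))) with h1 | h1
  · right
    haveI := h.2.nilpotent_left
    have h2 : Group.IsNilpotent (X ⧸ (H.comap (QuotientGroup.mk' (Subgroup.center X)))) :=
      nilp (QuotientGroup.mk' _) (QuotientGroup.mk'_surjective _) A (by rw [QuotientGroup.ker_mk']; exact h1)
    have h3 : H.comap (QuotientGroup.mk' (Subgroup.center X)) = ⊤ := by
      by_contra hne
      haveI : Nontrivial (X ⧸ (H.comap (QuotientGroup.mk' (Subgroup.center X)))) := by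
        obtain ⟨x, hx⟩ : ∃ x, x ∉ H.comap (QuotientGroup.mk' (Subgroup.center X)) := by
          by_contra hcon
          push Not at hcon
          exact hne (by rw [eq_top_iff]; exact fun x _ => hcon x)
        exact ⟨⟨x, 1, fun e => hx ((QuotientGroup.eq_one_iff x).1 e)⟩⟩
      haveI : Group.IsSolvable (X ⧸ (H.comap (QuotientGroup.mk' (Subgroup.center X)))) := inferInstance
      have h4 := Group.IsSolvable.commutator_lt_top_of_nontrivial (X ⧸ (H.comap (QuotientGroup.mk' (Subgroup.center X))))
      apply h4.ne
      have h5 : Group.IsPerfect (X ⧸ (H.comap (QuotientGroup.mk' (Subgroup.center X)))) := Group.IsPerfect.ofSurjective (QuotientGroup.mk'_surjective _)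
      exact h5.commutator_eq_top
    rw [← Subgroup.comap_top (QuotientGroup.mk' (Subgroup.center X))] at h3
    exact Subgroup.comap_injective hsurj h3
  · left
    rw [← Subgroup.map_comap_eq_self_of_surjective hsurj H, Subgroup.map_eq_bot_iff, QuotientGroup.ker_mk']
    exact h1

end Cfsg.Agent.S5017
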