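import Mathlib
import Cfsg.Agent.H3.RankOne
import Cfsg.Statements.S5018

set_option autoImplicit false
open Cfsg

namespace Cfsg.Agent.S5018

theorem nilp {X Q : Type*} [Group X] [Group Q] (f : X →* Q) (hf : Function.Surjective f) (A : Subgroup X) [Group.IsNilpotent A]
    (h : f.ker ⊔ A = ⊤) : Group.IsNilpotent Q := by
  have h1 : A.map f = ⊤ := by
    have h2 := congrArg (Subgroup.map f) h
    rw [Subgroup.map_sup, Subgroup.map_top_of_surjective f hf] at h2
    have h3 : f.ker.map f = ⊥ := by
      rw [Subgroup.map_eq_bot_iff]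
    rwa [h3, bot_sup_eq] at h2
  apply Group.nilpotent_of_surjective (f.comp A.subtype)
  intro q
  have h2 : q ∈ A.map f := by rw [h1]; trivial
  obtain ⟨a, ha, rfl⟩ := h2
  exact ⟨⟨a, ha⟩, rfl⟩

/-- A rank one group is not nilpotent, and its second centre equals its centre. -/
theorem result {X : Type*} [Group X] {A B : Subgroup X} (h : Cfsg.IsRankOneGroup X A B) :
    Subgroup.upperCentralSeries X 2 = Subgroup.center X ∧ ¬ Group.IsNilpotent X := by
  have hnn := CfsgH3.R1.not_nilpotent h
  refine ⟨?_, hnn⟩
  have hZ : Subgroup.center X ≤ Subgroup.upperCentralSeries X 2 := by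
    rw [← Subgroup.upperCentralSeries_one]
    exact Subgroup.upperCentralSeries_mono X (by norm_num)
  rcases CfsgH3.R1.normal_cases h (Subgroup.upperCentralSeries X 2) with h1 | h1
  · exfalso
    apply hnn
    apply Group.of_quotient_center_nilpotent
    apply Group.of_quotient_center_nilpotent
    haveI := h.2.nilpotent_left
    refine nilp ((QuotientGroup.mk' (Subgroup.center (X ⧸ Subgroup.center X))).comp (QuotientGroup.mk' (Subgroup.center X))) ?_ A ?_
    · exact (QuotientGroup.mk'_surjective _).comp (QuotientGroup.mk'_surjective _)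
    · have h2 := Subgroup.comap_upperCentralSeries_quotient_center (G := X) 1
      rw [Subgroup.upperCentralSeries_one (X ⧸ Subgroup.center X)] at h2
      rw [← MonoidHom.comap_ker, QuotientGroup.ker_mk', h2]
      exact h1
  · exact le_antisymm h1 hZ

end Cfsg.Agent.S5018
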