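import Mathlib
import Cfsg.Agent.H3.RootSet
import Cfsg.Statements.S5024

set_option autoImplicit false
open Cfsg

namespace Cfsg.Agent.S5024

open Cfsg CfsgH3.R1
open CfsgH7 (cj)

theorem cj_cond {G : Type*} [Group G] {A B : Subgroup G} (h : RankOneCondition A B) (g : G) : RankOneCondition (cj g A) (cj g B) := by
  intro a ha ha1
  rw [CfsgH7.mem_cj] at ha
  have ha1' : g⁻¹ * a * g ≠ 1 := by
    intro e
    apply ha1
    calc a = g * (g⁻¹ * a * g) * g⁻¹ := by group
      _ = 1 := by rw [e]; group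
  obtain ⟨b, hb, hb1, e⟩ := h _ ha ha1'
  refine ⟨g * b * g⁻¹, CfsgH7.conj_mem_cj hb, ?_, ?_⟩
  · intro e'
    apply hb1
    calc b = g⁻¹ * (g * b * g⁻¹) * g := by group
      _ = 1 := by rw [e']; group
  · have e' : cj b⁻¹ A = cj (g⁻¹ * a * g)⁻¹ B := e
    change cj (g * b * g⁻¹)⁻¹ (cj g A) = cj a⁻¹ (cj g B)
    calc cj (g * b * g⁻¹)⁻¹ (cj g A) = cj g (cj b⁻¹ A) := by rw [← CfsgH7.cj_mul, ← CfsgH7.cj_mul]; congr 1; group
      _ = cj g (cj (g⁻¹ * a * g)⁻¹ B) := by rw [e']
      _ = _ := by rw [← CfsgH7.cj_mul, ← CfsgH7.cj_mul]; congr 1; group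

theorem cj_pair {G : Type*} [Group G] {A B : Subgroup G} (h : IsRankOnePair A B) (g : G) : IsRankOnePair (cj g A) (cj g B) := by
  refine ⟨fun e => h.ne (CfsgH7.cj_injective g e), ?_, ?_, cj_cond h.cond_left g, cj_cond h.cond_right g⟩
  · haveI := h.nilpotent_left
    exact Group.nilpotent_of_mulEquiv (Subgroup.equivMapOfInjective A _ (MulAut.conj g).injective)
  · haveI := h.nilpotent_right
    exact Group.nilpotent_of_mulEquiv (Subgroup.equivMapOfInjective B _ (MulAut.conj g).injective)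

variable {G : Type*} [Group G] {S : Set (Subgroup G)}

theorem pair_Om {C D E E' : Subgroup G} (h : IsRankOnePair C D) (hE : E ∈ unipotentSubgroups C D) (hE' : E' ∈ unipotentSubgroups C D)
    (hne : E ≠ E') : IsRankOnePair E E' ∧ E ⊔ E' = C ⊔ D := by
  obtain ⟨x, hx, e1, e2⟩ := two_trans h A_mem (B_mem h) hE hE' h.ne hne
  refine ⟨?_, ?_⟩
  · rw [← e1, ← e2]; exact cj_pair h x
  · rw [← e1, ← e2]
    change C.map _ ⊔ D.map _ = _
    rw [← Subgroup.map_sup]
    exact CfsgH7.cj_of_mem hx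

theorem Om_S (hS : IsRootSubgroupSet S) {C D E : Subgroup G} (hC : C ∈ S) (hE : E ∈ unipotentSubgroups C D) : E ∈ S := by
  obtain ⟨x, hx, rfl⟩ := hE
  exact hS.conj_mem C hC x

/-- no root subgroup inside `Y = ⟨C, D⟩` produced by a commutator is central in `Y` -/
theorem no_central_comm (hS : IsRootSubgroupSet S) {A E E' : Subgroup G} (hA : A ∈ S) (hE : E ∈ S) (hE' : E' ∈ S)
    (h : IsRankOnePair E E') (hc : RootCommutatorCase S A E) (hF : ∀ f ∈ ⁅A, E⁆, ∀ y ∈ E ⊔ E', f * y = y * f) : False := by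
  apply hS.ne_bot _ hc.1
  rw [Subgroup.commutator_eq_bot_iff_le_centralizer]
  intro a ha
  rw [Subgroup.mem_centralizer_iff]
  intro e he
  by_contra hne
  have he1 : e ≠ 1 := by rintro rfl; apply hne; rw [one_mul, mul_one]
  have hf : a * e * a⁻¹ * e⁻¹ ∈ ⁅A, E⁆ := Subgroup.commutator_mem_commutator ha he
  have hf1 : a * e * a⁻¹ * e⁻¹ ≠ 1 := by
    intro h1
    rw [mul_inv_eq_one, mul_inv_eq_iff_eq_mul] at h1
    exact hne h1.symm
  apply no_central hS hE hE' h (fun x hx => hF _ hf x ((le_sup_left : E ≤ E ⊔ E') hx)) (fun x hx => hF _ hf x ((le_sup_right : E' ≤ E ⊔ E') hx)) hf1 e he he1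
  have h3 : a * e * a⁻¹ * e⁻¹ * e = a * e * a⁻¹ := by group
  refine ⟨?_, cj a E, hS.conj_mem E hE a, ?_⟩
  · rw [h3]
    intro h4
    apply he1
    calc e = a⁻¹ * (a * e * a⁻¹) * a := by group
      _ = 1 := by rw [h4]; group
  · rw [h3]; exact CfsgH7.conj_mem_cj he

/-- a root subgroup normalizing a member of `Ω` commutes with it -/
theorem comm_of_norm (hS : IsRootSubgroupSet S) {A E E' : Subgroup G} (hA : A ∈ S) (hE : E ∈ S) (hE' : E' ∈ S)
    (h : IsRankOnePair E E') (hn : ∀ a ∈ A, cj a E = E) : ∀ a ∈ A, ∀ e ∈ E, a * e = e * a := by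
  rcases hS.pair A hA E hE with h1 | h1 | h1
  · exact bot_comm h1
  · exfalso
    obtain ⟨a, ha, ha1⟩ := exists_ne_one (hS.ne_bot A hA)
    exact ha1 (A_norm h1 ha (hn a ha))
  · exfalso
    have hFE : ⁅A, E⁆ ≤ E := by
      rw [Subgroup.commutator_le]
      intro a ha e he
      have h2 : a * e * a⁻¹ ∈ E := by
        have := CfsgH7.conj_mem_cj (g := a) he
        rwa [hn a ha] at this
      exact E.mul_mem h2 (E.inv_mem he)
    rcases meet_trivial hS hE hE' h _ h1.1 with h2 | h2
    · rw [inf_eq_right.2 hFE] at h2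
      exact hS.ne_bot _ h1.1 h2
    · apply hS.ne_bot _ h1.1
      rw [Subgroup.commutator_eq_bot_iff_le_centralizer]
      intro a ha
      rw [Subgroup.mem_centralizer_iff]
      intro e he
      exact h1.2.1 e (h2 ▸ he) a ((le_sup_left : A ≤ A ⊔ E) ha)

theorem comm_all {A E E' : Subgroup G} (h1 : ∀ a ∈ A, ∀ e ∈ E, a * e = e * a) (h2 : ∀ a ∈ A, ∀ e ∈ E', a * e = e * a) :
    ∀ a ∈ A, ∀ y ∈ E ⊔ E', a * y = y * a := by
  intro a ha
  have h3 : E ⊔ E' ≤ Subgroup.centralizer ({a} : Set G) := by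
    refine sup_le ?_ ?_
    · intro e he; rw [Subgroup.mem_centralizer_singleton_iff]; exact (h1 a ha e he).symm
    · intro e he; rw [Subgroup.mem_centralizer_singleton_iff]; exact (h2 a ha e he).symm
  intro y hy
  exact (Subgroup.mem_centralizer_singleton_iff.1 (h3 hy)).symm

theorem main (hS : IsRootSubgroupSet S) {A B C D : Subgroup G} (hA : A ∈ S) (hB : B ∈ S) (hC : C ∈ S) (hD : D ∈ S)
    (hAB : IsRankOnePair A B) (hCD : IsRankOnePair C D) (hAY : A ≤ C ⊔ D) (hBY : B ≤ C ⊔ D) : A ∈ unipotentSubgroups C D := by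
  classical
  -- A does not centralize Y
  have hnot : ¬ ∀ a ∈ A, ∀ y ∈ C ⊔ D, a * y = y * a := by
    intro hc
    obtain ⟨a, ha, ha1⟩ := exists_ne_one (A_ne_bot hAB)
    exact ha1 (A_comm hAB ha (fun b hb => hc a ha b (hBY hb)))
  have hOmS : ∀ E ∈ unipotentSubgroups C D, E ∈ S := fun E hE => Om_S hS hC hE
  -- A cannot normalize two members
  have htwo : ∀ E ∈ unipotentSubgroups C D, ∀ E' ∈ unipotentSubgroups C D, E ≠ E' → (∀ a ∈ A, cj a E = E) → (∀ a ∈ A, cj a E' = E') → False := by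
    intro E hE E' hE' hne h1 h2
    obtain ⟨hp, hgen⟩ := pair_Om hCD hE hE' hne
    apply hnot
    rw [← hgen]
    exact comm_all (comm_of_norm hS hA (hOmS E hE) (hOmS E' hE') hp h1)
      (comm_of_norm hS hA (hOmS E' hE') (hOmS E hE) (RankOnePair_symm hp) h2)
  have hother : ∀ E ∈ unipotentSubgroups C D, ∃ E' ∈ unipotentSubgroups C D, E ≠ E' := by
    intro E hE
    by_cases h : E = C
    · exact ⟨D, B_mem hCD, h ▸ hCD.ne⟩
    · exact ⟨C, A_mem, h⟩
  -- the commutator case with E forces A to normalize E only via F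
  have hcommcase : ∀ E ∈ unipotentSubgroups C D, RootCommutatorCase S A E →
      (∀ K ∈ unipotentSubgroups C D, (∀ f ∈ ⁅A, E⁆, cj f K = K) → K = E) ∧ (∀ a ∈ A, ∀ f ∈ ⁅A, E⁆, f * a = a * f) ∧ (∀ f ∈ ⁅A, E⁆, cj f E = E) ∧ ⁅A, E⁆ ≤ C ⊔ D := by
    intro E hE hc
    have hEY : E ≤ C ⊔ D := by
      obtain ⟨x, hx, rfl⟩ := hE
      intro y hy
      rw [CfsgH7.mem_cj] at hy
      have h1 : y = x * (x⁻¹ * y * x) * x⁻¹ := by group
      rw [h1]
      exact (C ⊔ D).mul_mem ((C ⊔ D).mul_mem hx ((le_sup_left : C ≤ C ⊔ D) hy)) ((C ⊔ D).inv_mem hx)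
    have hfE : ∀ f ∈ ⁅A, E⁆, ∀ e ∈ E, f * e = e * f := fun f hf e he => hc.2.1 f hf e ((le_sup_right : E ≤ A ⊔ E) he)
    refine ⟨?_, fun a ha f hf => hc.2.1 f hf a ((le_sup_left : A ≤ A ⊔ E) ha), ?_, ?_⟩
    · intro K hK hfK
      by_contra hne
      obtain ⟨hp, hgen⟩ := pair_Om hCD hE hK (Ne.symm hne)
      have h1 := comm_of_norm hS hc.1 (hOmS K hK) (hOmS E hE) (RankOnePair_symm hp) hfK
      exact no_central_comm hS hA (hOmS E hE) (hOmS K hK) hp hc (comm_all hfE h1)
    · intro f hf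
      ext y
      rw [CfsgH7.mem_cj]
      constructor
      · intro hy
        have h1 := hfE f hf _ hy
        have h2 : y = f⁻¹ * y * f := by
          have h3 : y * f = (f⁻¹ * y * f) * f := by rw [← h1]; group
          exact mul_right_cancel h3
        rw [h2]; exact hy
      · intro hy
        rw [mul_assoc, ← hfE f hf y hy, inv_mul_cancel_left]; exact hy
    · rw [Subgroup.commutator_le]
      intro a ha e he
      exact (C ⊔ D).mul_mem ((C ⊔ D).mul_mem ((C ⊔ D).mul_mem (hAY ha) (hEY he)) ((C ⊔ D).inv_mem (hAY ha))) ((C ⊔ D).inv_mem (hEY he))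
  -- commutator case implies A normalizes E
  have hcn : ∀ E ∈ unipotentSubgroups C D, RootCommutatorCase S A E → ∀ a ∈ A, cj a E = E := by
    intro E hE hc a ha
    obtain ⟨h1, h2, h3, h4⟩ := hcommcase E hE hc
    apply h1 _ (Om_cj (hAY ha) hE)
    intro f hf
    rw [← CfsgH7.cj_mul, h2 a ha f hf, CfsgH7.cj_mul, h3 f hf]
  by_cases hcase : ∃ E ∈ unipotentSubgroups C D, ∀ a ∈ A, cj a E = E
  · obtain ⟨E, hE, hAE⟩ := hcase
    obtain ⟨E', hE', hne⟩ := hother E hE
    obtain ⟨hp, hgen⟩ := pair_Om hCD hE hE' hne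
    have hAEc := comm_of_norm hS hA (hOmS E hE) (hOmS E' hE') hp hAE
    have hE'n : ¬ ∀ a ∈ A, cj a E' = E' := fun h => htwo E hE E' hE' hne hAE h
    rcases hS.pair A hA E' (hOmS E' hE') with h1 | h1 | h1
    · exfalso
      apply hE'n
      intro a ha
      ext y
      rw [CfsgH7.mem_cj]
      have hc := bot_comm h1 a ha
      constructor
      · intro hy
        have h1 := hc _ hy
        have h2 : y = a⁻¹ * y * a := by
          have h3 : y * a = (a⁻¹ * y * a) * a := by rw [← h1]; group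
          exact mul_right_cancel h3
        rw [h2]; exact hy
      · intro hy
        rw [mul_assoc, ← hc y hy, inv_mul_cancel_left]; exact hy
    · obtain ⟨a, ha, ha1⟩ := exists_ne_one (A_ne_bot hAB)
      have haE' : cj a E' ∈ unipotentSubgroups E E' := by
        rw [mem_Om hp]
        have h2 : a ∈ E ⊔ E' := by rw [hgen]; exact hAY ha
        exact Q_all hp h2 ((mem_Om hp).1 (B_mem hp))
      have haE'E : cj a E' ≠ E := by
        intro e
        apply hne
        have h2 : cj a E = cj a E' := by rw [hAE a ha, e]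
        exact CfsgH7.cj_injective a h2
      obtain ⟨e, he, hee⟩ := form hp haE' haE'E
      set z := e⁻¹ * a with hz
      have hzE' : cj z E' = E' := by rw [hz, CfsgH7.cj_mul, hee, cj_cancel']
      have hEc := comm_A hS (hOmS E hE)
      have hzE : ∀ x ∈ E, z * x = x * z := by
        intro x hx
        rw [hz, mul_assoc, hAEc a ha x hx, ← mul_assoc, hEc _ (E.inv_mem he) x hx, mul_assoc]
      -- z fixes all members
      have hzall : ∀ K ∈ unipotentSubgroups E E', cj z K = K := by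
        intro K hK
        rcases (mem_Om hp).1 hK with rfl | ⟨f, hf, rfl⟩
        · ext y
          rw [CfsgH7.mem_cj]
          constructor
          · intro hy
            have h1 := hzE _ hy
            have h2 : y = z⁻¹ * y * z := by
              have h3 : y * z = (z⁻¹ * y * z) * z := by rw [← h1]; group
              exact mul_right_cancel h3
            rw [h2]; exact hy
          · intro hy
            rw [mul_assoc, ← hzE y hy, inv_mul_cancel_left]; exact hy
        · rw [← CfsgH7.cj_mul, hzE f hf, CfsgH7.cj_mul, hzE']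
      have hzE'c : ∀ x ∈ E', z * x = x * z := by
        intro x hx
        have h2 : z * x * z⁻¹ ∈ E' := by
          have := CfsgH7.conj_mem_cj (g := z) hx
          rwa [hzE'] at this
        have h3 : x⁻¹ * (z * x * z⁻¹) ∈ E' := E'.mul_mem (E'.inv_mem hx) h2
        have h4 : cj (x⁻¹ * (z * x * z⁻¹)) E = E := by
          have h5 : cj z⁻¹ E = E := by
            have := hzall E A_mem
            nth_rewrite 1 [← this]; exact cj_cancel' z E
          have h6 : x ∈ E ⊔ E' := (le_sup_right : E' ≤ E ⊔ E') hx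
          rw [CfsgH7.cj_mul, CfsgH7.cj_mul, CfsgH7.cj_mul, h5, hzall _ (Om_cj h6 A_mem), cj_cancel']
        have h5 := B_norm hp h3 h4
        have h6 := inv_mul_eq_one.1 h5
        exact (mul_inv_eq_iff_eq_mul.1 h6.symm)
      have haze : a = z * e := by
        rw [hz, mul_assoc, hAEc a ha e he, inv_mul_cancel_left]
      have he1 : e ≠ 1 := by
        intro h2
        apply ha1
        apply A_comm h1 ha
        intro b hb
        rw [haze, h2, mul_one]; exact hzE'c b hb
      by_cases hz1 : z = 1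
      · rw [hz1, one_mul] at haze
        rcases meet_trivial hS hA hB hAB E (hOmS E hE) with h2 | h2
        · exfalso
          have h3 : a ∈ A ⊓ E := ⟨ha, haze ▸ he⟩
          rw [h2] at h3
          exact ha1 h3
        · rw [h2]; exact hE
      · exfalso
        apply no_central hS (hOmS E hE) (hOmS E' hE') hp hzE hzE'c hz1 e he he1
        rw [← haze]
        exact ⟨ha1, A, hA, ha⟩
    · exfalso
      exact hE'n (hcn E' hE' h1)
  · push Not at hcase
    have hCn : ¬ ∀ a ∈ A, cj a C = C := by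
      intro h
      obtain ⟨a, ha, hne⟩ := hcase C A_mem
      exact hne (h a ha)
    rcases hS.pair A hA C hC with h1 | h1 | h1
    · exfalso
      apply hCn
      intro a ha
      have hc := bot_comm h1 a ha
      ext y
      rw [CfsgH7.mem_cj]
      constructor
      · intro hy
        have h1 := hc _ hy
        have h2 : y = a⁻¹ * y * a := by
          have h3 : y * a = (a⁻¹ * y * a) * a := by rw [← h1]; group
          exact mul_right_cancel h3
        rw [h2]; exact hy
      · intro hy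
        rw [mul_assoc, ← hc y hy, inv_mul_cancel_left]; exact hy
    · obtain ⟨a, ha, ha1⟩ := exists_ne_one (A_ne_bot hAB)
      obtain ⟨c, hc, hc1, e⟩ := ex_b h1 ha ha1
      refine ⟨c * a⁻¹, (C ⊔ D).mul_mem ((le_sup_left : C ≤ C ⊔ D) hc) ((C ⊔ D).inv_mem (hAY ha)), ?_⟩
      change A = cj (c * a⁻¹) C
      rw [CfsgH7.cj_mul, ← e, cj_cancel]
    · exfalso
      exact hCn (hcn C A_mem h1)

/-- Let S be a set of abstract root subgroups of G, A and C members of S, B a rank one partner of A in S and D a rank one partner of C in S. If the rank one group ⟨A, B⟩ is contained in ⟨C, D⟩ then the two coincide, and C and D are conjugates of A inside ⟨A, B⟩. -/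
theorem result {G : Type*} [Group G] {S : Set (Subgroup G)} (hS : Cfsg.IsRootSubgroupSet S)
    {A B C D : Subgroup G} (hA : A ∈ S) (hC : C ∈ S) (hB : B ∈ Cfsg.rankOnePartners S A) (hD : D ∈ Cfsg.rankOnePartners S C)
    (hle : A ⊔ B ≤ C ⊔ D) : A ⊔ B = C ⊔ D ∧ C ∈ Cfsg.unipotentSubgroups A B ∧ D ∈ Cfsg.unipotentSubgroups A B := by
  have h1 := main hS hA hB.1 hC hD.1 hB.2 hD.2 (le_sup_left.trans hle) (le_sup_right.trans hle)
  have h2 := main hS hB.1 hA hC hD.1 (RankOnePair_symm hB.2) hD.2 (le_sup_right.trans hle) (le_sup_left.trans hle)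
  obtain ⟨hp, hgen⟩ := pair_Om hD.2 h1 h2 hB.2.ne
  refine ⟨hgen, ?_, ?_⟩
  · exact main hS hC hD.1 hA hB.1 hD.2 hB.2 (by rw [hgen]; exact le_sup_left) (by rw [hgen]; exact le_sup_right)
  · exact main hS hD.1 hC hA hB.1 (RankOnePair_symm hD.2) hB.2 (by rw [hgen]; exact le_sup_right) (by rw [hgen]; exact le_sup_left)

end Cfsg.Agent.S5024
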