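import Mathlib
import Cfsg.Agent.H3.RootSet
import Cfsg.Statements.S5026

set_option autoImplicit false
open Cfsg

namespace Cfsg.Agent.S5026

open Cfsg in
theorem main {G : Type*} [Group G] {S : Set (Subgroup G)} (hS : Cfsg.IsRootSubgroupSet S) (hdeg : Cfsg.IsDegenerateRootSet S)
    {a b : G} {A B C : Subgroup G} (hA : A ∈ S) (hB : B ∈ S) (ha : a ∈ A) (hb : b ∈ B) (ha1 : a ≠ 1) (hb1 : b ≠ 1)
    (hab : a * b = b * a) (hab1 : a * b ≠ 1) (hC : C ∈ S) (hc : ∀ c ∈ C, c * (a * b) = (a * b) * c) : ∀ c ∈ C, c * a = a * c := by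
  rcases hS.pair A hA C hC with h1 | h1 | h1
  · intro c hc'
    exact (CfsgH3.R1.bot_comm h1 a ha c hc').symm
  · rcases hS.pair B hB C hC with h2 | h2 | h2
    · intro c hc'
      have h3 := CfsgH3.R1.bot_comm h2 b hb c hc'
      have h4 := hc c hc'
      have h5 : c * a * b = a * c * b := by
        rw [mul_assoc, h4, mul_assoc, mul_assoc, h3]
      exact mul_right_cancel h5
    · exfalso
      obtain ⟨c0, hc0, hc01, e0⟩ := CfsgH3.R1.ex_b h1 ha ha1
      obtain ⟨c1, hc1, hc11, e1⟩ := CfsgH3.R1.ex_b h2 (B.inv_mem hb) (inv_ne_one.2 hb1)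
      rw [inv_inv] at e1
      have h3 : CfsgH7.cj (a * b) C = C := by
        ext y
        rw [CfsgH7.mem_cj]
        constructor
        · intro hy
          have h4 := hc _ hy
          have h5 : y = (a * b)⁻¹ * y * (a * b) := by
            have h6 : y * (a * b) = ((a * b)⁻¹ * y * (a * b)) * (a * b) := by
              rw [h4]; group
            exact mul_right_cancel h6
          rw [h5]; exact hy
        · intro hy
          have h4 := hc y hy
          have h5 : (a * b)⁻¹ * y * (a * b) = y := by rw [mul_assoc, h4]; group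
          rw [h5]; exact hy
      have h4 : CfsgH7.cj b C = CfsgH7.cj a⁻¹ C := by
        have h5 : CfsgH7.cj a⁻¹ (CfsgH7.cj (a * b) C) = CfsgH7.cj a⁻¹ C := by rw [h3]
        rwa [CfsgH7.cj_mul, CfsgH3.R1.cj_cancel'] at h5
      have h5 : B = CfsgH7.cj (c1 * c0⁻¹) A := by
        rw [CfsgH7.cj_mul, e0, ← h4, ← e1, CfsgH3.R1.cj_cancel]
      by_cases hy : c1 * c0⁻¹ = 1
      · rw [hy, CfsgH7.cj_one] at h5
        apply hab1
        exact CfsgH3.R1.A_comm h1 (A.mul_mem ha (h5 ▸ hb)) (fun c hc' => (hc c hc').symm)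
      · obtain ⟨a', ha', ha1', e3⟩ := CfsgH3.R1.ex_a h1 (C.inv_mem (C.mul_mem hc1 (C.inv_mem hc0))) (inv_ne_one.2 hy)
        rw [inv_inv, ← h5] at e3
        rw [e3, CfsgH7.mem_cj, inv_inv] at hb
        set v := a' * b * a'⁻¹ with hv
        have haa : a * a' = a' * a := CfsgH3.R1.comm_A hS hA a ha a' ha'
        have hva : a⁻¹ * v * a = v := by
          have h6 : a * v = v * a := by
            rw [hv]
            calc a * (a' * b * a'⁻¹) = (a * a') * b * a'⁻¹ := by group
              _ = a' * (a * b) * a'⁻¹ := by rw [haa]; group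
              _ = a' * (b * a) * a'⁻¹ := by rw [hab]
              _ = a' * b * (a'⁻¹ * (a' * a)) * a'⁻¹ := by group
              _ = a' * b * (a'⁻¹ * (a * a')) * a'⁻¹ := by rw [haa]
              _ = _ := by group
          rw [mul_assoc, ← h6]; group
        have h6 : v = 1 := CfsgH3.R1.inter_cj (RankOnePair_symm h1) (CfsgH3.R1.comm_A hS hC) ha ha1 hb
          (by rw [CfsgH7.mem_cj, hva]; exact hb)
        apply hb1
        calc b = a'⁻¹ * v * a' := by rw [hv]; group
          _ = 1 := by rw [h6]; group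
    · exact absurd h2 (hdeg B hB C hC)
  · exact absurd h1 (hdeg A hA C hC)

/-- Let S be a degenerate set of abstract root subgroups of G (a set of abstract transvection groups) and let a, b be commuting non-identity elements of members of S with a b ≠ 1. Then the members of S centralizing a b are exactly those centralizing both a and b. -/
theorem result {G : Type*} [Group G] {S : Set (Subgroup G)} (hS : Cfsg.IsRootSubgroupSet S) (hdeg : Cfsg.IsDegenerateRootSet S)
    {a b : G} (ha : a ∈ Cfsg.rootElements S) (hb : b ∈ Cfsg.rootElements S) (hab : a * b = b * a) (hab1 : a * b ≠ 1) :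
    Cfsg.centralizingMembers S (Subgroup.zpowers (a * b)) =
      Cfsg.centralizingMembers S (Subgroup.zpowers a) ∩ Cfsg.centralizingMembers S (Subgroup.zpowers b) := by
  obtain ⟨ha1, A, hA, haA⟩ := ha
  obtain ⟨hb1, B, hB, hbB⟩ := hb
  have hiff : ∀ (x : G) (C : Subgroup G), C ≤ Subgroup.centralizer ((Subgroup.zpowers x : Subgroup G) : Set G) ↔ ∀ c ∈ C, c * x = x * c := by
    intro x C
    constructor
    · intro h c hc
      exact (Subgroup.mem_centralizer_iff.1 (h hc) x (Subgroup.mem_zpowers x)).symm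
    · intro h c hc
      rw [Subgroup.mem_centralizer_iff]
      intro y hy
      obtain ⟨n, rfl⟩ := Subgroup.mem_zpowers_iff.1 hy
      exact ((show Commute c x from h c hc).zpow_right n).symm.eq
  ext C
  constructor
  · rintro ⟨hC, hc⟩
    rw [hiff] at hc
    have h1 := main hS hdeg hA hB haA hbB ha1 hb1 hab hab1 hC hc
    refine ⟨⟨hC, (hiff _ _).2 h1⟩, ⟨hC, (hiff _ _).2 ?_⟩⟩
    intro c hc'
    have h2 := h1 c hc'
    have h3 := hc c hc'
    have h4 : a * (c * b) = a * (b * c) := by
      rw [← mul_assoc, ← h2, mul_assoc, h3, mul_assoc]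
    exact mul_left_cancel h4
  · rintro ⟨⟨hC, h1⟩, -, h2⟩
    rw [hiff] at h1 h2
    refine ⟨hC, (hiff _ _).2 ?_⟩
    intro c hc
    rw [← mul_assoc, h1 c hc, mul_assoc, h2 c hc, mul_assoc]

end Cfsg.Agent.S5026
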