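import Mathlib
import Cfsg.Agent.H3.RootSet
import Cfsg.Statements.S5027

set_option autoImplicit false
open Cfsg

namespace Cfsg.Agent.S5027

/-- Let S be a set of abstract root subgroups of G such that every member of S has a rank one partner in S (the graph of rank one pairs on S has no isolated vertex). Then the second centre of G equals its centre. -/
theorem result {G : Type*} [Group G] {S : Set (Subgroup G)} (hS : Cfsg.IsRootSubgroupSet S)
    (hF : ∀ A ∈ S, ¬ Cfsg.IsIsolatedIn (Cfsg.FAdj S) S A) : Subgroup.upperCentralSeries G 2 = Subgroup.center G := by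
  have hZ : Subgroup.center G ≤ Subgroup.upperCentralSeries G 2 := by
    rw [← Subgroup.upperCentralSeries_one]
    exact Subgroup.upperCentralSeries_mono G (by norm_num)
  refine le_antisymm ?_ hZ
  intro z hz
  have hz' : ∀ g : G, z * g * z⁻¹ * g⁻¹ ∈ Subgroup.center G := by
    intro g
    have h1 := (Subgroup.mem_upperCentralSeries_succ_iff (n := 1)).1 hz g
    rw [Subgroup.upperCentralSeries_one] at h1
    exact h1
  have hcomm : ∀ A ∈ S, ∀ a ∈ A, a * z = z * a := by
    intro A hA a ha
    have hex : ∃ A', A' ∈ S ∧ Cfsg.IsRankOnePair A A' := by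
      by_contra hcon
      push Not at hcon
      apply hF A hA
      refine ⟨hA, fun B => ⟨?_, ?_⟩⟩
      · rintro ⟨-, hB, h⟩
        exact hcon B hB h
      · rintro ⟨hB, -, h⟩
        exact hcon B hB (Cfsg.RankOnePair_symm h)
    obtain ⟨A', hA', h⟩ := hex
    by_cases ha1 : a = 1
    · rw [ha1, one_mul, mul_one]
    by_contra hne
    set c := z * a * z⁻¹ * a⁻¹ with hc
    have hcc := hz' a
    rw [← hc] at hcc
    have hc1 : c ≠ 1 := by
      intro h1
      rw [hc, mul_inv_eq_one, mul_inv_eq_iff_eq_mul] at h1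
      exact hne h1.symm
    have h2 := CfsgH3.R1.no_central hS hA hA' h (z := c) (fun x _ => ((Subgroup.mem_center_iff.1 hcc) x).symm)
      (fun x _ => ((Subgroup.mem_center_iff.1 hcc) x).symm) hc1 a ha ha1
    apply h2
    have h3 : c * a = z * a * z⁻¹ := by rw [hc]; group
    refine ⟨?_, CfsgH7.cj z A, hS.conj_mem A hA z, ?_⟩
    · rw [h3]
      intro h4
      apply ha1
      calc a = z⁻¹ * (z * a * z⁻¹) * z := by group
        _ = 1 := by rw [h4]; group
    · rw [h3]; exact CfsgH7.conj_mem_cj ha
  have h1 : (⨆ A ∈ S, A) ≤ Subgroup.centralizer ({z} : Set G) := by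
    refine iSup₂_le ?_
    intro A hA a ha
    rw [Subgroup.mem_centralizer_singleton_iff]
    exact hcomm A hA a ha
  rw [hS.generates] at h1
  rw [Subgroup.mem_center_iff]
  intro g
  exact Subgroup.mem_centralizer_singleton_iff.1 (h1 (Subgroup.mem_top g))

end Cfsg.Agent.S5027
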