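import Mathlib
import Cfsg.Agent.H3.RootSet
import Cfsg.Statements.S5028

set_option autoImplicit false
open Cfsg

namespace Cfsg.Agent.S5028

/-- Let S be a set of abstract root subgroups of G and A a member of S having a rank one partner in S. Then A meets every other member of S trivially. -/
theorem result {G : Type*} [Group G] {S : Set (Subgroup G)} (hS : Cfsg.IsRootSubgroupSet S)
    {A : Subgroup G} (hA : ¬ Cfsg.IsIsolatedIn (Cfsg.FAdj S) S A) (hAS : A ∈ S) : ∀ B ∈ S, A ⊓ B = ⊥ ∨ A = B := by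
  have hex : ∃ A', A' ∈ S ∧ Cfsg.IsRankOnePair A A' := by
    by_contra hcon
    push Not at hcon
    apply hA
    refine ⟨hAS, fun B => ⟨?_, ?_⟩⟩
    · rintro ⟨-, hB, h⟩
      exact hcon B hB h
    · rintro ⟨hB, -, h⟩
      exact hcon B hB (Cfsg.RankOnePair_symm h)
  obtain ⟨A', hA', h⟩ := hex
  exact CfsgH3.R1.meet_trivial hS hAS hA' h

end Cfsg.Agent.S5028
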