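import Mathlib
import Cfsg.Agent.H2.Cores
import Cfsg.Statements.S5049

set_option autoImplicit false
open Cfsg

namespace Cfsg.Agent.S5049

open scoped commutatorElement

/-- Let G be a finite group generated by a set D of odd transpositions (root involutions with no product of order 4), Q = O₂(G), and for a ∈ D let Q_a be the commutator subgroup of Q with a. Then every member of D commuting with a centralizes Q_a; and for b ∈ D with ab of odd order greater than 1, the centralizer of ab in Q is the intersection of the centralizers of a and b in Q. -/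
theorem result {G : Type*} [Group G] [Finite G] {D : Set G} (hD : Cfsg.IsOddTranspositionSet D) {a : G} (ha : a ∈ D) :
    (∀ e ∈ Cfsg.commutingMembers D a, ∀ q ∈ ⁅Cfsg.pCore 2 G, Subgroup.zpowers a⁆, e * q = q * e) ∧
    (∀ b ∈ Cfsg.oddPartners D a,
      Cfsg.pCore 2 G ⊓ Subgroup.centralizer {a * b} = Cfsg.pCore 2 G ⊓ Subgroup.centralizer {a} ⊓ Subgroup.centralizer {b}) := by
  classical
  haveI hQn : (Cfsg.pCore 2 G).Normal := by
    first
      | infer_instance
      | exact Cfsg.pCore_normal
  set Q := Cfsg.pCore 2 G with hQ
  have hR := hD.1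
  have hsq : ∀ d ∈ D, d * d = 1 := by
    intro d hd
    have := pow_orderOf_eq_one d
    rwa [hR.orderOf_eq d hd, pow_two] at this
  have hinv : ∀ d ∈ D, d⁻¹ = d := fun d hd => inv_eq_of_mul_eq_one_left (hsq d hd)
  have hpair : ∀ x ∈ D, ∀ y ∈ D, x * y = y * x ∨ Odd (orderOf (x * y)) := by
    intro x hx y hy
    rcases hR.pair x hx y hy with h | h | h
    · exact Or.inl h
    · exact Or.inr h
    · exact absurd h.1 (hD.2 x hx y hy)
  have hP : ∀ x ∈ D, ∀ y ∈ D, ∀ k : ℕ, (x * y) ^ 2 ^ k = 1 → x * y = y * x := by
    intro x hx y hy k hk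
    rcases hpair x hx y hy with h | h
    · exact h
    · have h1 : orderOf (x * y) = 1 := by
        have h2 := orderOf_dvd_of_pow_eq_one hk
        obtain ⟨j, hj, hj2⟩ := (Nat.dvd_prime_pow Nat.prime_two).1 h2
        rcases Nat.eq_zero_or_pos j with h0 | h0
        · rw [hj2, h0, pow_zero]
        · exfalso
          rw [hj2] at h
          have : Even (2 ^ j) := (Nat.even_pow' h0.ne').2 even_two
          exact (Nat.not_even_iff_odd.2 h) this
      rw [orderOf_eq_one_iff] at h1
      have h2 : x = y := by
        have := eq_inv_of_mul_eq_one_left h1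
        rwa [hinv y hy] at this
      rw [h2]
  have hQp : ∀ q ∈ Q, ∃ k : ℕ, q ^ 2 ^ k = 1 := by
    intro q hq
    obtain ⟨k, hk⟩ := (CfsgH2.isPGroup_pCore (G := G) 2) ⟨q, hq⟩
    exact ⟨k, congrArg Subtype.val hk⟩
  -- e commutes with conjugates of a under Q
  have hcomm : ∀ x ∈ D, ∀ e ∈ D, e * x = x * e → ∀ q ∈ Q, e * (q * x * q⁻¹) = (q * x * q⁻¹) * e := by
    intro x hx e he hex q hq
    have hx' := hR.conj_mem x hx q
    have h1 : (e * (q * x * q⁻¹)) ^ 2 ∈ Q := by
      rw [← QuotientGroup.eq_one_iff (N := Q)]
      change QuotientGroup.mk' Q _ = 1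
      have hq1 : QuotientGroup.mk' Q q = 1 := (QuotientGroup.eq_one_iff q).2 hq
      rw [map_pow, map_mul, map_mul, map_mul, map_inv, hq1, one_mul, inv_one, mul_one, ← map_mul, ← map_pow]
      have h2 : (e * x) ^ 2 = 1 := by
        calc (e * x) ^ 2 = e * x * (e * x) := pow_two _
          _ = e * x * (x * e) := by rw [hex]
          _ = e * (x * x) * e := by group
          _ = 1 := by rw [hsq x hx, mul_one, hsq e he]
      rw [h2, map_one]
    obtain ⟨k, hk⟩ := hQp _ h1
    apply hP e he _ hx' (k + 1)
    rw [pow_succ', pow_mul]; exact hk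
  have part1 : ∀ x ∈ D, ∀ e ∈ D, e * x = x * e → ∀ q ∈ Q, e * ⁅q, x⁆ = ⁅q, x⁆ * e := by
    intro x hx e he hex q hq
    have h1 := hcomm x hx e he hex q hq
    rw [commutatorElement_def, hinv x hx]
    calc e * (q * x * q⁻¹ * x) = (e * (q * x * q⁻¹)) * x := by group
      _ = (q * x * q⁻¹) * (e * x) := by rw [h1]; group
      _ = q * x * q⁻¹ * x * e := by rw [hex]; group
  refine ⟨?_, ?_⟩
  · rintro e ⟨he, hea⟩ q hq
    have h1 : ⁅Q, Subgroup.zpowers a⁆ ≤ Subgroup.centralizer ({e} : Set G) := by
      rw [Subgroup.commutator_le]
      intro r hr z hz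
      rw [Subgroup.mem_zpowers_iff] at hz
      obtain ⟨n, rfl⟩ := hz
      rw [Subgroup.mem_centralizer_singleton_iff]
      rcases Int.even_or_odd n with hn | hn
      · obtain ⟨m, rfl⟩ := hn
        have h2 : a ^ (m + m) = 1 := by
          rw [← two_mul, zpow_mul]
          have : a ^ (2 : ℤ) = 1 := by rw [zpow_two]; exact hsq a ha
          rw [this, one_zpow]
        rw [h2, commutatorElement_one_right]; simp
      · obtain ⟨m, rfl⟩ := hn
        have h2 : a ^ (2 * m + 1) = a := by
          rw [zpow_add, zpow_mul, zpow_one]
          have : a ^ (2 : ℤ) = 1 := by rw [zpow_two]; exact hsq a ha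
          rw [this, one_zpow, one_mul]
        rw [h2]
        exact (part1 a ha e he hea r hr).symm
    exact (Subgroup.mem_centralizer_singleton_iff.1 (h1 hq)).symm
  · rintro b ⟨hb, hba, hodd⟩
    ext q
    constructor
    · rintro ⟨hq, hqc⟩
      have hqc' : q * (a * b) = a * b * q := Subgroup.mem_centralizer_singleton_iff.1 hqc
      have hqab : b * q * b = a * q * a := by
        calc b * q * b = (a * a) * b * q * b := by rw [hsq a ha, one_mul]
          _ = a * (a * b * q) * b := by group
          _ = a * (q * (a * b)) * b := by rw [hqc']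
          _ = a * q * a * (b * b) := by group
          _ = a * q * a := by rw [hsq b hb, mul_one]
      -- w
      have hwa : ⁅q⁻¹, a⁆ = q⁻¹ * (a * q * a) := by
        rw [commutatorElement_def, hinv a ha]; group
      have hwb : ⁅q⁻¹, b⁆ = q⁻¹ * (a * q * a) := by
        rw [commutatorElement_def, hinv b hb, ← hqab]; group
      set w := q⁻¹ * (a * q * a) with hw
      have hq' : q⁻¹ ∈ Q := Q.inv_mem hq
      have h1 : a * w = w * a := by
        have := part1 a ha a ha rfl q⁻¹ hq'
        rwa [hwa] at this
      have h2 : b * w = w * b := by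
        have := part1 b hb b hb rfl q⁻¹ hq'
        rwa [hwb] at this
      have hconjw : q⁻¹ * a * q = w * a := by
        rw [hw]
        calc q⁻¹ * a * q = q⁻¹ * (a * q * (a * a)) := by rw [hsq a ha]; group
          _ = q⁻¹ * (a * q * a) * a := by group
      have hw2 : w * w = 1 := by
        have h3 : (q⁻¹ * a * q) * (q⁻¹ * a * q) = 1 := by
          calc (q⁻¹ * a * q) * (q⁻¹ * a * q) = q⁻¹ * (a * a) * q := by group
            _ = 1 := by rw [hsq a ha]; group
        rw [hconjw] at h3
        calc w * w = w * w * (a * a) := by rw [hsq a ha, mul_one]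
          _ = w * (w * a) * a := by group
          _ = w * (a * w) * a := by rw [h1]
          _ = w * a * (w * a) := by group
          _ = 1 := h3
      have hwD : w * a ∈ D := by
        rw [← hconjw]
        have := hR.conj_mem a ha q⁻¹
        rwa [inv_inv] at this
      have hwab : Commute w (a * b) := by
        change w * (a * b) = a * b * w
        calc w * (a * b) = (w * a) * b := by group
          _ = a * (w * b) := by rw [← h1]; group
          _ = a * b * w := by rw [← h2]; group
      have hw1 : w = 1 := by
        rcases hpair (w * a) hwD b hb with h | h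
        · exfalso
          have h3 : (w * (a * b)) ^ 2 = 1 := by
            have h4 : w * (a * b) = w * a * b := by group
            rw [h4, pow_two]
            calc w * a * b * (w * a * b) = w * a * b * (b * (w * a)) := by rw [h]
              _ = (w * a) * (b * b) * (w * a) := by group
              _ = 1 := by rw [hsq b hb, mul_one, hsq _ hwD]
          rw [hwab.mul_pow, pow_two w, hw2, one_mul] at h3
          have h5 := orderOf_dvd_of_pow_eq_one h3
          have h6 : orderOf (a * b) = 1 := by
            rcases (Nat.dvd_prime Nat.prime_two).1 h5 with h7 | h7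
            · exact h7
            · rw [h7] at hodd; exact absurd hodd (by decide)
          rw [orderOf_eq_one_iff] at h6
          have h7 := eq_inv_of_mul_eq_one_left h6
          rw [hinv b hb] at h7
          exact hba h7.symm
        · have h4 : w * (a * b) = w * a * b := by group
          rw [← h4] at h
          have hN : Odd (orderOf (w * (a * b)) * orderOf (a * b)) := h.mul hodd
          have h5 : (w * (a * b)) ^ (orderOf (w * (a * b)) * orderOf (a * b)) = 1 := by
            rw [pow_mul, pow_orderOf_eq_one, one_pow]
          rw [hwab.mul_pow, mul_comm (orderOf (w * (a * b))), pow_mul (a * b), pow_orderOf_eq_one, one_pow, mul_one, mul_comm (orderOf (a * b))] at h5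
          obtain ⟨m, hm⟩ := hN
          rw [hm, pow_succ, pow_mul, pow_two, hw2, one_pow, one_mul] at h5
          exact h5
      have hqa : q * a = a * q := by
        rw [hw1, one_mul] at hconjw
        calc q * a = q * (q⁻¹ * a * q) := by rw [hconjw]
          _ = a * q := by group
      have hqb : q * b = b * q := by
        have h3 : a * (q * b) = a * (b * q) := by
          calc a * (q * b) = (a * q) * b := by group
            _ = q * (a * b) := by rw [← hqa]; group
            _ = a * (b * q) := by rw [hqc']; group
        exact mul_left_cancel h3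
      have g1 : q ∈ Subgroup.centralizer ({a} : Set G) := Subgroup.mem_centralizer_singleton_iff.2 hqa
      have g2 : q ∈ Subgroup.centralizer ({b} : Set G) := Subgroup.mem_centralizer_singleton_iff.2 hqb
      exact ⟨⟨hq, g1⟩, g2⟩
    · rintro ⟨⟨hq, hqa⟩, hqb⟩
      have g1 : q * a = a * q := Subgroup.mem_centralizer_singleton_iff.1 hqa
      have g2 : q * b = b * q := Subgroup.mem_centralizer_singleton_iff.1 hqb
      have g3 : q ∈ Subgroup.centralizer ({a * b} : Set G) := by
        rw [Subgroup.mem_centralizer_singleton_iff]
        calc q * (a * b) = (q * a) * b := by group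
          _ = a * (q * b) := by rw [g1]; group
          _ = a * b * q := by rw [g2]; group
      exact ⟨hq, g3⟩

end Cfsg.Agent.S5049
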