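import Mathlib
import Cfsg.Statements.S5057

set_option autoImplicit false
open Cfsg

namespace Cfsg.Agent.S5057

theorem order_le (g : Equiv.Perm (Fin 6)) (hs : Equiv.Perm.sign g = 1) : orderOf g ≤ 5 := by
  classical
  rw [← Equiv.Perm.lcm_cycleType]
  have hsum : g.cycleType.sum ≤ 6 := by
    rw [Equiv.Perm.sum_cycleType]
    have := g.support.card_le_univ
    simpa using this
  have h2 : ∀ c ∈ g.cycleType, 2 ≤ c := fun c hc => Equiv.Perm.two_le_of_mem_cycleType hc
  rw [Equiv.Perm.sign_of_cycleType] at hs
  generalize g.cycleType = m at hsum h2 hs ⊢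
  have hcard : 2 * Multiset.card m ≤ m.sum := by
    clear hsum hs
    induction m using Multiset.induction_on with
    | empty => simp
    | cons a m ih =>
      rw [Multiset.card_cons, Multiset.sum_cons]
      have := h2 a (Multiset.mem_cons_self a m)
      have := ih (fun c hc => h2 c (Multiset.mem_cons_of_mem hc))
      omega
  have hc3 : Multiset.card m ≤ 3 := by omega
  have hpar : (m.sum + Multiset.card m) % 2 = 0 := by
    by_contra hne
    have hodd : Odd (m.sum + Multiset.card m) := Nat.odd_iff.2 (by omega)
    rw [hodd.neg_one_pow] at hs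
    exact absurd hs (by decide)
  obtain h | h | h | h : Multiset.card m = 0 ∨ Multiset.card m = 1 ∨ Multiset.card m = 2 ∨ Multiset.card m = 3 := by omega
  · rw [Multiset.card_eq_zero.1 h]; simp
  · obtain ⟨a, rfl⟩ := Multiset.card_eq_one.1 h
    simp at hsum hpar ⊢
    omega
  · obtain ⟨a, b, rfl⟩ := Multiset.card_eq_two.1 h
    have ha := h2 a (by simp)
    have hb := h2 b (by simp)
    simp only [Multiset.insert_eq_cons, Multiset.sum_cons, Multiset.sum_singleton, Multiset.card_cons, Multiset.card_singleton] at hsum hpar
    simp only [Multiset.insert_eq_cons, Multiset.lcm_cons, Multiset.lcm_singleton, normalize_eq]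
    have ha4 : a ≤ 4 := by omega
    have hb4 : b ≤ 4 := by omega
    change Nat.lcm a b ≤ 5
    interval_cases a <;> interval_cases b <;> first | omega | decide
  · obtain ⟨a, b, c, rfl⟩ := Multiset.card_eq_three.1 h
    have ha := h2 a (by simp)
    have hb := h2 b (by simp)
    have hc := h2 c (by simp)
    simp only [Multiset.insert_eq_cons, Multiset.sum_cons, Multiset.sum_singleton, Multiset.card_cons, Multiset.card_singleton] at hsum hpar
    omega

theorem inv_type (g : Equiv.Perm (Fin 6)) (hs : Equiv.Perm.sign g = 1) (h2 : orderOf g = 2) : g.cycleType = {2, 2} := by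
  classical
  obtain ⟨n, hn⟩ := Equiv.Perm.cycleType_prime_order (σ := g) (by rw [h2]; exact Nat.prime_two)
  rw [h2] at hn
  have hsum : g.cycleType.sum ≤ 6 := by
    rw [Equiv.Perm.sum_cycleType]
    have := g.support.card_le_univ
    simpa using this
  rw [hn, Multiset.sum_replicate, smul_eq_mul] at hsum
  rw [Equiv.Perm.sign_of_cycleType, hn, Multiset.sum_replicate, Multiset.card_replicate, smul_eq_mul] at hs
  have hn2 : n ≤ 2 := by omega
  rw [hn]
  interval_cases n
  · exact absurd hs (by decide)
  · rfl
  · exact absurd hs (by decide)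

/-- The involutions of the alternating group of degree 6 form a class of root involutions (a single conjugacy class of involutions generating the group, any two of which commute, have product of odd order, or have product of order 4 whose square is again an involution of the class), and the product of any two of them has order at most 5. -/
theorem result :
    Cfsg.IsRootInvolutionClass {g : ↥(alternatingGroup (Fin 6)) | orderOf g = 2} ∧
    ∀ d ∈ {g : ↥(alternatingGroup (Fin 6)) | orderOf g = 2}, ∀ e ∈ {g : ↥(alternatingGroup (Fin 6)) | orderOf g = 2},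
      orderOf (d * e) ≤ 5 := by
  classical
  set D : Set ↥(alternatingGroup (Fin 6)) := {g | orderOf g = 2} with hD
  have hsgn : ∀ g : ↥(alternatingGroup (Fin 6)), Equiv.Perm.sign (g : Equiv.Perm (Fin 6)) = 1 := fun g => Equiv.Perm.mem_alternatingGroup.1 g.2
  have hle : ∀ g : ↥(alternatingGroup (Fin 6)), orderOf g ≤ 5 := by
    intro g
    rw [← Subgroup.orderOf_coe]
    exact order_le _ (hsgn g)
  have hconj : ∀ a ∈ D, ∀ b ∈ D, ∃ g : ↥(alternatingGroup (Fin 6)), b = g * a * g⁻¹ := by
    intro a ha b hb
    have ha' : orderOf (a : Equiv.Perm (Fin 6)) = 2 := by rw [Subgroup.orderOf_coe]; exact ha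
    have hb' : orderOf (b : Equiv.Perm (Fin 6)) = 2 := by rw [Subgroup.orderOf_coe]; exact hb
    have h1 := inv_type _ (hsgn a) ha'
    have h2 := inv_type _ (hsgn b) hb'
    have h3 : IsConj (a : Equiv.Perm (Fin 6)) (b : Equiv.Perm (Fin 6)) := by
      rw [Equiv.Perm.isConj_iff_cycleType_eq, h1, h2]
    have h4 : IsConj a b := alternatingGroup.isConj_of h3 (by
      rw [← Equiv.Perm.sum_cycleType, h1]; simp)
    obtain ⟨g, hg⟩ := isConj_iff.1 h4
    exact ⟨g, hg.symm⟩
  have hconjD : ∀ d ∈ D, ∀ g : ↥(alternatingGroup (Fin 6)), g * d * g⁻¹ ∈ D := by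
    intro d hd g
    change orderOf (g * d * g⁻¹) = 2
    rw [← show orderOf d = 2 from hd]
    exact orderOf_injective (MulAut.conj g).toMonoidHom (MulAut.conj g).injective d
  have hcard : 2 ∣ Nat.card ↥(alternatingGroup (Fin 6)) := by
    rw [nat_card_alternatingGroup]
    rw [Nat.card_fin]
    decide
  obtain ⟨x, hx⟩ := exists_prime_orderOf_dvd_card' 2 hcard
  refine ⟨⟨⟨fun d hd => hd, ?_, hconjD, ?_⟩, ⟨x, hx⟩, hconj⟩, fun d _ e _ => hle _⟩
  · have hN : (Subgroup.closure D).Normal := by
      refine ⟨fun y hy g => ?_⟩
      induction hy using Subgroup.closure_induction with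
      | mem y hy => exact Subgroup.subset_closure (hconjD y hy g)
      | one => simp
      | mul y z _ _ h1 h2 =>
        have h3 : g * (y * z) * g⁻¹ = (g * y * g⁻¹) * (g * z * g⁻¹) := by group
        rw [h3]; exact Subgroup.mul_mem _ h1 h2
      | inv y _ h1 =>
        have h3 : g * y⁻¹ * g⁻¹ = (g * y * g⁻¹)⁻¹ := by group
        rw [h3]; exact Subgroup.inv_mem _ h1
    haveI hsimple : IsSimpleGroup ↥(alternatingGroup (Fin 6)) := alternatingGroup.isSimpleGroup (by simp)
    rcases hsimple.eq_bot_or_eq_top_of_normal _ hN with h | h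
    · exfalso
      have h1 : x ∈ Subgroup.closure D := Subgroup.subset_closure hx
      rw [h, Subgroup.mem_bot] at h1
      rw [h1, orderOf_one] at hx
      exact absurd hx (by decide)
    · exact h
  · intro a ha b hb
    have h1 := hle (a * b)
    have hpos := orderOf_pos (a * b)
    have hsa : a * a = 1 := by
      have := pow_orderOf_eq_one a
      rwa [show orderOf a = 2 from ha, pow_two] at this
    have hsb : b * b = 1 := by
      have := pow_orderOf_eq_one b
      rwa [show orderOf b = 2 from hb, pow_two] at this
    have hcases : orderOf (a * b) = 2 ∨ Odd (orderOf (a * b)) ∨ orderOf (a * b) = 4 := by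
      rw [Nat.odd_iff]; omega
    rcases hcases with h | h | h
    · left
      have h2 : (a * b) * (a * b) = 1 := by
        have := pow_orderOf_eq_one (a * b)
        rwa [h, pow_two] at this
      calc a * b = a * b * ((b * a) * (b * a)⁻¹) := by group
        _ = (a * (b * b) * a) * (b * a)⁻¹ := by group
        _ = (b * a)⁻¹ := by rw [hsb, mul_one, hsa, one_mul]
        _ = (b * a)⁻¹ * ((a * b) * (a * b))⁻¹ * ((a * b) * (a * b)) := by group
        _ = a⁻¹ * b⁻¹ * b⁻¹ * a⁻¹ * b⁻¹ * a⁻¹ * ((a * b) * (a * b)) := by group
        _ = b * a := by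
          have hia : a⁻¹ = a := inv_eq_of_mul_eq_one_left hsa
          have hib : b⁻¹ = b := inv_eq_of_mul_eq_one_left hsb
          rw [h2, mul_one, hia, hib]
          calc a * b * b * a * b * a = a * (b * b) * a * b * a := by group
            _ = b * a := by rw [hsb, mul_one, hsa, one_mul]
    · right; left; exact h
    · right; right
      refine ⟨h, ?_⟩
      change orderOf ((a * b) ^ 2) = 2
      rw [orderOf_pow_of_dvd (by norm_num) (by rw [h]; norm_num), h]

end Cfsg.Agent.S5057
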