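import Mathlib
import Cfsg.Statements.S5067

set_option autoImplicit false
open Cfsg
open scoped commutatorElement

namespace Cfsg.Agent.S5067

/-- Let P be a non-abelian nilpotent p-group (every element of p-power order; P possibly infinite) generated by two abelian subgroups E and F. Then the normal closure of E in P, and likewise that of F, has nilpotency class strictly smaller than that of P. -/
theorem result {P : Type*} [Group P] {p : ℕ} [Fact p.Prime] (hP : IsPGroup p P) [Group.IsNilpotent P]
    (hna : ¬ IsMulCommutative P) {E F : Subgroup P} (hE : IsMulCommutative ↥E) (hF : IsMulCommutative ↥F) (hgen : E ⊔ F = ⊤) :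
    Group.nilpotencyClass ↥(Subgroup.normalClosure (E : Set P)) < Group.nilpotencyClass P ∧
    Group.nilpotencyClass ↥(Subgroup.normalClosure (F : Set P)) < Group.nilpotencyClass P := by
  classical
  -- P' and the third term
  have hgen' : ∀ A : Subgroup P, IsMulCommutative ↥A → Group.nilpotencyClass ↥(Subgroup.normalClosure (A : Set P)) < Group.nilpotencyClass P := by
    intro A hA
    set N := Subgroup.normalClosure (A : Set P) with hN
    set K := (⊤ : Subgroup P).lowerCentralSeries 2 with hK
    haveI hKn : K.Normal := by rw [hK]; infer_instance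
    haveI hDn : (commutator P).Normal := inferInstance
    have hAcomm : ∀ a ∈ A, ∀ b ∈ A, a * b = b * a := fun a ha b hb =>
      congrArg Subtype.val (hA.is_comm.comm (⟨a, ha⟩ : A) ⟨b, hb⟩)
    -- N ≤ A ⊔ P'
    have hsupn : (A ⊔ commutator P).Normal := by
      refine ⟨fun x hx g => ?_⟩
      have h1 : ⁅g, x⁆ ∈ commutator P := Subgroup.commutator_mem_commutator (Subgroup.mem_top g) (Subgroup.mem_top x)
      have h2 : g * x * g⁻¹ = ⁅g, x⁆ * x := by rw [commutatorElement_def]; group
      rw [h2]
      exact (A ⊔ commutator P).mul_mem ((le_sup_right : commutator P ≤ _) h1) hx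
    have hNle : N ≤ A ⊔ commutator P := Subgroup.normalClosure_le_normal (show (A : Set P) ⊆ (A ⊔ commutator P : Subgroup P) from fun x hx => (le_sup_left : A ≤ _) hx)
    -- [P', P] ≤ K
    have hPK : ∀ d ∈ commutator P, ∀ x : P, ⁅d, x⁆ ∈ K := by
      intro d hd x
      have h1 : (⊤ : Subgroup P).lowerCentralSeries 2 = ⁅(⊤ : Subgroup P).lowerCentralSeries 1, (⊤ : Subgroup P)⁆ := rfl
      rw [hK, h1]
      apply Subgroup.commutator_mem_commutator _ (Subgroup.mem_top x)
      rw [Subgroup.top_lowerCentralSeries_one]
      exact hd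
    have hq : ∀ d ∈ commutator P, ∀ x : P, (QuotientGroup.mk' K d) * QuotientGroup.mk' K x = QuotientGroup.mk' K x * QuotientGroup.mk' K d := by
      intro d hd x
      have h1 : QuotientGroup.mk' K ⁅d, x⁆ = 1 := (QuotientGroup.eq_one_iff _).2 (hPK d hd x)
      rw [map_commutatorElement] at h1
      exact commutatorElement_eq_one_iff_mul_comm.1 h1
    have hNK : ∀ x ∈ N, ∀ y ∈ N, ⁅x, y⁆ ∈ K := by
      intro x hx y hy
      obtain ⟨a, ha, d, hd, rfl⟩ := Subgroup.mem_sup_of_normal_right.1 (hNle hx)
      obtain ⟨b, hb, e, he, rfl⟩ := Subgroup.mem_sup_of_normal_right.1 (hNle hy)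
      rw [← QuotientGroup.eq_one_iff (N := K)]
      change QuotientGroup.mk' K ⁅a * d, b * e⁆ = 1
      rw [map_commutatorElement, commutatorElement_eq_one_iff_mul_comm, map_mul, map_mul]
      have h1 : QuotientGroup.mk' K a * QuotientGroup.mk' K b = QuotientGroup.mk' K b * QuotientGroup.mk' K a := by
        rw [← map_mul, hAcomm a ha b hb, map_mul]
      have h2 := hq d hd
      have h3 := hq e he
      set α := QuotientGroup.mk' K a
      set β := QuotientGroup.mk' K b
      set δ := QuotientGroup.mk' K d
      set ε := QuotientGroup.mk' K e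
      have h2b : δ * β = β * δ := h2 b
      have h2e : δ * ε = ε * δ := h2 e
      have h3a : ε * α = α * ε := h3 a
      calc α * δ * (β * ε) = α * (δ * β) * ε := by group
        _ = (α * β) * (δ * ε) := by rw [h2b]; group
        _ = (β * α) * (ε * δ) := by rw [h1, h2e]
        _ = β * (α * ε) * δ := by group
        _ = β * (ε * α) * δ := by rw [h3a]
        _ = β * ε * (α * δ) := by group
    -- the series of N sits one step lower
    have hser : ∀ i : ℕ, ((⊤ : Subgroup N).lowerCentralSeries (i + 1)).map N.subtype ≤ (⊤ : Subgroup P).lowerCentralSeries (i + 2) := by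
      intro i
      induction i with
      | zero =>
        rw [Subgroup.map_le_iff_le_comap]
        have h1 : (⊤ : Subgroup N).lowerCentralSeries (0 + 1) = ⁅(⊤ : Subgroup N), (⊤ : Subgroup N)⁆ := rfl
        rw [h1, Subgroup.commutator_le]
        intro x _ y _
        rw [Subgroup.mem_comap]
        exact hNK x x.2 y y.2
      | succ i ih =>
        rw [Subgroup.map_le_iff_le_comap] at ih ⊢
        have h1 : (⊤ : Subgroup N).lowerCentralSeries (i + 1 + 1) = ⁅(⊤ : Subgroup N).lowerCentralSeries (i + 1), (⊤ : Subgroup N)⁆ := rfl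
        rw [h1, Subgroup.commutator_le]
        intro x hx y _
        rw [Subgroup.mem_comap]
        have h2 : (⊤ : Subgroup P).lowerCentralSeries (i + 1 + 2) = ⁅(⊤ : Subgroup P).lowerCentralSeries (i + 2), (⊤ : Subgroup P)⁆ := rfl
        rw [h2]
        exact Subgroup.commutator_mem_commutator (ih hx) (Subgroup.mem_top _)
    -- the class of P is at least two
    have hc : 2 ≤ Group.nilpotencyClass P := by
      by_contra hcon
      apply hna
      have h1 : (⊤ : Subgroup P).lowerCentralSeries 1 = ⊥ := by
        rw [Subgroup.lowerCentralSeries_eq_bot_iff_nilpotencyClass_le]; omega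
      rw [Subgroup.top_lowerCentralSeries_one] at h1
      refine ⟨⟨fun a b => ?_⟩⟩
      have h2 : ⁅a, b⁆ ∈ commutator P := Subgroup.commutator_mem_commutator (Subgroup.mem_top a) (Subgroup.mem_top b)
      rw [h1, Subgroup.mem_bot] at h2
      exact commutatorElement_eq_one_iff_mul_comm.1 h2
    obtain ⟨c, hcc⟩ : ∃ c, Group.nilpotencyClass P = c + 2 := ⟨Group.nilpotencyClass P - 2, by omega⟩
    have h1 := hser c
    have h2 : (⊤ : Subgroup P).lowerCentralSeries (c + 2) = ⊥ := by
      rw [Subgroup.lowerCentralSeries_eq_bot_iff_nilpotencyClass_le]; omega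
    rw [h2, le_bot_iff, Subgroup.map_eq_bot_iff_of_injective _ N.subtype_injective] at h1
    rw [Subgroup.lowerCentralSeries_eq_bot_iff_nilpotencyClass_le] at h1
    omega
  exact ⟨hgen' E hE, hgen' F hF⟩

end Cfsg.Agent.S5067
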