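import Cfsg.Statements.S5087
import Cfsg.Agent.H8.FusNormal2

set_option autoImplicit false
open Cfsg

namespace Cfsg.Agent.S5087

/-- In a saturated fusion system over a finite p-group S, a subgroup Q is normal in the system if and only if every subgroup P that equals S or is essential contains Q and every element of Aut_F(P) maps Q onto itself. -/
theorem result {Ω : Type*} [Group Ω] {S : Subgroup Ω} [Finite S] (p : ℕ) [Fact p.Prime] (hS : IsPGroup p S) (F : Cfsg.FusionSystem S) (hF : F.IsSaturated p) (Q : Subgroup Ω) : F.IsNormal Q ↔ ∀ P : Subgroup Ω, (P = S ∨ F.IsEssential p P) → (Q ≤ P ∧ ∀ α ∈ F.autGroup P, (Q.subgroupOf P).map α.toMonoidHom = Q.subgroupOf P) := by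
  rw [CfsgH8.normal_iff_essential hS hF]
  apply forall_congr'
  intro P
  apply imp_congr_right
  intro hP
  apply and_congr_right
  intro hQP
  apply forall_congr'
  intro α
  apply imp_congr_right
  intro hα
  have hPS : P ≤ S := by
    rcases hP with rfl | hP
    · exact le_rfl
    · exact hP.1.1
  haveI : Finite P := CfsgH8.finite_of_le hPS
  constructor
  · intro h
    apply Subgroup.eq_of_le_of_card_ge
    · rintro _ ⟨x, hx, rfl⟩
      have := h x hx
      rwa [CfsgH8.av_coe] at this
    · rw [Subgroup.card_map_of_injective α.injective]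
  · intro h x hx
    have h1 : α ⟨x, hQP hx⟩ ∈ Q.subgroupOf P := by
      rw [← h]; exact ⟨⟨x, hQP hx⟩, hx, rfl⟩
    rw [CfsgH8.av_of_mem _ (hQP hx)]
    exact h1

end Cfsg.Agent.S5087
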