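import Cfsg.Statements.S5094
import Cfsg.Agent.H8.ZStarFus

set_option autoImplicit false
open Cfsg

namespace Cfsg.Agent.S5094

/-- Glauberman's Z*-Theorem in fusion language: for a finite group G with Sylow 2-subgroup S, the centre of the fusion system of G on S is the set of elements of S whose image in G/O(G) is central, O(G) being the largest normal subgroup of odd order. -/
theorem result {G : Type*} [Group G] [Finite G] (S : Sylow 2 G) : (Cfsg.groupFusionSystem (S : Subgroup G)).center = (S : Subgroup G) ⊓ (Subgroup.center (G ⧸ Cfsg.oddCore G)).comap (QuotientGroup.mk' (Cfsg.oddCore G)) := by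
    have hF : (Cfsg.groupFusionSystem (S : Subgroup G)).IsSaturated 2 := CfsgH8.sylow_saturated S
    ext z
    constructor
    · intro hz
      have hzS : z ∈ (S : Subgroup G) := ((CfsgH8.mem_center_iff' S.isPGroup' hF).1 hz).1
      refine ⟨hzS, ?_⟩
      show QuotientGroup.mk' (Cfsg.oddCore G) z ∈ Subgroup.center (G ⧸ Cfsg.oddCore G)
      rw [Subgroup.mem_center_iff]
      intro g'
      obtain ⟨g, rfl⟩ := QuotientGroup.mk'_surjective _ g'
      have h1 := CfsgH8.zstar_sub _ S (Cfsg.groupFusionSystem (S : Subgroup G)).center rfl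
        (fun x hx => ((CfsgH8.mem_center_iff' S.isPGroup' hF).1 hx).1) (fun w hw g hg => by
          have hwS := ((CfsgH8.mem_center_iff' S.isPGroup' hF).1 hw).1
          refine ((CfsgH8.mem_center_iff' S.isPGroup' hF).1 hw).2 (Subgroup.zpowers w) (CfsgH8.cj g)
            (CfsgH8.mor_group.2 ⟨by rwa [Subgroup.zpowers_le], ?_, g, fun x _ => rfl⟩) (Subgroup.mem_zpowers w)
          rintro _ ⟨k, rfl⟩
          show g * w ^ k * g⁻¹ ∈ (S : Subgroup G)
          rw [← conj_zpow]
          exact Subgroup.zpow_mem _ hg k) z hz g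
      have h2 : QuotientGroup.mk' (Cfsg.oddCore G) (z * g * z⁻¹ * g⁻¹) = 1 := (QuotientGroup.eq_one_iff _).2 h1
      rw [map_mul, map_mul, map_mul, map_inv, map_inv, mul_inv_eq_one, mul_inv_eq_iff_eq_mul] at h2
      exact h2.symm
    · rintro ⟨hzS, hz⟩
      have hz' : QuotientGroup.mk' (Cfsg.oddCore G) z ∈ Subgroup.center (G ⧸ Cfsg.oddCore G) := hz
      rw [Subgroup.mem_center_iff] at hz'
      refine (CfsgH8.mem_center_iff' S.isPGroup' hF).2 ⟨hzS, fun P f hf hzP => ?_⟩
      obtain ⟨h1, h2, g, h3⟩ := CfsgH8.mor_group.1 hf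
      have h4 := h2 z hzP
      rw [h3 z hzP] at h4 ⊢
      have h5 : z⁻¹ * (g * z * g⁻¹) ∈ Cfsg.oddCore G := by
        apply (QuotientGroup.eq_one_iff _).1
        have h6 := hz' (QuotientGroup.mk' (Cfsg.oddCore G) g)
        show QuotientGroup.mk' (Cfsg.oddCore G) (z⁻¹ * (g * z * g⁻¹)) = 1
        rw [map_mul, map_mul, map_mul, map_inv, map_inv, h6]
        group
      have h6 : z⁻¹ * (g * z * g⁻¹) ∈ (S : Subgroup G) := (S : Subgroup G).mul_mem ((S : Subgroup G).inv_mem hzS) h4
      have h7 : z⁻¹ * (g * z * g⁻¹) = 1 := by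
        obtain ⟨k, hk⟩ := S.isPGroup' ⟨_, h6⟩
        have hk' : (z⁻¹ * (g * z * g⁻¹)) ^ 2 ^ k = 1 := congrArg Subtype.val hk
        have h8 : orderOf (z⁻¹ * (g * z * g⁻¹)) ∣ Nat.card (Cfsg.oddCore G) := by
          have := orderOf_dvd_natCard (⟨_, h5⟩ : ↥(Cfsg.oddCore G))
          rwa [← Subgroup.orderOf_coe] at this
        have h9 : orderOf (z⁻¹ * (g * z * g⁻¹)) ∣ 2 ^ k := orderOf_dvd_of_pow_eq_one hk'
        have h10 : Nat.Coprime (Nat.card (Cfsg.oddCore G)) (2 ^ k) := (CfsgH2.coprime_card_pPrimeCore 2).pow_right k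
        have h11 := Nat.dvd_gcd h8 h9
        rw [h10, Nat.dvd_one, orderOf_eq_one_iff] at h11
        exact h11
      rw [inv_mul_eq_one] at h7
      exact h7.symm

end Cfsg.Agent.S5094
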