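import Cfsg.Statements.S5107
import Cfsg.Agent.H8.Easy2

set_option autoImplicit false
open Cfsg

namespace Cfsg.Agent.S5107

/-- If a Sylow p-subgroup S of a finite group G has nilpotency class at most two and its centre is strongly closed in S with respect to G, then every map of the fusion system of G on S is conjugation by an element of N_G(S), and S is the largest subgroup normal in that fusion system. -/
theorem result {G : Type*} [Group G] [Finite G] (p : ℕ) [Fact p.Prime] (S : Sylow p G) (hcl : ⁅(S : Subgroup G), (S : Subgroup G)⁆ ≤ (S : Subgroup G) ⊓ Subgroup.centralizer ((S : Subgroup G) : Set G)) (hZ : Cfsg.IsStronglyClosed ((S : Subgroup G) ⊓ Subgroup.centralizer ((S : Subgroup G) : Set G)) (S : Subgroup G)) : (∀ (P : Subgroup G) (φ : P →* G), φ ∈ (Cfsg.groupFusionSystem (S : Subgroup G)).Hom P → ∃ g ∈ Subgroup.normalizer ((S : Subgroup G) : Set G), ∀ x : P, φ x = g * (x : G) * g⁻¹) ∧ (Cfsg.groupFusionSystem (S : Subgroup G)).core = S := by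
  have hF := CfsgH8.sylow_saturated S
  have hS : IsPGroup p (S : Subgroup G) := S.isPGroup'
  have hZ' : (Cfsg.groupFusionSystem (S : Subgroup G)).StronglyClosed ((S : Subgroup G) ⊓ Subgroup.centralizer ((S : Subgroup G) : Set G)) := by
    rw [CfsgH8.stronglyClosed_iff]
    refine ⟨inf_le_left, fun R f hf x hxR hx => ?_⟩
    obtain ⟨h1, h2, g, hg⟩ := CfsgH8.mor_group.1 hf
    rw [hg x hxR]
    exact hZ.2 x hx g (hg x hxR ▸ h2 x hxR)
  have hN : (Cfsg.groupFusionSystem (S : Subgroup G)).IsNormal (S : Subgroup G) := by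
    refine CfsgH8.normal_of_two_chain hS hF CfsgH8.closed_top hZ' inf_le_left (fun x hx y hy => hcl (Subgroup.commutator_mem_commutator hx hy)) (fun x hx y hy => ?_)
    exact (Subgroup.mem_centralizer_iff.1 hx.2 y hy).symm
  refine ⟨fun P φ hφ => ?_, CfsgH8.core_eq_of_top_normal hN⟩
  obtain ⟨α, hα, h⟩ := CfsgH8.extend_of_top_normal hN (CfsgH8.mor_of_hom hφ)
  obtain ⟨h1, h2, g, hg⟩ := CfsgH8.mor_group.1 ((CfsgH8.mem_autGroup le_rfl).1 hα)
  have hPS : P ≤ S := (CfsgH8.mor_of_hom hφ).le
  refine ⟨g, CfsgH8.mem_normalizer_of_conj hg, fun x => ?_⟩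
  rw [← hg x (hPS x.2), h x x.2, CfsgH8.extF_of_mem _ x.2]

end Cfsg.Agent.S5107
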