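import Cfsg.Statements.S5122
import Cfsg.Agent.H8.FusKSat

set_option autoImplicit false
open Cfsg

namespace Cfsg.Agent.S5122

/-- Let G be a finite group with Sylow p-subgroup S. Every subgroup P of S has a G-conjugate Q ≤ S such that N_S(Q) is a Sylow p-subgroup of N_G(Q); and for any Q ≤ S with that property, C_S(Q) is a Sylow p-subgroup of C_G(Q) and the automorphisms of Q induced by N_S(Q) form a Sylow p-subgroup of those induced by N_G(Q). -/
theorem result {G : Type*} [Group G] [Finite G] (p : ℕ) [Fact p.Prime] (S : Sylow p G) : (∀ P : Subgroup G, P ≤ S → ∃ g : G, P.map (MulAut.conj g).toMonoidHom ≤ S ∧ (∃ R : Sylow p ↥(Subgroup.normalizer ((P.map (MulAut.conj g).toMonoidHom : Subgroup G) : Set G)), (R : Subgroup ↥(Subgroup.normalizer ((P.map (MulAut.conj g).toMonoidHom : Subgroup G) : Set G))) = (Cfsg.FusionSystem.normalizerIn (S : Subgroup G) (P.map (MulAut.conj g).toMonoidHom)).subgroupOf (Subgroup.normalizer ((P.map (MulAut.conj g).toMonoidHom : Subgroup G) : Set G))))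 ∧ ∀ Q : Subgroup G, Q ≤ S → (∃ R : Sylow p ↥(Subgroup.normalizer (Q : Set G)), (R : Subgroup ↥(Subgroup.normalizer (Q : Set G))) = (Cfsg.FusionSystem.normalizerIn (S : Subgroup G) Q).subgroupOf (Subgroup.normalizer (Q : Set G))) → (∃ R : Sylow p ↥(Subgroup.centralizer (Q : Set G)), (R : Subgroup ↥(Subgroup.centralizer (Q : Set G))) = (Cfsg.FusionSystem.centralizerIn (S : Subgroup G) Q).subgroupOf (Subgroup.centralizer (Q : Set G))) ∧ (∃ R : Sylow p ↥(Cfsg.autInducedBy ⊤ Q), (R : Subgroup ↥(Cfsg.autInducedBy ⊤ Q)) = (Cfsg.autInducedBy (S : Subgroup G) Q).subgroupOf (Cfsg.autInducedBy ⊤ Q)) := by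
  haveI h0 := CfsgH8.isSyl_sylow S
  refine ⟨fun P hP => ?_, fun Q hQ h => ?_⟩
  · obtain ⟨g, h1, h2⟩ := CfsgH8.exists_conj_isSyl_normalizer h0 hP
    rw [CfsgH8.img_cj] at h1 h2
    exact ⟨g, h1, (CfsgH8.isSyl_iff_sylow.1 h2).2⟩
  · have h2 : CfsgH8.IsSyl p (Cfsg.FusionSystem.normalizerIn (S : Subgroup G) Q) (Subgroup.normalizer (Q : Set G)) :=
      CfsgH8.isSyl_iff_sylow.2 ⟨inf_le_right, h⟩
    constructor
    · have h3 := h2.inf_normal (N := Subgroup.centralizer (Q : Set G)) (Subgroup.centralizer_le_normalizer _)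
        (by
          rw [← Subgroup.normal_subgroupOf_iff_le_normalizer (Subgroup.centralizer_le_normalizer _)]
          infer_instance)
      have h4 : Cfsg.FusionSystem.normalizerIn (S : Subgroup G) Q ⊓ Subgroup.centralizer (Q : Set G) =
          Cfsg.FusionSystem.centralizerIn (S : Subgroup G) Q := by
        apply le_antisymm
        · exact le_inf (inf_le_left.trans inf_le_left) inf_le_right
        · exact le_inf CfsgH8.centralizerIn_le_normalizerIn inf_le_right
      rw [h4] at h3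
      exact (CfsgH8.isSyl_iff_sylow.1 h3).2
    · have h5 := CfsgH8.group_fullyAutomized hQ h2
      rw [CfsgH8.fullyAutomized_iff, CfsgH8.group_autGroup hQ] at h5
      have h6 : (CfsgH8.cjHom Q).range = Cfsg.autInducedBy ⊤ Q := by
        rw [CfsgH8.autInducedBy_eq_map, Subgroup.top_subgroupOf, ← MonoidHom.range_eq_map]
      rw [h6] at h5
      haveI : Finite (MulAut Q) := CfsgH8.finite_mulAut
      exact (CfsgH8.isSyl_iff_sylow.1 h5.2).2

end Cfsg.Agent.S5122
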