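import Cfsg.Statements.S5123
import Cfsg.Agent.H8.FusKSat

set_option autoImplicit false
open Cfsg

namespace Cfsg.Agent.S5123

/-- Let G be a finite group with Sylow p-subgroup S, P, Q ≤ S and g ∈ G with gPg⁻¹ = Q, and suppose N_S(Q) is a Sylow p-subgroup of N_G(Q). Let N be the set of x ∈ N_S(P) with gxg⁻¹ ∈ N_S(Q)C_G(Q). Then some h ∈ C_G(Q) satisfies (hg)N(hg)⁻¹ ≤ S. -/
theorem result {G : Type*} [Group G] [Finite G] (p : ℕ) [Fact p.Prime] (S : Sylow p G) (P Q : Subgroup G) (hP : P ≤ S) (hQ : Q ≤ S) (g : G) (hg : P.map (MulAut.conj g).toMonoidHom = Q) (hN : (∃ R : Sylow p ↥(Subgroup.normalizer (Q : Set G)), (R : Subgroup ↥(Subgroup.normalizer (Q : Set G))) = (Cfsg.FusionSystem.normalizerIn (S : Subgroup G) Q).subgroupOf (Subgroup.normalizer (Q : Set G)))) : ∃ h ∈ Subgroup.centralizer (Q : Set G), ((Cfsg.FusionSystem.normalizerIn (S : Subgroup G) P) ⊓ (Cfsg.FusionSystem.normalizerIn (S : Subgroup G) Q ⊔ Subgroup.centralizer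 (Q : Set G)).comap (MulAut.conj g).toMonoidHom).map (MulAut.conj (h * g)).toMonoidHom ≤ S := by
  have h0 := CfsgH8.isSyl_sylow S
  have h2 : CfsgH8.IsSyl p (Cfsg.FusionSystem.normalizerIn (S : Subgroup G) Q) (Subgroup.normalizer (Q : Set G)) :=
    CfsgH8.isSyl_iff_sylow.2 ⟨inf_le_right, hN⟩
  set N := Cfsg.FusionSystem.normalizerIn (S : Subgroup G) Q with hNdef
  set C := Subgroup.centralizer (Q : Set G) with hC
  have hle : N ⊔ C ≤ Subgroup.normalizer (Q : Set G) := sup_le inf_le_right (Subgroup.centralizer_le_normalizer _)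
  have hsyl : CfsgH8.IsSyl p N (N ⊔ C) := h2.mono le_sup_left hle
  have hNn : N ≤ Subgroup.normalizer (C : Set G) := by
    have h1 : C ≤ Subgroup.normalizer (Q : Set G) := Subgroup.centralizer_le_normalizer _
    have h3 : Subgroup.normalizer (Q : Set G) ≤ Subgroup.normalizer (C : Set G) := by
      rw [← Subgroup.normal_subgroupOf_iff_le_normalizer h1]
      infer_instance
    exact inf_le_right.trans h3
  set M := Cfsg.FusionSystem.normalizerIn (S : Subgroup G) P ⊓ (N ⊔ C).comap (MulAut.conj g).toMonoidHom with hM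
  have hMp : IsPGroup p (M.map (MulAut.conj g).toMonoidHom) :=
    (S.isPGroup'.to_le (inf_le_left.trans inf_le_left)).map _
  have hMle : M.map (MulAut.conj g).toMonoidHom ≤ N ⊔ C := by
    rintro _ ⟨x, hx, rfl⟩; exact hx.2
  obtain ⟨a, ha, ha'⟩ := hsyl.exists_conj_le hMle hMp
  rw [← SetLike.mem_coe, Subgroup.coe_mul_of_left_le_normalizer_right _ _ hNn, Set.mem_mul] at ha
  obtain ⟨n, hn, c, hc, rfl⟩ := ha
  refine ⟨c, hc, ?_⟩
  rintro _ ⟨x, hx, rfl⟩
  have h5 := ha' _ ⟨x, hx, rfl⟩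
  have h6 := (S : Subgroup G).mul_mem ((S : Subgroup G).mul_mem ((S : Subgroup G).inv_mem hn.1) h5.1) hn.1
  show c * g * x * (c * g)⁻¹ ∈ (S : Subgroup G)
  have e : n⁻¹ * (n * c * (MulAut.conj g).toMonoidHom x * (n * c)⁻¹) * n = c * g * x * (c * g)⁻¹ := by
    show n⁻¹ * (n * c * (g * x * g⁻¹) * (n * c)⁻¹) * n = c * g * x * (c * g)⁻¹
    group
  rw [← e]; exact h6

end Cfsg.Agent.S5123
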