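import Cfsg.Statements.S5139
import Cfsg.Agent.H8.GrpRes

set_option autoImplicit false
open Cfsg

namespace Cfsg.Agent.S5139

/-- Let G be a finite group with Sylow p-subgroup S and O^p(G) the subgroup generated by the elements of order prime to p. Then the p-residual subsystem of the fusion system of G on S — the saturated subsystem of p-power index over the hyperfocal subgroup — is the fusion system of O^p(G) on S ∩ O^p(G): its maps are exactly the conjugation maps by elements of O^p(G) between subgroups of S ∩ O^p(G). -/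
theorem result {G : Type*} [Group G] [Finite G] (p : ℕ) [Fact p.Prime] (S : Sylow p G) (E : Cfsg.FusionSystem ((Cfsg.groupFusionSystem (S : Subgroup G)).hyperfocalSubgroup p)) (hE : (Cfsg.groupFusionSystem (S : Subgroup G)).IsPResidual p E) : ∃ h : (S : Subgroup G) ⊓ Cfsg.pResidual p G ≤ Cfsg.pResidual p G, ∀ P : Subgroup G, E.Hom P = (Cfsg.fusionSystemOfSubgroup (Cfsg.pResidual p G) ((S : Subgroup G) ⊓ Cfsg.pResidual p G) h).Hom P := by
  haveI hn := CfsgH3.pResidual_normal' p G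
  have hS : IsPGroup p ↥(S : Subgroup G) := S.isPGroup'
  have hF := CfsgH8.sylow_saturated S
  have hSyl : CfsgH8.IsSyl p ((S : Subgroup G) ⊓ Cfsg.pResidual p G) (Cfsg.pResidual p G) := by
    have h1 : CfsgH8.IsSyl p (S : Subgroup G) ⊤ := CfsgH8.isSyl_sylow S
    exact h1.inf_normal le_top (by rw [Subgroup.normalizer_eq_top])
  refine ⟨hSyl.1, fun P => ?_⟩
  have hsat := CfsgH8.subgroup_saturated (p := p) hSyl.1 hSyl
  have hPR : CfsgH8.PR p (Cfsg.groupFusionSystem (S : Subgroup G)) (Cfsg.fusionSystemOfSubgroup (Cfsg.pResidual p G) ((S : Subgroup G) ⊓ Cfsg.pResidual p G) hSyl.1) := by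
    refine ⟨(CfsgH8.grp_hyp S).symm, hsat, CfsgH8.grp_sub hSyl.1 inf_le_left, fun Q hQ => ?_⟩
    apply CfsgH8.OpAut_induction
    intro α hα hαp
    obtain ⟨hPT, -, g, h1⟩ := CfsgH8.mor_group.1 ((CfsgH8.mem_autGroup (hQ.trans inf_le_left)).1 hα)
    obtain ⟨h, hh, hhp, h2⟩ := CfsgH8.coprime_aut_lift hαp h1
    rw [CfsgH8.mem_autGroup hQ, CfsgH8.mor_subgroup]
    exact ⟨hQ, fun x hx => hQ (CfsgH8.av_mem _ hx), h, Subgroup.subset_closure hhp, h2⟩
  have h1 := CfsgH8.same_of_PR hS hS ⟨rfl, fun _ _ => rfl⟩ (CfsgH8.PR_of_isPResidual hE) hPR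
  ext φ
  rw [CfsgH8.hom_iff, CfsgH8.hom_iff]
  exact h1 P _

end Cfsg.Agent.S5139
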