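import Cfsg.Statements.S5344
import Cfsg.Agent.H2.ThreeStr

set_option autoImplicit false
open Cfsg
open scoped commutatorElement

namespace Cfsg.Agent.S5344

/-- In a set of 3-transpositions, let a, b, c be members with a and c different and commuting, while neither a nor c commutes with b (a 3-string). Then there is an injective homomorphism from the symmetric group of degree 4 into the ambient group sending the transpositions (0 1), (1 2), (2 3) to a, b, c; so a, b, c generate a copy of the symmetric group of degree 4 in which they are transpositions. -/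
theorem result {G : Type*} [Group G] {D : Set G} (hD : Cfsg.IsThreeTranspositionSet D) {a b c : G} (ha : a ∈ D) (hb : b ∈ D) (hc : c ∈ D) (hac : a ≠ c) (hac' : Commute a c) (hab : ¬ Commute a b) (hbc : ¬ Commute b c) : ∃ φ : Equiv.Perm (Fin 4) →* G, Function.Injective φ ∧ φ (Equiv.swap 0 1) = a ∧ φ (Equiv.swap 1 2) = b ∧ φ (Equiv.swap 2 3) = c := by
  have hsq : ∀ d ∈ D, d * d = 1 := fun d hd => by
    have := pow_orderOf_eq_one d
    rwa [hD.1 d hd, pow_two] at this
  have key : ∀ u v : G, u ∈ D → v ∈ D → ¬ Commute u v → v * (u * v) = u * (v * u) := by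
    intro u v hu hv huv
    have huu := hsq u hu
    have hvv := hsq v hv
    rcases hD.2 u hu v hv with h | h
    · exfalso
      apply huv
      have h1 : u * v * (u * v) = 1 := by rw [← pow_two]; exact h
      have h2 : u * v = (u * v)⁻¹ := eq_inv_of_mul_eq_one_left h1
      rw [mul_inv_rev, ← eq_inv_of_mul_eq_one_left hvv, ← eq_inv_of_mul_eq_one_left huu] at h2
      exact h2
    · have h1 : u * v * (u * v) * (u * v) = 1 := by
        have : (u * v) ^ 3 = u * v * (u * v) * (u * v) := by rw [pow_succ, pow_two]
        rw [← this]; exact h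
      calc v * (u * v) = (u * u) * (v * (u * v)) * ((u * v) * (u * v)⁻¹) := by rw [huu]; group
        _ = u * ((u * v * (u * v)) * (u * v)) * (u * v)⁻¹ := by group
        _ = u * (u * v)⁻¹ := by rw [h1, mul_one]
        _ = u * (v⁻¹ * u⁻¹) := by rw [mul_inv_rev]
        _ = u * (v * u) := by rw [← eq_inv_of_mul_eq_one_left hvv, ← eq_inv_of_mul_eq_one_left huu]
  exact CfsgH2.exists_hom_S4 (hsq a ha) (hsq b hb) (hsq c hc) hac'.eq.symm (key a b ha hb hab) (key b c hb hc hbc) hac

end Cfsg.Agent.S5344
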