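import Mathlib
import Cfsg.Agent.H7.Syl
import Cfsg.Statements.S5345

set_option autoImplicit false
open Cfsg

namespace Cfsg.Agent.S5345

/-- Let D be a conjugation-invariant generating set of 3-transpositions of a finite group G and T a Sylow 2-subgroup of G. Then the members of D lying in T generate an abelian subgroup, and their number is the width of D (the largest number of pairwise commuting members of D). -/
theorem result {G : Type*} [Group G] [Finite G] {D : Set G} (hD : Cfsg.IsThreeTranspositionGroup D) (T : Sylow 2 G) : IsMulCommutative (Subgroup.closure {d : G | d ∈ D ∧ d ∈ T}) ∧ {d : G | d ∈ D ∧ d ∈ T}.ncard = Cfsg.commutingWidth D := by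
  classical
  have hsq : ∀ d ∈ D, d * d = 1 := by
    intro d hd
    have := pow_orderOf_eq_one d
    rwa [hD.1.1 d hd, pow_two] at this
  have hinv : ∀ d ∈ D, d⁻¹ = d := fun d hd => inv_eq_of_mul_eq_one_left (hsq d hd)
  have hcommT : ∀ (S : Subgroup G), IsPGroup 2 S → ∀ a, a ∈ D → a ∈ S → ∀ b, b ∈ D → b ∈ S → a * b = b * a := by
    intro S hS a ha haS b hb hbS
    have h1 : (a * b) ^ 2 = 1 := by
      rcases hD.1.2 a ha b hb with h | h
      · exact h
      · obtain ⟨k, hk⟩ := hS ⟨a * b, S.mul_mem haS hbS⟩
        have hk' : (a * b) ^ 2 ^ k = 1 := congrArg Subtype.val hk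
        have h2 := Nat.dvd_gcd (orderOf_dvd_of_pow_eq_one h) (orderOf_dvd_of_pow_eq_one hk')
        have h3 : Nat.gcd 3 (2 ^ k) = 1 := Nat.Coprime.pow_right k (by norm_num)
        rw [h3, Nat.dvd_one, orderOf_eq_one_iff] at h2
        rw [h2, one_pow]
    rw [pow_two] at h1
    have h2 := eq_inv_of_mul_eq_one_left h1
    rw [mul_inv_rev, hinv a ha, hinv b hb] at h2
    exact h2
  constructor
  · have h1 : Subgroup.closure {d : G | d ∈ D ∧ d ∈ T} ≤ Subgroup.centralizer {d : G | d ∈ D ∧ d ∈ T} := by
      rw [Subgroup.closure_le]
      intro a ha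
      rw [SetLike.mem_coe, Subgroup.mem_centralizer_iff]
      intro b hb
      exact hcommT T T.isPGroup' b hb.1 hb.2 a ha.1 ha.2
    have h2 : Subgroup.closure {d : G | d ∈ D ∧ d ∈ T} ≤ Subgroup.centralizer ((Subgroup.closure {d : G | d ∈ D ∧ d ∈ T} : Subgroup G) : Set G) := by
      rw [Subgroup.le_centralizer_iff, Subgroup.closure_le]
      intro a ha
      rw [SetLike.mem_coe, Subgroup.mem_centralizer_iff]
      intro b hb
      exact (Subgroup.mem_centralizer_iff.1 (h1 hb) a ha).symm
    refine ⟨⟨fun a b => Subtype.ext ?_⟩⟩
    exact Subgroup.mem_centralizer_iff.1 (h2 b.2) a a.2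
  · unfold Cfsg.commutingWidth
    apply le_antisymm
    · apply le_csSup
      · refine ⟨Nat.card G, ?_⟩
        rintro n ⟨E, -, -, -, rfl⟩
        exact Set.ncard_le_card E
      · refine ⟨{d : G | d ∈ D ∧ d ∈ T}, fun d hd => hd.1, Set.toFinite _, ?_, rfl⟩
        intro a ha b hb
        exact hcommT T T.isPGroup' a ha.1 ha.2 b hb.1 hb.2
    · apply csSup_le
      · exact ⟨0, ∅, Set.empty_subset _, Set.finite_empty, by simp, Set.ncard_empty _⟩
      · rintro n ⟨E, hED, -, hE, rfl⟩
        -- E generates an abelian 2-group
        have h1 : Subgroup.closure E ≤ Subgroup.centralizer E := by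
          rw [Subgroup.closure_le]
          intro a ha
          rw [SetLike.mem_coe, Subgroup.mem_centralizer_iff]
          intro b hb
          exact hE b hb a ha
        have h2 : ∀ x ∈ Subgroup.closure E, x * x = 1 := by
          intro x hx
          induction hx using Subgroup.closure_induction with
          | mem y hy => exact hsq y (hED hy)
          | one => simp
          | mul y z hy hz h3 h4 =>
            have h5 : y * z = z * y := by
              have h6 : Subgroup.closure E ≤ Subgroup.centralizer ((Subgroup.closure E : Subgroup G) : Set G) := by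
                rw [Subgroup.le_centralizer_iff, Subgroup.closure_le]
                intro a ha
                rw [SetLike.mem_coe, Subgroup.mem_centralizer_iff]
                intro b hb
                exact (Subgroup.mem_centralizer_iff.1 (h1 hb) a ha).symm
              exact Subgroup.mem_centralizer_iff.1 (h6 hz) y hy
            calc y * z * (y * z) = y * z * (z * y) := by rw [h5]
              _ = y * (z * z) * y := by group
              _ = 1 := by rw [h4, mul_one, h3]
          | inv y hy h3 =>
            have h4 : y⁻¹ = y := inv_eq_of_mul_eq_one_left h3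
            rw [h4]; exact h3
        have h3 : IsPGroup 2 (Subgroup.closure E) := by
          intro x
          refine ⟨1, Subtype.ext ?_⟩
          change (x : G) ^ 2 ^ 1 = 1
          rw [pow_one, pow_two]; exact h2 x x.2
        obtain ⟨g, -, hg⟩ := (CfsgH7.isSyl_of_sylow T).exists_conj_le h3 le_top
        have h4 : ∀ a ∈ E, g * a * g⁻¹ ∈ ({d : G | d ∈ D ∧ d ∈ T} : Set G) := by
          intro a ha
          exact ⟨hD.2.1 g a (hED ha), hg (CfsgH7.conj_mem_cj (Subgroup.subset_closure ha))⟩
        exact Set.ncard_le_ncard_of_injOn (fun a => g * a * g⁻¹) h4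
          (fun a _ b _ h => (MulAut.conj g).injective h) (Set.toFinite _)

end Cfsg.Agent.S5345
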