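import Mathlib
import Cfsg.Statements.S5347

set_option autoImplicit false
open Cfsg

namespace Cfsg.Agent.S5347

/-- Let D be a conjugation-invariant generating set of 3-transpositions of a finite group G, p a prime bigger than 3, and P a p-subgroup of G. If a member d of D normalizes P then d centralizes P. -/
theorem result {G : Type*} [Group G] [Finite G] {D : Set G} (hD : Cfsg.IsThreeTranspositionGroup D) {p : ℕ} (hp : p.Prime) (hp3 : 3 < p) (P : Subgroup G) (hP : IsPGroup p P) {d : G} (hd : d ∈ D) (hnorm : d ∈ Subgroup.normalizer (P : Set G)) : ∀ x ∈ P, Commute d x := by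
  intro x hx
  have hd2 : d * d = 1 := by
    have := pow_orderOf_eq_one d
    rwa [hD.1.1 d hd, pow_two] at this
  have hdi : d⁻¹ = d := inv_eq_of_mul_eq_one_left hd2
  have h1 : x * d * x⁻¹ ∈ D := hD.2.1 x d hd
  have h2 : d * (x * d * x⁻¹) ∈ P := by
    have h3 := (Subgroup.mem_normalizer_iff.1 hnorm x).1 hx
    rw [hdi] at h3
    have h4 := P.mul_mem h3 (P.inv_mem hx)
    have h5 : d * (x * d * x⁻¹) = d * x * d * x⁻¹ := by group
    rw [h5]; exact h4
  haveI : Fact p.Prime := ⟨hp⟩
  obtain ⟨k, hk⟩ := hP ⟨_, h2⟩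
  have hk' : (d * (x * d * x⁻¹)) ^ p ^ k = 1 := congrArg Subtype.val hk
  have h6 := orderOf_dvd_of_pow_eq_one hk'
  have h7 : orderOf (d * (x * d * x⁻¹)) = 1 := by
    obtain ⟨j, hj, hj2⟩ := (Nat.dvd_prime_pow hp).1 h6
    rcases Nat.eq_zero_or_pos j with h0 | h0
    · rw [hj2, h0, pow_zero]
    · exfalso
      have hpj : p ∣ orderOf (d * (x * d * x⁻¹)) := by
        rw [hj2]; exact dvd_pow_self p h0.ne'
      rcases hD.1.2 d hd _ h1 with h | h
      · have h8 := hpj.trans (orderOf_dvd_of_pow_eq_one h)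
        have := Nat.le_of_dvd (by norm_num) h8
        omega
      · have h8 := hpj.trans (orderOf_dvd_of_pow_eq_one h)
        have := Nat.le_of_dvd (by norm_num) h8
        omega
  rw [orderOf_eq_one_iff] at h7
  have h8 : x * d * x⁻¹ = d := by
    have := eq_inv_of_mul_eq_one_right h7
    rw [this, hdi]
  exact (mul_inv_eq_iff_eq_mul.1 h8).symm

end Cfsg.Agent.S5347
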