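import Mathlib
import Cfsg.Statements.S5363

set_option autoImplicit false
open Cfsg

namespace Cfsg.Agent.S5363

/-- Let D be a conjugation-invariant set of involutions of a finite group G. Then every product of two members of D has odd order or order 2 if and only if, for every a in D and every b in D different from a and commuting with a, the members of D commuting with a b are exactly those commuting with both a and b. -/
theorem result {G : Type*} [Group G] [Finite G] {D : Set G} (hinv : ∀ d ∈ D, orderOf d = 2) (hconj : ∀ g : G, ∀ d ∈ D, g * d * g⁻¹ ∈ D) : (∀ a ∈ D, ∀ b ∈ D, Odd (orderOf (a * b)) ∨ orderOf (a * b) = 2) ↔ ∀ a ∈ D, ∀ b ∈ D, b ≠ a → Commute a b → {y : G | y ∈ D ∧ Commute (a * b) y} = {y : G | y ∈ D ∧ Commute a y} ∩ {y : G | y ∈ D ∧ Commute b y} := by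
  classical
  have hsq : ∀ d ∈ D, d * d = 1 := by
    intro d hd
    have := pow_orderOf_eq_one d
    rwa [hinv d hd, pow_two] at this
  have hiv : ∀ d ∈ D, d⁻¹ = d := fun d hd => inv_eq_of_mul_eq_one_left (hsq d hd)
  have hcomm2 : ∀ a ∈ D, ∀ b ∈ D, (a * b) ^ 2 = 1 → Commute a b := by
    intro a ha b hb h1
    rw [pow_two] at h1
    have h2 := eq_inv_of_mul_eq_one_left h1
    rw [mul_inv_rev, hiv a ha, hiv b hb] at h2
    exact h2
  constructor
  · intro h a ha b hb hba hab
    ext y
    constructor
    · rintro ⟨hy, hyab⟩
      have hab2 : orderOf (a * b) = 2 := by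
        apply orderOf_eq_prime
        · rw [hab.mul_pow, pow_two, pow_two, hsq a ha, hsq b hb, mul_one]
        · intro h1
          have := eq_inv_of_mul_eq_one_left h1
          rw [hiv b hb] at this
          exact hba this.symm
      have h1 : a * b * y = y * (a * b) := hyab
      have hA : y * a * y * (y * b * y) = a * b := by
        calc y * a * y * (y * b * y) = y * a * (y * y) * b * y := by group
          _ = y * (a * b) * y := by rw [hsq y hy]; group
          _ = a * b * y * y := by rw [h1]
          _ = a * b * (y * y) := by group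
          _ = a * b := by rw [hsq y hy, mul_one]
      have hB : (y * b * y) * (y * b * y) = 1 := by
        calc (y * b * y) * (y * b * y) = y * b * (y * y) * b * y := by group
          _ = y * (b * b) * y := by rw [hsq y hy]; group
          _ = 1 := by rw [hsq b hb, mul_one, hsq y hy]
      have hA' : y * a * y = a * b * (y * b * y) := by
        rw [← hA, mul_assoc (y * a * y) (y * b * y) (y * b * y), hB, mul_one]
      have hw : (a * y) ^ 2 = (b * y) ^ 2 := by
        calc (a * y) ^ 2 = a * (y * a * y) := by rw [pow_two]; group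
          _ = a * (a * b * (y * b * y)) := by rw [hA']
          _ = (a * a) * b * (y * b * y) := by group
          _ = (b * y) ^ 2 := by rw [hsq a ha, pow_two]; group
      have hfin : (a * y) ^ 2 = 1 → y ∈ {y : G | y ∈ D ∧ Commute a y} ∩ {y : G | y ∈ D ∧ Commute b y} := by
        intro h2
        have h3 : (b * y) ^ 2 = 1 := by rw [← hw]; exact h2
        exact ⟨⟨hy, hcomm2 a ha y hy h2⟩, ⟨hy, hcomm2 b hb y hy h3⟩⟩
      rcases h a ha y hy with h2 | h2
      swap
      · exact hfin (by rw [← h2, pow_orderOf_eq_one])
      rcases h b hb y hy with h3 | h3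
      swap
      · exact hfin (by rw [hw, ← h3, pow_orderOf_eq_one])
      exfalso
      -- both are powers of w
      have hpow : ∀ x : G, Odd (orderOf x) → x ∈ Subgroup.zpowers (x ^ 2) := by
        intro x hx
        obtain ⟨m, hm⟩ := hx
        refine ⟨((m + 1 : ℕ) : ℤ), ?_⟩
        change (x ^ 2) ^ ((m + 1 : ℕ) : ℤ) = x
        rw [zpow_natCast, ← pow_mul, show 2 * (m + 1) = orderOf x + 1 by omega, pow_succ, pow_orderOf_eq_one, one_mul]
      have h4 := hpow _ h2
      have h5 := hpow _ h3
      rw [← hw] at h5
      have h6 : a * b ∈ Subgroup.zpowers ((a * y) ^ 2) := by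
        have h7 := (Subgroup.zpowers ((a * y) ^ 2)).mul_mem h4 ((Subgroup.zpowers ((a * y) ^ 2)).inv_mem h5)
        have h8 : a * y * (b * y)⁻¹ = a * b := by
          rw [mul_inv_rev, hiv b hb, hiv y hy]
          calc a * y * (y * b) = a * (y * y) * b := by group
            _ = a * b := by rw [hsq y hy, mul_one]
        rwa [h8] at h7
      have h7 := orderOf_dvd_of_mem_zpowers h6
      have h8 : orderOf ((a * y) ^ 2) ∣ orderOf (a * y) := orderOf_pow_dvd 2
      rw [hab2] at h7
      exact (Nat.not_even_iff_odd.2 h2) (even_iff_two_dvd.2 (h7.trans h8))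
    · rintro ⟨⟨hy, hya⟩, ⟨-, hyb⟩⟩
      exact ⟨hy, Commute.mul_left hya hyb⟩
  · intro h a ha b hb
    by_contra hcon
    push Not at hcon
    obtain ⟨hodd, hn2⟩ := hcon
    have heven : Even (orderOf (a * b)) := Nat.not_odd_iff_even.1 (by simpa using hodd)
    obtain ⟨k, hk⟩ := heven
    have hpos := orderOf_pos (a * b)
    set z := (a * b) ^ k with hz
    have hz1 : z ≠ 1 := by
      intro h1
      have := Nat.le_of_dvd (by omega) (orderOf_dvd_of_pow_eq_one h1)
      omega
    have hz2 : z * z = 1 := by
      rw [hz, ← pow_add, ← hk, pow_orderOf_eq_one]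
    have hzi : z⁻¹ = z := inv_eq_of_mul_eq_one_left hz2
    have hsa : SemiconjBy a (a * b)⁻¹ (a * b) := by
      change a * (a * b)⁻¹ = a * b * a
      rw [mul_inv_rev, hiv a ha, hiv b hb]; group
    have hsb : SemiconjBy b (a * b) (a * b)⁻¹ := by
      change b * (a * b) = (a * b)⁻¹ * b
      rw [mul_inv_rev, hiv a ha, hiv b hb]; group
    have hza : a * z = z * a := by
      have h1 := hsa.pow_right k
      rw [inv_pow, ← hz, hzi] at h1
      exact h1
    have hzb : b * z = z * b := by
      have h1 := hsb.pow_right k
      rw [inv_pow, ← hz, hzi] at h1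
      exact h1
    have hc : ∀ j : ℕ, (a * b) ^ j * a * ((a * b) ^ j)⁻¹ = (a * b) ^ (2 * j) * a := by
      intro j
      have h1 : a * ((a * b)⁻¹) ^ j = (a * b) ^ j * a := hsa.pow_right j
      rw [inv_pow] at h1
      rw [mul_assoc, h1, two_mul, pow_add]; group
    have hdone : Commute a b → False := by
      intro h1
      have h2 : (a * b) ^ 2 = 1 := by rw [h1.mul_pow, pow_two, pow_two, hsq a ha, hsq b hb, mul_one]
      have h3 := Nat.le_of_dvd (by norm_num) (orderOf_dvd_of_pow_eq_one h2)
      apply hn2
      omega
    rcases Nat.even_or_odd k with hke | hko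
    · obtain ⟨j, hj⟩ := hke
      have hcD := hconj ((a * b) ^ j) a ha
      rw [hc, show 2 * j = k by omega, ← hz] at hcD
      have hne : z * a ≠ a := by
        intro h1
        exact hz1 (mul_eq_right.1 h1)
      have hcm : Commute a (z * a) := by
        change a * (z * a) = z * a * a
        rw [← mul_assoc, hza]
      have h1 := h a ha (z * a) hcD hne hcm
      have h2 : b ∈ {y : G | y ∈ D ∧ Commute (a * (z * a)) y} := by
        refine ⟨hb, ?_⟩
        have h3 : a * (z * a) = z := by
          calc a * (z * a) = (a * z) * a := by group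
            _ = z * (a * a) := by rw [hza]; group
            _ = z := by rw [hsq a ha, mul_one]
        rw [h3]
        exact hzb.symm
      rw [h1] at h2
      exact hdone h2.1.2
    · obtain ⟨j, hj⟩ := hko
      have hcD := hconj ((a * b) ^ j) a ha
      rw [hc] at hcD
      set c := (a * b) ^ (2 * j) * a with hcdef
      have hcb : c * b = z := by
        rw [hcdef, hz, hj, pow_succ]; group
      have hne : b ≠ c := by
        intro h1
        apply hz1
        rw [← hcb, ← h1, hsq b hb]
      have hcm : Commute c b := by
        apply hcomm2 c hcD b hb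
        rw [hcb, pow_two, hz2]
      have h1 := h c hcD b hb hne hcm
      have h2 : a ∈ {y : G | y ∈ D ∧ Commute (c * b) y} := by
        refine ⟨ha, ?_⟩
        rw [hcb]
        exact hza.symm
      rw [h1] at h2
      exact hdone h2.2.2.symm

end Cfsg.Agent.S5363
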