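import Mathlib
import Cfsg.Statements.S5364

set_option autoImplicit false
open Cfsg

namespace Cfsg.Agent.S5364

/-- Let D be a conjugation-invariant set of involutions of a finite group G and t an involution in the centre of G such that d t does not lie in D for any d in D. If the images of the members of D in G modulo the subgroup generated by t satisfy the 3-transposition order conditions (each has order 2 and any two have product of order at most 3), then so do the members of D. -/
theorem result {G : Type*} [Group G] [Finite G] {D : Set G} (hinv : ∀ d ∈ D, orderOf d = 2) (hconj : ∀ g : G, ∀ d ∈ D, g * d * g⁻¹ ∈ D) (t : G) (ht : orderOf t = 2) (htZ : t ∈ Subgroup.center G) (hDt : ∀ d ∈ D, d * t ∉ D) [(Subgroup.zpowers t).Normal] (himg : Cfsg.IsThreeTranspositionSet ((QuotientGroup.mk : G → G ⧸ Subgroup.zpowers t) '' D)) : Cfsg.IsThreeTranspositionSet D := by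
  classical
  refine ⟨hinv, ?_⟩
  have hsq : ∀ d ∈ D, d * d = 1 := by
    intro d hd
    have := pow_orderOf_eq_one d
    rwa [hinv d hd, pow_two] at this
  have hiv : ∀ d ∈ D, d⁻¹ = d := fun d hd => inv_eq_of_mul_eq_one_left (hsq d hd)
  have hc : ∀ x : G, x * t = t * x := fun x => Subgroup.mem_center_iff.1 htZ x
  have hzt : ∀ x : G, x ∈ Subgroup.zpowers t → x = 1 ∨ x = t := by
    intro x hx
    have ht2 : t ^ (2 : ℤ) = 1 := by
      rw [zpow_ofNat, ← ht, pow_orderOf_eq_one]
    obtain ⟨k, hk⟩ := hx
    have hk' : t ^ k = x := hk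
    rcases Int.even_or_odd' k with ⟨m, rfl | rfl⟩
    · left; rw [← hk', zpow_mul, ht2, one_zpow]
    · right; rw [← hk', zpow_add, zpow_mul, ht2, one_zpow, one_mul, zpow_one]
  intro d hd e he
  have hmem : ∀ k : ℕ, ((QuotientGroup.mk d : G ⧸ Subgroup.zpowers t) * QuotientGroup.mk e) ^ k = 1 → (d * e) ^ k = 1 ∨ (d * e) ^ k = t := by
    intro k hk
    have h1 : (QuotientGroup.mk ((d * e) ^ k) : G ⧸ Subgroup.zpowers t) = 1 := hk
    exact hzt _ ((QuotientGroup.eq_one_iff _).1 h1)
  rcases himg.2 (QuotientGroup.mk d) ⟨d, hd, rfl⟩ (QuotientGroup.mk e) ⟨e, he, rfl⟩ with h | h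
  · rcases hmem 2 h with h1 | h1
    · left; exact h1
    · exfalso
      have h2 : e * d * e⁻¹ ∈ D := hconj e d hd
      have h3 : e * d * e⁻¹ = d * t := by
        rw [← h1, hiv e he, pow_two]
        calc e * d * e = (d * d) * e * d * e := by rw [hsq d hd, one_mul]
          _ = d * (d * e * (d * e)) := by group
      rw [h3] at h2
      exact hDt d hd h2
  · rcases hmem 3 h with h1 | h1
    · right; exact h1
    · exfalso
      have h2 : e * d * e⁻¹ ∈ D := hconj e d hd
      have h4 : d * e * d⁻¹ ∈ D := hconj d e he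
      apply hDt _ h4
      have h3 : e * d * e⁻¹ = d * e * d⁻¹ * t := by
        rw [← h1, hiv e he, hiv d hd]
        have h5 : (d * e) ^ 3 = d * e * d * (e * d * e) := by
          rw [pow_succ, pow_two]; group
        rw [h5]
        calc e * d * e = (d * (e * (d * d) * e) * d) * (e * d * e) := by
              rw [hsq d hd, mul_one, hsq e he, mul_one, hsq d hd, one_mul]
          _ = d * e * d * (d * e * d * (e * d * e)) := by group
      rw [← h3]; exact h2

end Cfsg.Agent.S5364
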