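import Cfsg.Statements.S5392
import Cfsg.Agent.L.Lat.Misc

set_option autoImplicit false
open Cfsg

namespace Cfsg.Agent.S5392
open CfsgL.Lat
open Finset

/-- The Leech lattice modulo twice itself is a faithful irreducible module for the first Conway group: an automorphism of the rank-24 lattice built from the length-24 code that moves every lattice vector only by twice a lattice vector lies in the centre of the automorphism group (the centre consists of ±1, which act trivially there, so the kernel is exactly the centre), and an additive subgroup lying between twice the lattice and the lattice that is invariant under all lattice automorphisms is one of the two. -/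
theorem result : (∀ g : ↥Cfsg.Co0, (∀ v : ↥Cfsg.leechLattice, ∃ w : ↥Cfsg.leechLattice, ((g • v : ↥Cfsg.leechLattice) : Cfsg.GolayPt → ℤ) - (v : Cfsg.GolayPt → ℤ) = 2 • (w : Cfsg.GolayPt → ℤ)) → g ∈ Subgroup.center ↥Cfsg.Co0) ∧ ∀ M : AddSubgroup (Cfsg.GolayPt → ℤ), (∀ v ∈ Cfsg.leechLattice, (2 : ℤ) • v ∈ M) → M ≤ Cfsg.leechLattice → (∀ g : ↥Cfsg.Co0, ∀ v : ↥Cfsg.leechLattice, (v : Cfsg.GolayPt → ℤ) ∈ M → ((g • v : ↥Cfsg.leechLattice) : Cfsg.GolayPt → ℤ) ∈ M) → (∀ x ∈ M, ∃ w ∈ Cfsg.leechLattice, x = (2 : ℤ) • w) ∨ M = Cfsg.leechLattice := by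
  constructor
  · intro g hg
    rw [center_iff]
    apply trivial_mod_two
    intro v
    obtain ⟨w, hw⟩ := hg v
    refine ⟨w, Subtype.ext ?_⟩
    show (g • v).1 - v.1 = w.1 + w.1
    rw [hw, two_smul]
  · intro M h2 hle hinv
    have key := irred (M := M.comap Cfsg.leechLattice.subtype) (by
      intro v
      have := h2 v.1 v.2
      rw [two_zsmul] at this
      exact this) (by
      intro g v hv
      exact hinv g v hv)
    rcases key with h | h
    · left
      intro x hx
      obtain ⟨w, hw⟩ := h ⟨x, hle hx⟩ hx
      refine ⟨w.1, w.2, ?_⟩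
      have := congrArg Subtype.val hw
      rw [two_zsmul]
      exact this
    · right
      apply le_antisymm hle
      intro x hx
      have : (⟨x, hx⟩ : Cfsg.leechLattice) ∈ M.comap Cfsg.leechLattice.subtype := by rw [h]; trivial
      exact this

end Cfsg.Agent.S5392
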