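import Cfsg.Statements.S5394
import Cfsg.Agent.L.Orb.Cls

set_option autoImplicit false
open Cfsg

namespace Cfsg.Agent.S5394
open CfsgL.Orb

/-- The automorphism group of the length-24 code built from the squares modulo 23 has exactly two conjugacy classes of involutions: an involution either fixes exactly the eight points of an octad or has no fixed points, both kinds occur, and any two involutions of the same kind are conjugate in the group. -/
theorem result : (∀ g ∈ Cfsg.M24, orderOf g = 2 → (Finset.univ.filter fun p => g p = p) ∈ Cfsg.octads ∨ ∀ p, g p ≠ p) ∧ (∃ g ∈ Cfsg.M24, orderOf g = 2 ∧ (Finset.univ.filter fun p => g p = p) ∈ Cfsg.octads) ∧ (∃ g ∈ Cfsg.M24, orderOf g = 2 ∧ ∀ p, g p ≠ p) ∧ ∀ g ∈ Cfsg.M24, ∀ h ∈ Cfsg.M24, orderOf g = 2 → orderOf h = 2 → ((∀ p, g p ≠ p) ↔ (∀ p, h p ≠ p)) → ∃ k ∈ Cfsg.M24, k * g * k⁻¹ = h := by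
  have hf : ∀ g : Equiv.Perm GolayPt, (Finset.univ.filter fun p => g p = p) = fixset g := fun g => rfl
  have hz : ∀ g : Equiv.Perm GolayPt, fixset g = ∅ ↔ ∀ p, g p ≠ p := by
    intro g
    rw [Finset.eq_empty_iff_forall_notMem]
    exact forall_congr' (fun p => by rw [mem_fixset])
  have hoe : (∅ : Finset GolayPt) ∉ octads := fun h => by
    have := CfsgL.Golay.card_octad h
    simp at this
  refine ⟨?_, ?_, ?_, ?_⟩
  · intro g hg h2
    rw [hf, ← hz]
    rcases inv_cases hg h2 with ⟨h, _⟩ | ⟨h, _⟩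
    · exact Or.inl h
    · exact Or.inr h
  · exact ⟨r0, r0_spec.1, order_r0, fixset_r0_octad⟩
  · exact ⟨r1, r1_spec.1, order_r1, (hz _).1 fixset_r1⟩
  · intro g hg h hh hg2 hh2 hiff
    rw [← hz, ← hz] at hiff
    rcases inv_cases hg hg2 with ⟨a1, k, hk, a2⟩ | ⟨a1, k, hk, a2⟩ <;>
      rcases inv_cases hh hh2 with ⟨b1, l, hl, b2⟩ | ⟨b1, l, hl, b2⟩
    · refine ⟨l⁻¹ * k, M24.mul_mem (M24.inv_mem hl) hk, ?_⟩
      have e : l⁻¹ * k * g * (l⁻¹ * k)⁻¹ = l⁻¹ * (k * g * k⁻¹) * l := by group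
      rw [e, a2, ← b2]; group
    · rw [hiff.2 b1] at a1
      exact absurd a1 hoe
    · rw [hiff.1 a1] at b1
      exact absurd b1 hoe
    · refine ⟨l⁻¹ * k, M24.mul_mem (M24.inv_mem hl) hk, ?_⟩
      have e : l⁻¹ * k * g * (l⁻¹ * k)⁻¹ = l⁻¹ * (k * g * k⁻¹) * l := by group
      rw [e, a2, ← b2]; group

end Cfsg.Agent.S5394
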