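import Cfsg.Statements.S5408
import Mathlib
import Cfsg.Agent.L.Mon.En
import Cfsg.Agent.L.Mon.Setup

set_option autoImplicit false
open Cfsg

namespace Cfsg.Agent.S5408
open CfsgL.Mon
open CfsgL.ExtraTwo

/-- Let G be a finite group of Monster type at the involution z with Q the extraspecial normal subgroup of order 2^25 of C = C_G(z) (so C/Q is identified with the first Conway group with Q modulo its centre the Leech lattice modulo 2, and z is not weakly closed in Q). Then Q is of plus type: it contains an elementary abelian subgroup of order 2^13. -/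
theorem result {G : Type*} [Group G] [Finite G] (z : G) (Q : Subgroup (Subgroup.centralizer ({z} : Set G))) [Q.Normal] (hM : Cfsg.IsOfMonsterType z Q) : ∃ E : Subgroup Q, Cfsg.IsElementaryAbelian 2 E ∧ Nat.card E = 2 ^ 13 := by
  obtain ⟨hset, e, ψ, hψ⟩ := hM
  have h := lm_of hset hψ
  refine ⟨h.En, ⟨?_, ?_⟩, h.card_En hset.2.2.2.1⟩
  · refine ⟨⟨?_⟩⟩
    rintro ⟨a, ha⟩ ⟨b, hb⟩
    apply Subtype.ext
    change a * b = b * a
    have h1 := h.cent_En
    rw [← h1] at ha
    exact ((Subgroup.mem_centralizer_iff.1 ha) b hb).symm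
  · intro a ha
    rw [pow_two]
    exact h.sq_En ha

end Cfsg.Agent.S5408
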