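import Cfsg.Statements.S5410
import Mathlib
import Cfsg.Agent.L.Mon.Stab

set_option autoImplicit false
open Cfsg

namespace Cfsg.Agent.S5410
open CfsgL.Mon
open CfsgL.ExtraTwo
open CfsgL.Lat
open CfsgL.Golay

/-- Let G be a finite group of Monster type at the involution z with Q the extraspecial normal subgroup of order 2^25 of C = C_G(z) (so C/Q is identified with the first Conway group with Q modulo its centre the Leech lattice modulo 2, and z is not weakly closed in Q). Let g in G with s = g z g⁻¹ a member of Q other than z, let X be the image in C/Q of the centralizer of s in C, and let E be the image in C/Q of the intersection of g Q g⁻¹ with C. Then E is a normal subgroup of X, elementary abelian of order 2^11, and it has a complement in X isomorphic to the Mathieu group of degree 24 (the automorphism group of the length-24 binary Golay code). -/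
theorem result {G : Type*} [Group G] [Finite G] (z : G) (Q : Subgroup (Subgroup.centralizer ({z} : Set G))) [Q.Normal] (hM : Cfsg.IsOfMonsterType z Q) (s : G) (hsQ : ∃ hsc : s ∈ Subgroup.centralizer ({z} : Set G), (⟨s, hsc⟩ : Subgroup.centralizer ({z} : Set G)) ∈ Q) (hs : IsConj z s) (hs1 : s ≠ z) (g : G) (hg : g * z * g⁻¹ = s) (X E : Subgroup ((Subgroup.centralizer ({z} : Set G)) ⧸ Q)) (hX : X = ((Subgroup.centralizer ({z} : Set G) ⊓ Subgroup.centralizer ({s} : Set G)).subgroupOf (Subgroup.centralizer ({z} : Set G))).map (QuotientGroup.mk' Q)) (hE : E = (((Q.map (Subgroup.centralizer ({z} : Set G)).subtype).map (MulAut.conj g).toMonoidHom ⊓ Subgroup.centralizer ({z} : Set G)).subgroupOf (Subgroup.centralizer ({z} : Set G))).map (QuotientGroup.mk' Q)) : E ≤ X ∧ (∀ x ∈ X, ∀ y ∈ E, x * y * x⁻¹ ∈ E) ∧ Cfsg.IsElementaryAbelian 2 E ∧ Nat.card E = 2 ^ 11 ∧ ∃ K : Subgroup ((Subgroup.centralizer ({z} : Set G)) ⧸ Q), K ≤ X ∧ E ⊓ K = ⊥ ∧ E ⊔ K = X ∧ Nonempty (K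 ≃* Cfsg.M24) := by
  obtain ⟨hset, e, ψ, hψ⟩ := hM
  have h := lm_of hset hψ
  obtain ⟨hsc, hsQ⟩ := hsQ
  set sq : Q := ⟨⟨s, hsc⟩, hsQ⟩ with hsq
  have hsG : g * z * g⁻¹ = ((sq : Subgroup.centralizer ({z} : Set G)) : G) := hg
  obtain ⟨hzD, hDcard⟩ := DD_facts hset hψ hsG hs1
  obtain ⟨y0, hy0⟩ := mem_DD.1 hzD
  have hy0' : g * ((y0 : Subgroup.centralizer ({z} : Set G)) : G) * g⁻¹ = z := hy0
  -- t = g⁻¹ z g
  have ht : g⁻¹ * z * g = ((y0 : Subgroup.centralizer ({z} : Set G)) : G) := by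
    exact (congrArg (fun w => g⁻¹ * w * g) hy0'.symm).trans (by group)
  have htne : ((y0 : Subgroup.centralizer ({z} : Set G)) : G) ≠ z := by
    intro h1
    rw [h1] at hy0'
    exact hs1 (hg.symm.trans hy0')
  obtain ⟨v, hv, hvs⟩ := type4 hset hψ hsG hs1
  have hsz := h.not_cen hvs (Or.inr hv)
  obtain ⟨k, hk⟩ := trans64' hv (norm_e8 none)
  have hkv : v = k⁻¹ • e8 none := by rw [← hk, inv_smul_smul]
  -- `E` is the range of `theta`
  have hEr : E = ((QuotientGroup.mk' Q).comp (theta ht)).range := by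
    rw [hE]
    ext x
    constructor
    · rintro ⟨c, hc, rfl⟩
      obtain ⟨⟨_, ⟨q, hq, rfl⟩, hqc⟩, -⟩ := hc
      have hqc' : g * (q : G) * g⁻¹ = (c : G) := hqc
      have hcz : (c : G) * z = z * c := Subgroup.mem_centralizer_singleton_iff.1 c.2
      have hqt : (⟨q, hq⟩ : Q) ∈ Subgroup.centralizer ({y0} : Set Q) := by
        rw [Subgroup.mem_centralizer_singleton_iff]
        apply Subtype.ext
        apply Subtype.ext
        change (q : G) * ((y0 : Subgroup.centralizer ({z} : Set G)) : G) = ((y0 : Subgroup.centralizer ({z} : Set G)) : G) * q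
        have hqg : (q : G) = g⁻¹ * c * g := by rw [← hqc']; group
        rw [← ht, hqg]
        calc g⁻¹ * (c : G) * g * (g⁻¹ * z * g) = g⁻¹ * ((c : G) * z) * g := by group
          _ = g⁻¹ * (z * c) * g := by rw [hcz]
          _ = g⁻¹ * z * g * (g⁻¹ * c * g) := by group
      refine ⟨⟨⟨q, hq⟩, hqt⟩, ?_⟩
      change (QuotientGroup.mk' Q) (theta ht ⟨⟨q, hq⟩, hqt⟩) = _
      congr 1
      apply Subtype.ext
      exact hqc'
    · rintro ⟨x, rfl⟩
      refine ⟨theta ht x, ?_, rfl⟩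
      rw [SetLike.mem_coe, Subgroup.mem_subgroupOf]
      exact ⟨⟨_, ⟨x.1.1, x.1.2, rfl⟩, rfl⟩, (theta ht x).2⟩
  have hEcard : Nat.card E = 2 ^ 11 := by rw [hEr]; exact theta_card hset hψ ht htne
  -- description of elements of `E`
  have hEmem : ∀ x ∈ E, ∃ c : Subgroup.centralizer ({z} : Set G), QuotientGroup.mk c = x ∧
      ∃ q : Q, g * ((q : Subgroup.centralizer ({z} : Set G)) : G) * g⁻¹ = (c : G) := by
    intro x hx
    rw [hE] at hx
    obtain ⟨c, hc, rfl⟩ := hx
    obtain ⟨⟨_, ⟨q, hq, rfl⟩, hqc⟩, -⟩ := hc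
    exact ⟨c, rfl, ⟨q, hq⟩, hqc⟩
  have hEof : ∀ (c : Subgroup.centralizer ({z} : Set G)) (q : Q),
      g * ((q : Subgroup.centralizer ({z} : Set G)) : G) * g⁻¹ = (c : G) →
      (QuotientGroup.mk c : (Subgroup.centralizer ({z} : Set G)) ⧸ Q) ∈ E := by
    intro c q hcq
    rw [hE]
    refine ⟨c, ?_, rfl⟩
    rw [SetLike.mem_coe, Subgroup.mem_subgroupOf]
    exact ⟨⟨_, ⟨q.1, q.2, rfl⟩, hcq⟩, c.2⟩
  have hXmem : ∀ x ∈ X, ∃ c : Subgroup.centralizer ({z} : Set G), QuotientGroup.mk c = x ∧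
      (c : G) * s = s * c := by
    intro x hx
    rw [hX] at hx
    obtain ⟨c, hc, rfl⟩ := hx
    exact ⟨c, rfl, Subgroup.mem_centralizer_singleton_iff.1 hc.2⟩
  have hXof : ∀ c : Subgroup.centralizer ({z} : Set G), (c : G) * s = s * c →
      (QuotientGroup.mk c : (Subgroup.centralizer ({z} : Set G)) ⧸ Q) ∈ X := by
    intro c hc
    rw [hX]
    exact ⟨c, ⟨c.2, Subgroup.mem_centralizer_singleton_iff.2 hc⟩, rfl⟩
  have hEX : E ≤ X := by
    intro x hx
    obtain ⟨c, rfl, q, hq⟩ := hEmem x hx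
    apply hXof
    rw [← hq, ← hg]
    have h1 : ((q : Subgroup.centralizer ({z} : Set G)) : G) * z = z * ((q : Subgroup.centralizer ({z} : Set G)) : G) :=
      Subgroup.mem_centralizer_singleton_iff.1 q.1.2
    calc g * ((q : Subgroup.centralizer ({z} : Set G)) : G) * g⁻¹ * (g * z * g⁻¹) =
        g * (((q : Subgroup.centralizer ({z} : Set G)) : G) * z) * g⁻¹ := by group
      _ = g * (z * ((q : Subgroup.centralizer ({z} : Set G)) : G)) * g⁻¹ := by rw [h1]
      _ = g * z * g⁻¹ * (g * ((q : Subgroup.centralizer ({z} : Set G)) : G) * g⁻¹) := by group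
  have hnorm : ∀ x ∈ X, ∀ y ∈ E, x * y * x⁻¹ ∈ E := by
    intro x hx y hy
    obtain ⟨c, rfl, hcs⟩ := hXmem x hx
    obtain ⟨d, rfl, q, hq⟩ := hEmem y hy
    have hgc : g⁻¹ * (c : G) * g ∈ Subgroup.centralizer ({z} : Set G) := by
      rw [Subgroup.mem_centralizer_singleton_iff]
      rw [← hg] at hcs
      calc g⁻¹ * (c : G) * g * z = g⁻¹ * ((c : G) * (g * z * g⁻¹)) * g := by group
        _ = g⁻¹ * ((g * z * g⁻¹) * (c : G)) * g := by rw [hcs]
        _ = z * (g⁻¹ * (c : G) * g) := by group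
    have := hEof (c * d * c⁻¹) (MulAut.conjNormal (⟨g⁻¹ * (c : G) * g, hgc⟩ : Subgroup.centralizer ({z} : Set G)) q) (by
      change g * (g⁻¹ * (c : G) * g * ((q : Subgroup.centralizer ({z} : Set G)) : G) * (g⁻¹ * (c : G) * g)⁻¹) * g⁻¹ =
        (c : G) * (d : G) * (c : G)⁻¹
      rw [← hq]
      group)
    exact this
  have hE2 : ∀ a ∈ E, a * a = 1 := by
    intro a ha
    obtain ⟨c, rfl, q, hq⟩ := hEmem a ha
    rw [← QuotientGroup.mk_mul, QuotientGroup.eq_one_iff]
    rcases h.sq q with h1 | h1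
    · have h2 : ((q : Subgroup.centralizer ({z} : Set G)) : G) * ((q : Subgroup.centralizer ({z} : Set G)) : G) = 1 :=
        congrArg (fun t : Q => ((t : Subgroup.centralizer ({z} : Set G)) : G)) h1
      have h3 : c * c = 1 := by
        apply Subtype.ext
        change (c : G) * c = 1
        rw [← hq]
        calc _ = g * (((q : Subgroup.centralizer ({z} : Set G)) : G) * ((q : Subgroup.centralizer ({z} : Set G)) : G)) * g⁻¹ := by group
          _ = 1 := by rw [h2]; group
      rw [h3]; exact Q.one_mem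
    · have h2 : ((q : Subgroup.centralizer ({z} : Set G)) : G) * ((q : Subgroup.centralizer ({z} : Set G)) : G) = z :=
        congrArg (fun t : Q => ((t : Subgroup.centralizer ({z} : Set G)) : G)) h1
      have h3 : c * c = (sq : Subgroup.centralizer ({z} : Set G)) := by
        apply Subtype.ext
        change (c : G) * c = s
        rw [← hq, ← hg]
        calc _ = g * (((q : Subgroup.centralizer ({z} : Set G)) : G) * ((q : Subgroup.centralizer ({z} : Set G)) : G)) * g⁻¹ := by group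
          _ = g * z * g⁻¹ := by rw [h2]
      rw [h3]; exact sq.2
  have hEab : Cfsg.IsElementaryAbelian 2 E := by
    refine ⟨⟨⟨?_⟩⟩, fun a ha => by rw [pow_two]; exact hE2 a ha⟩
    rintro ⟨a, ha⟩ ⟨b, hb⟩
    apply Subtype.ext
    change a * b = b * a
    have h1 := hE2 _ ha
    have h2 := hE2 _ hb
    have h3 := hE2 _ (E.mul_mem ha hb)
    calc a * b = (a * b)⁻¹ := eq_inv_of_mul_eq_one_right h3
      _ = b⁻¹ * a⁻¹ := mul_inv_rev _ _
      _ = b * a := by rw [← eq_inv_of_mul_eq_one_right h1, ← eq_inv_of_mul_eq_one_right h2]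
  -- the complement
  let κ : Cfsg.M24 →* (Subgroup.centralizer ({z} : Set G)) ⧸ Q :=
    e.symm.toMonoidHom.comp ((QuotientGroup.mk' (Subgroup.center Cfsg.Co0)).comp
      ((MulAut.conj k⁻¹).toMonoidHom.comp pmHom))
  have hκ : ∀ σ, e (κ σ) = QuotientGroup.mk (k⁻¹ * pm σ * k⁻¹⁻¹) := fun σ => e.apply_symm_apply _
  have hκinj : Function.Injective κ := by
    rw [injective_iff_map_eq_one]
    intro σ hσ
    have h1 : (QuotientGroup.mk (k⁻¹ * pm σ * k⁻¹⁻¹) : Cfsg.Spor.Co1) = 1 := by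
      rw [← hκ σ, hσ, map_one]
    rw [QuotientGroup.eq_one_iff] at h1
    apply pm_center
    have h2 := (inferInstance : (Subgroup.center Cfsg.Co0).Normal).conj_mem _ h1 k
    have h3 : k * (k⁻¹ * pm σ * k⁻¹⁻¹) * k⁻¹ = pm σ := by group
    rwa [h3] at h2
  have hKX : κ.range ≤ X := by
    rintro _ ⟨σ, rfl⟩
    obtain ⟨c, hc⟩ := QuotientGroup.mk_surjective (κ σ)
    have hact := hψ.2.2.2 c (k⁻¹ * pm σ * k⁻¹⁻¹) (by rw [hc, hκ]) v sq hvs
    obtain ⟨a, ha⟩ := Good4.mono_ok σ ⟨∅, emp_mem⟩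
    have hgv : (k⁻¹ * pm σ * k⁻¹⁻¹) • v = v + (k⁻¹ • a + k⁻¹ • a) := by
      rw [mul_smul, mul_smul, inv_inv, hk]
      have ha' : pm σ • e8 none = e8 none + (a + a) := ha
      rw [ha', co_add, co_add, ← hkv]
    have h1 : ψ v = QuotientGroup.mk (⟨c * sq * c⁻¹, (inferInstance : Q.Normal).conj_mem _ sq.2 c⟩ : Q) := by
      have h2 := h.R_shift (w := -(k⁻¹ • a)) hact
      have e1 : (k⁻¹ * pm σ * k⁻¹⁻¹) • v + (-(k⁻¹ • a) + -(k⁻¹ • a)) = v := by
        rw [hgv]; abel
      rw [e1] at h2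
      exact h2
    rcases h.uniq _ _ _ hvs h1 with h2 | h2
    · rw [← hc]
      apply hXof
      have h3 : (c : G) * s * (c : G)⁻¹ = s := congrArg (fun t : Q => ((t : Subgroup.centralizer ({z} : Set G)) : G)) h2
      exact mul_inv_eq_iff_eq_mul.1 h3
    · obtain ⟨y, hy⟩ := h.conj_mulz hsz
      have h3 : (QuotientGroup.mk ((y : Subgroup.centralizer ({z} : Set G)) * c) : (Subgroup.centralizer ({z} : Set G)) ⧸ Q) = κ σ := by
        rw [← hc, QuotientGroup.mk_mul, (QuotientGroup.eq_one_iff _).2 y.2, one_mul]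
      rw [← h3]
      apply hXof
      have h4 : (c : G) * s * (c : G)⁻¹ = s * z := congrArg (fun t : Q => ((t : Subgroup.centralizer ({z} : Set G)) : G)) h2
      have h5 : ((y : Subgroup.centralizer ({z} : Set G)) : G) * (s * z) * ((y : Subgroup.centralizer ({z} : Set G)) : G)⁻¹ = s :=
        congrArg (fun t : Q => ((t : Subgroup.centralizer ({z} : Set G)) : G)) hy
      change ((y : Subgroup.centralizer ({z} : Set G)) : G) * (c : G) * s = s * (((y : Subgroup.centralizer ({z} : Set G)) : G) * c)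
      rw [← mul_inv_eq_iff_eq_mul]
      calc ((y : Subgroup.centralizer ({z} : Set G)) : G) * (c : G) * s * (((y : Subgroup.centralizer ({z} : Set G)) : G) * c)⁻¹ =
          ((y : Subgroup.centralizer ({z} : Set G)) : G) * ((c : G) * s * (c : G)⁻¹) * ((y : Subgroup.centralizer ({z} : Set G)) : G)⁻¹ := by group
        _ = s := by rw [h4, h5]
  have hXcard : Nat.card X ≤ 2 ^ 11 * 244823040 := by
    have hle : X ≤ (((NN.map (QuotientGroup.mk' (Subgroup.center Cfsg.Co0))).map
        (MulAut.conj (QuotientGroup.mk k⁻¹ : Cfsg.Spor.Co1)).toMonoidHom).map e.symm.toMonoidHom) := by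
      intro x hx
      obtain ⟨c, rfl, hcs⟩ := hXmem x hx
      obtain ⟨g0, hg0⟩ := QuotientGroup.mk_surjective (e (QuotientGroup.mk c))
      have hact := hψ.2.2.2 c g0 hg0 v sq hvs
      have h1 : (⟨c * sq * c⁻¹, (inferInstance : Q.Normal).conj_mem _ sq.2 c⟩ : Q) = sq := by
        apply Subtype.ext
        apply Subtype.ext
        change (c : G) * s * (c : G)⁻¹ = s
        rw [hcs, mul_inv_cancel_right]
      rw [h1] at hact
      obtain ⟨a, ha⟩ := h.R_eq hact hvs
      have hN : k * g0 * k⁻¹ ∈ NN := by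
        refine ⟨k • a, ?_⟩
        rw [mul_smul, mul_smul, ← hkv, ha, co_add, co_add, hk]
      refine ⟨QuotientGroup.mk g0, ⟨QuotientGroup.mk (k * g0 * k⁻¹), ⟨k * g0 * k⁻¹, hN, rfl⟩, ?_⟩, ?_⟩
      · change (QuotientGroup.mk k⁻¹ : Cfsg.Spor.Co1) * QuotientGroup.mk (k * g0 * k⁻¹) * (QuotientGroup.mk k⁻¹)⁻¹ = _
        rw [← QuotientGroup.mk_inv, ← QuotientGroup.mk_mul, ← QuotientGroup.mk_mul]
        congr 1
        group
      · change e.symm (QuotientGroup.mk g0) = _
        rw [hg0]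
        exact e.symm_apply_apply _
    refine (Subgroup.card_le_of_le hle).trans ?_
    have hinj1 : Function.Injective (e.symm.toMonoidHom) := e.symm.injective
    have hinj2 : Function.Injective ((MulAut.conj (QuotientGroup.mk k⁻¹ : Cfsg.Spor.Co1)).toMonoidHom) :=
      (MulAut.conj (QuotientGroup.mk k⁻¹ : Cfsg.Spor.Co1)).injective
    rw [Subgroup.card_map_of_injective hinj1, Subgroup.card_map_of_injective hinj2, card_NNbar]
    norm_num
  have hKcard : Nat.card κ.range = 244823040 := by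
    rw [← card_M24]
    exact (Nat.card_congr (MonoidHom.ofInjective hκinj).toEquiv).symm
  have hdisj : E ⊓ κ.range = ⊥ := by
    haveI hn : (E.comap κ).Normal := by
      refine ⟨fun σ hσ τ => ?_⟩
      rw [Subgroup.mem_comap] at hσ ⊢
      rw [map_mul, map_mul, map_inv]
      exact hnorm _ (hKX ⟨τ, rfl⟩) _ hσ
    haveI := simple_M24
    rcases hn.eq_bot_or_eq_top with h1 | h1
    · rw [eq_bot_iff]
      rintro x ⟨hx, σ, rfl⟩
      have : σ ∈ E.comap κ := hx
      rw [h1, Subgroup.mem_bot] at this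
      rw [this, map_one]; exact Subgroup.mem_bot.2 rfl
    · exfalso
      haveI : Fact (Nat.Prime 3) := ⟨Nat.prime_three⟩
      obtain ⟨σ, hσ⟩ := exists_prime_orderOf_dvd_card' (G := Cfsg.M24) 3 (by rw [card_M24]; norm_num)
      have h2 : σ ∈ E.comap κ := by rw [h1]; trivial
      have h3 := hE2 _ h2
      rw [← map_mul] at h3
      have h4 : σ * σ = 1 := hκinj (by rw [h3, map_one])
      have h5 := orderOf_dvd_of_pow_eq_one (x := σ) (n := 2) (by rw [pow_two]; exact h4)
      rw [hσ] at h5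
      norm_num at h5
  refine ⟨hEX, hnorm, hEab, hEcard, κ.range, hKX, hdisj, ?_, ⟨(MonoidHom.ofInjective hκinj).symm⟩⟩
  apply Subgroup.eq_of_le_of_card_ge (sup_le hEX hKX)
  refine hXcard.trans ?_
  rw [← hEcard, ← hKcard, ← Nat.card_prod]
  have hinj := Subgroup.mul_injective_of_disjoint (disjoint_iff.2 hdisj)
  exact Nat.card_le_card_of_injective (fun p : E × κ.range =>
    (⟨(p.1 : (Subgroup.centralizer ({z} : Set G)) ⧸ Q) * p.2, Subgroup.mul_mem_sup p.1.2 p.2.2⟩ : ↥(E ⊔ κ.range)))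
    (fun a b hab => hinj (congrArg Subtype.val hab))

end Cfsg.Agent.S5410
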