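import Cfsg.Statements.S5411
import Mathlib
import Cfsg.Agent.L.Mon.Fin

set_option autoImplicit false
open Cfsg

namespace Cfsg.Agent.S5411
open CfsgL.Mon
open CfsgL.ExtraTwo

/-- Let G be a finite group of Monster type at the involution z with Q the extraspecial normal subgroup of order 2^25 of C = C_G(z) (so C/Q is identified with the first Conway group with Q modulo its centre the Leech lattice modulo 2, and z is not weakly closed in Q). Then C acts transitively by conjugation on the involutions of Q that are not conjugate to z in G. -/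
theorem result {G : Type*} [Group G] [Finite G] (z : G) (Q : Subgroup (Subgroup.centralizer ({z} : Set G))) [Q.Normal] (hM : Cfsg.IsOfMonsterType z Q) (s t : G) (hsQ : ∃ hsc : s ∈ Subgroup.centralizer ({z} : Set G), (⟨s, hsc⟩ : Subgroup.centralizer ({z} : Set G)) ∈ Q) (htQ : ∃ htc : t ∈ Subgroup.centralizer ({z} : Set G), (⟨t, htc⟩ : Subgroup.centralizer ({z} : Set G)) ∈ Q) (hs2 : orderOf s = 2) (ht2 : orderOf t = 2) (hs : ¬ IsConj z s) (ht : ¬ IsConj z t) : ∃ h ∈ Subgroup.centralizer ({z} : Set G), h * s * h⁻¹ = t := by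
  obtain ⟨hset, e, ψ, hψ⟩ := hM
  have h := lm_of hset hψ
  obtain ⟨hsc, hsQ⟩ := hsQ
  obtain ⟨htc, htQ⟩ := htQ
  have key : ∀ (s : G) (hsc : s ∈ Subgroup.centralizer ({z} : Set G))
      (hsQ : (⟨s, hsc⟩ : Subgroup.centralizer ({z} : Set G)) ∈ Q), orderOf s = 2 → ¬ IsConj z s →
      ∃ v : Cfsg.leechLattice, Cfsg.sqNorm v.1 = 32 ∧ ψ v = QuotientGroup.mk (⟨⟨s, hsc⟩, hsQ⟩ : Q) := by
    intro s hsc hsQ hs2 hs
    obtain ⟨y, hy, hys⟩ := h.short_rep' (⟨⟨s, hsc⟩, hsQ⟩ : Q)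
    have hsq : (⟨⟨s, hsc⟩, hsQ⟩ : Q) * ⟨⟨s, hsc⟩, hsQ⟩ = 1 := by
      apply Subtype.ext
      apply Subtype.ext
      change s * s = 1
      rw [← pow_two, ← hs2, pow_orderOf_eq_one]
    have h32 := (h.sq_iff hys).1 hsq
    rcases CfsgL.Lat.norm_cases hy with h1 | h1 | h1 | h1
    · exfalso
      rcases (h.ker _ _ hys).2 ⟨0, by rw [h1]; simp⟩ with h3 | h3
      · have h4 : s = 1 := congrArg (fun t : Q => ((t : Subgroup.centralizer ({z} : Set G)) : G)) h3
        rw [h4, orderOf_one] at hs2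
        omega
      · have h4 : s = z := congrArg (fun t : Q => ((t : Subgroup.centralizer ({z} : Set G)) : G)) h3
        apply hs
        rw [h4]
    · exact ⟨y, h1, hys⟩
    · exfalso
      rw [h1] at h32
      norm_num at h32
    · exfalso
      exact hs ((type4_iff hset hψ ⟨⟨s, hsc⟩, hsQ⟩).2 ⟨y, h1, hys⟩).1
  obtain ⟨v, hv, hvs⟩ := key s hsc hsQ hs2 hs
  obtain ⟨w, hw, hwt⟩ := key t htc htQ ht2 ht
  obtain ⟨f, hf, hfs⟩ := h.conj_of hvs hwt (Or.inl ⟨hv, hw⟩)
  obtain ⟨c, hc, hc2⟩ := gamma_conj hf hfs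
  exact ⟨c, hc, hc2⟩

end Cfsg.Agent.S5411
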