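import Mathlib
import Cfsg.Agent.H2.Cores
import Cfsg.Statements.S5420

set_option autoImplicit false
open Cfsg

namespace Cfsg.Agent.S5420

open scoped commutatorElement

/-- Let Q be an extraspecial 2-subgroup of the finite group G whose centralizer in G is its centre Z and which is normal in the centralizer of Z. If Z lies in the largest normal 2-subgroup of G, then Q is a large extraspecial 2-subgroup of G: it normalizes no non-trivial subgroup of G of odd order. -/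
theorem result {G : Type*} [Group G] [Finite G] (Q : Subgroup G) (hL1 : Cfsg.IsExtraspecial 2 ↥Q) (hL2 : Subgroup.centralizer (Q : Set G) = ((Subgroup.center ↥Q).map Q.subtype)) (hL3 : Subgroup.centralizer (((Subgroup.center ↥Q).map Q.subtype) : Set G) ≤ Subgroup.normalizer (Q : Set G)) (hZ : ((Subgroup.center ↥Q).map Q.subtype) ≤ Cfsg.pCore 2 G) : Cfsg.IsLargeExtraspecial Q := by
  classical
  refine ⟨hL1, hL2, hL3, ?_⟩
  intro K hK hQK
  haveI hpn : (Cfsg.pCore 2 G).Normal := by infer_instance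
  set Z := (Subgroup.center ↥Q).map Q.subtype with hZd
  have hZQ : Z ≤ Q := Subgroup.map_subtype_le _
  have hodd : ∀ x ∈ K, (∃ k : ℕ, x ^ 2 ^ k = 1) → x = 1 := by
    rintro x hx ⟨k, hk⟩
    have h1 := Nat.dvd_gcd (orderOf_dvd_of_pow_eq_one hk) (Subgroup.orderOf_dvd_natCard K hx)
    have h2 : Nat.gcd (2 ^ k) (Nat.card K) = 1 := Nat.Coprime.pow_left k ((Nat.coprime_two_left).2 hK)
    rwa [h2, Nat.dvd_one, orderOf_eq_one_iff] at h1
  -- K centralizes Z
  have hKZ : K ≤ Subgroup.centralizer (Z : Set G) := by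
    intro x hx
    rw [Subgroup.mem_centralizer_iff]
    intro z hz
    have h1 : z * x * z⁻¹ * x⁻¹ ∈ K := K.mul_mem ((Subgroup.mem_normalizer_iff.1 (hQK (hZQ hz)) x).1 hx) (K.inv_mem hx)
    have h2 : z * x * z⁻¹ * x⁻¹ ∈ Cfsg.pCore 2 G := by
      have h3 := hpn.conj_mem _ ((Cfsg.pCore 2 G).inv_mem (hZ hz)) x
      have h4 := (Cfsg.pCore 2 G).mul_mem (hZ hz) h3
      have h5 : z * x * z⁻¹ * x⁻¹ = z * (x * z⁻¹ * x⁻¹) := by group
      rw [h5]; exact h4
    obtain ⟨k, hk⟩ := (CfsgH2.isPGroup_pCore (G := G) 2) ⟨_, h2⟩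
    have h3 := hodd _ h1 ⟨k, congrArg Subtype.val hk⟩
    exact mul_inv_eq_iff_eq_mul.1 (mul_inv_eq_one.1 h3)
  have hKN := hKZ.trans hL3
  -- K centralizes Q
  have hQp : IsPGroup 2 ↥Q := hL1.1.1
  have hKQ : K ≤ Subgroup.centralizer (Q : Set G) := by
    intro x hx
    rw [Subgroup.mem_centralizer_iff]
    intro z hz
    have h1 : z * x * z⁻¹ * x⁻¹ ∈ K := K.mul_mem ((Subgroup.mem_normalizer_iff.1 (hQK hz) x).1 hx) (K.inv_mem hx)
    have h2 : z * x * z⁻¹ * x⁻¹ ∈ Q := by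
      have h3 := (Subgroup.mem_normalizer_iff.1 (hKN hx) z⁻¹).1 (Q.inv_mem hz)
      have h4 := Q.mul_mem hz h3
      have h5 : z * x * z⁻¹ * x⁻¹ = z * (x * z⁻¹ * x⁻¹) := by group
      rw [h5]; exact h4
    obtain ⟨k, hk⟩ := hQp ⟨_, h2⟩
    have h3 := hodd _ h1 ⟨k, congrArg Subtype.val hk⟩
    exact mul_inv_eq_iff_eq_mul.1 (mul_inv_eq_one.1 h3)
  rw [eq_bot_iff]
  intro x hx
  have h1 := hKQ hx
  rw [hL2] at h1
  obtain ⟨k, hk⟩ := hQp ⟨x, hZQ h1⟩
  exact Subgroup.mem_bot.2 (hodd x hx ⟨k, congrArg Subtype.val hk⟩)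

end Cfsg.Agent.S5420
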