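import Mathlib
import Cfsg.Agent.H7.Syl
import Cfsg.Statements.S5433

set_option autoImplicit false
open Cfsg

namespace Cfsg.Agent.S5433

/-- Let Q be a large extraspecial 2-subgroup of the finite group G (extraspecial; centralizer equal to its centre; normal in the centralizer of its centre; normalizing no non-trivial subgroup of odd order), and L a normal subgroup of G containing Q. Then G is the product of L and the normalizer of Q. -/
theorem result {G : Type*} [Group G] [Finite G] (Q : Subgroup G) (hQ : Cfsg.IsLargeExtraspecial Q) (L : Subgroup G) [L.Normal] (hQL : Q ≤ L) : L ⊔ Subgroup.normalizer (Q : Set G) = ⊤ := by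
  classical
  obtain ⟨hE, hC, hN, -⟩ := hQ
  set Z := (Subgroup.center ↥Q).map Q.subtype with hZd
  have hZQ : Z ≤ Q := Subgroup.map_subtype_le _
  have hQp : IsPGroup 2 ↥Q := hE.1.1
  have hZcard : Nat.card Z = 2 := by
    rw [hZd, Subgroup.card_map_of_injective Q.subtype_injective]; exact hE.2
  obtain ⟨T, hQT, hTs⟩ := CfsgH7.exists_isSyl_ge hQp hQL
  rw [eq_top_iff]
  intro g _
  obtain ⟨n, hn, y, hy, rfl⟩ := hTs.frattini (H := ⊤) le_top (by rw [Subgroup.normalizer_eq_top_iff.2 inferInstance]) (x := g) (Subgroup.mem_top g)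
  have hyT : y ∈ Subgroup.normalizer (T : Set G) := hy.2
  -- the centre of T is Z
  set ZT := (Subgroup.center ↥T).map T.subtype with hZT
  have hZTZ : ZT ≤ Z := by
    rw [← hC]
    rintro _ ⟨z, hz, rfl⟩
    rw [Subgroup.mem_centralizer_iff]
    intro q hq
    exact congrArg Subtype.val (Subgroup.mem_center_iff.1 hz ⟨q, hQT hq⟩)
  have hTnt : Nontrivial T := by
    have h1 : Nontrivial Z := by
      rw [← Finite.one_lt_card_iff_nontrivial, hZcard]; norm_num
    obtain ⟨z, hz⟩ := exists_ne (1 : Z)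
    exact ⟨⟨⟨z, hQT (hZQ z.2)⟩, 1, fun h => hz (Subtype.ext (congrArg (fun t : T => (t : G)) h))⟩⟩
  have hZTnt : Nontrivial (Subgroup.center T) := hTs.isPGroup.center_nontrivial
  have hZTeq : ZT = Z := by
    apply Subgroup.eq_of_le_of_card_ge hZTZ
    rw [hZcard, hZT, Subgroup.card_map_of_injective T.subtype_injective]
    exact Finite.one_lt_card_iff_nontrivial.2 hZTnt
  -- y normalizes Z hence centralizes it
  have hyZ : y ∈ Subgroup.centralizer (Z : Set G) := by
    have hnorm : ∀ z ∈ Z, y * z * y⁻¹ ∈ Z := by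
      intro z hz
      rw [← hZTeq] at hz ⊢
      obtain ⟨w, hw, rfl⟩ := hz
      have h1 : y * (w : G) * y⁻¹ ∈ T := (Subgroup.mem_normalizer_iff.1 hyT w).1 w.2
      refine ⟨⟨_, h1⟩, ?_, rfl⟩
      rw [SetLike.mem_coe, Subgroup.mem_center_iff]
      intro s
      apply Subtype.ext
      have h2 : y⁻¹ * (s : G) * y ∈ T := by
        have := (Subgroup.mem_normalizer_iff.1 (Subgroup.inv_mem _ hyT) s).1 s.2
        rwa [inv_inv] at this
      have h3 : (y⁻¹ * (s : G) * y) * w = w * (y⁻¹ * (s : G) * y) := congrArg Subtype.val (Subgroup.mem_center_iff.1 hw ⟨_, h2⟩)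
      change (s : G) * (y * w * y⁻¹) = (y * w * y⁻¹) * s
      calc (s : G) * (y * w * y⁻¹) = y * ((y⁻¹ * (s : G) * y) * w) * y⁻¹ := by group
        _ = y * (w * (y⁻¹ * (s : G) * y)) * y⁻¹ := by rw [h3]
        _ = (y * w * y⁻¹) * s := by group
    rw [Subgroup.mem_centralizer_iff]
    intro z hz
    by_cases hz1 : z = 1
    · rw [hz1]; group
    · -- unique nontrivial element
      have h1 : y * z * y⁻¹ ≠ 1 := by
        intro h
        apply hz1
        calc z = y⁻¹ * (y * z * y⁻¹) * y := by group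
          _ = 1 := by rw [h]; group
      haveI := Fintype.ofFinite Z
      have h2 : Fintype.card Z = 2 := by rw [← Nat.card_eq_fintype_card]; exact hZcard
      have h3 : (⟨y * z * y⁻¹, hnorm z hz⟩ : Z) = ⟨z, hz⟩ := by
        by_contra hne
        have h4 : 2 < Fintype.card Z := Fintype.two_lt_card_iff.2 ⟨1, ⟨y * z * y⁻¹, hnorm z hz⟩, ⟨z, hz⟩,
          fun h => h1 (congrArg Subtype.val h).symm, fun h => hz1 (congrArg Subtype.val h).symm, hne⟩
        omega
      have h4 : y * z * y⁻¹ = z := congrArg Subtype.val h3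
      exact (mul_inv_eq_iff_eq_mul.1 h4).symm
  exact (L ⊔ Subgroup.normalizer (Q : Set G)).mul_mem ((le_sup_left : L ≤ _) hn) ((le_sup_right : Subgroup.normalizer (Q : Set G) ≤ _) (hN hyZ))

end Cfsg.Agent.S5433
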