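import Mathlib
import Cfsg.Statements.S5437

set_option autoImplicit false
open Cfsg

namespace Cfsg.Agent.S5437

/-- Let I be a set of involutions of the finite group G closed under conjugation, and H a subgroup of G. The following are equivalent: (1) for every member x of I lying in H, the conjugates of x lying in H form a single H-class and the centralizer of x lies in H; (2) for every g outside H, no member of I lies in both H and g H g⁻¹; (3) every member of I lying in H fixes exactly one coset in the action of G on the cosets of H. -/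
theorem result {G : Type*} [Group G] [Finite G] (I : Set G) (hI : ∀ x ∈ I, orderOf x = 2) (hIc : ∀ g : G, ∀ x ∈ I, g * x * g⁻¹ ∈ I) (H : Subgroup G) : ((∀ x ∈ I, x ∈ H → (∀ g : G, g * x * g⁻¹ ∈ H → ∃ h ∈ H, h * x * h⁻¹ = g * x * g⁻¹) ∧ Subgroup.centralizer ({x} : Set G) ≤ H) ↔ (∀ g : G, g ∉ H → ∀ x ∈ I, ¬ (x ∈ H ∧ x ∈ (H : Subgroup G).map (MulAut.conj g).toMonoidHom))) ∧ ((∀ g : G, g ∉ H → ∀ x ∈ I, ¬ (x ∈ H ∧ x ∈ (H : Subgroup G).map (MulAut.conj g).toMonoidHom)) ↔ ∀ x ∈ I, x ∈ H → ∃! c : G ⧸ H, x • c = c) := by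
  classical
  have hmem : ∀ g x : G, x ∈ (H : Subgroup G).map (MulAut.conj g).toMonoidHom ↔ g⁻¹ * x * g ∈ H := by
    intro g x
    constructor
    · rintro ⟨h, hh, rfl⟩
      simpa [MulAut.conj_apply, mul_assoc] using hh
    · intro h
      exact ⟨_, h, by simp [MulAut.conj_apply, mul_assoc]⟩
  have h12 : (∀ x ∈ I, x ∈ H → (∀ g : G, g * x * g⁻¹ ∈ H → ∃ h ∈ H, h * x * h⁻¹ = g * x * g⁻¹) ∧ Subgroup.centralizer ({x} : Set G) ≤ H) ↔ (∀ g : G, g ∉ H → ∀ x ∈ I, ¬ (x ∈ H ∧ x ∈ (H : Subgroup G).map (MulAut.conj g).toMonoidHom)) := by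
    constructor
    · rintro h1 g hg x hx ⟨hxH, hxg⟩
      rw [hmem] at hxg
      obtain ⟨h2, h3⟩ := h1 x hx hxH
      obtain ⟨h, hh, hhx⟩ := h2 g⁻¹ (by rw [inv_inv]; exact hxg)
      rw [inv_inv] at hhx
      have h4 : g * h ∈ Subgroup.centralizer ({x} : Set G) := by
        rw [Subgroup.mem_centralizer_singleton_iff]
        calc g * h * x = g * (h * x * h⁻¹) * h := by group
          _ = g * (g⁻¹ * x * g) * h := by rw [hhx]
          _ = x * (g * h) := by group
      have h5 := H.mul_mem (h3 h4) (H.inv_mem hh)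
      rw [mul_inv_cancel_right] at h5
      exact hg h5
    · intro h1 x hx hxH
      constructor
      · intro g hg
        by_cases hgH : g ∈ H
        · exact ⟨g, hgH, rfl⟩
        · exfalso
          apply h1 g⁻¹ (fun h => hgH (by simpa using H.inv_mem h)) x hx
          refine ⟨hxH, ?_⟩
          rw [hmem, inv_inv]; exact hg
      · intro c hc
        rw [Subgroup.mem_centralizer_singleton_iff] at hc
        by_contra hcH
        apply h1 c hcH x hx
        refine ⟨hxH, ?_⟩
        rw [hmem]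
        have : c⁻¹ * x * c = x := by rw [mul_assoc, ← hc, inv_mul_cancel_left]
        rw [this]; exact hxH
  refine ⟨h12, ?_⟩
  have hfix : ∀ x g : G, x • (QuotientGroup.mk g : G ⧸ H) = QuotientGroup.mk g ↔ g⁻¹ * x * g ∈ H := by
    intro x g
    change (QuotientGroup.mk (x * g) : G ⧸ H) = QuotientGroup.mk g ↔ _
    rw [eq_comm, QuotientGroup.eq]
    rw [← mul_assoc]
  constructor
  · intro h1 x hx hxH
    refine ⟨QuotientGroup.mk 1, ?_, ?_⟩
    · change x • (QuotientGroup.mk 1 : G ⧸ H) = QuotientGroup.mk 1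
      rw [hfix]; simpa using hxH
    · intro c hc
      obtain ⟨g, rfl⟩ := QuotientGroup.mk_surjective c
      have hc' : x • (QuotientGroup.mk g : G ⧸ H) = QuotientGroup.mk g := hc
      rw [hfix] at hc'
      by_contra hne
      have hg : g ∉ H := by
        intro hg
        apply hne
        rw [eq_comm, QuotientGroup.eq]; simpa using hg
      exact h1 g hg x hx ⟨hxH, (hmem g x).2 hc'⟩
  · rintro h1 g hg x hx ⟨hxH, hxg⟩
    rw [hmem] at hxg
    obtain ⟨c, hc, hu⟩ := h1 x hx hxH
    have h2 := hu (QuotientGroup.mk g) ((hfix x g).2 hxg)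
    have h3 := hu (QuotientGroup.mk 1) ((hfix x 1).2 (by simpa using hxH))
    have h4 : (QuotientGroup.mk 1 : G ⧸ H) = QuotientGroup.mk g := h3.trans h2.symm
    rw [QuotientGroup.eq] at h4
    apply hg
    simpa using h4

end Cfsg.Agent.S5437
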