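import Mathlib
import Cfsg.Agent.H7.Syl
import Cfsg.Statements.S5438

set_option autoImplicit false
open Cfsg

namespace Cfsg.Agent.S5438

/-- Let z be a 2-central involution of the finite group G (an involution central in some Sylow 2-subgroup) and H a subgroup containing z such that the coset H is the only coset of H fixed by z (in the action of G on the cosets of H). Then H has odd index in G, and for every 2-element x of H the conjugates of x lying in H form a single H-class. -/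
theorem result {G : Type*} [Group G] [Finite G] (z : G) (hz : Cfsg.IsTwoCentralInvolution z) (H : Subgroup G) (hzH : z ∈ H) (hfix : ∀ g : G, g⁻¹ * z * g ∈ H → g ∈ H) : Odd H.index ∧ ∀ x ∈ H, (∃ k : ℕ, orderOf x = 2 ^ k) → ∀ g : G, g * x * g⁻¹ ∈ H → ∃ h ∈ H, h * x * h⁻¹ = g * x * g⁻¹ := by
  classical
  obtain ⟨hz2, S, hzS, hcS⟩ := hz
  have hCH : ∀ c : G, c * z = z * c → c ∈ H := by
    intro c hc
    apply hfix
    have : c⁻¹ * z * c = z := by rw [mul_assoc, ← hc, inv_mul_cancel_left]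
    rw [this]; exact hzH
  have hSH : (S : Subgroup G) ≤ H := fun x hx => hCH x (hcS x hx)
  have hSs := CfsgH7.isSyl_of_sylow S
  -- a 2-subgroup containing z lies in H
  have hT : ∀ T : Subgroup G, IsPGroup 2 T → z ∈ T → T ≤ H := by
    intro T hTp hzT
    obtain ⟨g, -, hg⟩ := hSs.exists_conj_le hTp le_top
    have h1 : g * z * g⁻¹ ∈ (S : Subgroup G) := hg (CfsgH7.conj_mem_cj hzT)
    have h2 := hcS _ h1
    have h3 : g⁻¹ * z * g ∈ H := by
      apply hCH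
      calc g⁻¹ * z * g * z = g⁻¹ * (z * (g * z * g⁻¹)) * g := by group
        _ = g⁻¹ * (g * z * g⁻¹ * z) * g := by rw [h2]
        _ = z * (g⁻¹ * z * g) := by group
    have h4 := hfix g h3
    intro t ht
    have h5 : g * t * g⁻¹ ∈ H := hSH (hg (CfsgH7.conj_mem_cj ht))
    have h6 := H.mul_mem (H.mul_mem (H.inv_mem h4) h5) h4
    have h7 : g⁻¹ * (g * t * g⁻¹) * g = t := by group
    rwa [h7] at h6
  refine ⟨?_, ?_⟩
  · have h1 := S.not_dvd_index
    rw [← Nat.not_even_iff_odd, even_iff_two_dvd]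
    intro h2
    apply h1
    rw [← Subgroup.relIndex_mul_index hSH]
    exact dvd_mul_of_dvd_right h2 _
  · rintro x hxH ⟨k, hk⟩ g hgx
    have hSsH : CfsgH7.IsSyl 2 (S : Subgroup G) H := hSs.mono hSH le_top
    -- every 2-element of H commutes with an H-conjugate of z
    have hex : ∀ w ∈ H, (∃ k : ℕ, w ^ 2 ^ k = 1) → ∃ h ∈ H, (h * w * h⁻¹) * z = z * (h * w * h⁻¹) := by
      rintro w hw ⟨k, hk⟩
      have hp : IsPGroup 2 (Subgroup.zpowers w) := by
        rintro ⟨_, ⟨j, rfl⟩⟩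
        refine ⟨k, Subtype.ext ?_⟩
        change (w ^ j) ^ 2 ^ k = 1
        rw [← zpow_natCast, ← zpow_mul, mul_comm, zpow_mul, zpow_natCast, hk, one_zpow]
      obtain ⟨h, hh, hle⟩ := hSsH.exists_conj_le hp (by rw [Subgroup.zpowers_le]; exact hw)
      exact ⟨h, hh, hcS _ (hle (CfsgH7.conj_mem_cj (Subgroup.mem_zpowers w)))⟩
    obtain ⟨h₁, hh₁, hc₁⟩ := hex x hxH ⟨k, by rw [← hk, pow_orderOf_eq_one]⟩
    have hgk : (g * x * g⁻¹) ^ 2 ^ k = 1 := by
      rw [conj_pow, ← hk, pow_orderOf_eq_one, mul_one, mul_inv_cancel]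
    obtain ⟨h₂, hh₂, hc₂⟩ := hex _ hgx ⟨k, hgk⟩
    set C := Subgroup.centralizer ({x} : Set G) with hC
    have hz₁ : h₁⁻¹ * z * h₁ ∈ C := by
      rw [hC, Subgroup.mem_centralizer_singleton_iff]
      calc h₁⁻¹ * z * h₁ * x = h₁⁻¹ * (z * (h₁ * x * h₁⁻¹)) * h₁ := by group
        _ = h₁⁻¹ * ((h₁ * x * h₁⁻¹) * z) * h₁ := by rw [hc₁]
        _ = x * (h₁⁻¹ * z * h₁) := by group
    set k₂ := h₂ * g with hk₂
    have hz₂ : k₂⁻¹ * z * k₂ ∈ C := by
      rw [hC, Subgroup.mem_centralizer_singleton_iff]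
      calc k₂⁻¹ * z * k₂ * x = k₂⁻¹ * (z * (h₂ * (g * x * g⁻¹) * h₂⁻¹)) * k₂ := by rw [hk₂]; group
        _ = k₂⁻¹ * ((h₂ * (g * x * g⁻¹) * h₂⁻¹) * z) * k₂ := by rw [hc₂]
        _ = x * (k₂⁻¹ * z * k₂) := by rw [hk₂]; group
    have hinvp : ∀ w : G, orderOf w = 2 → IsPGroup 2 (Subgroup.zpowers w) := by
      intro w hw
      rw [IsPGroup.iff_card]
      exact ⟨1, by rw [Nat.card_zpowers, hw, pow_one]⟩
    have hord : ∀ g : G, orderOf (g⁻¹ * z * g) = 2 := by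
      intro g
      rw [← hz2]
      have := orderOf_injective (MulAut.conj g⁻¹).toMonoidHom (MulAut.conj g⁻¹).injective z
      simpa [MulAut.conj_apply] using this
    obtain ⟨T, hT1, hTs⟩ := CfsgH7.exists_isSyl_ge (H := C) (hinvp _ (hord h₁)) (by rw [Subgroup.zpowers_le]; exact hz₁)
    obtain ⟨c, hcC, hcT⟩ := hTs.exists_conj_le (hinvp _ (hord k₂)) (by rw [Subgroup.zpowers_le]; exact hz₂)
    have hz₁T : h₁⁻¹ * z * h₁ ∈ T := hT1 (Subgroup.mem_zpowers _)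
    have hz₂T : c * (k₂⁻¹ * z * k₂) * c⁻¹ ∈ T := hcT (CfsgH7.conj_mem_cj (Subgroup.mem_zpowers _))
    -- T lies in H
    have hTH : T ≤ H := by
      have h1 : CfsgH7.cj h₁ T ≤ H := by
        apply hT _ (CfsgH7.isPGroup_cj h₁ hTs.isPGroup)
        rw [CfsgH7.mem_cj]; exact hz₁T
      intro t ht
      have h2 := h1 (CfsgH7.conj_mem_cj ht)
      have h3 := H.mul_mem (H.mul_mem (H.inv_mem hh₁) h2) hh₁
      have h4 : h₁⁻¹ * (h₁ * t * h₁⁻¹) * h₁ = t := by group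
      rwa [h4] at h3
    have h1 := hTH hz₂T
    have h2 : k₂ * c⁻¹ ∈ H := by
      apply hfix
      have h3 : (k₂ * c⁻¹)⁻¹ * z * (k₂ * c⁻¹) = c * (k₂⁻¹ * z * k₂) * c⁻¹ := by group
      rw [h3]; exact h1
    have h3 : g * c⁻¹ ∈ H := by
      have h4 := H.mul_mem (H.inv_mem hh₂) h2
      have h5 : h₂⁻¹ * (k₂ * c⁻¹) = g * c⁻¹ := by rw [hk₂]; group
      rwa [h5] at h4
    refine ⟨g * c⁻¹, h3, ?_⟩
    have hcx : c * x = x * c := Subgroup.mem_centralizer_singleton_iff.1 hcC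
    calc g * c⁻¹ * x * (g * c⁻¹)⁻¹ = g * c⁻¹ * (x * c) * g⁻¹ := by group
      _ = g * c⁻¹ * (c * x) * g⁻¹ := by rw [hcx]
      _ = g * x * g⁻¹ := by group

end Cfsg.Agent.S5438
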