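import Mathlib
import Cfsg.Statements.S5439

set_option autoImplicit false
open Cfsg

namespace Cfsg.Agent.S5439

/-- Let I and J be two different conjugacy classes of involutions of the finite group G and H a subgroup such that every member of I ∪ J fixes exactly one coset in the action on the cosets of H, and such that for every a in I ∩ H and every b in (I ∪ J) ∩ H different from a and commuting with it, the centralizer of a b lies in H. Then H = G. -/
theorem result {G : Type*} [Group G] [Finite G] (I J : Set G) (a₀ b₀ : G) (ha₀ : orderOf a₀ = 2) (hb₀ : orderOf b₀ = 2) (hI : I = {x | IsConj a₀ x}) (hJ : J = {x | IsConj b₀ x}) (hIJ : I ≠ J) (H : Subgroup G) (hfix : ∀ x ∈ I ∪ J, ∃! c : G ⧸ H, x • c = c) (hcent : ∀ a ∈ I, a ∈ H → ∀ b ∈ I ∪ J, b ∈ H → a ≠ b → a * b = b * a → Subgroup.centralizer ({a * b} : Set G) ≤ H) : H = ⊤ := by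
  classical
  have hsq0 : ∀ y : G, orderOf y = 2 → y * y = 1 := by
    intro y hy
    have := pow_orderOf_eq_one y
    rwa [hy, pow_two] at this
  have hsqI : ∀ a ∈ I, a * a = 1 := by
    intro a ha
    rw [hI] at ha
    obtain ⟨c, hc⟩ := isConj_iff.1 ha
    rw [← hc]
    calc c * a₀ * c⁻¹ * (c * a₀ * c⁻¹) = c * (a₀ * a₀) * c⁻¹ := by group
      _ = 1 := by rw [hsq0 a₀ ha₀]; group
  have hsqJ : ∀ a ∈ J, a * a = 1 := by
    intro a ha
    rw [hJ] at ha
    obtain ⟨c, hc⟩ := isConj_iff.1 ha
    rw [← hc]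
    calc c * b₀ * c⁻¹ * (c * b₀ * c⁻¹) = c * (b₀ * b₀) * c⁻¹ := by group
      _ = 1 := by rw [hsq0 b₀ hb₀]; group
  have hcI : ∀ a ∈ I, ∀ g : G, g * a * g⁻¹ ∈ I := by
    intro a ha g
    rw [hI] at ha ⊢
    exact IsConj.trans ha (isConj_iff.2 ⟨g, rfl⟩)
  have hcJ : ∀ a ∈ J, ∀ g : G, g * a * g⁻¹ ∈ J := by
    intro a ha g
    rw [hJ] at ha ⊢
    exact IsConj.trans ha (isConj_iff.2 ⟨g, rfl⟩)
  have hfx : ∀ x g : G, x • (QuotientGroup.mk g : G ⧸ H) = QuotientGroup.mk g ↔ g⁻¹ * x * g ∈ H := by
    intro x g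
    change (QuotientGroup.mk (x * g) : G ⧸ H) = QuotientGroup.mk g ↔ _
    rw [eq_comm, QuotientGroup.eq]
    rw [← mul_assoc]
  -- a member of I in H
  obtain ⟨a, haI, haH⟩ : ∃ a ∈ I, a ∈ H := by
    have h0 : a₀ ∈ I := by rw [hI]; exact IsConj.refl a₀
    obtain ⟨c, hc, -⟩ := hfix a₀ (Or.inl h0)
    obtain ⟨g, rfl⟩ := QuotientGroup.mk_surjective c
    have hc' : a₀ • (QuotientGroup.mk g : G ⧸ H) = QuotientGroup.mk g := hc
    rw [hfx] at hc'
    refine ⟨g⁻¹ * a₀ * g, ?_, hc'⟩
    have := hcI a₀ h0 g⁻¹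
    rwa [inv_inv] at this
  have hCa : ∀ c : G, c * a = a * c → c ∈ H := by
    intro c hc
    obtain ⟨q, -, hu⟩ := hfix a (Or.inl haI)
    have h1 := hu (QuotientGroup.mk c) ((hfx a c).2 (by
      have : c⁻¹ * a * c = a := by rw [mul_assoc, ← hc, inv_mul_cancel_left]
      rw [this]; exact haH))
    have h2 := hu (QuotientGroup.mk 1) ((hfx a 1).2 (by simpa using haH))
    have h3 : (QuotientGroup.mk 1 : G ⧸ H) = QuotientGroup.mk c := h2.trans h1.symm
    rw [QuotientGroup.eq] at h3
    simpa using h3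
  have haa := hsqI a haI
  have hai : a⁻¹ = a := inv_eq_of_mul_eq_one_left haa
  -- J lies in H
  have hJH : ∀ b ∈ J, b ∈ H := by
    intro b hb
    have hbb := hsqJ b hb
    have hbi : b⁻¹ = b := inv_eq_of_mul_eq_one_left hbb
    have hsa : SemiconjBy a (a * b)⁻¹ (a * b) := by
      change a * (a * b)⁻¹ = a * b * a
      rw [mul_inv_rev, hai, hbi]; group
    have hsb : SemiconjBy b (a * b) (a * b)⁻¹ := by
      change b * (a * b) = (a * b)⁻¹ * b
      rw [mul_inv_rev, hai, hbi]; group
    have hca : ∀ j : ℕ, (a * b) ^ j * a * ((a * b) ^ j)⁻¹ = (a * b) ^ (2 * j) * a := by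
      intro j
      have h1 : a * ((a * b)⁻¹) ^ j = (a * b) ^ j * a := hsa.pow_right j
      rw [inv_pow] at h1
      rw [mul_assoc, h1, two_mul, pow_add]; group
    rcases Nat.even_or_odd (orderOf (a * b)) with heven | hoddn
    · obtain ⟨k, hk⟩ := heven
      have hpos := orderOf_pos (a * b)
      set z := (a * b) ^ k with hz
      have hz1 : z ≠ 1 := by
        intro h1
        have := Nat.le_of_dvd (by omega) (orderOf_dvd_of_pow_eq_one h1)
        omega
      have hz2 : z * z = 1 := by rw [hz, ← pow_add, ← hk, pow_orderOf_eq_one]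
      have hzi : z⁻¹ = z := inv_eq_of_mul_eq_one_left hz2
      have hza : a * z = z * a := by
        have h1 := hsa.pow_right k
        rw [inv_pow, ← hz, hzi] at h1
        exact h1
      have hzb : b * z = z * b := by
        have h1 := hsb.pow_right k
        rw [inv_pow, ← hz, hzi] at h1
        exact h1
      -- z a lies in I ∪ J
      have hzaIJ : a * z ∈ I ∪ J := by
        rcases Nat.even_or_odd k with hke | hko
        · left
          obtain ⟨j, hj⟩ := hke
          have hcD := hcI a haI ((a * b) ^ j)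
          rw [hca, show 2 * j = k by omega, ← hz, ← hza] at hcD
          exact hcD
        · right
          obtain ⟨j, hj⟩ := hko
          have hcD := hcJ b hb ((a * b) ^ j)⁻¹
          have h1 : ((a * b) ^ j)⁻¹ * b * (((a * b) ^ j)⁻¹)⁻¹ = a * z := by
            have h2 : b * (a * b) ^ j = ((a * b)⁻¹) ^ j * b := hsb.pow_right j
            rw [inv_pow] at h2
            rw [inv_inv, ← h2, hz, hj]
            have h3 : (a * b) ^ (2 * j + 1) = (a * b) * ((a * b) ^ j * (a * b) ^ j) := by
              rw [pow_succ', two_mul, pow_add]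
            rw [h3]
            calc b * (a * b) ^ j * (a * b) ^ j = (a * a) * (b * (a * b) ^ j * (a * b) ^ j) := by rw [haa, one_mul]
              _ = a * (a * b * ((a * b) ^ j * (a * b) ^ j)) := by simp only [mul_assoc]
          rw [h1] at hcD
          exact hcD
      have hc1 : a * (a * z) = z := by rw [← mul_assoc, haa, one_mul]
      have hc2 : a * z * a = z := by rw [hza, mul_assoc, haa, mul_one]
      have hczH : a * z ∈ H := by
        apply hCa
        rw [hc2, hc1]
      have hne : a ≠ a * z := by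
        intro h
        exact hz1 (mul_eq_left.1 h.symm)
      have h1 := hcent a haI haH (a * z) hzaIJ hczH hne (by rw [hc1, hc2])
      rw [hc1] at h1
      apply h1
      rw [Subgroup.mem_centralizer_singleton_iff]
      exact hzb
    · exfalso
      obtain ⟨j, hj⟩ := hoddn
      have h1 := hca j
      have h2 : (a * b) ^ (2 * j) * a = b := by
        have h3 : (a * b) ^ (2 * j) * (a * b) = 1 := by rw [← pow_succ, ← hj, pow_orderOf_eq_one]
        calc (a * b) ^ (2 * j) * a = ((a * b) ^ (2 * j) * (a * b)) * b := by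
              have : ((a * b) ^ (2 * j) * (a * b)) * b = (a * b) ^ (2 * j) * a * (b * b) := by group
              rw [this, hbb, mul_one]
          _ = b := by rw [h3, one_mul]
      rw [h2] at h1
      have hab : IsConj a b := isConj_iff.2 ⟨_, h1⟩
      apply hIJ
      have haI' : IsConj a₀ a := by rw [hI] at haI; exact haI
      have hbJ' : IsConj b₀ b := by rw [hJ] at hb; exact hb
      have h00 : IsConj a₀ b₀ := (haI'.trans hab).trans hbJ'.symm
      rw [hI, hJ]
      ext y
      exact ⟨fun h => h00.symm.trans h, fun h => h00.trans h⟩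
  -- conclusion
  have h0 : b₀ ∈ J := by rw [hJ]; exact IsConj.refl b₀
  obtain ⟨q, -, hu⟩ := hfix b₀ (Or.inr h0)
  rw [eq_top_iff]
  intro g _
  have h1 := hu (QuotientGroup.mk g) ((hfx b₀ g).2 (by
    have := hJH _ (hcJ b₀ h0 g⁻¹)
    rwa [inv_inv] at this))
  have h2 := hu (QuotientGroup.mk 1) ((hfx b₀ 1).2 (by simpa using hJH b₀ h0))
  have h3 : (QuotientGroup.mk 1 : G ⧸ H) = QuotientGroup.mk g := h2.trans h1.symm
  rw [QuotientGroup.eq] at h3
  simpa using h3

end Cfsg.Agent.S5439
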