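import Cfsg.Statements.S5551
import Cfsg.Agent.L.Lat.Misc

set_option autoImplicit false
open Cfsg

namespace Cfsg.Agent.S5551
open CfsgL.Lat
open Finset

/-- In the Leech lattice of the definitions (integer coordinates, minimal squared length 32), let v and w be non-zero lattice vectors of squared length at most 64 that are congruent modulo twice the lattice. Then they have the same squared length, and if that length is less than 64 then w = v or w = −v. (So a class that contains a non-zero vector of squared length at most 64 has a well-defined type 2, 3 or 4, and a class of type 2 or 3 contains no such vector other than v and −v.) -/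
theorem result (v w : Cfsg.GolayPt → ℤ) (hv : v ∈ Cfsg.leechLattice) (hw : w ∈ Cfsg.leechLattice) (hv0 : v ≠ 0) (hw0 : w ≠ 0) (hvn : Cfsg.sqNorm v ≤ 64) (hwn : Cfsg.sqNorm w ≤ 64) (hc : ∃ z ∈ Cfsg.leechLattice, v - w = 2 • z) : Cfsg.sqNorm v = Cfsg.sqNorm w ∧ (Cfsg.sqNorm v < 64 → w = v ∨ w = -v) := by
  obtain ⟨z, hz, hvwz⟩ := hc
  have hzz : (⟨v, hv⟩ : Cfsg.leechLattice) - ⟨w, hw⟩ = ⟨z, hz⟩ + ⟨z, hz⟩ := by
    apply Subtype.ext
    show v - w = z + z
    rw [hvwz, two_smul]
  have e1 := bb_self ⟨v, hv⟩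
  have e2 := bb_self ⟨w, hw⟩
  change 8 * bb ⟨v, hv⟩ ⟨v, hv⟩ = Cfsg.sqNorm v at e1
  change 8 * bb ⟨w, hw⟩ ⟨w, hw⟩ = Cfsg.sqNorm w at e2
  by_cases h1 : v = w
  · rw [h1]; exact ⟨rfl, fun _ => Or.inl rfl⟩
  by_cases h2 : v = -w
  · refine ⟨?_, fun _ => Or.inr (by rw [h2, neg_neg])⟩
    rw [h2]
    unfold Cfsg.sqNorm
    apply Finset.sum_congr rfl
    intro i _
    rw [Pi.neg_apply]; ring
  have h3 := rl.same_class hzz (by omega) (by omega) (fun h => h1 (congrArg Subtype.val h))
    (fun h => h2 (congrArg Subtype.val h))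
  obtain ⟨h4, h5, h6⟩ := h3
  rw [h4] at e1
  rw [h5] at e2
  refine ⟨by omega, fun h => by omega⟩

end Cfsg.Agent.S5551
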