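import Cfsg.Statements.S5552
import Cfsg.Agent.L.Lat.Misc

set_option autoImplicit false
open Cfsg

namespace Cfsg.Agent.S5552
open CfsgL.Lat
open Finset

/-- On the Leech lattice of the definitions, let Q be a function to the field with two elements that is constant on cosets of twice the lattice, is a quadratic form there (Q(u+v+w) + Q(u) + Q(v) + Q(w) = Q(u+v) + Q(u+w) + Q(v+w) for all u, v, w), is invariant under every lattice automorphism, and is not identically zero. Then Q(v) is the squared length of v divided by 16, reduced modulo 2, for every lattice vector v (squared lengths of lattice vectors are multiples of 16). -/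
theorem result (Q : ↥Cfsg.leechLattice → ZMod 2) (hcoset : ∀ v w : ↥Cfsg.leechLattice, Q (v + (w + w)) = Q v) (hquad : ∀ u v w : ↥Cfsg.leechLattice, Q (u + v + w) + Q u + Q v + Q w = Q (u + v) + Q (u + w) + Q (v + w)) (hinv : ∀ (g : ↥Cfsg.Co0) (v : ↥Cfsg.leechLattice), Q (g • v) = Q v) (hne : ∃ v : ↥Cfsg.leechLattice, Q v ≠ 0) (v : ↥Cfsg.leechLattice) : Q v = ((Cfsg.sqNorm (v : Cfsg.GolayPt → ℤ) / 16 : ℤ) : ZMod 2) := by
  have h2 : ∀ a : ZMod 2, a + a = 0 := by decide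
  obtain ⟨p, q, r, hpq, hpr, hqr⟩ := two_pts'
  obtain ⟨s, hs⟩ : ∃ s : Cfsg.GolayPt, s ∉ ({p, q, r} : Finset Cfsg.GolayPt) := by
    by_contra hno
    push Not at hno
    have h1 : (Finset.univ : Finset Cfsg.GolayPt) ⊆ {p, q, r} := fun x _ => hno x
    have h2 := Finset.card_le_card h1
    rw [Finset.card_univ, CfsgL.Leech.card_pt] at h2
    have h3 := Finset.card_le_three (a := p) (b := q) (c := r)
    omega
  rw [Finset.mem_insert, Finset.mem_insert, Finset.mem_singleton, not_or, not_or] at hs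
  obtain ⟨hsp, hsq, hsr⟩ := hs
  have hQ0 : Q 0 = 0 := by
    have h := hquad 0 0 0
    rw [add_zero, add_zero] at h
    have h3 : Q 0 + Q 0 + Q 0 + Q 0 = 0 := by
      have := h2 (Q 0 + Q 0)
      rw [← this]; ring
    rw [h3] at h
    have h4 : Q 0 + Q 0 + Q 0 = Q 0 := by rw [h2, zero_add]
    rw [h4] at h
    exact h.symm
  -- values on the types
  have hv2 : ∀ {x y : Cfsg.leechLattice}, Cfsg.sqNorm x.1 = 32 → Cfsg.sqNorm y.1 = 32 → Q x = Q y := by
    intro x y hx hy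
    obtain ⟨g, hg⟩ := trans32 hx hy
    rw [← hg, hinv]
  have hv3 : ∀ {x y : Cfsg.leechLattice}, Cfsg.sqNorm x.1 = 48 → Cfsg.sqNorm y.1 = 48 → Q x = Q y := by
    intro x y hx hy
    obtain ⟨g, hg⟩ := trans48 hx hy
    rw [← hg, hinv]
  have hv4 : ∀ {x y : Cfsg.leechLattice}, Cfsg.sqNorm x.1 = 64 → Cfsg.sqNorm y.1 = 64 → Q x = Q y := by
    intro x y hx hy
    obtain ⟨g, hg⟩ := trans64' hx hy
    rw [← hg, hinv]
  set a : Cfsg.leechLattice := w2 p q 4 4 (Or.inl rfl) (Or.inl rfl) with ha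
  have hmin : ∀ (i j : Cfsg.GolayPt) (c d : ℤ) (hc : c = 4 ∨ c = -4) (hd : d = 4 ∨ d = -4), i ≠ j →
      Cfsg.sqNorm (w2 i j c d hc hd).1 = 32 := by
    intro i j c d hc hd hij
    show Cfsg.sqNorm (v2 i j c d) = 32
    rw [norm_v2 hij]
    rcases hc with rfl | rfl <;> rcases hd with rfl | rfl <;> norm_num
  have na : Cfsg.sqNorm a.1 = 32 := hmin p q 4 4 _ _ hpq
  have hnadd : ∀ x y : Cfsg.leechLattice, Cfsg.sqNorm (x + y).1 = Cfsg.sqNorm x.1 + Cfsg.sqNorm y.1 + 2 * Cfsg.dotInt x.1 y.1 :=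
    fun x y => norm_add _ _
  -- first relation : type 4 value is zero
  have h4 : ∀ x : Cfsg.leechLattice, Cfsg.sqNorm x.1 = 64 → Q x = 0 := by
    set v' : Cfsg.leechLattice := w2 p r (-4) 4 (Or.inr rfl) (Or.inl rfl) with hv'
    set w' : Cfsg.leechLattice := w2 r s (-4) 4 (Or.inr rfl) (Or.inl rfl) with hw'
    have nv : Cfsg.sqNorm v'.1 = 32 := hmin p r (-4) 4 _ _ hpr
    have nw : Cfsg.sqNorm w'.1 = 32 := hmin r s (-4) 4 _ _ (Ne.symm hsr)
    have d1 : Cfsg.dotInt a.1 v'.1 = -16 := by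
      show Cfsg.dotInt (v2 p q 4 4) (v2 p r (-4) 4) = -16
      rw [dot_v2, v2_apply hpq, v2_apply hpq, if_pos rfl, if_neg hpr.symm, if_neg hqr.symm]; norm_num
    have d2 : Cfsg.dotInt a.1 w'.1 = 0 := by
      show Cfsg.dotInt (v2 p q 4 4) (v2 r s (-4) 4) = 0
      rw [dot_v2, v2_apply hpq, v2_apply hpq, if_neg hpr.symm, if_neg hqr.symm, if_neg hsp, if_neg hsq]; norm_num
    have d3 : Cfsg.dotInt v'.1 w'.1 = -16 := by
      show Cfsg.dotInt (v2 p r (-4) 4) (v2 r s (-4) 4) = -16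
      rw [dot_v2, v2_apply hpr, v2_apply hpr, if_neg hpr.symm, if_pos rfl, if_neg hsp, if_neg hsr]; norm_num
    have n1 : Cfsg.sqNorm (a + v').1 = 32 := by rw [hnadd, na, nv, d1]; norm_num
    have n2 : Cfsg.sqNorm (a + w').1 = 64 := by rw [hnadd, na, nw, d2]; norm_num
    have n3 : Cfsg.sqNorm (v' + w').1 = 32 := by rw [hnadd, nv, nw, d3]; norm_num
    have n4 : Cfsg.sqNorm (a + v' + w').1 = 32 := by
      have : Cfsg.dotInt (a + v').1 w'.1 = -16 := by
        rw [coe_add', dot_add_l, d2, d3]; norm_num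
      rw [hnadd, n1, nw, this]; norm_num
    have h := hquad a v' w'
    rw [hv2 n4 na, hv2 nv na, hv2 nw na, hv2 n1 na, hv2 n3 na] at h
    intro x hx
    rw [hv4 hx n2]
    have e1 : Q a + Q a + Q a + Q a = 0 := by
      have := h2 (Q a + Q a)
      rw [← this]; ring
    rw [e1] at h
    have e2 : Q a + Q (a + w') + Q a = Q (a + w') := by
      have : Q a + Q (a + w') + Q a = (Q a + Q a) + Q (a + w') := by ring
      rw [this, h2, zero_add]
    rw [e2] at h
    exact h.symm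
  -- second relation : type 2 value is zero
  have h2v : ∀ x : Cfsg.leechLattice, Cfsg.sqNorm x.1 = 32 → Q x = 0 := by
    set u' : Cfsg.leechLattice := ⟨v1 p (-3), odd_mem p⟩ with hu'
    set v' : Cfsg.leechLattice := a with hv'
    set w' : Cfsg.leechLattice := w2 q r (-4) (-4) (Or.inr rfl) (Or.inr rfl) with hw'
    have nu : Cfsg.sqNorm u'.1 = 32 := by
      show Cfsg.sqNorm (v1 p (-3)) = 32
      rw [sqNorm_eq_dot, dot_v1]
      have h1 : ∑ i, v1 p (-3) i = 20 := by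
        unfold v1
        have : ∀ i : Cfsg.GolayPt, (if i = p then (-3 : ℤ) else 1) = 1 + if i = p then -4 else 0 := by
          intro i; split_ifs <;> norm_num
        rw [Finset.sum_congr rfl (fun i _ => this i), Finset.sum_add_distrib, Finset.sum_ite_eq' Finset.univ p, if_pos (Finset.mem_univ _),
          Finset.sum_const, Finset.card_univ, CfsgL.Leech.card_pt]
        norm_num
      rw [h1]; unfold v1; rw [if_pos rfl]; norm_num
    have nw : Cfsg.sqNorm w'.1 = 32 := hmin q r (-4) (-4) _ _ hqr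
    have d1 : Cfsg.dotInt u'.1 a.1 = -8 := by
      show Cfsg.dotInt (v1 p (-3)) (v2 p q 4 4) = -8
      rw [dot_v2]; unfold v1; rw [if_pos rfl, if_neg hpq.symm]; norm_num
    have d2 : Cfsg.dotInt u'.1 w'.1 = -8 := by
      show Cfsg.dotInt (v1 p (-3)) (v2 q r (-4) (-4)) = -8
      rw [dot_v2]; unfold v1; rw [if_neg hpq.symm, if_neg hpr.symm]; norm_num
    have d3 : Cfsg.dotInt a.1 w'.1 = -16 := by
      show Cfsg.dotInt (v2 p q 4 4) (v2 q r (-4) (-4)) = -16
      rw [dot_v2, v2_apply hpq, v2_apply hpq, if_neg hpq.symm, if_pos rfl, if_neg hpr.symm, if_neg hqr.symm]; norm_num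
    have n1 : Cfsg.sqNorm (u' + a).1 = 48 := by rw [hnadd, nu, na, d1]; norm_num
    have n2 : Cfsg.sqNorm (u' + w').1 = 48 := by rw [hnadd, nu, nw, d2]; norm_num
    have n3 : Cfsg.sqNorm (a + w').1 = 32 := by rw [hnadd, na, nw, d3]; norm_num
    have n4 : Cfsg.sqNorm (u' + a + w').1 = 32 := by
      have : Cfsg.dotInt (u' + a).1 w'.1 = -24 := by
        rw [coe_add', dot_add_l, d2, d3]; norm_num
      rw [hnadd, n1, nw, this]; norm_num
    have h := hquad u' a w'
    rw [hv2 n4 na, hv2 nu na, hv2 nw na, hv3 n2 n1, hv2 n3 na] at h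
    intro x hx
    rw [hv2 hx na]
    have e1 : Q a + Q a + Q a + Q a = 0 := by
      have := h2 (Q a + Q a)
      rw [← this]; ring
    rw [e1, h2, zero_add] at h
    exact h.symm
  have h3 : ∀ x : Cfsg.leechLattice, Cfsg.sqNorm x.1 = 48 → Q x = 1 := by
    obtain ⟨v0, hv0⟩ := hne
    obtain ⟨y, z, hz, hy⟩ := short v0
    have hQy : Q v0 = Q y := by
      have : v0 = y + (z + z) := by rw [← hz]; abel
      rw [this, hcoset]
    rw [hQy] at hv0
    rcases norm_cases hy with h0 | h0 | h0 | h0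
    · rw [h0] at hv0; exact absurd hQ0 hv0
    · exact absurd (h2v y h0) hv0
    · intro x hx
      rw [hv3 hx h0]
      revert hv0
      generalize Q y = t
      revert t; decide
    · exact absurd (h4 y h0) hv0
  obtain ⟨y, z, hz, hy⟩ := short v
  have hvy : v = y + (z + z) := by rw [← hz]; abel
  have hQv : Q v = Q y := by rw [hvy, hcoset]
  have hnv : ∃ k : ℤ, Cfsg.sqNorm v.1 = Cfsg.sqNorm y.1 + 32 * k := by
    have e1 : Cfsg.sqNorm v.1 = Cfsg.sqNorm y.1 + Cfsg.sqNorm (z + z).1 + 2 * Cfsg.dotInt y.1 (z + z).1 := by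
      rw [← hnadd y (z + z), ← hvy]
    have e2 := hnadd z z
    rw [← sqNorm_eq_dot] at e2
    have e3 : Cfsg.dotInt y.1 (z + z).1 = 2 * Cfsg.dotInt y.1 z.1 := by
      rw [coe_add', dot_add_r]; ring
    obtain ⟨k1, hk1⟩ := dot_dvd y.2 z.2
    obtain ⟨k2, hk2⟩ := CfsgL.Leech.norm_dvd z.2
    rw [e2, e3, hk1, hk2] at e1
    exact ⟨2 * k2 + k1, by rw [e1]; ring⟩
  obtain ⟨k, hk⟩ := hnv
  have hodd : ((Cfsg.sqNorm v.1 / 16 : ℤ) : ZMod 2) = ((Cfsg.sqNorm y.1 / 16 : ℤ) : ZMod 2) := by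
    have : Cfsg.sqNorm v.1 / 16 = Cfsg.sqNorm y.1 / 16 + 2 * k := by omega
    rw [this]
    push_cast
    have h22 : (2 : ZMod 2) = 0 := by decide
    rw [h22, zero_mul, add_zero]
  rw [hQv, hodd]
  rcases norm_cases hy with h0 | h0 | h0 | h0
  · rw [h0, hQ0]
    have : Cfsg.sqNorm (0 : Cfsg.leechLattice).1 = 0 := norm_zero
    rw [this]; rfl
  · rw [h2v y h0, h0]; decide
  · rw [h3 y h0, h0]; decide
  · rw [h4 y h0, h0]; decide

end Cfsg.Agent.S5552
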