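import Cfsg.Statements.S5592
import Cfsg.Agent.L.Lat.Misc

set_option autoImplicit false
open Cfsg

namespace Cfsg.Agent.S5592
open CfsgL.Lat
open Finset

/-- In the Leech lattice (integer coordinates, sum of squares equal to 8 times the customary norm, so the shortest non-zero vectors have sum of squares 32): if two distinct vectors of sum of squares at most 64 are congruent modulo twice the lattice, then either they are negatives of each other, or both have sum of squares 64 and they are orthogonal. -/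
theorem result (x y : Cfsg.GolayPt → ℤ) (hx : x ∈ Cfsg.leechLattice) (hy : y ∈ Cfsg.leechLattice) (hxy : x ≠ y) (hxn : Cfsg.sqNorm x ≤ 64) (hyn : Cfsg.sqNorm y ≤ 64) (hc : (∃ z ∈ Cfsg.leechLattice, x - y = 2 • z)) :
    x = -y ∨ (Cfsg.sqNorm x = 64 ∧ Cfsg.sqNorm y = 64 ∧ Cfsg.dotInt x y = 0) := by
  obtain ⟨z, hz, hvwz⟩ := hc
  have hzz : (⟨x, hx⟩ : Cfsg.leechLattice) - ⟨y, hy⟩ = ⟨z, hz⟩ + ⟨z, hz⟩ := by
    apply Subtype.ext
    show x - y = z + z
    rw [hvwz, two_smul]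
  have e1 := bb_self ⟨x, hx⟩
  have e2 := bb_self ⟨y, hy⟩
  change 8 * bb ⟨x, hx⟩ ⟨x, hx⟩ = Cfsg.sqNorm x at e1
  change 8 * bb ⟨y, hy⟩ ⟨y, hy⟩ = Cfsg.sqNorm y at e2
  by_cases h2 : x = -y
  · exact Or.inl h2
  right
  have h3 := rl.same_class hzz (by omega) (by omega) (fun h => hxy (congrArg Subtype.val h))
    (fun h => h2 (congrArg Subtype.val h))
  obtain ⟨h4, h5, h6⟩ := h3
  rw [h4] at e1
  rw [h5] at e2
  have e3 := eight_bb ⟨x, hx⟩ ⟨y, hy⟩
  change 8 * bb ⟨x, hx⟩ ⟨y, hy⟩ = Cfsg.dotInt x y at e3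
  rw [h6] at e3
  exact ⟨by omega, by omega, by omega⟩

end Cfsg.Agent.S5592
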