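import Cfsg.Statements.S5602
import Cfsg.Agent.L.Orb.Cls

set_option autoImplicit false
open scoped Pointwise
open Cfsg

namespace Cfsg.Agent.S5602
open CfsgL.Orb

/-- An element of order 3 of the group of the length-24 code having exactly 6 fixed points maps to themselves exactly 21 octads, exactly 15 trios, exactly 16 sextets and exactly 20 dodecads. -/
theorem result (g : Equiv.Perm Cfsg.GolayPt) (hg : g ∈ Cfsg.M24) (h₃ : orderOf g = 3) (h₆ : (Finset.univ.filter fun p => g p = p).card = 6) : {o : Finset Cfsg.GolayPt | o ∈ Cfsg.octads ∧ g • o = o}.ncard = 21 ∧ {T : Finset (Finset Cfsg.GolayPt) | T ∈ Cfsg.trios ∧ g • T = T}.ncard = 15 ∧ {S : Finset (Finset Cfsg.GolayPt) | S ∈ Cfsg.sextets ∧ g • S = S}.ncard = 16 ∧ {d : Finset Cfsg.GolayPt | d ∈ Cfsg.dodecads ∧ g • d = d}.ncard = 20 := by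
  have h6 : (fixset g).card = 6 := h₆
  rcases three_cases hg h₃ with ⟨_, k, hk, e⟩ | ⟨h, _⟩
  · refine ⟨?_, ?_, ?_, ?_⟩
    · rw [fixed_conj (fun g hg b hb => (CfsgL.Golay.smul_octad hg).2 hb) hk, e]
      exact fix_oct t0_spec.2 21 (by decide +kernel)
    · rw [fixed_conj (fun g hg b hb => smul_trio hg hb) hk, e]
      exact fix_trio t0_spec.2 15 (by decide +kernel)
    · rw [fixed_conj (fun g hg b hb => smul_sextet hg hb) hk, e]
      exact fix_sext t0_spec.2 16 (by decide +kernel)
    · rw [fixed_conj (fun g hg b hb => (CfsgL.Golay.smul_dodecad hg).2 hb) hk, e]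
      exact fix_dod t0_spec.2 20 (by decide +kernel)
  · rw [h] at h6; simp at h6

end Cfsg.Agent.S5602
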