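import Cfsg.Statements.S5603
import Cfsg.Agent.L.Orb.Cls

set_option autoImplicit false
open scoped Pointwise
open Cfsg

namespace Cfsg.Agent.S5603
open CfsgL.Orb

/-- A fixed-point-free element of order 3 of the group of the length-24 code maps to themselves exactly 7 sextets and exactly 15 trios. -/
theorem result (g : Equiv.Perm Cfsg.GolayPt) (hg : g ∈ Cfsg.M24) (h₃ : orderOf g = 3) (h₀ : ∀ p, g p ≠ p) : {S : Finset (Finset Cfsg.GolayPt) | S ∈ Cfsg.sextets ∧ g • S = S}.ncard = 7 ∧ {T : Finset (Finset Cfsg.GolayPt) | T ∈ Cfsg.trios ∧ g • T = T}.ncard = 15 := by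
  rcases three_cases hg h₃ with ⟨h, _⟩ | ⟨_, k, hk, e⟩
  · have : fixset g = ∅ := by
      rw [Finset.eq_empty_iff_forall_notMem]
      intro p hp
      exact h₀ p (mem_fixset.1 hp)
    rw [this] at h; simp at h
  · refine ⟨?_, ?_⟩
    · rw [fixed_conj (fun g hg b hb => smul_sextet hg hb) hk, e]
      exact fix_sext t1_spec.2 7 (by decide +kernel)
    · rw [fixed_conj (fun g hg b hb => smul_trio hg hb) hk, e]
      exact fix_trio t1_spec.2 15 (by decide +kernel)

end Cfsg.Agent.S5603
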