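import Cfsg.Statements.S5605
import Cfsg.Agent.L.Orb.Cls

set_option autoImplicit false
open scoped Pointwise
open Cfsg

namespace Cfsg.Agent.S5605
open CfsgL.Orb

/-- An involution of the group of the length-24 code with exactly 8 fixed points maps to themselves exactly 71 octads, exactly 99 trios and exactly 91 sextets. -/
theorem result (g : Equiv.Perm Cfsg.GolayPt) (hg : g ∈ Cfsg.M24) (h₂ : orderOf g = 2) (h₈ : (Finset.univ.filter fun p => g p = p).card = 8) : {o : Finset Cfsg.GolayPt | o ∈ Cfsg.octads ∧ g • o = o}.ncard = 71 ∧ {T : Finset (Finset Cfsg.GolayPt) | T ∈ Cfsg.trios ∧ g • T = T}.ncard = 99 ∧ {S : Finset (Finset Cfsg.GolayPt) | S ∈ Cfsg.sextets ∧ g • S = S}.ncard = 91 := by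
  have h6 : (fixset g).card = 8 := h₈
  rcases inv_cases hg h₂ with ⟨_, k, hk, e⟩ | ⟨h, _⟩
  · refine ⟨?_, ?_, ?_⟩
    · rw [fixed_conj (fun g hg b hb => (CfsgL.Golay.smul_octad hg).2 hb) hk, e]
      exact fix_oct r0_spec.2 71 (by decide +kernel)
    · rw [fixed_conj (fun g hg b hb => smul_trio hg hb) hk, e]
      exact fix_trio r0_spec.2 99 (by decide +kernel)
    · rw [fixed_conj (fun g hg b hb => smul_sextet hg hb) hk, e]
      exact fix_sext r0_spec.2 91 (by decide +kernel)
  · rw [h] at h6; simp at h6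

end Cfsg.Agent.S5605
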