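import Cfsg.Statements.S5606
import Cfsg.Agent.L.Orb.Cls

set_option autoImplicit false
open scoped Pointwise
open Cfsg

namespace Cfsg.Agent.S5606
open CfsgL.Orb

/-- A fixed-point-free involution of the group of the length-24 code maps to themselves exactly 15 octads, exactly 75 trios and exactly 51 sextets. -/
theorem result (g : Equiv.Perm Cfsg.GolayPt) (hg : g ∈ Cfsg.M24) (h₂ : orderOf g = 2) (h₀ : ∀ p, g p ≠ p) : {o : Finset Cfsg.GolayPt | o ∈ Cfsg.octads ∧ g • o = o}.ncard = 15 ∧ {T : Finset (Finset Cfsg.GolayPt) | T ∈ Cfsg.trios ∧ g • T = T}.ncard = 75 ∧ {S : Finset (Finset Cfsg.GolayPt) | S ∈ Cfsg.sextets ∧ g • S = S}.ncard = 51 := by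
  rcases inv_cases hg h₂ with ⟨h, _⟩ | ⟨_, k, hk, e⟩
  · have : fixset g = ∅ := by
      rw [Finset.eq_empty_iff_forall_notMem]
      intro p hp
      exact h₀ p (mem_fixset.1 hp)
    have h1 := CfsgL.Golay.card_octad h
    rw [this] at h1; simp at h1
  · refine ⟨?_, ?_, ?_⟩
    · rw [fixed_conj (fun g hg b hb => (CfsgL.Golay.smul_octad hg).2 hb) hk, e]
      exact fix_oct r1_spec.2 15 (by decide +kernel)
    · rw [fixed_conj (fun g hg b hb => smul_trio hg hb) hk, e]
      exact fix_trio r1_spec.2 75 (by decide +kernel)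
    · rw [fixed_conj (fun g hg b hb => smul_sextet hg hb) hk, e]
      exact fix_sext r1_spec.2 51 (by decide +kernel)

end Cfsg.Agent.S5606
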