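import Cfsg.Statements.S5613
import Cfsg.Agent.L.Orb.Use

set_option autoImplicit false
open scoped Pointwise
open Cfsg

namespace Cfsg.Agent.S5613
open CfsgL.Orb

/-- In the group of the length-24 code, the joint stabiliser of two octads has order 10752, 1152 or 720 according as the octads meet in 0, 4 or 2 points. -/
theorem result (o o' : Finset Cfsg.GolayPt) (ho : o ∈ Cfsg.octads) (ho' : o' ∈ Cfsg.octads) : ((o ∩ o').card = 0 → Nat.card ↥(MulAction.stabilizer Cfsg.M24 o ⊓ MulAction.stabilizer Cfsg.M24 o') = 10752) ∧ ((o ∩ o').card = 4 → Nat.card ↥(MulAction.stabilizer Cfsg.M24 o ⊓ MulAction.stabilizer Cfsg.M24 o') = 1152) ∧ ((o ∩ o').card = 2 → Nat.card ↥(MulAction.stabilizer Cfsg.M24 o ⊓ MulAction.stabilizer Cfsg.M24 o') = 720) := by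
  have h1 := card_stab base_oct (fun g hg a ha => (CfsgL.Golay.smul_octad hg).2 ha) ho
  rw [CfsgL.Golay.octads_ncard] at h1
  have h2 := orbs_oct_oct.card_joint ho ho'
  beta_reduce at h2
  rw [isum_sg] at h2
  refine ⟨fun h => ?_, fun h => ?_, fun h => ?_⟩
  · rw [h, show szf [1, 30, 280, 448] (find [64, 0, 16, 4] (0 ^ 2)) = 30 by decide] at h2; omega
  · rw [h, show szf [1, 30, 280, 448] (find [64, 0, 16, 4] (4 ^ 2)) = 280 by decide] at h2; omega
  · rw [h, show szf [1, 30, 280, 448] (find [64, 0, 16, 4] (2 ^ 2)) = 448 by decide] at h2; omega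

end Cfsg.Agent.S5613
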