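import Cfsg.Statements.S5616
import Cfsg.Agent.L.Orb.Misc

set_option autoImplicit false
open scoped Pointwise
open Cfsg

namespace Cfsg.Agent.S5616
open CfsgL.Orb

/-- Let Y be a set of 3 of the 24 points. The sextets of the length-24 code whose tetrads meeting Y number 1, 2 or 3 are respectively 21, 630 and 1120 in number, and two sextets with the same number of tetrads meeting Y are conjugate under the setwise stabiliser of Y in the code's group. -/
theorem result (Y : Finset Cfsg.GolayPt) (hY : Y.card = 3) : {S : Finset (Finset Cfsg.GolayPt) | S ∈ Cfsg.sextets ∧ (S.filter fun t => (t ∩ Y).Nonempty).card = 1}.ncard = 21 ∧ {S : Finset (Finset Cfsg.GolayPt) | S ∈ Cfsg.sextets ∧ (S.filter fun t => (t ∩ Y).Nonempty).card = 2}.ncard = 630 ∧ {S : Finset (Finset Cfsg.GolayPt) | S ∈ Cfsg.sextets ∧ (S.filter fun t => (t ∩ Y).Nonempty).card = 3}.ncard = 1120 ∧ ∀ S S' : Finset (Finset Cfsg.GolayPt), S ∈ Cfsg.sextets → S' ∈ Cfsg.sextets → (S.filter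 fun t => (t ∩ Y).Nonempty).card = (S'.filter fun t => (t ∩ Y).Nonempty).card → ∃ g ∈ Cfsg.M24, g • Y = Y ∧ g • S = S' := by
  have key : ∀ k v i : ℕ, (k = 1 ∧ v = 9 ∧ i = 0 ∨ k = 2 ∧ v = 5 ∧ i = 1 ∨ k = 3 ∧ v = 3 ∧ i = 2) →
      {S : Finset (Finset GolayPt) | S ∈ sextets ∧ (S.filter fun t => (t ∩ Y).Nonempty).card = k} =
      {S | S ∈ sextets ∧ find [9, 5, 3] (isum (sg Y) (id S)) = i} := by
    intro k v i h
    ext S
    simp only [Set.mem_ofPred_eq, and_congr_right_iff]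
    intro hS
    have h1 : find [9, 5, 3] 9 = 0 := by decide
    have h2 : find [9, 5, 3] 5 = 1 := by decide
    have h3 : find [9, 5, 3] 3 = 2 := by decide
    rcases isum_triad hS hY with ⟨a, b⟩ | ⟨a, b⟩ | ⟨a, b⟩
    · rw [a, b, h1]; omega
    · rw [a, b, h2]; omega
    · rw [a, b, h3]; omega
  refine ⟨?_, ?_, ?_, ?_⟩
  · rw [key 1 9 0 (by omega)]; exact orbs_triad_sext.count Y hY 0 (by decide)
  · rw [key 2 5 1 (by omega)]; exact orbs_triad_sext.count Y hY 1 (by decide)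
  · rw [key 3 3 2 (by omega)]; exact orbs_triad_sext.count Y hY 2 (by decide)
  · intro S S' hS hS' h
    refine orbs_triad_sext.trans Y hY S hS S' hS' ?_
    beta_reduce
    congr 1
    rcases isum_triad hS hY with ⟨a, b⟩ | ⟨a, b⟩ | ⟨a, b⟩ <;>
      rcases isum_triad hS' hY with ⟨c, d⟩ | ⟨c, d⟩ | ⟨c, d⟩ <;> omega

end Cfsg.Agent.S5616
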