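import Cfsg.Statements.S5623
import Cfsg.Agent.L.GolayUniq3

set_option autoImplicit false
open Cfsg

namespace Cfsg.Agent.S5623
open CfsgL.GU

/-- Let C be a self-dual binary code of length 24 with minimum weight at least 8 (a 12-dimensional subspace of the 24-dimensional space over the field with two elements, any two of whose words have dot product zero, with no non-zero word of weight below 8 — an abstract extended binary Golay code). Then every coset w + C of C in the ambient space contains either exactly one word of weight at most 4, which then has weight at most 3, or exactly six words of weight at most 4, all of weight exactly 4 and with pairwise disjoint supports (a sextet). -/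
theorem result (C : Submodule (ZMod 2) (Fin 24 → ZMod 2)) (hdim : Module.finrank (ZMod 2) C = 12) (horth : ∀ v ∈ C, ∀ w ∈ C, ∑ i, v i * w i = 0) (hmin : ∀ w ∈ C, w ≠ 0 → 8 ≤ hammingNorm w) (w : Fin 24 → ZMod 2) : (∃ u : Fin 24 → ZMod 2, {u : Fin 24 → ZMod 2 | u - w ∈ C ∧ hammingNorm u ≤ 4} = {u} ∧ hammingNorm u ≤ 3) ∨ ({u : Fin 24 → ZMod 2 | u - w ∈ C ∧ hammingNorm u ≤ 4}.ncard = 6 ∧ ∀ u ∈ {u : Fin 24 → ZMod 2 | u - w ∈ C ∧ hammingNorm u ≤ 4}, hammingNorm u = 4 ∧ ∀ u' ∈ {u : Fin 24 → ZMod 2 | u - w ∈ C ∧ hammingNorm u ≤ 4}, u ≠ u' → Disjoint (Finset.univ.filter fun i => u i ≠ 0) (Finset.univ.filter fun i => u' i ≠ 0)) := by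
  have key := coset_cases (C := fam C) (by simp) (fun _ hs _ ht => fam_symm hs ht) (fam_min hmin)
    (card_fam hdim) (support₂ w)
  have e1 : ∀ u : Fin 24 → ZMod 2, (u - w ∈ C ∧ hammingNorm u ≤ 4) ↔
      (symmDiff (support₂ u) (support₂ w) ∈ fam C ∧ (support₂ u).card ≤ 4) := by
    intro u
    rw [← sup2_sub, mem_fam', hamming_eq]
  have inj : Function.Injective (support₂ : (Fin 24 → ZMod 2) → Finset (Fin 24)) := by
    intro a b h
    rw [← ind2_sup2 a, h, ind2_sup2]
  have e2 : {u : Fin 24 → ZMod 2 | u - w ∈ C ∧ hammingNorm u ≤ 4} =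
      support₂ ⁻¹' {u : Finset (Fin 24) | symmDiff u (support₂ w) ∈ fam C ∧ u.card ≤ 4} := by
    ext u
    exact e1 u
  have surj : Function.Surjective (support₂ : (Fin 24 → ZMod 2) → Finset (Fin 24)) :=
    fun s => ⟨ind2 s, sup2_ind2 s⟩
  rcases key with ⟨u, hu, hu3⟩ | ⟨h6, hd⟩
  · left
    refine ⟨ind2 u, ?_, ?_⟩
    · rw [e2, hu]
      ext v
      simp only [Set.mem_preimage, Set.mem_singleton_iff]
      constructor
      · rintro rfl
        rw [ind2_sup2]
      · rintro rfl
        rw [sup2_ind2]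
    · rw [hamming_ind2]; exact hu3
  · right
    refine ⟨?_, ?_⟩
    · rw [e2, Set.ncard_preimage_of_injective_subset_range inj, h6]
      rw [surj.range_eq]
      exact Set.subset_univ _
    · rw [e2]
      intro u hu
      have h1 := hd _ hu
      refine ⟨h1.1, fun u' hu' hne => ?_⟩
      exact h1.2 _ hu' (fun h => hne (inj h))

end Cfsg.Agent.S5623
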