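import Cfsg.Statements.S5624
import Cfsg.Agent.L.GolayUniq3

set_option autoImplicit false
open Cfsg

namespace Cfsg.Agent.S5624
open CfsgL.GU

/-- Let C be a self-dual binary code of length 24 with minimum weight at least 8 (a 12-dimensional subspace of the 24-dimensional space over the field with two elements, any two of whose words have dot product zero, with no non-zero word of weight below 8 — an abstract extended binary Golay code). Then C is spanned, as a vector space over the field with two elements, by its words of weight 8. -/
theorem result (C : Submodule (ZMod 2) (Fin 24 → ZMod 2)) (hdim : Module.finrank (ZMod 2) C = 12) (horth : ∀ v ∈ C, ∀ w ∈ C, ∑ i, v i * w i = 0) (hmin : ∀ w ∈ C, w ≠ 0 → 8 ≤ hammingNorm w) : Submodule.span (ZMod 2) {w : Fin 24 → ZMod 2 | w ∈ C ∧ hammingNorm w = 8} = C := by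
  obtain ⟨hG, hdual⟩ := fam_golay hdim horth hmin
  apply le_antisymm
  · rw [Submodule.span_le]
    intro w hw
    exact hw.1
  · set S := Submodule.span (ZMod 2) {w : Fin 24 → ZMod 2 | w ∈ C ∧ hammingNorm w = 8} with hS
    have hSC : S ≤ C := by
      rw [hS, Submodule.span_le]
      intro w hw
      exact hw.1
    have hsub : fam S ⊆ fam C := fun s hs => mem_fam.2 (hSC (mem_fam.1 hs))
    have h1 : ∀ s ∈ fam C, s.card = 8 → s ∈ fam S := by
      intro s hs h8
      rw [mem_fam]
      apply Submodule.subset_span
      exact ⟨mem_fam.1 hs, by rw [hamming_ind2]; exact h8⟩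
    have h2 := dual_count' (fam S) (fun _ hs _ ht => fam_symm hs ht) (by
      rw [mem_fam]
      convert S.zero_mem using 1
      funext i
      simp [ind2])
    have h3 : dualF (fam S : Set (Finset (Fin 24))) ⊆ fam C := by
      intro t ht
      rw [hdual, mem_dualF]
      rintro s ⟨hs, h8⟩
      rw [mem_dualF] at ht
      exact ht s (Finset.mem_coe.2 (h1 s hs h8))
    have h4 := Finset.card_le_card h3
    rw [hG.size] at h4
    rw [Fintype.card_fin] at h2
    have e24 : (2 : ℕ) ^ 24 = 4096 * 4096 := by norm_num
    rw [e24] at h2
    have h5 : 4096 * 4096 ≤ 4096 * (fam S).card := by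
      rw [← h2]; exact Nat.mul_le_mul_right _ h4
    have h6 : 4096 ≤ (fam S).card := Nat.le_of_mul_le_mul_left h5 (by norm_num)
    have h7 : fam S = fam C := by
      apply Finset.eq_of_subset_of_card_le hsub
      rw [hG.size]; exact h6
    intro w hw
    rw [← mem_fam', h7, mem_fam']
    exact hw

end Cfsg.Agent.S5624
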