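import Cfsg.Statements.S5625
import Cfsg.Agent.L.Steiner2

set_option autoImplicit false
open Cfsg

namespace Cfsg.Agent.S5625
open CfsgL.Steiner
open Finset

/-- In any Steiner system S(5, 8, 24) and for any set Y of three points, the blocks meeting Y in exactly 3, 2, 1 and 0 points number 21, 168, 360 and 210 respectively (so there are 759 blocks in all). -/
theorem result (α : Type*) [Fintype α] [DecidableEq α] (hα : Fintype.card α = 24) (B : Set (Finset α)) (hB : Cfsg.IsSteinerSystem 5 8 B) (Y : Finset α) (hY : Y.card = 3) : {b : Finset α | b ∈ B ∧ (b ∩ Y).card = 3}.ncard = 21 ∧ {b : Finset α | b ∈ B ∧ (b ∩ Y).card = 2}.ncard = 168 ∧ {b : Finset α | b ∈ B ∧ (b ∩ Y).card = 1}.ncard = 360 ∧ {b : Finset α | b ∈ B ∧ (b ∩ Y).card = 0}.ncard = 210 := by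
  have e0 := sum_zi (B := B) Y 0 759 (fun s hs => l24_0 hα hB s hs)
  have e1 := sum_zi (B := B) Y 1 253 (fun s hs => l24_1 hα hB s hs)
  have e2 := sum_zi (B := B) Y 2 77 (fun s hs => l24_2 hα hB s hs)
  have e3 := sum_zi (B := B) Y 3 21 (fun s hs => l24_3 hα hB s hs)
  rw [hY] at e0 e1 e2 e3
  simp only [Finset.sum_range_succ, Finset.sum_range_zero, Nat.choose_zero_right, Nat.choose_one_right,
    Nat.choose_self, Nat.zero_add] at e0 e1 e2 e3
  have c1 : Nat.choose 0 1 = 0 := by decide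
  have c2 : Nat.choose 0 2 = 0 := by decide
  have c3 : Nat.choose 1 2 = 0 := by decide
  have c4 : Nat.choose 3 2 = 3 := by decide
  have c5 : Nat.choose 0 3 = 0 := by decide
  have c6 : Nat.choose 1 3 = 0 := by decide
  have c7 : Nat.choose 2 3 = 0 := by decide
  simp only [c1, c2, c3, c4, c5, c6, c7] at e0 e1 e2 e3
  rw [zi_eq, zi_eq, zi_eq, zi_eq]
  omega

end Cfsg.Agent.S5625
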