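import Cfsg.Statements.S5627
import Cfsg.Agent.L.Plane4

set_option autoImplicit false
open Cfsg

namespace Cfsg.Agent.S5627
open CfsgL.Plane
open Finset

/-- In a projective plane of order 4 (a Steiner system S(2, 5, 21)), call a set of points independent when no line meets it in more than two points. There are exactly 2520 independent 4-sets and exactly 168 independent 6-sets (hyperovals), and every independent 4-set lies in exactly one hyperoval. -/
theorem result {α : Type*} [Fintype α] [DecidableEq α] (hα : Fintype.card α = 21) (L : Set (Finset α)) (hL : Cfsg.IsSteinerSystem 2 5 L) : {S : Finset α | (S.card = 4 ∧ ∀ l ∈ L, (l ∩ S).card ≤ 2)}.ncard = 2520 ∧ {H : Finset α | (H.card = 6 ∧ ∀ l ∈ L, (l ∩ H).card ≤ 2)}.ncard = 168 ∧ ∀ S : Finset α, (S.card = 4 ∧ ∀ l ∈ L, (l ∩ S).card ≤ 2) → ∃! H : Finset α, (H.card = 6 ∧ ∀ l ∈ L, (l ∩ H).card ≤ 2) ∧ S ⊆ H := by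
  have h0 := hyp0 hα hL
  have e : ∀ k, {S : Finset α | (S.card = k ∧ ∀ l ∈ L, (l ∩ S).card ≤ 2)}.ncard = (arcs L k ∅).card := by
    intro k
    rw [← Set.ncard_coe_finset]
    congr 1
    ext S
    simp only [Set.mem_ofPred_eq, mem_coe, mem_arcs]
    constructor
    · rintro ⟨h1, h2⟩
      exact ⟨h1, h2, empty_subset _⟩
    · rintro ⟨h1, h2, _⟩
      exact ⟨h1, h2⟩
  refine ⟨by rw [e, h0.1], by rw [e, h0.2], ?_⟩
  rintro S ⟨hS, hA⟩
  have h4 := hyp4 hα hL hS hA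
  rw [card_eq_one] at h4
  obtain ⟨H, hH⟩ := h4
  have h5 : ∀ H', H' ∈ arcs L 6 S ↔ H' = H := by
    intro H'
    rw [hH, mem_singleton]
  refine ⟨H, ?_, ?_⟩
  · have := (h5 H).2 rfl
    rw [mem_arcs] at this
    exact ⟨⟨this.1, this.2.1⟩, this.2.2⟩
  · rintro H' ⟨⟨h6, h7⟩, h8⟩
    exact (h5 H').1 (mem_arcs.2 ⟨h6, h7, h8⟩)

end Cfsg.Agent.S5627
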