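import Cfsg.Statements.S5628
import Cfsg.Agent.L.Plane4b

set_option autoImplicit false
open Cfsg

namespace Cfsg.Agent.S5628
open CfsgL.Plane
open Finset

/-- In a projective plane of order 4 (a Steiner system S(2, 5, 21)), every permutation of the six points of a hyperoval (a 6-set met by no line in more than two points) is the restriction of exactly one automorphism of the plane. In particular the stabiliser of a hyperoval in the automorphism group is isomorphic to the symmetric group of degree 6 acting faithfully on the hyperoval. -/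
theorem result {α : Type*} [Fintype α] [DecidableEq α] (hα : Fintype.card α = 21) (L : Set (Finset α)) (hL : Cfsg.IsSteinerSystem 2 5 L) (H : Finset α) (hH : (H.card = 6 ∧ ∀ l ∈ L, (l ∩ H).card ≤ 2)) (σ : Equiv.Perm ↥H) : ∃! g : Equiv.Perm α, g ∈ Cfsg.setSystemAut L ∧ ∀ p : ↥H, g p = σ p := by
  obtain ⟨h, LHh, him⟩ := exists_label hα hL hH.1 hH.2
  have hmem : ∀ i, h i ∈ H := fun i => him ▸ LH.memH i
  set h' : Fin 6 → α := fun i => (σ ⟨h i, hmem i⟩).1 with hh'
  have inj' : Function.Injective h' := by
    intro i j hij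
    have h1 := σ.injective (Subtype.ext hij)
    have h2 := congrArg Subtype.val h1
    exact LHh.inj h2
  have him' : univ.image h' = H := by
    apply eq_of_subset_of_card_le
    · intro x hx
      rw [mem_image] at hx
      obtain ⟨i, _, rfl⟩ := hx
      exact (σ ⟨h i, hmem i⟩).2
    · rw [card_image_of_injective _ inj', card_univ, Fintype.card_fin, hH.1]
  have LH' : LH L h' := ⟨hα, hL, inj', by rw [him']; exact hH.2⟩
  obtain ⟨e, he, he'⟩ := hyp_iso LHh LH'
  have hsurj : ∀ p : ↥H, ∃ i, p = ⟨h i, hmem i⟩ := by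
    rintro ⟨x, hx⟩
    have hx' := hx
    rw [← him, mem_image] at hx'
    obtain ⟨i, _, hi⟩ := hx'
    exact ⟨i, Subtype.ext hi.symm⟩
  refine ⟨e, ⟨?_, ?_⟩, ?_⟩
  · rw [CfsgL.SS.mem_aut]
    intro s
    rw [CfsgL.SS.smul_eq_map]
    exact (he s).symm
  · intro p
    obtain ⟨i, rfl⟩ := hsurj p
    exact he' i
  · rintro g ⟨hg, hg'⟩
    have he2 : e ∈ setSystemAut L := by
      rw [CfsgL.SS.mem_aut]
      intro s
      rw [CfsgL.SS.smul_eq_map]
      exact (he s).symm
    have h1 : e⁻¹ * g = 1 := by
      apply LHh.rigid (mul_mem (inv_mem he2) hg)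
      intro i
      rw [Equiv.Perm.mul_apply, Equiv.Perm.inv_eq_iff_eq, he' i]
      exact hg' ⟨h i, hmem i⟩
    exact (inv_mul_eq_one.1 h1).symm

end Cfsg.Agent.S5628
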