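import Cfsg.Statements.S5632
import Cfsg.Agent.H9.MaxRedSL

set_option autoImplicit false
open Cfsg

namespace Cfsg.Agent.S5632

/-- For a finite field F and subspaces 0 < W < U of F^n with dim W + dim U = n, the elements of SL_n(F) stabilising both W and U form a subgroup that is not maximal in SL_n(F): some subgroup lies strictly between it and SL_n(F). -/
theorem result {F : Type*} [Field F] [Fintype F] (n : ℕ) (W U : Submodule F (Fin n → F)) (hW0 : W ≠ ⊥) (hWU : W < U) (hdim : Module.finrank F W + Module.finrank F U = n) : ∃ K : Subgroup (Matrix.GeneralLinearGroup (Fin n) F), Cfsg.Geo.subspaceStabilizer W ⊓ Cfsg.Geo.subspaceStabilizer U ⊓ Cfsg.Geo.specialLinear (Fin n) F < K ∧ K < Cfsg.Geo.specialLinear (Fin n) F := by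
  classical
  have hU1 : ∃ y, y ∉ U := by
    by_contra hcon
    push Not at hcon
    have h1 : U = ⊤ := eq_top_iff.2 fun v _ => hcon v
    have h2 : Module.finrank F U = n := by rw [h1, finrank_top]; simp
    have h3 : Module.finrank F W = 0 := by omega
    exact hW0 (Submodule.finrank_eq_zero.1 h3)
  obtain ⟨y, hy⟩ := hU1
  obtain ⟨u, hu, huW⟩ := SetLike.exists_of_lt hWU
  have hW1 : W ≠ ⊤ := by
    rintro rfl
    exact huW trivial
  refine ⟨Geo.subspaceStabilizer W ⊓ Geo.specialLinear (Fin n) F, ?_, (CfsgH9.MaxRedSL.isMaximalIn W hW0 hW1).1⟩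
  refine lt_of_le_of_ne (fun g hg => ⟨hg.1.1, hg.2⟩) ?_
  intro heq
  have hyn : y ∉ W ⊔ Submodule.span F {u} := by
    intro h
    apply hy
    refine (sup_le hWU.le ?_) h
    rw [Submodule.span_le, Set.singleton_subset_iff]
    exact hu
  obtain ⟨a, haW, hau, hay⟩ := CfsgH9.MaxRedSL.exists_covec2 W huW hyn 1 1
  have h0 : a ⬝ᵥ (y - u) = 0 := by rw [dotProduct_sub, hau, hay, sub_self]
  have h1 : CfsgH9.Tv.tv (y - u) a h0 ∈ Geo.subspaceStabilizer W ⊓ Geo.specialLinear (Fin n) F :=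
    ⟨CfsgH9.MaxRedSL.tv_stab_axis W h0 haW, CfsgH9.MaxRedSL.tv_mem_SL _ _ _⟩
  rw [← heq] at h1
  have h2 := (h1.1.2 u).1 hu
  apply hy
  have h3 : ((CfsgH9.Tv.tv (y - u) a h0 : Matrix.GeneralLinearGroup (Fin n) F) : Matrix (Fin n) (Fin n) F).mulVec u = y := by
    rw [CfsgH9.Tv.tv_mulVec, hau, one_smul]; abel
  rw [← h3]
  exact h2

end Cfsg.Agent.S5632
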