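import Cfsg.Statements.S5633
import Cfsg.Agent.H9.MaxRedSL

set_option autoImplicit false
open Cfsg

namespace Cfsg.Agent.S5633

/-- For a finite field F and complementary non-zero subspaces W ⊕ U = F^n with dim W < dim U, the elements of SL_n(F) stabilising both W and U form a subgroup that is not maximal in SL_n(F): some subgroup lies strictly between it and SL_n(F). -/
theorem result {F : Type*} [Field F] [Fintype F] (n : ℕ) (W U : Submodule F (Fin n → F)) (hW0 : W ≠ ⊥) (hWU : W ⊓ U = ⊥) (hWU' : W ⊔ U = ⊤) (hdim : Module.finrank F W < Module.finrank F U) : ∃ K : Subgroup (Matrix.GeneralLinearGroup (Fin n) F), Cfsg.Geo.subspaceStabilizer W ⊓ Cfsg.Geo.subspaceStabilizer U ⊓ Cfsg.Geo.specialLinear (Fin n) F < K ∧ K < Cfsg.Geo.specialLinear (Fin n) F := by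
  classical
  obtain ⟨w, hw, hw0⟩ := (Submodule.ne_bot_iff _).1 hW0
  have hU0 : U ≠ ⊥ := by
    rintro rfl
    simp at hdim
  obtain ⟨u, hu, hu0⟩ := (Submodule.ne_bot_iff _).1 hU0
  have hnot : ∀ v, v ∈ W → v ∈ U → v = 0 := by
    intro v h1 h2
    have : v ∈ W ⊓ U := ⟨h1, h2⟩
    rw [hWU] at this
    simpa using this
  have hW1 : W ≠ ⊤ := by
    rintro rfl
    exact hu0 (hnot u trivial hu)
  refine ⟨Geo.subspaceStabilizer W ⊓ Geo.specialLinear (Fin n) F, ?_, (CfsgH9.MaxRedSL.isMaximalIn W hW0 hW1).1⟩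
  refine lt_of_le_of_ne (fun g hg => ⟨hg.1.1, hg.2⟩) ?_
  intro heq
  have hun : u ∉ Submodule.span F {w} := by
    intro h
    obtain ⟨c, hc⟩ := Submodule.mem_span_singleton.1 h
    apply hu0
    exact hnot u (hc ▸ W.smul_mem c hw) hu
  obtain ⟨a, haw, hau⟩ := CfsgH9.MaxRedSL.exists_covec _ hun
  have h0 : a ⬝ᵥ w = 0 := haw w (Submodule.mem_span_singleton_self w)
  have h1 : CfsgH9.Tv.tv w a h0 ∈ Geo.subspaceStabilizer W ⊓ Geo.specialLinear (Fin n) F :=
    ⟨CfsgH9.MaxRedSL.tv_stab_center W h0 hw, CfsgH9.MaxRedSL.tv_mem_SL _ _ _⟩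
  rw [← heq] at h1
  have h2 := (h1.1.2 u).1 hu
  have h3 : ((Cfsg.glToMat (Fin n) F) (CfsgH9.Tv.tv w a h0)).mulVec u = u + w := by
    have := CfsgH9.Tv.tv_mulVec w a h0 u
    rw [hau, one_smul] at this
    exact this
  rw [h3] at h2
  have h4 : w ∈ U := by
    have := U.sub_mem h2 hu
    rwa [add_sub_cancel_left] at this
  exact hw0 (hnot w hw h4)

end Cfsg.Agent.S5633
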