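import Cfsg.Statements.S5648
import Cfsg.Agent.H9.NDec
import Cfsg.Agent.H9.SpGen

set_option autoImplicit false
open Cfsg

namespace Cfsg.Agent.S5648

open Matrix CfsgH9.NDec in
lemma exists_tv {ι : Type} [Fintype ι] [DecidableEq ι] {F : Type*} [Field F] {f : (ι → F) → (ι → F) → F}
    (hf : Cfsg.Geo.IsSymplecticForm f) (v : ι → F) : ∃ g : GL ι F, (∀ x, (g : Matrix ι ι F) *ᵥ x = x + f x v • v) ∧
      ∀ x y, f ((g : Matrix ι ι F) *ᵥ x) ((g : Matrix ι ι F) *ᵥ y) = f x y := by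
  have hb := hf.bilinear
  obtain ⟨g, hg, -⟩ := exists_dil ((CfsgH9.MaxRedSp.toB hb).flip v) v (by
    have : (CfsgH9.MaxRedSp.toB hb).flip v v = 0 := hf.alternating v
    rw [this, add_zero]; exact one_ne_zero)
  have hg' : ∀ x, (g : Matrix ι ι F) *ᵥ x = x + f x v • v := hg
  refine ⟨g, hg', ?_⟩
  intro x y
  rw [hg', hg', hb.add_left, hb.add_right, hb.add_right, hb.smul_left, hb.smul_left, hb.smul_right, hb.smul_right, hf.alternating,
    hf.skew v y]
  ring

/-- Over the field with 2 elements and for m ≥ 7, let D be a decomposition of F^(2m) into t pairwise orthogonal non-degenerate 2-dimensional subspaces for the standard alternating form (t = m ≥ 2). Then the elements of Sp_2m(2) permuting the members of D form a subgroup that is not maximal: some subgroup lies strictly between it and Sp_2m(2). -/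
theorem result {F : Type*} [Field F] [Fintype F] (m : ℕ) (hm : 7 ≤ m) (hq : Fintype.card F = 2) {t : ℕ} (D : Fin t → Submodule F (Fin m ⊕ Fin m → F)) (hD : Cfsg.Geo.IsNondegenerateMDecomposition (Cfsg.sympForm m F) 2 D) : ∃ K : Subgroup (Matrix.GeneralLinearGroup (Fin m ⊕ Fin m) F), Cfsg.Geo.decompositionStabilizer D ⊓ Cfsg.spGL m F < K ∧ K < Cfsg.spGL m F := by
  open Matrix CfsgH9.NDec in
  classical
  have hf := CfsgH9.SpGen.sympForm_isSymplectic (F := F) m
  have h2 := el2 hq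
  have hc2 := char2 h2
  have hD' := hD.decomp
  have ht : 3 ≤ t := by
    have := card_eq hD'
    rw [Fintype.card_sum, Fintype.card_fin] at this
    omega
  have hb := hf.bilinear
  obtain ⟨i1, hi1⟩ : ∃ i : Fin t, i = ⟨0, by omega⟩ := ⟨_, rfl⟩
  obtain ⟨i2, hi2⟩ : ∃ i : Fin t, i = ⟨1, by omega⟩ := ⟨_, rfl⟩
  obtain ⟨i3, hi3⟩ : ∃ i : Fin t, i = ⟨2, by omega⟩ := ⟨_, rfl⟩
  have h12 : i1 ≠ i2 := by rw [hi1, hi2]; intro h; simp at h
  have h13 : i1 ≠ i3 := by rw [hi1, hi3]; intro h; simp at h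
  have h23 : i2 ≠ i3 := by rw [hi2, hi3]; intro h; simp at h
  obtain ⟨a1, ha1, ha10⟩ := exists_ne hD' i1
  obtain ⟨a2, ha2, ha20⟩ := exists_ne hD' i2
  obtain ⟨a3, ha3, ha30⟩ := exists_ne hD' i3
  obtain ⟨⟨b, hbD, hba⟩, -⟩ := hD.nondegenerate i1 a1 ha1 ha10
  have hba1 : Cfsg.sympForm m F b a1 = 1 := (h2 _).resolve_left hba
  have hb0 : b ≠ 0 := by
    rintro rfl
    apply hba
    have := hb.smul_left 0 0 a1
    rwa [zero_smul, zero_mul] at this
  have hN1 : N hD' a1 = 1 := by rw [N_of_mem hD' ha1, if_neg ha10]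
  have hN2 : N hD' a2 = 1 := by rw [N_of_mem hD' ha2, if_neg ha20]
  have hN3 : N hD' a3 = 1 := by rw [N_of_mem hD' ha3, if_neg ha30]
  have hNb : N hD' b = 1 := by rw [N_of_mem hD' hbD, if_neg hb0]
  have o12 := hD.orthogonal i1 i2 h12 a1 ha1 a2 ha2
  have o13 := hD.orthogonal i1 i3 h13 a1 ha1 a3 ha3
  have o23 := hD.orthogonal i2 i3 h23 a2 ha2 a3 ha3
  have ob2 := hD.orthogonal i1 i2 h12 b hbD a2 ha2
  have ob3 := hD.orthogonal i1 i3 h13 b hbD a3 ha3
  have hNv : N hD' (a1 + a2 + a3) = 1 := by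
    rw [N_polar hf h2 hD, N_polar hf h2 hD, hb.add_left, hN1, hN2, hN3, o12, o13, o23]
    linear_combination hc2
  have hNw : N hD' (a1 + a2) = 0 := by
    rw [N_polar hf h2 hD, hN1, hN2, o12]
    linear_combination hc2
  obtain ⟨g, hg, hgf⟩ := exists_tv hf (a1 + a2 + a3)
  obtain ⟨h, hh, hhf⟩ := exists_tv hf (a1 + a2)
  have hfb1 : Cfsg.sympForm m F b (a1 + a2 + a3) = 1 := by
    rw [hb.add_right, hb.add_right, hba1, ob2, ob3]; ring
  have hfb2 : Cfsg.sympForm m F b (a1 + a2) = 1 := by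
    rw [hb.add_right, hba1, ob2]; ring
  refine ⟨stabF (N hD') ⊓ Cfsg.spGL m F, ?_, ?_⟩
  · refine lt_of_le_of_ne (le_inf (fun g hg => fun x => N_stab hD' hg.1 x) inf_le_right) ?_
    intro heq
    have hgK : g ∈ stabF (N hD') ⊓ Cfsg.spGL m F := by
      refine ⟨?_, hgf⟩
      intro x
      rw [hg]
      rcases h2 (Cfsg.sympForm m F x (a1 + a2 + a3)) with h0 | h0
      · rw [h0, zero_smul, add_zero]
      · rw [h0, one_smul, N_polar hf h2 hD, hNv, h0]
        linear_combination hc2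
    rw [← heq] at hgK
    obtain ⟨σ, hσ⟩ := hgK.1
    have h5 : (g : Matrix _ _ F) *ᵥ b ∈ D (σ i1) := by
      rw [← hσ i1]; exact ⟨b, hbD, by rw [Matrix.toLin'_apply]⟩
    rw [hg, hfb1, one_smul] at h5
    have h6 : CfsgH9.NDec.cmp hD' (b + (a1 + a2 + a3)) = fun i => Pi.single i1 (b + a1) i + Pi.single i2 a2 i + Pi.single i3 a3 i := by
      rw [cmp_add, cmp_add, cmp_add, cmp_of_mem hD' ha1, cmp_of_mem hD' ha2, cmp_of_mem hD' ha3, cmp_of_mem hD' hbD]
      funext i
      simp only [Pi.add_apply, Pi.single_add]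
      abel
    refine not_mem_of_two hD' h23 ?_ ?_ h5
    · rw [h6]
      simp only [Pi.single_eq_same, Pi.single_eq_of_ne h12.symm, Pi.single_eq_of_ne h23, zero_add, add_zero]
      exact ha20
    · rw [h6]
      simp only [Pi.single_eq_same, Pi.single_eq_of_ne h13.symm, Pi.single_eq_of_ne h23.symm, zero_add, add_zero]
      exact ha30
  · refine lt_of_le_of_ne inf_le_right ?_
    intro heq
    have h5 : h ∈ Cfsg.spGL m F := hhf
    rw [← heq] at h5
    have h6 := h5.1 b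
    rw [hh, hfb2, one_smul, N_polar hf h2 hD, hNb, hNw, hfb2] at h6
    apply one_ne_zero (α := F)
    linear_combination hc2 - h6

end Cfsg.Agent.S5648
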