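import Cfsg.Statements.S5649
import Cfsg.Agent.H9.MaxSingSp

set_option autoImplicit false
open Cfsg

namespace Cfsg.Agent.S5649

/-- For a finite field F of odd order and m ≥ 7, let D be a decomposition of F^(2m) into two complementary subspaces of dimension m on each of which the standard alternating form vanishes identically. Then the elements of Sp_2m(F) preserving or interchanging the two subspaces form a maximal subgroup of Sp_2m(F). -/
theorem result {F : Type*} [Field F] [Fintype F] (m : ℕ) (hm : 7 ≤ m) (hodd : Odd (Fintype.card F)) (D : Fin 2 → Submodule F (Fin m ⊕ Fin m → F)) (hD : Cfsg.Geo.IsMDecomposition m D) (hts : ∀ i, Cfsg.Geo.IsTotallySingularFor (Cfsg.sympForm m F) (D i)) : Cfsg.Geo.IsMaximalIn (Cfsg.spGL m F) (Cfsg.Geo.decompositionStabilizer D ⊓ Cfsg.spGL m F) := by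
  have h2 : (2 : F) ≠ 0 := by
    intro h
    have h1 : CharP F 2 := by
      refine CharTwo.of_one_ne_zero_of_two_eq_zero one_ne_zero ?_
      exact_mod_cast h
    have h3 : (2 : ℕ) ∣ Fintype.card F := by
      obtain ⟨n, hp, hn⟩ := FiniteField.card F 2
      rw [hn]
      exact dvd_pow_self 2 n.ne_zero
    obtain ⟨k, hk⟩ := hodd
    omega
  refine CfsgH9.MaxSingSp.sing_max (CfsgH9.SpGen.sympForm_isSymplectic m) h2 (fun g => Iff.rfl) (by omega) ?_ hD hts
  rw [Fintype.card_sum, Fintype.card_fin]; omega

end Cfsg.Agent.S5649
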