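import Cfsg.Statements.S5652
import Cfsg.Agent.H9.MaxOrth2

set_option autoImplicit false
open Cfsg

namespace Cfsg.Agent.S5652

/-- For a finite field F of characteristic two and m ≥ 7, let Q be a non-degenerate quadratic form on F^(2m) whose polar form is the standard alternating form. Then the elements of Sp_2m(F) that are similarities of Q (they are exactly the isometries of Q) form a maximal subgroup of Sp_2m(F). -/
theorem result {F : Type*} [Field F] [Fintype F] (m : ℕ) (hm : 7 ≤ m) (heven : ¬ Odd (Fintype.card F)) (Q : (Fin m ⊕ Fin m → F) → F) (hQ : Cfsg.Geo.IsNondegenerateQuadraticForm Q) (hpol : ∀ u v, QuadraticMap.polar Q u v = Cfsg.sympForm m F u v) : Cfsg.Geo.IsMaximalIn (Cfsg.spGL m F) (Cfsg.Geo.quadSimilarityGroup Q ⊓ Cfsg.spGL m F) := by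
  have h2 : (2 : F) = 0 := by
    by_contra hne
    apply heven
    have h3 : ringChar F ≠ 2 := by
      intro h
      apply hne
      have := ringChar.Nat.cast_ringChar (R := F)
      rw [h] at this
      exact_mod_cast this
    exact FiniteField.odd_card_of_char_ne_two h3 |> fun h => Nat.odd_iff.2 h
  have hchar : CharP F 2 := by
    refine CharTwo.of_one_ne_zero_of_two_eq_zero one_ne_zero h2
  have hD : CfsgH9.MaxOrth2.Data (Cfsg.sympForm m F) Q := by
    refine ⟨CfsgH9.SpGen.sympForm_isSymplectic m, hQ.smul, ?_, h2, ?_, ?_⟩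
    · intro u v
      rw [← hpol u v, QuadraticMap.polar]; ring
    · intro a
      obtain ⟨b, hb⟩ := (FiniteField.isSquare_of_char_two (F := F) (by exact ringChar.eq F 2 |>.symm ▸ rfl) a)
      exact ⟨b, by rw [hb]; ring⟩
    · rw [Fintype.card_sum, Fintype.card_fin]; omega
  exact CfsgH9.MaxOrth2.isMaximal hD (fun g => Iff.rfl)

end Cfsg.Agent.S5652
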