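import Cfsg.Statements.S5660
import Cfsg.Agent.H9.MxRat

set_option autoImplicit false
open Cfsg

namespace Cfsg.Agent.S5660

open CfsgH9.Un CfsgH9.HermF Matrix in
theorem mem_F0 {F : Type*} [Field F] [Fintype F] {q : ℕ} (hF : Fintype.card F = q ^ 2) (F₀ : Subfield F)
    (hcard : Fintype.card F = Nat.card F₀ ^ 2) {σ : F →+* F} (hσ : ∀ x, σ x = x ^ q) (c : F) : c ∈ F₀ ↔ σ c = c := by
  classical
  have hq : Nat.card F₀ = q := by
    rw [hF] at hcard
    exact (Nat.pow_left_injective (n := 2) (by norm_num) hcard.symm)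
  have h1 : ∀ c : F, c ∈ F₀ → c ^ q = c := by
    intro c hc
    haveI : Fintype F₀ := Fintype.ofFinite _
    have h2 := FiniteField.pow_card (⟨c, hc⟩ : F₀)
    rw [← Nat.card_eq_fintype_card, hq] at h2
    exact congrArg Subtype.val h2
  have h2 := card_fixed hF
  have h3 : Nat.card F₀ = Nat.card {c : F // c ^ q = c} := by rw [h2, hq]
  haveI : Finite {c : F // c ^ q = c} := Subtype.finite
  let φ : F₀ → {c : F // c ^ q = c} := fun x => ⟨x.1, h1 x.1 x.2⟩
  have hφ : Function.Injective φ := fun x y hxy => Subtype.ext (congrArg (fun z : {c : F // c ^ q = c} => z.1) hxy)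
  have hbij : Function.Bijective φ := (Nat.bijective_iff_injective_and_card φ).2 ⟨hφ, h3⟩
  rw [hσ]
  constructor
  · exact h1 c
  · intro hc
    obtain ⟨x, hx⟩ := hbij.2 ⟨c, hc⟩
    have : x.1 = c := congrArg (fun z : {c : F // c ^ q = c} => z.1) hx
    rw [← this]; exact x.2

/-- Let F be the field with q² elements, n ≥ 13 even, and F₀ the subfield with q elements. Let ζ be a non-zero element with ζ + ζ^q = 0 and P an invertible matrix such that ζ times the standard unitary form takes values in F₀ on the F₀-span of the columns of P and the form vanishes on every pair (u, u) of that span (so ζ times the form restricts to a non-degenerate alternating form there). Then the elements of SU_n(q) lying in the subfield group of P form a maximal subgroup of SU_n(q). -/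
theorem result {F : Type*} [Field F] [Fintype F] (n q : ℕ) (hF : Fintype.card F = q ^ 2) (hn : 13 ≤ n) (heven : Even n) (F₀ : Subfield F) (hcard : Fintype.card F = Nat.card F₀ ^ 2) (ζ : F) (hζ0 : ζ ≠ 0) (hζ : ζ + ζ ^ q = 0) (P : Matrix.GeneralLinearGroup (Fin n) F) (hP : Cfsg.Geo.IsFormRationalStructure (Cfsg.hermForm n F q) F₀ ζ P) (halt : ∀ u : Fin n → F, (∀ i, u i ∈ F₀) → Cfsg.hermForm n F q (Matrix.mulVec (P : Matrix (Fin n) (Fin n) F) u) (Matrix.mulVec (P : Matrix (Fin n) (Fin n) F) u) = 0) : Cfsg.Geo.IsMaximalIn (Cfsg.GU n F q ⊓ Cfsg.Geo.specialLinear (Fin n) F) (Cfsg.Geo.subfieldSubgroup F₀ P ⊓ (Cfsg.GU n F q ⊓ Cfsg.Geo.specialLinear (Fin n) F)) := by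
  obtain ⟨σ, hσ, hσ1, hσ2⟩ := CfsgH9.HermF.exists_sigma hF
  have hf := CfsgH9.Un.hm_std (n := n) hF hσ hσ1 hσ2
  have hF0 := mem_F0 hF F₀ hcard hσ
  have hσζ : σ ζ = -ζ := by
    rw [hσ]; exact eq_neg_of_add_eq_zero_right hζ
  have hrat : ∀ x, CfsgH9.Un.tau σ P x = x → ∃ u : Fin n → F, (∀ i, u i ∈ F₀) ∧ x = (P : Matrix (Fin n) (Fin n) F).mulVec u := by
    intro x hx
    refine ⟨((P⁻¹ : Matrix.GeneralLinearGroup (Fin n) F) : Matrix (Fin n) (Fin n) F).mulVec x, ?_, ?_⟩
    · intro i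
      rw [hF0]
      exact (CfsgH9.Un.tau_eq_iff x).1 hx i
    · rw [CfsgH9.MaxSymp.mulVec_inv]
  have hRT : CfsgH9.Un.RT σ (Cfsg.hermForm n F q) (CfsgH9.Un.tau σ P) := by
    refine ⟨CfsgH9.Un.tau_add, CfsgH9.Un.tau_smul, CfsgH9.Un.tau_tau hσ2, ?_, ?_⟩
    · intro x hx
      obtain ⟨u, hu, rfl⟩ := hrat x hx
      exact halt u hu
    · intro x y hx hy
      obtain ⟨u, hu, rfl⟩ := hrat x hx
      obtain ⟨v, hv, rfl⟩ := hrat y hy
      have h1 := (hF0 _).1 (hP u v hu hv)
      rw [map_mul, hσζ] at h1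
      apply mul_left_cancel₀ hζ0
      linear_combination -h1
  exact CfsgH9.Un.rt_max hf (by rw [Fintype.card_fin]; omega) CfsgH9.Un.isK_std hRT (CfsgH9.Un.mem_subfield hF0)

end Cfsg.Agent.S5660
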