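import Cfsg.Statements.S5659
import Cfsg.Agent.H9.MxRatO
import Cfsg.Agent.S5660


set_option autoImplicit false
open Cfsg

namespace Cfsg.Agent.S5659

open Matrix CfsgH9 CfsgH9.Un
open CfsgH9.MaxSymp (inv_mulVec mulVec_inv)

section
variable {F : Type*} [Field F] {ι : Type} [Fintype ι] [DecidableEq ι] {σ : F →+* F} {f : (ι → F) → (ι → F) → F} {F₀ : Subfield F}

/-- the embedding -/
def eE (F₀ : Subfield F) (P : GL ι F) : (ι → F₀) →ₗ[F₀] (ι → F) where
  toFun x := (P : Matrix ι ι F) *ᵥ (fun i => (x i : F))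
  map_add' x y := by
    rw [← mulVec_add]; rfl
  map_smul' c x := by
    have : (fun i => ((c • x) i : F)) = (c : F) • (fun i => (x i : F)) := rfl
    rw [this, mulVec_smul]; rfl

lemma eE_apply (P : GL ι F) (x : ι → F₀) : eE F₀ P x = (P : Matrix ι ι F) *ᵥ (fun i => (x i : F)) := rfl

/-- the form -/
def f0 (P : GL ι F) (hP : ∀ x y, f (eE F₀ P x) (eE F₀ P y) ∈ F₀) (x y : ι → F₀) : F₀ := ⟨f (eE F₀ P x) (eE F₀ P y), hP x y⟩

theorem main [Finite F] (hf : Hm σ f) (h2 : (2 : F) ≠ 0) (hfix : ∀ c : F, c ∈ F₀ ↔ σ c = c) (P : GL ι F)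
    (hP : ∀ x y, f (eE F₀ P x) (eE F₀ P y) ∈ F₀) (hn : 13 ≤ Fintype.card ι) {K : Subgroup (GL ι F)} (hK : IsK f K) :
    Cfsg.Geo.IsMaximalIn K (Cfsg.Geo.subfieldSubgroup F₀ P ⊓ K) := by
  obtain ⟨κ, hκ0, hκ⟩ := hf.kappa
  have h20 : (2 : F₀) ≠ 0 := fun h0 => h2 (by
    have h6 : ((2 : F₀) : F) = ((0 : F₀) : F) := by rw [h0]
    exact h6)
  have hform : ∀ x y, f (eE F₀ P x) (eE F₀ P y) = (f0 P hP x y : F) := fun x y => rfl
  have hsymm : ∀ x y, f0 P hP y x = f0 P hP x y := by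
    intro x y
    apply Subtype.ext
    show f (eE F₀ P y) (eE F₀ P x) = f (eE F₀ P x) (eE F₀ P y)
    rw [hf.symm]
    exact (hfix _).1 (hP x y)
  have hadd : ∀ x y z, f0 P hP (x + y) z = f0 P hP x z + f0 P hP y z := by
    intro x y z
    apply Subtype.ext
    show f (eE F₀ P (x + y)) (eE F₀ P z) = f (eE F₀ P x) (eE F₀ P z) + f (eE F₀ P y) (eE F₀ P z)
    rw [map_add, hf.add_left]
  have hsm : ∀ (c : F₀) x y, f0 P hP (c • x) y = c * f0 P hP x y := by
    intro c x y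
    apply Subtype.ext
    show f (eE F₀ P (c • x)) (eE F₀ P y) = (c : F) * f (eE F₀ P x) (eE F₀ P y)
    rw [map_smul]
    exact hf.smul_left _ _ _
  have hsplit : ∀ v, ∃ a b, v = eE F₀ P a + κ • eE F₀ P b := by
    intro v
    set x := ((P⁻¹ : GL ι F) : Matrix ι ι F) *ᵥ v with hx
    have ha : ∀ i, 2⁻¹ * (x i + σ (x i)) ∈ F₀ := by
      intro i
      rw [hfix, map_mul, map_inv₀, map_add, hf.inv]
      have : σ 2 = 2 := by rw [map_ofNat]
      rw [this]; ring
    have hb : ∀ i, 2⁻¹ * κ⁻¹ * (x i - σ (x i)) ∈ F₀ := by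
      intro i
      rw [hfix, map_mul, map_mul, map_inv₀, map_inv₀, map_sub, hf.inv, hκ, inv_neg]
      have : σ 2 = 2 := by rw [map_ofNat]
      rw [this]; ring
    refine ⟨fun i => ⟨_, ha i⟩, fun i => ⟨_, hb i⟩, ?_⟩
    rw [eE_apply, eE_apply, ← mulVec_smul, ← mulVec_add]
    have : x = (fun i => 2⁻¹ * (x i + σ (x i))) + κ • (fun i => 2⁻¹ * κ⁻¹ * (x i - σ (x i))) := by
      funext i
      simp only [Pi.add_apply, Pi.smul_apply, smul_eq_mul]
      field_simp; ring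
    show v = (P : Matrix ι ι F) *ᵥ ((fun i => 2⁻¹ * (x i + σ (x i))) + κ • (fun i => 2⁻¹ * κ⁻¹ * (x i - σ (x i))))
    rw [← this, hx, mulVec_inv]
  have hinj : ∀ x, eE F₀ P x = 0 → x = 0 := by
    intro x hx
    have h1 := GL_inj hx
    funext i
    exact Subtype.ext (congrFun h1 i)
  have hq : Og.Qf (fun x => 2⁻¹ * f0 P hP x x) (f0 P hP) := by
    refine ⟨?_, ?_, hadd, hsm, ?_⟩
    · intro x y
      have h1 : ∀ x y z, f0 P hP x (y + z) = f0 P hP x y + f0 P hP x z := fun x y z => by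
        rw [← hsymm, hadd, hsymm, ← hsymm z x]
      simp only [hadd, h1]
      rw [hsymm x y]
      field_simp; ring
    · intro c x
      simp only [hsm]
      rw [← hsymm, hsm]; ring
    · intro x hx
      obtain ⟨z, hz⟩ := hf.nondeg (eE F₀ P x) (fun h0 => hx (hinj x h0))
      obtain ⟨a, b, rfl⟩ := hsplit z
      by_contra hcon
      push Not at hcon
      apply hz
      rw [hf.add_right, hf.smul_right, hform, hform, hcon a, hcon b]; simp
  have hRS : RS σ f F₀ (fun x => 2⁻¹ * f0 P hP x x) (f0 P hP) (eE F₀ P) κ := ⟨hf, h2, hfix, hq, hform, hκ, hκ0, hsplit⟩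
  have hte : ∀ x, tau σ P (eE F₀ P x) = eE F₀ P x := by
    intro x
    rw [tau_eq_iff]
    intro i
    rw [eE_apply, inv_mulVec]
    exact (hfix _).1 (x i).2
  have hTT : TT σ (eE F₀ P) (tau σ P) := ⟨tau_add, tau_smul, tau_tau hf.inv, hte⟩
  have hcol : ∀ x, tau σ P x = x → ∃ a, x = eE F₀ P a := by
    intro x hx
    refine ⟨fun i => ⟨(((P⁻¹ : GL ι F) : Matrix ι ι F) *ᵥ x) i, (hfix _).2 ((tau_eq_iff x).1 hx i)⟩, ?_⟩
    rw [eE_apply]
    show x = (P : Matrix ι ι F) *ᵥ (((P⁻¹ : GL ι F) : Matrix ι ι F) *ᵥ x)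
    rw [mulVec_inv]
  refine rs_max hRS hTT hn hK hcol (mem_subfield hfix) ?_
  intro u w hu hw g hg
  have huw : f0 P hP u w = 0 := by rw [hsymm, hw]
  obtain ⟨E, hE⟩ := Og.exists_E hq hu huw
  have hdetE := hE.det_one hq h20 hu huw
  have hge : ∀ a, (g : Matrix ι ι F) *ᵥ (eE F₀ P a) = eE F₀ P ((E : Matrix ι ι F₀) *ᵥ a) := by
    intro a
    rw [hg, hE, map_sub, map_add, hRS.smul, hRS.smul, hform, hform, Subfield.coe_add]
    rfl
  refine ⟨?_, ?_⟩
  · show g ∈ Cfsg.Geo.subfieldSubgroup F₀ P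
    rw [mem_subfield hfix]
    refine ⟨1, one_ne_zero, ?_⟩
    intro x hx
    obtain ⟨a, rfl⟩ := hcol x hx
    rw [one_smul, hge, hte]
  · show g ∈ K
    rw [hK]
    refine ⟨hg.iso hf (hRS.iso0 hu) (by rw [hform, hw]; rfl) ?_, ?_⟩
    · rw [hRS.sig, hform]
      have h5 : f0 P hP w w = 2⁻¹ * f0 P hP w w + 2⁻¹ * f0 P hP w w := by
        rw [← add_mul]
        have : (2 : F₀)⁻¹ + 2⁻¹ = 1 := by field_simp; norm_num
        rw [this, one_mul]
      exact (congrArg (fun x : F₀ => (x : F)) h5).symm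
    · have h1 : (g : Matrix ι ι F) = (P : Matrix ι ι F) * ((E : Matrix ι ι F₀).map F₀.subtype) * ((P⁻¹ : GL ι F) : Matrix ι ι F) := by
        apply Matrix.ext_of_mulVec_single
        intro i
        obtain ⟨a, b, hab⟩ := hsplit (Pi.single i 1)
        have h3 : ∀ a, ((P : Matrix ι ι F) * ((E : Matrix ι ι F₀).map F₀.subtype) * ((P⁻¹ : GL ι F) : Matrix ι ι F)) *ᵥ (eE F₀ P a) =
            eE F₀ P ((E : Matrix ι ι F₀) *ᵥ a) := by
          intro a
          rw [← mulVec_mulVec, ← mulVec_mulVec, eE_apply, inv_mulVec, eE_apply]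
          congr 1
          funext j
          simp [Matrix.mulVec, dotProduct]
        rw [hab, mulVec_add, mulVec_add, mulVec_smul, mulVec_smul, hge, hge, h3, h3]
      rw [h1, det_mul, det_mul]
      have h4 : ((E : Matrix ι ι F₀).map F₀.subtype).det = 1 := by
        have := RingHom.map_det (F₀.subtype) (E : Matrix ι ι F₀)
        rw [hdetE, map_one] at this
        exact this.symm
      rw [h4, mul_one, ← det_mul, ← Units.val_mul, mul_inv_cancel, Units.val_one, det_one]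

end

/-- Let F be the field with q² elements, q odd, n ≥ 13, and F₀ the subfield with q elements. Let P be an invertible matrix such that the standard unitary form takes values in F₀ on the F₀-span of the columns of P (so it restricts to a non-degenerate symmetric bilinear form there). Then the elements of SU_n(q) lying in the subfield group of P form a maximal subgroup of SU_n(q). -/
theorem result {F : Type*} [Field F] [Fintype F] (n q : ℕ) (hF : Fintype.card F = q ^ 2) (hn : 13 ≤ n) (hodd : Odd q) (F₀ : Subfield F) (hcard : Fintype.card F = Nat.card F₀ ^ 2) (P : Matrix.GeneralLinearGroup (Fin n) F) (hP : Cfsg.Geo.IsFormRationalStructure (Cfsg.hermForm n F q) F₀ 1 P) : Cfsg.Geo.IsMaximalIn (Cfsg.GU n F q ⊓ Cfsg.Geo.specialLinear (Fin n) F) (Cfsg.Geo.subfieldSubgroup F₀ P ⊓ (Cfsg.GU n F q ⊓ Cfsg.Geo.specialLinear (Fin n) F)) := by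
  obtain ⟨σ, hσ, hσ1, hσ2⟩ := CfsgH9.HermF.exists_sigma hF
  have hf := CfsgH9.Un.hm_std (n := n) hF hσ hσ1 hσ2
  have hF0 := fun c => Cfsg.Agent.S5660.mem_F0 hF F₀ hcard hσ c
  exact main hf (CfsgH9.Og.two_ne (by rw [hF]; exact hodd.pow)) hF0 P (fun x y => by
    have h1 := hP (fun i => (x i : F)) (fun i => (y i : F)) (fun i => (x i).2) (fun i => (y i).2)
    rw [one_mul] at h1
    exact h1) (by rw [Fintype.card_fin]; exact hn) CfsgH9.Un.isK_std

end Cfsg.Agent.S5659
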