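import Cfsg.Statements.S5667
import Cfsg.Agent.H9.NTenSp

set_option autoImplicit false
open Cfsg

namespace Cfsg.Agent.S5667

/-- Over the field with 3 elements and for m ≥ 7, suppose the standard alternating form on F^(2m) is similar, through P and e, to the tensor product of a non-degenerate symplectic form f₁ on F^(n₁) and a non-degenerate symmetric bilinear form f₂ on F^3. Then the elements of Sp_2m(3) in the stabiliser of this tensor decomposition form a subgroup that is not maximal: some subgroup lies strictly between it and Sp_2m(3). -/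
theorem result {F : Type*} [Field F] [Fintype F] (m : ℕ) (hm : 7 ≤ m) (hq : Fintype.card F = 3) (n₁ : ℕ) (e : (Fin m ⊕ Fin m) ≃ Fin n₁ × Fin 3) (P : Matrix.GeneralLinearGroup (Fin m ⊕ Fin m) F) (f₁ : (Fin n₁ → F) → (Fin n₁ → F) → F) (f₂ : (Fin 3 → F) → (Fin 3 → F) → F) (hf₁ : Cfsg.Geo.IsSymplecticForm f₁) (hf₂ : Cfsg.Geo.IsSymmetricForm f₂) (hT : Cfsg.Geo.IsTensorFormStructure id (Cfsg.sympForm m F) f₁ f₂ e P) : ∃ K : Subgroup (Matrix.GeneralLinearGroup (Fin m ⊕ Fin m) F), Cfsg.Geo.tensorProductSubgroup n₁ 3 e P ⊓ Cfsg.spGL m F < K ∧ K < Cfsg.spGL m F := by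
  have x1 := CfsgH9.NTen.expand (σ := id) hf₁.bilinear.add_left hf₁.bilinear.smul_left hf₁.bilinear.add_right hf₁.bilinear.smul_right
  have x2 := CfsgH9.NTen.expand (σ := id) hf₂.bilinear.add_left hf₂.bilinear.smul_left hf₂.bilinear.add_right hf₂.bilinear.smul_right
  obtain ⟨c, hc0, hT'⟩ := CfsgH9.NTen.T_form (σ := id) (fun a b => rfl) x1 x2 hT
  have hc : 2 * m = n₁ * 3 := by
    have := Fintype.card_congr e
    rw [Fintype.card_prod, Fintype.card_sum, Fintype.card_fin, Fintype.card_fin, Fintype.card_fin] at this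
    omega
  exact CfsgH9.NTen.sp_o3_tensor_not_max hq (CfsgH9.SpGen.sympForm_isSymplectic (F := F) m) hf₁ hf₂ (by omega) hc0 (fun g => Iff.rfl) hT'

end Cfsg.Agent.S5667
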