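import Cfsg.Statements.S5671
import Cfsg.Agent.H9.NTenU

set_option autoImplicit false
open Cfsg

namespace Cfsg.Agent.S5671

/-- Let F be the field with 4 elements (q = 2) and n = 2 n₂ ≥ 13. Suppose the standard unitary form Σ u_i v_i² on F^n is similar, through P and e, to the tensor product of non-degenerate unitary forms f₁ on F^2 and f₂ on F^(n₂). Then the elements of SU_n(2) in the stabiliser of this tensor decomposition form a subgroup that is not maximal: some subgroup lies strictly between it and SU_n(2). -/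
theorem result {F : Type*} [Field F] [Fintype F] (n : ℕ) (hF : Fintype.card F = 4) (hn : 13 ≤ n) (n₂ : ℕ) (e : Fin n ≃ Fin 2 × Fin n₂) (P : Matrix.GeneralLinearGroup (Fin n) F) (f₁ : (Fin 2 → F) → (Fin 2 → F) → F) (f₂ : (Fin n₂ → F) → (Fin n₂ → F) → F) (hf₁ : Cfsg.Geo.IsUnitaryFormPow 2 f₁) (hf₂ : Cfsg.Geo.IsUnitaryFormPow 2 f₂) (hT : Cfsg.Geo.IsTensorFormStructure (fun x : F => x ^ 2) (Cfsg.hermForm n F 2) f₁ f₂ e P) : ∃ K : Subgroup (Matrix.GeneralLinearGroup (Fin n) F), Cfsg.Geo.tensorProductSubgroup 2 n₂ e P ⊓ (Cfsg.GU n F 2 ⊓ Cfsg.Geo.specialLinear (Fin n) F) < K ∧ K < (Cfsg.GU n F 2 ⊓ Cfsg.Geo.specialLinear (Fin n) F) := by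
  obtain ⟨σ, hσ, hσ1, hσ2⟩ := CfsgH9.HermF.exists_sigma (q := 2) (by rw [hF]; norm_num)
  have hf := CfsgH9.Un.hm_std (n := n) (q := 2) (by rw [hF]; norm_num) hσ hσ1 hσ2
  have hc : n = 2 * n₂ := by
    have := Fintype.card_congr e
    rw [Fintype.card_prod, Fintype.card_fin, Fintype.card_fin, Fintype.card_fin] at this
    exact this
  have hm1 : CfsgH9.Un.Hm σ f₁ :=
    ⟨hf₁.add_left, hf₁.smul_left, fun x y => by rw [hσ]; exact hf₁.herm y x, fun x hx => (hf₁.nondegenerate x hx).2, hσ2, hσ1⟩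
  have hm2 : CfsgH9.Un.Hm σ f₂ :=
    ⟨hf₂.add_left, hf₂.smul_left, fun x y => by rw [hσ]; exact hf₂.herm y x, fun x hx => (hf₂.nondegenerate x hx).2, hσ2, hσ1⟩
  have x1 := CfsgH9.NTen.expand (σ := fun x : F => x ^ 2) hm1.add_left hm1.smul_left hm1.add_right
    (fun c x y => by rw [hm1.smul_right, hσ])
  have x2 := CfsgH9.NTen.expand (σ := fun x : F => x ^ 2) hm2.add_left hm2.smul_left hm2.add_right
    (fun c x y => by rw [hm2.smul_right, hσ])
  obtain ⟨c, hc0, hT'⟩ := CfsgH9.NTen.T_form (fun a b => mul_pow a b 2) x1 x2 hT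
  exact CfsgH9.NTen.gu2_tensor_not_max hf hσ hF CfsgH9.Un.isK_std hm1 hm2 (by omega) hc0 hT'

end Cfsg.Agent.S5671
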