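import Cfsg.Statements.S5675
import Cfsg.Agent.H9.MxNd2
import Cfsg.Agent.H9.ClForms

set_option autoImplicit false
open Cfsg

namespace Cfsg.Agent.S5675

/-- Let F be a finite field of odd order q, m ≥ 6, Q the standard quadratic form on F^(2m+1) and Ω the commutator subgroup of its isometry group. Let W be a non-zero subspace of even dimension on which the polar form of Q is non-degenerate; exclude the case q = 3, dim W = 2 with Q vanishing on some line of W (a plus-type plane). Then the elements of Ω stabilising W (equivalently, stabilising its orthogonal complement, of odd dimension) form a maximal subgroup of Ω. -/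
theorem result {F : Type*} [Field F] [Fintype F] (hodd : Odd (Fintype.card F)) (m : ℕ) (hm : 6 ≤ m) (W : Submodule F (Unit ⊕ (Fin m ⊕ Fin m) → F)) (hW0 : W ≠ ⊥) (hev : Even (Module.finrank F W)) (hW : Cfsg.Geo.IsNondegenerateOn (QuadraticMap.polar (Cfsg.quadFormOdd m F)) W) (hex : ¬ (Fintype.card F = 3 ∧ Module.finrank F W = 2 ∧ Cfsg.Geo.IsPlusTypeOn (Cfsg.quadFormOdd m F) W)) : Cfsg.Geo.IsMaximalIn (Cfsg.Geo.omegaGL (Cfsg.quadFormOdd m F)) (Cfsg.Geo.subspaceStabilizer W ⊓ Cfsg.Geo.omegaGL (Cfsg.quadFormOdd m F)) := by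
  have hq3 : ∀ h : Fintype.card F ≤ 3, Fintype.card F = 3 := by
    intro h
    have h1 : 1 < Fintype.card F := Fintype.one_lt_card
    obtain ⟨k, hk⟩ := hodd
    omega
  have h2 : (2 : F) ≠ 0 := CfsgH9.Og.two_ne hodd
  have hf := CfsgH9.Og.qf_of_quad (CfsgH9.ClForms.qOdd m F) (CfsgH9.ClForms.nondeg_odd m F h2)
  rw [CfsgH9.ClForms.qOdd_coe] at hf
  have hc : Fintype.card (Unit ⊕ (Fin m ⊕ Fin m)) = 2 * m + 1 := by
    rw [Fintype.card_sum, Fintype.card_sum, Fintype.card_fin, Fintype.card_unit]; omega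
  obtain ⟨d, hd⟩ := hev
  have hfr := CfsgH9.Og.finrank_perp hf W
  refine CfsgH9.Og.nd_final hf (by rw [hc]; omega) (fun w hw hw0 => (hW w hw hw0).1) hW0 ?_ ?_ ?_ ?_
  · intro h
    rw [h, finrank_top, Module.finrank_fintype_fun_eq_card, hc] at hd
    omega
  · intro h; rw [hc] at h; omega
  · rintro ⟨h3, h4, e, he, he0, hQe⟩
    refine hex ⟨hq3 h3, h4, Submodule.span F {e}, ?_, ?_, ?_⟩
    · rw [Submodule.span_singleton_le_iff_mem]; exact he
    · intro x hx
      obtain ⟨c, rfl⟩ := Submodule.mem_span_singleton.1 hx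
      rw [hf.smul, hQe, mul_zero]
    · rw [h4, finrank_span_singleton he0]
  · rintro ⟨h3, h4, -⟩
    rw [h4, hc] at hfr
    omega

end Cfsg.Agent.S5675
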