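import Cfsg.Statements.S5676
import Cfsg.Agent.H9.NMax
import Cfsg.Agent.H9.ClForms

set_option autoImplicit false
open Cfsg

namespace Cfsg.Agent.S5676

/-- Let F be the field with 3 elements, m ≥ 6, Q the standard quadratic form on F^(2m+1) and Ω the commutator subgroup of its isometry group. Let W be a 2-dimensional subspace on which the polar form is non-degenerate and which contains a line on which Q vanishes. Then the elements of Ω stabilising W form a subgroup that is not maximal: some subgroup lies strictly between it and Ω. -/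
theorem result {F : Type*} [Field F] [Fintype F] (hq : Fintype.card F = 3) (m : ℕ) (hm : 6 ≤ m) (W : Submodule F (Unit ⊕ (Fin m ⊕ Fin m) → F)) (hdim : Module.finrank F W = 2) (hW : Cfsg.Geo.IsNondegenerateOn (QuadraticMap.polar (Cfsg.quadFormOdd m F)) W) (hplus : Cfsg.Geo.IsPlusTypeOn (Cfsg.quadFormOdd m F) W) : ∃ K : Subgroup (Matrix.GeneralLinearGroup (Unit ⊕ (Fin m ⊕ Fin m)) F), Cfsg.Geo.subspaceStabilizer W ⊓ Cfsg.Geo.omegaGL (Cfsg.quadFormOdd m F) < K ∧ K < Cfsg.Geo.omegaGL (Cfsg.quadFormOdd m F) := by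
  have h2 : (2 : F) ≠ 0 := CfsgH9.Og.two_ne (by rw [hq]; decide)
  have hf := CfsgH9.Og.qf_of_quad (CfsgH9.ClForms.qOdd m F) (CfsgH9.ClForms.nondeg_odd m F h2)
  rw [CfsgH9.ClForms.qOdd_coe] at hf
  have hc : Fintype.card (Unit ⊕ (Fin m ⊕ Fin m)) = 2 * m + 1 := by
    rw [Fintype.card_sum, Fintype.card_sum, Fintype.card_fin, Fintype.card_unit]; omega
  refine CfsgH9.Og.plane_not_max hf (by rw [hc]; omega) (CfsgH9.Og.small_field hq.le) hdim (fun w hw hw0 => (hW w hw hw0).1) ?_
  obtain ⟨U, hUW, hU, hUd⟩ := hplus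
  rw [hdim] at hUd
  have hU0 : U ≠ ⊥ := by
    intro h
    rw [h, finrank_bot] at hUd
    omega
  obtain ⟨e, he, he0⟩ := (Submodule.ne_bot_iff _).1 hU0
  exact ⟨e, hUW he, he0, hU e he⟩

end Cfsg.Agent.S5676
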