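import Cfsg.Statements.S5687
import Cfsg.Agent.H9.Og8

set_option autoImplicit false
open Cfsg

namespace Cfsg.Agent.S5687

/-- Let F be a finite field with q elements, n ≥ 13 even, Q a non-degenerate quadratic form on F^n of minus type (no subspace of dimension n/2 is totally singular), and Ω the commutator subgroup of the isometry group of Q, viewed inside GL_n(F). The elements of Ω stabilising a non-zero subspace on which Q vanishes form a maximal subgroup of Ω. -/
theorem result {F : Type*} [Field F] [Fintype F] {n : ℕ} (hn : 13 ≤ n) (heven : Even n) (Q : (Fin n → F) → F) (hQ : Cfsg.Geo.IsNondegenerateQuadraticForm Q) (hminus : ¬ Cfsg.Geo.IsPlusTypeOn Q ⊤) (W : Submodule F (Fin n → F)) (hW0 : W ≠ ⊥) (hW : Cfsg.Geo.IsTotallySingularQuad Q W) : Cfsg.Geo.IsMaximalIn (Cfsg.Geo.omegaGL Q) (Cfsg.Geo.subspaceStabilizer W ⊓ Cfsg.Geo.omegaGL Q) := by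
  have hf := CfsgH9.Og.qf_of_geo hQ
  refine CfsgH9.Og.par_max hf (by rw [Fintype.card_fin]; omega) hW0 hW ?_
  intro h x hx hxQ
  rw [Fintype.card_fin] at h
  by_contra hxW
  apply hminus
  refine ⟨W ⊔ Submodule.span F {x}, le_top, ?_, ?_⟩
  · intro z hz
    obtain ⟨w, hw, c, rfl⟩ := CfsgH9.Witt.mem_sup_span.1 hz
    rw [hf.add, hf.smul, hf.smul_right, hW w hw, hxQ, hf.swap (hx w hw)]; ring
  · rw [CfsgH9.Og.finrank_sup_span_eq hxW, finrank_top, Module.finrank_fintype_fun_eq_card, Fintype.card_fin]; omega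

end Cfsg.Agent.S5687
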