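import Cfsg.Statements.S5689
import Cfsg.Agent.H9.MxNd2

set_option autoImplicit false
open Cfsg

namespace Cfsg.Agent.S5689

/-- Let F be a finite field with q elements, n ≥ 13 even, Q a non-degenerate quadratic form on F^n of minus type (no subspace of dimension n/2 is totally singular), and Ω the commutator subgroup of the isometry group of Q, viewed inside GL_n(F). Let W be a non-zero proper subspace on which the polar form of Q is non-degenerate, not of odd dimension n/2. Exclude the case q ≤ 3 in which W, or its orthogonal complement, is a plane containing a line on which Q vanishes. Then the elements of Ω stabilising W form a maximal subgroup of Ω. -/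
theorem result {F : Type*} [Field F] [Fintype F] {n : ℕ} (hn : 13 ≤ n) (heven : Even n) (Q : (Fin n → F) → F) (hQ : Cfsg.Geo.IsNondegenerateQuadraticForm Q) (hminus : ¬ Cfsg.Geo.IsPlusTypeOn Q ⊤) (W : Submodule F (Fin n → F)) (hW0 : W ≠ ⊥) (hW1 : W ≠ ⊤) (hdim : ¬ (2 * Module.finrank F W = n ∧ Odd (Module.finrank F W))) (hW : Cfsg.Geo.IsNondegenerateOn (QuadraticMap.polar Q) W) (hex : ¬ (Fintype.card F ≤ 3 ∧ (∃ U : Submodule F (Fin n → F), Module.finrank F U = 2 ∧ Cfsg.Geo.IsNondegenerateOn (QuadraticMap.polar Q) U ∧ Cfsg.Geo.IsPlusTypeOn Q U ∧ (U = W ∨ (Cfsg.Geo.AreOrthogonalFor (QuadraticMap.polar Q) U W ∧ Module.finrank F U + Module.finrank F W = n))))) : Cfsg.Geo.IsMaximalIn (Cfsg.Geo.omegaGL Q) (Cfsg.Geo.subspaceStabilizer W ⊓ Cfsg.Geo.omegaGL Q) := by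
  have hf := CfsgH9.Og.qf_of_geo hQ
  have hfr := CfsgH9.Og.finrank_perp hf W
  rw [Fintype.card_fin] at hfr
  have hOD := CfsgH9.Og.OD_of_nd hf (fun w hw hw0 => (hW w hw hw0).1)
  refine CfsgH9.Og.nd_final hf (by rw [Fintype.card_fin]; exact hn) (fun w hw hw0 => (hW w hw hw0).1) hW0 hW1 ?_ ?_ ?_
  · intro h g hg hgW
    rw [Fintype.card_fin] at h
    have hev : Even (Module.finrank F W) := by
      rw [← Nat.not_odd_iff_even]; exact fun ho => hdim ⟨h, ho⟩
    obtain ⟨U, hU1, hU2⟩ := CfsgH9.Og.plus_of_iso hf hev hOD rfl (by omega) hg hgW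
    exact hminus ⟨U, le_top, hU2, by rw [hU1, h, finrank_top, Module.finrank_fintype_fun_eq_card, Fintype.card_fin]⟩
  · rintro ⟨h3, h4, e, he, he0, hQe⟩
    refine hex ⟨h3, W, h4, hW, ⟨Submodule.span F {e}, ?_, ?_, ?_⟩, Or.inl rfl⟩
    · rw [Submodule.span_singleton_le_iff_mem]; exact he
    · intro x hx
      obtain ⟨c, rfl⟩ := Submodule.mem_span_singleton.1 hx
      rw [hf.smul, hQe, mul_zero]
    · rw [h4, finrank_span_singleton he0]
  · rintro ⟨h3, h4, e, he, he0, hQe⟩
    refine hex ⟨h3, CfsgH9.Og.perp hf W, h4, ?_, ⟨Submodule.span F {e}, ?_, ?_, ?_⟩, Or.inr ⟨fun u hu v hv => hu v hv, by omega⟩⟩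
    · intro w hw hw0
      obtain ⟨x, hx, hwx⟩ := hOD.nd hf hw hw0
      exact ⟨⟨x, hx, by rw [hf.symm]; exact hwx⟩, ⟨x, hx, hwx⟩⟩
    · rw [Submodule.span_singleton_le_iff_mem]; exact he
    · intro x hx
      obtain ⟨c, rfl⟩ := Submodule.mem_span_singleton.1 hx
      rw [hf.smul, hQe, mul_zero]
    · rw [h4, finrank_span_singleton he0]

end Cfsg.Agent.S5689
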