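import Cfsg.Statements.S5699
import Cfsg.Agent.H9.MxNd

set_option autoImplicit false
open Cfsg

namespace Cfsg.Agent.S5699

open Cfsg.Geo CfsgH9.Og Matrix in
theorem iso_of_map {F : Type*} [Field F] {n : ℕ} {Q : (Fin n → F) → F} {A B : Submodule F (Fin n → F)}
    (hdim : Module.finrank F A = Module.finrank F B) (g : Matrix.GeneralLinearGroup (Fin n) F) (hg : Iso Q g)
    (h : ∀ x ∈ B, (g : Matrix (Fin n) (Fin n) F) *ᵥ x ∈ A) : AreIsometricFor Q A B := by
  let L : B →ₗ[F] A := (Matrix.toLin' (g : Matrix (Fin n) (Fin n) F)).restrict (p := B) (q := A) (fun v hv => by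
    rw [Matrix.toLin'_apply]; exact h v hv)
  have hL : Function.Injective L := by
    intro x y hxy
    apply Subtype.ext
    have h1 := congrArg Subtype.val hxy
    exact toLin'_inj g h1
  let e : B ≃ₗ[F] A := LinearEquiv.ofInjectiveOfFinrankEq L hL hdim.symm
  have he : ∀ x : B, ((e x : A) : Fin n → F) = (g : Matrix (Fin n) (Fin n) F) *ᵥ (x : Fin n → F) := by
    intro x
    show ((L x : A) : Fin n → F) = _
    rfl
  refine ⟨e.symm, fun w => ?_⟩
  have h1 := he (e.symm w)
  rw [LinearEquiv.apply_symm_apply] at h1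
  rw [h1, hg]

/-- Let F be a finite field with q elements, n ≥ 13 even, Q a non-degenerate quadratic form on F^n (of either type), and Ω the commutator subgroup of the isometry group of Q, viewed inside GL_n(F). Let D be a decomposition of F^n into two orthogonal subspaces of odd dimension n/2 on which the polar form is non-degenerate and which are not Q-isometric to each other. Then the elements of Ω permuting (necessarily fixing) the two subspaces form a maximal subgroup of Ω. -/
theorem result {F : Type*} [Field F] [Fintype F] {n : ℕ} (hn : 13 ≤ n) (heven : Even n) (Q : (Fin n → F) → F) (hQ : Cfsg.Geo.IsNondegenerateQuadraticForm Q) (k : ℕ) (hk : 2 * k = n) (hko : Odd k) (D : Fin 2 → Submodule F (Fin n → F)) (hD : Cfsg.Geo.IsNondegenerateMDecomposition (QuadraticMap.polar Q) k D) (hni : ¬ Cfsg.Geo.AreIsometricFor Q (D 0) (D 1)) : Cfsg.Geo.IsMaximalIn (Cfsg.Geo.omegaGL Q) (Cfsg.Geo.decompositionStabilizer D ⊓ Cfsg.Geo.omegaGL Q) := by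
  have hf := CfsgH9.Og.qf_of_geo hQ
  have hsup : D 0 ⊔ D 1 = ⊤ := by
    rw [← hD.decomp.iSup_eq_top]
    apply le_antisymm
    · exact sup_le (le_iSup D 0) (le_iSup D 1)
    · refine iSup_le fun i => ?_
      rcases Fin.exists_fin_two.1 ⟨i, rfl⟩ with h | h
      · rw [h]; exact le_sup_left
      · rw [h]; exact le_sup_right
  have hod : CfsgH9.Og.OD (QuadraticMap.polar Q) (D 0) (D 1) := ⟨hD.orthogonal 0 1 (by decide), hsup⟩
  have hod' := hod.symm hf
  have hk7 : 7 ≤ k := by
    obtain ⟨j, hj⟩ := hko; omega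
  have hd0 := hD.decomp.finrank_eq 0
  have hd1 := hD.decomp.finrank_eq 1
  have hdim : Module.finrank F (D 0) = Module.finrank F (D 1) := by rw [hd0, hd1]
  have hni' : ∀ g : Matrix.GeneralLinearGroup (Fin n) F, CfsgH9.Og.Iso Q g →
      ¬ (∀ x ∈ D 1, (g : Matrix (Fin n) (Fin n) F).mulVec x ∈ D 0) := fun g hg h => hni (iso_of_map hdim g hg h)
  have hmain := CfsgH9.Og.nd_max_big hf hod (by omega) (by omega) hni'
  have heq : Cfsg.Geo.decompositionStabilizer D ⊓ Cfsg.Geo.omegaGL Q = Cfsg.Geo.subspaceStabilizer (D 1) ⊓ Cfsg.Geo.omegaGL Q := by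
    apply le_antisymm
    · rintro g ⟨⟨σ, hσ⟩, hg⟩
      refine ⟨?_, hg⟩
      have hmap : (D 1).map (Matrix.toLin' (g : Matrix (Fin n) (Fin n) F)) = D 1 := by
        have h1 := hσ 1
        rcases Fin.exists_fin_two.1 ⟨σ 1, rfl⟩ with h | h
        · exfalso
          rw [h] at h1
          apply hni' g (CfsgH9.Og.mem_iso_of_omega hg)
          intro x hx
          have : Matrix.toLin' (g : Matrix (Fin n) (Fin n) F) x ∈ (D 1).map (Matrix.toLin' (g : Matrix (Fin n) (Fin n) F)) := ⟨x, hx, rfl⟩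
          rw [h1, Matrix.toLin'_apply] at this
          exact this
        · rw [h] at h1; exact h1
      apply CfsgH9.MaxRedSL.mem_stab_of
      intro x hx
      have : Matrix.toLin' (g : Matrix (Fin n) (Fin n) F) x ∈ (D 1).map (Matrix.toLin' (g : Matrix (Fin n) (Fin n) F)) := ⟨x, hx, rfl⟩
      rw [hmap, Matrix.toLin'_apply] at this
      exact this
    · rintro g ⟨hg, hgΩ⟩
      refine ⟨⟨1, fun i => ?_⟩, hgΩ⟩
      have hg1 : ∀ x ∈ D 1, (g : Matrix (Fin n) (Fin n) F).mulVec x ∈ D 1 := fun x hx => ((CfsgH9.MaxRedSL.mem_stab_iff _ g).1 hg x).1 hx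
      have hm1 := CfsgH9.Og.map_of_le hg1 rfl
      have hg0 : ∀ x ∈ D 0, (g : Matrix (Fin n) (Fin n) F).mulVec x ∈ D 0 := by
        intro x hx
        apply hod'.perp hf
        intro y hy
        rw [← hm1] at hy
        obtain ⟨z, hz, rfl⟩ := hy
        rw [Matrix.toLin'_apply, (CfsgH9.Og.mem_iso_of_omega hgΩ).form hf]
        exact hod.orth x hx z hz
      rcases Fin.exists_fin_two.1 ⟨i, rfl⟩ with h | h
      · subst h; exact CfsgH9.Og.map_of_le hg0 rfl
      · subst h; exact hm1
  rw [heq]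
  exact hmain

end Cfsg.Agent.S5699
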