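import Cfsg.Statements.S5876
import Mathlib
import Cfsg.Agent.L.Lin.Prim34

set_option autoImplicit false
open Cfsg

namespace Cfsg.Agent.S5876

/-- Fixed-point spaces in primitive soluble linear groups. Let F be a finite field and G a soluble subgroup of GL_n(F) that acts irreducibly on F^n and primitively (G preserves no decomposition of F^n into two or more independent subspaces of equal dimension). Then every non-identity element g of G has fixed-point space {v : g v = v} of dimension at most 3n/4. -/
theorem result {F : Type*} [Field F] [Fintype F] {n : ℕ} (G : Subgroup (Matrix.GeneralLinearGroup (Fin n) F)) (hsol : IsSolvable G) (hirr : Cfsg.Geo.ActsIrreducibly (Cfsg.Geo.matrixSet G)) (hprim : ∀ (m t : ℕ) (D : Fin t → Submodule F (Fin n → F)), 2 ≤ t → Cfsg.Geo.IsMDecomposition m D → ¬ G ≤ Cfsg.Geo.decompositionStabilizer D) (g : Matrix.GeneralLinearGroup (Fin n) F) (hg : g ∈ G) (hg1 : g ≠ 1) :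
    4 * Module.finrank F (Module.End.eigenspace (Matrix.toLin' (g : Matrix (Fin n) (Fin n) F)) 1) ≤ 3 * n := by
  classical
  haveI : Group.IsSolvable G := hsol
  let ρ : G →* Module.End F (Fin n → F) :=
    { toFun := fun g => Matrix.toLin' ((g : Matrix.GeneralLinearGroup (Fin n) F) : Matrix (Fin n) (Fin n) F)
      map_one' := by
        rw [Subgroup.coe_one, Units.val_one, Matrix.toLin'_one]; rfl
      map_mul' := by
        intro a b
        rw [Subgroup.coe_mul, Units.val_mul, Matrix.toLin'_mul]; rfl }
  have hfaith : Function.Injective ρ := by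
    intro a b hab
    have h1 : Matrix.toLin' ((a : Matrix.GeneralLinearGroup (Fin n) F) : Matrix (Fin n) (Fin n) F) =
      Matrix.toLin' ((b : Matrix.GeneralLinearGroup (Fin n) F) : Matrix (Fin n) (Fin n) F) := hab
    exact Subtype.ext (Units.ext (Matrix.toLin'.injective h1))
  have h := CfsgL.Prim34.main ρ hfaith (by
    intro W hW
    apply hirr
    rintro _ ⟨x, hx, rfl⟩
    exact hW ⟨x, hx⟩) (by
    intro m t D ht hm0 hm hind htop hcon
    apply hprim m t D ht ⟨ht, hm0, hm, hind, htop⟩
    intro x hx
    exact hcon ⟨x, hx⟩) ⟨g, hg⟩ (by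
    intro h
    exact hg1 (congrArg Subtype.val h))
  rw [Module.finrank_fin_fun] at h
  exact h

end Cfsg.Agent.S5876
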