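import Cfsg.Statements.S5938
import Cfsg.Agent.H9.Dk21
import Cfsg.Agent.S0803

set_option autoImplicit false
open Cfsg

namespace Cfsg.Agent.S5938

/-- Let p be a prime with p ≡ ±1 (mod 8) and F a field with p elements. Then PSL_2(F) has a maximal subgroup isomorphic to the symmetric group S_4. -/
theorem result {F : Type*} [Field F] [Fintype F] (p : ℕ) [Fact p.Prime] (hF : Fintype.card F = p) (hp : p % 8 = 1 ∨ p % 8 = 7) : ∃ H : Subgroup (Matrix.ProjectiveSpecialLinearGroup (Fin 2) F), IsCoatom H ∧ Nonempty (H ≃* Equiv.Perm (Fin 4)) := by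
  classical
  have hcard : Nat.gcd 2 (Fintype.card F - 1) * Nat.card (Matrix.ProjectiveSpecialLinearGroup (Fin 2) F) = Fintype.card F * (Fintype.card F - 1) * (Fintype.card F + 1) := CfsgH9.Dk.card_psl
  obtain ⟨p', hp'⟩ := CharP.exists F
  haveI : Fact p'.Prime := ⟨(CharP.char_is_prime_or_zero F p').resolve_right (CharP.char_ne_zero_of_finite F p')⟩
  have hpp : p' = p := by
    obtain ⟨f, hpf, hff⟩ := FiniteField.card F p'
    rw [hF] at hff
    have : p' ∣ p := by rw [hff]; exact dvd_pow_self _ f.pos.ne'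
    exact (Nat.prime_dvd_prime_iff_eq hpf Fact.out).1 this
  subst hpp
  have hp7 : 7 ≤ p' := by
    have := (Fact.out : p'.Prime).two_le
    omega
  have ho : Odd (Fintype.card F) := by rw [hF]; exact ⟨p' / 2, by omega⟩
  obtain ⟨M, ⟨e⟩⟩ := (Cfsg.Agent.S0803.result (F := F) rfl).2 (by
    rw [hF]
    have h8 : p' % 16 < 16 := Nat.mod_lt _ (by norm_num)
    rw [Nat.pow_mod]
    have h9 : p' % 16 = 1 ∨ p' % 16 = 7 ∨ p' % 16 = 9 ∨ p' % 16 = 15 := by omega
    rcases h9 with h | h | h | h <;> rw [h])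
  refine ⟨M, ?_, ⟨e⟩⟩
  have hM24 : Nat.card M = 24 := by rw [Nat.card_congr e.toEquiv, CfsgH9.Dk.cS4]
  rw [CfsgH9.Dk.d_odd ho, hF] at hcard
  have hpM : ¬ p' ∣ Nat.card M := by
    rw [hM24]
    intro h
    have h24 : (24 : ℕ) = 2 ^ 3 * 3 := by norm_num
    rw [h24] at h
    rcases (Fact.out : p'.Prime).dvd_mul.1 h with h | h
    · have := Nat.le_of_dvd (by norm_num) ((Fact.out : p'.Prime).dvd_of_dvd_pow h); omega
    · have := Nat.le_of_dvd (by norm_num) h; omega
  refine CfsgH9.Dk.coatom_of ?_ ?_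
  · intro h
    have h1 : Nat.card M = Nat.card (Matrix.ProjectiveSpecialLinearGroup (Fin 2) F) := by rw [h, Subgroup.card_top]
    rw [← h1, hM24] at hcard
    have h2 : 7 * 6 * 8 ≤ p' * (p' - 1) * (p' + 1) := Nat.mul_le_mul (Nat.mul_le_mul hp7 (by omega)) (by omega)
    omega
  · intro H hMH hH
    rcases CfsgH9.Dk.overg p' hMH (CfsgH9.Dk.nc_of e CfsgH9.Dk.ncS4) (by
      intro m hm _
      rw [CfsgH9.Dk.ord_of e hm]
      have h1 : 2 * orderOf (e ⟨m, hm⟩) < 24 := by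
        have := CfsgH9.Dk.ordS4 (e ⟨m, hm⟩)
        omega
      exact lt_of_lt_of_eq h1 hM24.symm) (by
      intro S hS
      obtain ⟨a, ha, b, hb, hab⟩ := CfsgH9.Dk.nc_of e CfsgH9.Dk.ncS4
      exact hab (CfsgH9.Dk.comm_of_borel p' S hS hpM a ha b hb)) with ⟨-, ⟨h⟩⟩ | ⟨-, ⟨h⟩⟩ | ⟨-, ⟨h⟩⟩ | ⟨k, i1, i2, m, hm, h⟩
    · have h1 : Nat.card H = 12 := by rw [Nat.card_congr h.toEquiv, CfsgH9.Dk.cA4]
      rw [h1, hM24]; norm_num
    · have h1 : Nat.card H = 24 := by rw [Nat.card_congr h.toEquiv, CfsgH9.Dk.cS4]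
      rw [h1, hM24]
    · exfalso
      have h1 : Nat.card H = 60 := by rw [Nat.card_congr h.toEquiv, CfsgH9.Dk.cA5]
      have h2 : Nat.card M ∣ Nat.card H := Subgroup.card_dvd_of_le hMH
      rw [h1, hM24] at h2
      norm_num at h2
    · exfalso
      apply hH
      refine CfsgH9.Dk.sub_top ?_ h
      have hm1 : m = 1 := by
        rw [hF] at hm
        have h3 := (Fact.out : p'.Prime)
        rw [← hm] at h3
        exact Nat.Prime.eq_one_of_pow h3
      rw [hm1, pow_one] at hm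
      exact hm

end Cfsg.Agent.S5938
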