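import Cfsg.Statements.S5941
import Cfsg.Agent.H9.Dk23

set_option autoImplicit false
open Cfsg

namespace Cfsg.Agent.S5941

/-- Let K and F be finite fields of odd characteristic with #F = (#K)². Then PSL_2(F) has a maximal subgroup isomorphic to PGL_2(K). -/
theorem result {F K : Type*} [Field F] [Fintype F] [Field K] [Fintype K] (q : ℕ) (hK : Fintype.card K = q) (hF : Fintype.card F = q ^ 2) (hq : Odd q) : ∃ H : Subgroup (Matrix.ProjectiveSpecialLinearGroup (Fin 2) F), IsCoatom H ∧ Nonempty (H ≃* Matrix.ProjGenLinGroup (Fin 2) K) := by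
  classical
  have hr2 : (2 : ℕ) ≠ 0 := by norm_num
  obtain ⟨p, hpp, hch, a, ha, hqa⟩ := CfsgH9.Dk.setup hF hr2
  haveI : Fact p.Prime := ⟨hpp⟩
  have hFo : Odd (Fintype.card F) := by rw [hF]; exact hq.pow
  have hcard : Nat.gcd 2 (Fintype.card F - 1) * Nat.card (Matrix.ProjectiveSpecialLinearGroup (Fin 2) F) = Fintype.card F * (Fintype.card F - 1) * (Fintype.card F + 1) := CfsgH9.Dk.card_psl
  have hp2 : p ≠ 2 := by
    rintro rfl
    rw [hqa] at hq
    exact Nat.not_even_iff_odd.2 hq ((Nat.even_pow).2 ⟨even_two, ha.ne'⟩)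
  obtain ⟨M, ⟨e⟩⟩ := ((Cfsg.Agent.S0805.result (F := F) (K := K) rfl hFo 2 (by norm_num) (by rw [hK, hF])).2).2 even_two
  have hM : Nat.card M = q * (q - 1) * (q + 1) := by
    rw [← hK, Nat.card_congr e.toEquiv]; exact CfsgH9.Dk.card_PG
  refine ⟨M, ?_, ⟨e⟩⟩
  refine CfsgH9.Dk.sub_coatom p (r := 2) Nat.prime_two hF hqa ha (Or.inl ⟨hM, Or.inr rfl⟩) ?_ (fun h => absurd h hp2)
  intro S hS
  have h1 := CfsgH9.Dk.order_norm (F := F) p S
  rw [CfsgH9.Dk.d_odd hFo] at h1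
  obtain ⟨t, ht⟩ : Nat.card M ∣ Nat.card (Subgroup.normalizer ((S : Subgroup (Matrix.ProjectiveSpecialLinearGroup (Fin 2) F)) : Set (Matrix.ProjectiveSpecialLinearGroup (Fin 2) F))) := Subgroup.card_dvd_of_le hS
  rw [ht, hM, hF] at h1
  obtain ⟨s, hs⟩ := hq
  have hs0 : 0 < s := by
    rcases Nat.eq_zero_or_pos s with h0 | h0
    · exfalso
      have : 1 < q := by rw [hqa]; exact Nat.one_lt_pow ha.ne' hpp.one_lt
      omega
    · exact h0
  have e1 : q ^ 2 - 1 = (q - 1) * (q + 1) := by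
    rw [hs]
    have : (2 * s + 1) ^ 2 = (2 * s + 1 - 1) * (2 * s + 1 + 1) + 1 := by
      rw [Nat.add_sub_cancel]; ring
    rw [this, Nat.add_sub_cancel]
  rw [e1] at h1
  have hpos : 0 < (q - 1) * (q + 1) * q := by
    rw [hs]; exact Nat.mul_pos (Nat.mul_pos (by omega) (by omega)) (by omega)
  have h2 : (q - 1) * (q + 1) * q * (2 * t) = (q - 1) * (q + 1) * q * q := by
    calc (q - 1) * (q + 1) * q * (2 * t) = 2 * (q * (q - 1) * (q + 1) * t) := by ring
      _ = q ^ 2 * ((q - 1) * (q + 1)) := h1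
      _ = _ := by ring
  have h3 := Nat.eq_of_mul_eq_mul_left hpos h2
  omega

end Cfsg.Agent.S5941
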