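import Cfsg.Statements.S5942
import Cfsg.Agent.H9.Dk23

set_option autoImplicit false
open Cfsg

namespace Cfsg.Agent.S5942

/-- Let K and F be finite fields of odd characteristic with #F = (#K)^r for an odd prime r. Then PSL_2(F) has a maximal subgroup isomorphic to PSL_2(K). -/
theorem result {F K : Type*} [Field F] [Fintype F] [Field K] [Fintype K] (q r : ℕ) (hK : Fintype.card K = q) (hF : Fintype.card F = q ^ r) (hq : Odd q) (hr : r.Prime) (hr2 : r ≠ 2) : ∃ H : Subgroup (Matrix.ProjectiveSpecialLinearGroup (Fin 2) F), IsCoatom H ∧ Nonempty (H ≃* Matrix.ProjectiveSpecialLinearGroup (Fin 2) K) := by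
  classical
  have hr0 : r ≠ 0 := hr.ne_zero
  obtain ⟨p, hpp, hch, a, ha, hqa⟩ := CfsgH9.Dk.setup hF hr0
  haveI : Fact p.Prime := ⟨hpp⟩
  have hFo : Odd (Fintype.card F) := by rw [hF]; exact hq.pow
  have hcard : Nat.gcd 2 (Fintype.card F - 1) * Nat.card (Matrix.ProjectiveSpecialLinearGroup (Fin 2) F) = Fintype.card F * (Fintype.card F - 1) * (Fintype.card F + 1) := CfsgH9.Dk.card_psl
  have hcardK : Nat.gcd 2 (Fintype.card K - 1) * Nat.card (Matrix.ProjectiveSpecialLinearGroup (Fin 2) K) = Fintype.card K * (Fintype.card K - 1) * (Fintype.card K + 1) := CfsgH9.Dk.card_psl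
  have hKo : Odd (Fintype.card K) := by rw [hK]; exact hq
  rw [CfsgH9.Dk.d_odd hKo, hK] at hcardK
  have hro : Odd r := hr.odd_of_ne_two hr2
  have hp2 : p ≠ 2 := by
    rintro rfl
    rw [hqa] at hq
    exact Nat.not_even_iff_odd.2 hq ((Nat.even_pow).2 ⟨even_two, ha.ne'⟩)
  obtain ⟨M, ⟨e⟩⟩ := (Cfsg.Agent.S0805.result (F := F) (K := K) rfl hFo r hr.one_lt.le (by rw [hK, hF])).1
  have hM : 2 * Nat.card M = q * (q - 1) * (q + 1) := by
    rw [← hcardK, Nat.card_congr e.toEquiv]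
  refine ⟨M, ?_, ⟨e⟩⟩
  refine CfsgH9.Dk.sub_coatom p hr hF hqa ha (Or.inr ⟨hp2, hro, hM⟩) ?_ (fun h => absurd h hp2)
  intro S hS
  have h1 := CfsgH9.Dk.order_norm (F := F) p S
  rw [CfsgH9.Dk.d_odd hFo] at h1
  have h2 : Nat.card M ∣ Nat.card (Subgroup.normalizer ((S : Subgroup (Matrix.ProjectiveSpecialLinearGroup (Fin 2) F)) : Set (Matrix.ProjectiveSpecialLinearGroup (Fin 2) F))) := Subgroup.card_dvd_of_le hS
  have h3 := Nat.mul_dvd_mul_left 2 h2
  rw [h1, hM] at h3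
  have hq1 : 1 < q := by rw [hqa]; exact Nat.one_lt_pow ha.ne' hpp.one_lt
  have e1 : q ^ 2 - 1 = (q - 1) * (q + 1) := by
    obtain ⟨s, hs⟩ : ∃ s, q = s + 1 := ⟨q - 1, by omega⟩
    rw [hs]
    have : (s + 1) ^ 2 = (s + 1 - 1) * (s + 1 + 1) + 1 := by
      rw [Nat.add_sub_cancel]; ring
    rw [this, Nat.add_sub_cancel]
  have h4 : q ^ 2 - 1 ∣ Fintype.card F * (Fintype.card F - 1) := by
    rw [e1]
    exact (Dvd.intro_left _ (by ring : q * ((q - 1) * (q + 1)) = q * (q - 1) * (q + 1))).trans h3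
  have hcop : Nat.Coprime (q ^ 2 - 1) (Fintype.card F) := by
    rw [hF]
    apply Nat.Coprime.pow_right
    rw [hqa]
    apply Nat.Coprime.pow_right
    refine ((Nat.Prime.coprime_iff_not_dvd hpp).2 ?_).symm
    intro h
    have h5 : p ∣ (p ^ a) ^ 2 := by rw [← pow_mul]; exact dvd_pow_self p (by omega)
    have h6 : 1 ≤ (p ^ a) ^ 2 := Nat.one_le_pow _ _ (Nat.pow_pos hpp.pos)
    have h7 : p ∣ 1 := (Nat.dvd_sub_iff_right h6 h5).1 h
    exact hpp.one_lt.ne' (Nat.dvd_one.1 h7)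
  have h5 := hcop.dvd_of_dvd_mul_left h4
  rw [hF] at h5
  exact CfsgH9.Dk.borel_arith hq1 hro hr.pos h5

end Cfsg.Agent.S5942
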