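import Cfsg.Statements.S5943
import Cfsg.Agent.H9.Dk23

set_option autoImplicit false
open Cfsg

namespace Cfsg.Agent.S5943

/-- Let K and F be finite fields of characteristic 2 with #K = q > 2 and #F = q^r for a prime r. Then PSL_2(F) has a maximal subgroup isomorphic to PSL_2(K) (which equals PGL_2(K) in characteristic 2). -/
theorem result {F K : Type*} [Field F] [Fintype F] [Field K] [Fintype K] (q r : ℕ) (hK : Fintype.card K = q) (hF : Fintype.card F = q ^ r) (hq : Even q) (hq2 : q ≠ 2) (hr : r.Prime) : ∃ H : Subgroup (Matrix.ProjectiveSpecialLinearGroup (Fin 2) F), IsCoatom H ∧ Nonempty (H ≃* Matrix.ProjectiveSpecialLinearGroup (Fin 2) K) := by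
  classical
  have hr0 : r ≠ 0 := hr.ne_zero
  obtain ⟨p, hpp, hch, a, ha, hqa⟩ := CfsgH9.Dk.setup hF hr0
  haveI : Fact p.Prime := ⟨hpp⟩
  have hp2 : p = 2 := by
    rw [hqa] at hq
    exact ((Nat.prime_dvd_prime_iff_eq Nat.prime_two hpp).1 (Nat.prime_two.dvd_of_dvd_pow hq.two_dvd)).symm
  subst hp2
  have ha2 : 2 ≤ a := by
    by_contra h
    have : a = 1 := by omega
    rw [this, pow_one] at hqa
    exact hq2 hqa
  have hq4 : 4 ∣ q := by
    rw [hqa]
    exact (by norm_num : (4 : ℕ) = 2 ^ 2) ▸ pow_dvd_pow 2 ha2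
  have hFe : Even (Fintype.card F) := by rw [hF]; exact (Nat.even_pow).2 ⟨hq, hr0⟩
  have hKe : Even (Fintype.card K) := by rw [hK]; exact hq
  have hcardK : Nat.gcd 2 (Fintype.card K - 1) * Nat.card (Matrix.ProjectiveSpecialLinearGroup (Fin 2) K) = Fintype.card K * (Fintype.card K - 1) * (Fintype.card K + 1) := CfsgH9.Dk.card_psl
  rw [CfsgH9.Dk.d_even hKe, hK, one_mul] at hcardK
  obtain ⟨f⟩ := CfsgH9.Dk.exists_hom (k := K) (F := F) (m := r) (by rw [hK, hF])
  obtain ⟨M, ⟨e⟩⟩ : ∃ H : Subgroup (Matrix.ProjectiveSpecialLinearGroup (Fin 2) F), Nonempty (H ≃* Matrix.ProjectiveSpecialLinearGroup (Fin 2) K) := CfsgH9.Dk.exists_PS f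
  have hM : Nat.card M = q * (q - 1) * (q + 1) := by
    rw [← hcardK, Nat.card_congr e.toEquiv]
  have h4M : 4 ∣ Nat.card M := by
    rw [hM]
    exact hq4.trans (Dvd.intro _ (by ring : q * ((q - 1) * (q + 1)) = q * (q - 1) * (q + 1)))
  refine ⟨M, ?_, ⟨e⟩⟩
  refine CfsgH9.Dk.sub_coatom 2 hr hF hqa ha (Or.inl ⟨hM, Or.inl rfl⟩) ?_ (fun _ => h4M)
  intro S hS
  have hq5 : 4 ≤ q := Nat.le_of_dvd (by rw [hqa]; exact Nat.pow_pos (by norm_num)) hq4
  haveI hsK : IsSimpleGroup (Matrix.ProjectiveSpecialLinearGroup (Fin 2) K) := Matrix.ProjectiveSpecialLinearGroup.rank_two_simple (by rw [Nat.card_eq_fintype_card, hK]; exact hq5)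
  haveI hsM : IsSimpleGroup M := e.isSimpleGroup_congr.2 hsK
  have hnc : ∃ x y : M, x * y ≠ y * x := by
    by_contra hcon
    push Not at hcon
    letI : CommGroup M := { (inferInstance : Group M) with mul_comm := hcon }
    have h1 : (Nat.card M).Prime := IsSimpleGroup.prime_card
    have h2 : 2 * 2 ∣ Nat.card M := h4M
    have h3 : 2 ∣ Nat.card M := (Dvd.intro _ rfl).trans h2
    have h4 := (Nat.prime_dvd_prime_iff_eq Nat.prime_two h1).1 h3
    rw [← h4] at h2
    norm_num at h2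
  obtain ⟨x, y, hxy⟩ := hnc
  have h3M : 3 ∣ Nat.card M := by
    rw [hM]
    have h5 : q % 3 = 1 ∨ q % 3 = 2 := by
      have h6 : ¬ 3 ∣ q := by
        rw [hqa]
        intro h
        have := (Nat.prime_dvd_prime_iff_eq Nat.prime_three Nat.prime_two).1 (Nat.prime_three.dvd_of_dvd_pow h)
        omega
      omega
    rcases h5 with h5 | h5
    · have : 3 ∣ q - 1 := by omega
      exact (this.mul_left q).mul_right _
    · have : 3 ∣ q + 1 := by omega
      exact this.mul_left _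
  exact CfsgH9.Dk.simple_not_borel (F := F) 2 S hS x.2 y.2 (fun h => hxy (Subtype.ext h)) Nat.prime_three (by norm_num) h3M

end Cfsg.Agent.S5943
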