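import Cfsg.Statements.S5945
import Cfsg.Agent.H9.Sym6

set_option autoImplicit false
open Cfsg

namespace Cfsg.Agent.S5945

open CfsgH9.SymIdx in
theorem main_count {e : Equiv.Perm (Fin 6) ≃* Equiv.Perm (Fin 6)} (he : Exotic e) :
    Nat.card {H : Subgroup (Equiv.Perm (Fin 6)) // H.index = 6} = 12 := by
  have h6 : Nat.card (Fin 6) = 6 := Nat.card_fin 6
  let F : Fin 6 ⊕ Fin 6 → {H : Subgroup (Equiv.Perm (Fin 6)) // H.index = 6} := fun s =>
    Sum.elim (fun z => ⟨MulAction.stabilizer _ z, by rw [index_stab, h6]⟩)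
      (fun z => ⟨(MulAction.stabilizer (Equiv.Perm (Fin 6)) z).comap e.toMonoidHom, by
        rw [Subgroup.index_comap_of_surjective _ e.surjective, index_stab, h6]⟩) s
  have hinj0 : ∀ a b : Fin 6, MulAction.stabilizer (Equiv.Perm (Fin 6)) a = MulAction.stabilizer (Equiv.Perm (Fin 6)) b → a = b := by
    intro a b h
    by_contra hab
    obtain ⟨c, hc1, hc2⟩ : ∃ c : Fin 6, c ≠ a ∧ c ≠ b := by
      have hd : ∀ a b : Fin 6, ∃ c : Fin 6, c ≠ a ∧ c ≠ b := by decide
      exact hd a b
    have h1 : Equiv.swap b c ∈ MulAction.stabilizer (Equiv.Perm (Fin 6)) a := by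
      rw [MulAction.mem_stabilizer_iff, Equiv.Perm.smul_def, Equiv.swap_apply_of_ne_of_ne hab hc1.symm]
    rw [h, MulAction.mem_stabilizer_iff, Equiv.Perm.smul_def, Equiv.swap_apply_left] at h1
    exact hc2 h1
  have hF : Function.Bijective F := by
    constructor
    · rintro (a | a) (b | b) h
      · exact congrArg Sum.inl (hinj0 a b (Subtype.ext_iff.1 h))
      · exact absurd (Subtype.ext_iff.1 h).symm (exotic_not_stab h6 he b a)
      · exact absurd (Subtype.ext_iff.1 h) (exotic_not_stab h6 he a b)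
      · refine congrArg Sum.inr (hinj0 a b ?_)
        have h1 : (MulAction.stabilizer (Equiv.Perm (Fin 6)) a).comap e.toMonoidHom =
          (MulAction.stabilizer (Equiv.Perm (Fin 6)) b).comap e.toMonoidHom := Subtype.ext_iff.1 h
        exact Subgroup.comap_injective e.surjective h1
    · rintro ⟨H, hH⟩
      rcases index_six h6 hH with ⟨z, hz⟩ | ⟨e', ω', he', hz⟩
      · exact ⟨Sum.inl z, Subtype.ext hz.symm⟩
      · obtain ⟨z, hz'⟩ := comap_exotic (by omega) he he' ω'
        exact ⟨Sum.inr z, Subtype.ext (hz.trans hz').symm⟩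
  rw [← Nat.card_congr (Equiv.ofBijective F hF), Nat.card_sum, Nat.card_fin]

/-- point stabiliser in `S₆` -/
theorem stab_equiv (z : Fin 6) : Nonempty (MulAction.stabilizer (Equiv.Perm (Fin 6)) z ≃* Equiv.Perm (Fin 5)) := by
  have h1 : Nat.card (MulAction.stabilizer (Equiv.Perm (Fin 6)) z) = Nat.card (Equiv.Perm (Fin 5)) := by
    have h2 := Subgroup.card_mul_index (MulAction.stabilizer (Equiv.Perm (Fin 6)) z)
    rw [CfsgH9.SymIdx.index_stab, Nat.card_perm, Nat.card_fin] at h2
    rw [Nat.card_perm, Nat.card_fin]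
    have h7 : (6 : ℕ).factorial = 720 := rfl
    have h8 : (5 : ℕ).factorial = 120 := rfl
    omega
  have hc : Nat.card {x : Fin 6 // x ≠ z} = Nat.card (Fin 5) := by
    rw [Nat.card_fin, Nat.card_eq_fintype_card, Fintype.card_subtype_compl, Fintype.card_fin, Fintype.card_subtype_eq]
  let f : {x : Fin 6 // x ≠ z} ≃ Fin 5 := (Finite.equivFin _).trans ((finCongr hc).trans (Finite.equivFin _).symm)
  let ψ0 : Equiv.Perm {x : Fin 6 // x ≠ z} →* Equiv.Perm (Fin 6) := Equiv.Perm.ofSubtype
  let ψ : Equiv.Perm (Fin 5) →* MulAction.stabilizer (Equiv.Perm (Fin 6)) z :=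
    (ψ0.comp f.symm.permCongrHom.toMonoidHom).codRestrict _ (by
      intro x
      rw [MulAction.mem_stabilizer_iff, Equiv.Perm.smul_def]
      exact Equiv.Perm.ofSubtype_apply_of_not_mem _ (by simp))
  have hψ : Function.Injective ψ := by
    intro a b h
    have h1 := Subtype.ext_iff.1 h
    exact f.symm.permCongrHom.injective (Equiv.Perm.ofSubtype_injective h1)
  have hb : Function.Bijective ψ := by
    have := Fintype.ofFinite (MulAction.stabilizer (Equiv.Perm (Fin 6)) z)
    rw [Fintype.bijective_iff_injective_and_card]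
    exact ⟨hψ, by rw [← Nat.card_eq_fintype_card, ← Nat.card_eq_fintype_card, h1]⟩
  exact ⟨(MulEquiv.ofBijective ψ hb).symm⟩

/-- The symmetric group S_6 has exactly 12 subgroups of index 6; each of them is isomorphic to S_5, and at least one of them is not the stabilizer of any point. -/
theorem result : Nat.card {H : Subgroup (Equiv.Perm (Fin 6)) // H.index = 6} = 12 ∧ (∀ H : Subgroup (Equiv.Perm (Fin 6)), H.index = 6 → Nonempty (H ≃* Equiv.Perm (Fin 5))) ∧ ∃ H : Subgroup (Equiv.Perm (Fin 6)), H.index = 6 ∧ ∀ a : Fin 6, H ≠ MulAction.stabilizer (Equiv.Perm (Fin 6)) a := by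
  have h6 : Nat.card (Fin 6) = 6 := Nat.card_fin 6
  obtain ⟨e, he⟩ := CfsgH9.SymIdx.exists_exotic (Ω := Fin 6) h6
  refine ⟨main_count he, ?_, ?_⟩
  · intro H hi
    rcases CfsgH9.SymIdx.index_six h6 hi with ⟨z, hz⟩ | ⟨e', ω', he', hz⟩
    · rw [hz]; exact stab_equiv z
    · obtain ⟨g⟩ := stab_equiv ω'
      rw [hz]
      refine ⟨MulEquiv.trans ?_ g⟩
      exact
        { toFun := fun x => ⟨e' x.1, x.2⟩
          invFun := fun y => ⟨e'.symm y.1, by
            change e' (e'.symm y.1) ∈ MulAction.stabilizer (Equiv.Perm (Fin 6)) ω'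
            rw [e'.apply_symm_apply]; exact y.2⟩
          left_inv := fun x => Subtype.ext (e'.symm_apply_apply x.1)
          right_inv := fun y => Subtype.ext (e'.apply_symm_apply y.1)
          map_mul' := fun x y => Subtype.ext (map_mul e' x.1 y.1) }
  · refine ⟨(MulAction.stabilizer (Equiv.Perm (Fin 6)) (0 : Fin 6)).comap e.toMonoidHom, ?_, ?_⟩
    · rw [Subgroup.index_comap_of_surjective _ e.surjective, CfsgH9.SymIdx.index_stab, h6]
    · intro a
      exact CfsgH9.SymIdx.exotic_not_stab h6 he 0 a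

end Cfsg.Agent.S5945
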