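import Cfsg.Statements.S5952

set_option autoImplicit false
open Cfsg

namespace Cfsg.Agent.S5952

section
variable {F V : Type*} [Field F] [AddCommGroup V] [Module F V] [FiniteDimensional F V] {f : V →ₗ[F] V} {s a : ℕ} {U : Fin s → Submodule F V}

theorem disj (hi : iSupIndep (fun o : Option (Fin s) => o.elim (Module.End.eigenspace f 1) U)) {C' : Submodule F V}
    (hC' : C' ≤ Module.End.eigenspace f 1) (S : Finset (Fin s)) (j : Fin s) (hj : j ∉ S) : Disjoint (C' ⊔ ⨆ k ∈ S, U k) (U j) := by
  have h1 := hi (some j)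
  refine (h1.mono_right ?_).symm
  apply sup_le
  · exact hC'.trans (le_iSup₂_of_le (none : Option (Fin s)) (by simp) le_rfl)
  · apply iSup₂_le
    intro k hk
    exact le_iSup₂_of_le (some k : Option (Fin s)) (by
      intro h
      rw [Option.some_inj] at h
      exact hj (h ▸ hk)) le_rfl

theorem sup_insert (C' : Submodule F V) (S : Finset (Fin s)) (j : Fin s) : (C' ⊔ ⨆ k ∈ insert j S, U k) = (C' ⊔ ⨆ k ∈ S, U k) ⊔ U j := by
  rw [Finset.iSup_insert, sup_comm (U j), sup_assoc]

theorem fr (hUdim : ∀ j, Module.finrank F ↥(U j) = a)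
    (hi : iSupIndep (fun o : Option (Fin s) => o.elim (Module.End.eigenspace f 1) U)) {C' : Submodule F V}
    (hC' : C' ≤ Module.End.eigenspace f 1) (S : Finset (Fin s)) :
    Module.finrank F ↥(C' ⊔ ⨆ k ∈ S, U k) = Module.finrank F ↥C' + a * S.card := by
  classical
  induction S using Finset.induction_on with
  | empty =>
    have e : (C' ⊔ ⨆ k ∈ (∅ : Finset (Fin s)), U k) = C' := by simp
    rw [e]; simp
  | insert j S hj ih =>
    have h1 := Submodule.finrank_sup_add_finrank_inf_eq (C' ⊔ ⨆ k ∈ S, U k) (U j)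
    rw [(disj hi hC' S j hj).eq_bot, finrank_bot, add_zero, ih, hUdim] at h1
    rw [sup_insert, h1, Finset.card_insert_of_notMem hj]
    ring

theorem key (hUinv : ∀ j, (U j).map f ≤ U j) (hUdim : ∀ j, Module.finrank F ↥(U j) = a)
    (hUirr : ∀ j, ∀ W : Submodule F V, W ≤ U j → W.map f ≤ W → W = ⊥ ∨ W = U j)
    (hi : iSupIndep (fun o : Option (Fin s) => o.elim (Module.End.eigenspace f 1) U)) (W : Submodule F V) (hW : W.map f ≤ W) (S : Finset (Fin s)) :
    ∃ t, Module.finrank F ↥(W ⊓ (Module.End.eigenspace f 1 ⊔ ⨆ k ∈ S, U k)) = Module.finrank F ↥(W ⊓ Module.End.eigenspace f 1) + a * t := by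
  classical
  induction S using Finset.induction_on with
  | empty =>
    have e : (Module.End.eigenspace f 1 ⊔ ⨆ k ∈ (∅ : Finset (Fin s)), U k) = Module.End.eigenspace f 1 := by simp
    exact ⟨0, by rw [e]; simp⟩
  | insert j S hj ih =>
    obtain ⟨t, ht⟩ := ih
    set C := Module.End.eigenspace f 1 with hC
    set A := C ⊔ ⨆ k ∈ S, U k with hA
    rw [sup_insert, ← hA]
    have hmapC : C.map f ≤ C := by
      rintro _ ⟨x, hx, rfl⟩
      have : f x = x := by
        have := Module.End.mem_eigenspace_iff.1 hx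
        rwa [one_smul] at this
      rw [this]; exact hx
    have hmapA : A.map f ≤ A := by
      rw [hA, Submodule.map_sup]
      apply sup_le_sup hmapC
      simp only [Submodule.map_iSup]
      exact iSup₂_mono (fun k _ => hUinv k)
    have hinf : ∀ X Y : Submodule F V, X.map f ≤ X → Y.map f ≤ Y → (X ⊓ Y).map f ≤ X ⊓ Y := fun X Y hX hY =>
      (Submodule.map_inf_le f).trans (inf_le_inf hX hY)
    have hsup : ∀ X Y : Submodule F V, X.map f ≤ X → Y.map f ≤ Y → (X ⊔ Y).map f ≤ X ⊔ Y := fun X Y hX hY => by
      rw [Submodule.map_sup]; exact sup_le_sup hX hY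
    set B := A ⊔ U j with hB
    set Y := (W ⊓ B) ⊔ A with hY
    have hYinv : Y.map f ≤ Y := hsup _ _ (hinf _ _ hW (hsup _ _ hmapA (hUinv j))) hmapA
    have hX := hUirr j (U j ⊓ Y) inf_le_left (hinf _ _ (hUinv j) hYinv)
    have hAY : A ≤ Y := le_sup_right
    have hYB : Y ≤ B := sup_le inf_le_right le_sup_left
    have hYe : Y = A ⊔ (U j ⊓ Y) := by
      rw [← sup_inf_assoc_of_le (U j) hAY, ← hB]
      exact (inf_eq_right.2 hYB).symm
    have hdis : Disjoint A (U j) := disj hi le_rfl S j hj
    have h1 : Module.finrank F Y = Module.finrank F A + Module.finrank F ↥(U j ⊓ Y) := by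
      have h2 := Submodule.finrank_sup_add_finrank_inf_eq A (U j ⊓ Y)
      rw [← hYe, (hdis.mono_right inf_le_left).eq_bot, finrank_bot, add_zero] at h2
      exact h2
    have h2 : Module.finrank F Y + Module.finrank F ↥(W ⊓ A) = Module.finrank F ↥(W ⊓ B) + Module.finrank F A := by
      have h3 := Submodule.finrank_sup_add_finrank_inf_eq (W ⊓ B) A
      have h4 : W ⊓ B ⊓ A = W ⊓ A := by
        rw [inf_assoc, inf_eq_right.2 (le_sup_left : A ≤ B)]
      rw [h4] at h3
      exact h3
    rcases hX with h3 | h3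
    · rw [h3, finrank_bot] at h1
      exact ⟨t, by omega⟩
    · rw [h3, hUdim] at h1
      refine ⟨t + 1, ?_⟩
      have : a * (t + 1) = a * t + a := by ring
      omega

end

/-- Which dimensions of invariant subspaces a semisimple linear map has. Let `V` be a finite-dimensional vector space over a field `F` and `f` an invertible semisimple linear map of `V`. Suppose `V` is the internal direct sum of the fixed space `C_V(f)` (the eigenspace for 1) and subspaces `U_1, …, U_s`, each `f`-invariant of dimension `a ≥ 1` on which `f` acts irreducibly (no `f`-invariant subspaces other than 0 and `U_j`). Let `0 < m < dim V` and `ℓ = m mod a`. Then `f` leaves some `m`-dimensional subspace invariant if and only if `dim C_V(f) ≥ m`, or `a ≤ m` and `dim C_V(f) ≥ ℓ`. -/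
theorem result {F V : Type*} [Field F] [AddCommGroup V] [Module F V]
    [FiniteDimensional F V] (f : V →ₗ[F] V) (hf : Function.Bijective f) (hss : Module.End.IsSemisimple f)
    {s a : ℕ} (ha : 1 ≤ a) (U : Fin s → Submodule F V)
    (hUinv : ∀ j, (U j).map f ≤ U j) (hUdim : ∀ j, Module.finrank F ↥(U j) = a)
    (hUirr : ∀ j, ∀ W : Submodule F V, W ≤ U j → W.map f ≤ W → W = ⊥ ∨ W = U j)
    (hdec : DirectSum.IsInternal (fun o : Option (Fin s) => o.elim (Module.End.eigenspace f 1) U))
    (m : ℕ) (hm : 0 < m) (hmV : m < Module.finrank F V) :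
    (∃ W : Submodule F V, Module.finrank F ↥W = m ∧ W.map f ≤ W) ↔
    (m ≤ Module.finrank F ↥(Module.End.eigenspace f 1) ∨
      (a ≤ m ∧ m % a ≤ Module.finrank F ↥(Module.End.eigenspace f 1))) := by
  classical
  have hi := hdec.submodule_iSupIndep
  have htop := hdec.submodule_iSup_eq_top
  rw [iSup_option] at htop
  simp only [Option.elim_none, Option.elim_some] at htop
  set C := Module.End.eigenspace f 1 with hC
  have htop' : C ⊔ ⨆ k ∈ (Finset.univ : Finset (Fin s)), U k = ⊤ := by
    simpa using htop
  have hdimV : Module.finrank F V = Module.finrank F C + a * s := by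
    have := fr hUdim hi (le_refl C) Finset.univ
    rw [htop', finrank_top, Finset.card_univ, Fintype.card_fin] at this
    exact this
  constructor
  · rintro ⟨W, hWm, hWf⟩
    obtain ⟨t, ht⟩ := key hUinv hUdim hUirr hi W hWf Finset.univ
    rw [← hC, htop', inf_top_eq, hWm] at ht
    have h1 : Module.finrank F ↥(W ⊓ C) ≤ Module.finrank F C := Submodule.finrank_mono inf_le_right
    rcases Nat.eq_zero_or_pos t with h0 | h0
    · left
      rw [h0, mul_zero, add_zero] at ht
      omega
    · right
      constructor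
      · have : a * 1 ≤ a * t := Nat.mul_le_mul_left a h0
        omega
      · rw [ht, Nat.add_mul_mod_self_left]
        exact (Nat.mod_le _ _).trans h1
  · intro h
    obtain ⟨i, t, hi1, ht1, him⟩ : ∃ i t, i ≤ Module.finrank F C ∧ t ≤ s ∧ m = i + a * t := by
      by_cases hmc : m ≤ Module.finrank F C
      · exact ⟨m, 0, hmc, Nat.zero_le _, by simp⟩
      · obtain ⟨ham, hmod⟩ := h.resolve_left hmc
        by_cases hs : m / a ≤ s
        · exact ⟨m % a, m / a, hmod, hs, (Nat.mod_add_div m a).symm⟩
        · have h1 : a * s ≤ a * (m / a) := Nat.mul_le_mul_left a (by omega)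
          have h2 := Nat.mul_div_le m a
          exact ⟨m - a * s, s, by omega, le_rfl, by omega⟩
    obtain ⟨C', hC', hC'i⟩ : ∃ C' : Submodule F V, C' ≤ C ∧ Module.finrank F C' = i := by
      obtain ⟨X, hX⟩ : ∃ X : Submodule F C, Module.finrank F X = i := by
        have hli : LinearIndependent F (fun k : Fin i => Module.finBasis F C (Fin.castLE hi1 k)) :=
          (Module.finBasis F C).linearIndependent.comp _ (Fin.castLE_injective hi1)
        exact ⟨Submodule.span F (Set.range (fun k : Fin i => Module.finBasis F C (Fin.castLE hi1 k))), by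
          rw [finrank_span_eq_card hli, Fintype.card_fin]⟩
      refine ⟨X.map C.subtype, Submodule.map_subtype_le _ _, ?_⟩
      rw [LinearEquiv.finrank_eq (Submodule.equivMapOfInjective C.subtype C.injective_subtype X).symm, hX]
    obtain ⟨T, hT⟩ : ∃ T : Finset (Fin s), T.card = t := by
      obtain ⟨T, -, hT⟩ := Finset.exists_subset_card_eq (s := (Finset.univ : Finset (Fin s))) (n := t) (by rw [Finset.card_univ, Fintype.card_fin]; exact ht1)
      exact ⟨T, hT⟩
    refine ⟨C' ⊔ ⨆ k ∈ T, U k, ?_, ?_⟩
    · rw [fr hUdim hi hC' T, hC'i, hT, him]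
    · rw [Submodule.map_sup]
      apply sup_le_sup
      · rintro _ ⟨x, hx, rfl⟩
        have : f x = x := by
          have := Module.End.mem_eigenspace_iff.1 (hC' hx)
          rwa [one_smul] at this
        rw [this]; exact hx
      · simp only [Submodule.map_iSup]
        exact iSup₂_mono (fun k _ => hUinv k)

end Cfsg.Agent.S5952
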