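import Cfsg.Statements.S5962
import Cfsg.Agent.H9.SpInv
import Cfsg.Agent.H9.NMax

set_option autoImplicit false
open scoped MatrixGroups
open Cfsg Matrix

namespace Cfsg.Agent.S5962

/-- Involutions of PSp_n(q), q odd, and the subgroups GL_{n/2}(q).2. Here `T = PSp_n(q)`, `n = 2d ≥ 4`, `q` odd, realised through the symplectic matrices over the field `F` with `q` elements; Ω is the set of unordered pairs `{U, W}` of complementary totally isotropic `d`-spaces (`F^n = U ⊕ W`), whose stabilizers are the subgroups of type GL_d(q).2 (maximal except in some small cases; maximality is not assumed); an element of `T` of prime order `r` (a symplectic matrix `x` with `x^r` scalar, `x` not scalar) fixes such a pair when it fixes or interchanges `U` and `W`. If the number of such pairs is even, every involution of `T` fixes one of them (the action is 2-elusive). -/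
theorem result {F : Type*} [Field F] [Fintype F] {p : ℕ} [Fact p.Prime] [CharP F p] {q : ℕ} (hq : Fintype.card F = q)
    (d : ℕ) (hd : 2 ≤ d) (hT : (d, q) ≠ (2, 2)) (hodd : Odd q)
    (hΩ : 2 ∣ Nat.card {P : Submodule F (Fin d ⊕ Fin d → F) × Submodule F (Fin d ⊕ Fin d → F) // IsCompl P.1 P.2 ∧ (∀ u ∈ P.1, ∀ v ∈ P.1, Cfsg.sympForm d F u v = 0) ∧ (∀ u ∈ P.2, ∀ v ∈ P.2, Cfsg.sympForm d F u v = 0)} / 2)
    (x : ↥(Matrix.symplecticGroup (Fin d) F))
    (hx1 : ∃ z : F, ((x ^ 2 : ↥(Matrix.symplecticGroup (Fin d) F)) : Matrix (Fin d ⊕ Fin d) (Fin d ⊕ Fin d) F) = z • (1 : Matrix (Fin d ⊕ Fin d) (Fin d ⊕ Fin d) F))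
    (hx2 : ∀ z : F, (x : Matrix (Fin d ⊕ Fin d) (Fin d ⊕ Fin d) F) ≠ z • (1 : Matrix (Fin d ⊕ Fin d) (Fin d ⊕ Fin d) F)) :
    ∃ U W : Submodule F (Fin d ⊕ Fin d → F), IsCompl U W ∧ (∀ u ∈ U, ∀ v ∈ U, Cfsg.sympForm d F u v = 0) ∧ (∀ u ∈ W, ∀ v ∈ W, Cfsg.sympForm d F u v = 0) ∧
        ((U.map (Matrix.toLin' (x : Matrix (Fin d ⊕ Fin d) (Fin d ⊕ Fin d) F)) = U ∧ W.map (Matrix.toLin' (x : Matrix (Fin d ⊕ Fin d) (Fin d ⊕ Fin d) F)) = W) ∨
         (U.map (Matrix.toLin' (x : Matrix (Fin d ⊕ Fin d) (Fin d ⊕ Fin d) F)) = W ∧ W.map (Matrix.toLin' (x : Matrix (Fin d ⊕ Fin d) (Fin d ⊕ Fin d) F)) = U)) := by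
  have hf := CfsgH9.SpGen.sympForm_isSymplectic (F := F) d
  have hb := hf.bilinear
  have h2 : (2 : F) ≠ 0 := CfsgH9.Og.two_ne (by rw [hq]; exact hodd)
  obtain ⟨X, hXe⟩ : ∃ X, X = (x : Matrix (Fin d ⊕ Fin d) (Fin d ⊕ Fin d) F) := ⟨_, rfl⟩
  have hXs : Xᵀ * Matrix.J (Fin d) F * X = Matrix.J (Fin d) F := by
    rw [hXe]
    exact SymplecticGroup.mem_iff'.1 x.2
  have hX : ∀ u v, Cfsg.sympForm d F (X *ᵥ u) (X *ᵥ v) = Cfsg.sympForm d F u v := by
    intro u v
    show (X *ᵥ u) ⬝ᵥ (Matrix.J (Fin d) F *ᵥ (X *ᵥ v)) = u ⬝ᵥ (Matrix.J (Fin d) F *ᵥ v)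
    rw [← Matrix.vecMul_transpose, ← Matrix.dotProduct_mulVec, Matrix.mulVec_mulVec, Matrix.mulVec_mulVec, hXs]
  obtain ⟨z, hz⟩ := hx1
  have hXX : ∀ v, X *ᵥ (X *ᵥ v) = z • v := by
    intro v
    rw [Matrix.mulVec_mulVec]
    have h1 : X * X = z • (1 : Matrix (Fin d ⊕ Fin d) (Fin d ⊕ Fin d) F) := by
      rw [← hz, pow_two, hXe]; rfl
    rw [h1, Matrix.smul_mulVec, Matrix.one_mulVec]
  have hne : (Pi.single (Sum.inl ⟨0, by omega⟩) 1 : Fin d ⊕ Fin d → F) ≠ 0 := by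
    intro h
    have := congrFun h (Sum.inl ⟨0, by omega⟩)
    rw [Pi.single_eq_same, Pi.zero_apply] at this
    exact one_ne_zero this
  have hzz : z * z = 1 := by
    obtain ⟨-, y, hy⟩ := hf.nondegenerate _ hne
    have h1 := hX (X *ᵥ (Pi.single (Sum.inl ⟨0, by omega⟩) 1)) (X *ᵥ y)
    rw [hXX, hXX, hX, hb.smul_left, hb.smul_right, ← mul_assoc] at h1
    have h3 : (z * z - 1) * Cfsg.sympForm d F (Pi.single (Sum.inl ⟨0, by omega⟩) 1) y = 0 := by linear_combination h1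
    exact sub_eq_zero.1 ((mul_eq_zero.1 h3).resolve_right hy)
  have hz1 : z = 1 ∨ z = -1 := by
    have h3 : (z - 1) * (z + 1) = 0 := by linear_combination hzz
    rcases mul_eq_zero.1 h3 with h | h
    · left; linear_combination h
    · right; linear_combination h
  obtain ⟨b, U, W, hUW, hU, hW, hXU, hXW⟩ := CfsgH9.SpInv.main hf h2 hX hz1 hXX
  rw [← hXe]
  have hback : ∀ v, X *ᵥ (z • (X *ᵥ v)) = v := by
    intro v
    rw [Matrix.mulVec_smul, hXX, smul_smul, hzz, one_smul]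
  refine ⟨U, W, ⟨?_, codisjoint_iff.2 hUW⟩, hU, hW, ?_⟩
  · rw [disjoint_iff, eq_bot_iff]
    rintro v ⟨hv, hv'⟩
    rw [Submodule.mem_bot]
    by_contra hv0
    obtain ⟨-, y, hy⟩ := hf.nondegenerate v hv0
    apply hy
    have hyt : y ∈ U ⊔ W := by rw [hUW]; trivial
    obtain ⟨a, ha, c, hc, rfl⟩ := Submodule.mem_sup.1 hyt
    rw [hb.add_right, hU v hv a ha, hW v hv' c hc, add_zero]
  · cases b
    · right
      simp only [Bool.false_eq_true, if_false] at hXU hXW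
      constructor
      · apply le_antisymm
        · rintro _ ⟨u, hu, rfl⟩
          rw [Matrix.toLin'_apply]; exact hXU u hu
        · intro w hw
          exact ⟨z • (X *ᵥ w), U.smul_mem _ (hXW w hw), by rw [Matrix.toLin'_apply, hback]⟩
      · apply le_antisymm
        · rintro _ ⟨u, hu, rfl⟩
          rw [Matrix.toLin'_apply]; exact hXW u hu
        · intro w hw
          exact ⟨z • (X *ᵥ w), W.smul_mem _ (hXU w hw), by rw [Matrix.toLin'_apply, hback]⟩
    · left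
      simp only [if_true] at hXU hXW
      constructor
      · apply le_antisymm
        · rintro _ ⟨u, hu, rfl⟩
          rw [Matrix.toLin'_apply]; exact hXU u hu
        · intro w hw
          exact ⟨z • (X *ᵥ w), U.smul_mem _ (hXU w hw), by rw [Matrix.toLin'_apply, hback]⟩
      · apply le_antisymm
        · rintro _ ⟨u, hu, rfl⟩
          rw [Matrix.toLin'_apply]; exact hXW u hu
        · intro w hw
          exact ⟨z • (X *ᵥ w), W.smul_mem _ (hXW w hw), by rw [Matrix.toLin'_apply, hback]⟩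

end Cfsg.Agent.S5962
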