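import Cfsg.Statements.S5997
import Cfsg.Agent.H9.SLt5

set_option autoImplicit false
open scoped MatrixGroups
open Cfsg

namespace Cfsg.Agent.S5997

open CfsgH7 CfsgH9.SLt Matrix

theorem exists_lift {F : Type*} [Field F] {x : GL (Fin 2) F} (hx : x ∈ Cfsg.Geo.specialLinear (Fin 2) F) :
    ∃ s : SL2 F, Matrix.SpecialLinearGroup.toGL s = x := by
  have h1 : (x : Matrix (Fin 2) (Fin 2) F).det = 1 := by
    have := congrArg Units.val (MonoidHom.mem_ker.1 hx)
    simpa using this
  exact ⟨⟨x.1, h1⟩, Units.ext rfl⟩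

theorem toGL_mem {F : Type*} [Field F] (s : SL2 F) : (Matrix.SpecialLinearGroup.toGL s : GL (Fin 2) F) ∈ Cfsg.Geo.specialLinear (Fin 2) F := by
  rw [Cfsg.Geo.specialLinear, MonoidHom.mem_ker]
  apply Units.ext
  simp

theorem tr_of_cube {F : Type*} [Field F] {s : SL2 F} (h3 : IsPM (s * s * s)) (hs : ¬ IsPM s) : tr2 s ^ 2 = 1 := by
  by_contra hne
  apply hs
  have hd := sl2_det s
  obtain ⟨h1, h2, h3⟩ := h3
  simp only [sl2_mul_apply] at h1 h2 h3
  have hne' : tr2 s ^ 2 - 1 ≠ 0 := sub_ne_zero.2 hne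
  simp only [tr2] at hne'
  refine ⟨?_, ?_, ?_⟩
  · apply (mul_eq_zero.1 (?_ : _ * ((s.1 0 0 + s.1 1 1) ^ 2 - 1) = 0)).resolve_right hne'
    linear_combination h1 + s.1 0 1 * hd
  · apply (mul_eq_zero.1 (?_ : _ * ((s.1 0 0 + s.1 1 1) ^ 2 - 1) = 0)).resolve_right hne'
    linear_combination h2 + s.1 1 0 * hd
  · apply sub_eq_zero.1
    apply (mul_eq_zero.1 (?_ : _ * ((s.1 0 0 + s.1 1 1) ^ 2 - 1) = 0)).resolve_right hne'
    linear_combination h3 + (s.1 0 0 - s.1 1 1) * hd

theorem R_gen {F : Type*} [Field F] {R : Subgroup (GL (Fin 2) F)} (e : R ≃* QuaternionGroup 2) (K : Subgroup (GL (Fin 2) F))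
    (h1 : ((e.symm (QuaternionGroup.a 1) : R) : GL (Fin 2) F) ∈ K) (h2 : ((e.symm (QuaternionGroup.xa 0) : R) : GL (Fin 2) F) ∈ K) : R ≤ K := by
  intro x hx
  have key : ∀ q : QuaternionGroup 2, ∃ k : Fin 4, q = (QuaternionGroup.a 1) ^ (k : ℕ) ∨ q = QuaternionGroup.xa 0 * (QuaternionGroup.a 1) ^ (k : ℕ) := by decide
  obtain ⟨k, hk | hk⟩ := key (e ⟨x, hx⟩)
  · have h3 : (⟨x, hx⟩ : R) = (e.symm (QuaternionGroup.a 1)) ^ (k : ℕ) := by
      apply e.injective
      rw [hk, map_pow, MulEquiv.apply_symm_apply]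
    have h4 := congrArg Subtype.val h3
    rw [Subgroup.coe_pow] at h4
    change x = _ at h4
    rw [h4]
    exact K.pow_mem h1 _
  · have h3 : (⟨x, hx⟩ : R) = (e.symm (QuaternionGroup.xa 0)) * (e.symm (QuaternionGroup.a 1)) ^ (k : ℕ) := by
      apply e.injective
      rw [hk, map_mul, map_pow, MulEquiv.apply_symm_apply, MulEquiv.apply_symm_apply]
    have h4 := congrArg Subtype.val h3
    rw [Subgroup.coe_mul, Subgroup.coe_pow] at h4
    change x = _ at h4
    rw [h4]
    exact K.mul_mem h2 (K.pow_mem h1 _)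

/-- `R` is generated by a quaternion pair -/
theorem R_data {F : Type*} [Field F] (h2 : (2 : F) ≠ 0) {R : Subgroup (GL (Fin 2) F)} (e : R ≃* QuaternionGroup 2) :
    ∃ x y : SL2 F, QP x y ∧ Matrix.SpecialLinearGroup.toGL x ∈ R ∧ Matrix.SpecialLinearGroup.toGL y ∈ R ∧
      ∀ K : Subgroup (GL (Fin 2) F), Matrix.SpecialLinearGroup.toGL x ∈ K → Matrix.SpecialLinearGroup.toGL y ∈ K → R ≤ K := by
  set I : GL (Fin 2) F := ((e.symm (QuaternionGroup.a 1) : R) : GL (Fin 2) F) with hI
  set J : GL (Fin 2) F := ((e.symm (QuaternionGroup.xa 0) : R) : GL (Fin 2) F) with hJ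
  set Z : GL (Fin 2) F := ((e.symm (QuaternionGroup.a 2) : R) : GL (Fin 2) F) with hZ
  have hco : ∀ a b : QuaternionGroup 2, ((e.symm (a * b) : R) : GL (Fin 2) F) = ((e.symm a : R) : GL (Fin 2) F) * ((e.symm b : R) : GL (Fin 2) F) := by
    intro a b; rw [map_mul]; rfl
  have r1 : I * I = Z := by rw [hI, hZ, ← hco]; congr 2
  have r2 : J * J = Z := by rw [hJ, hZ, ← hco]; congr 2
  have r3 : I * J = Z * (J * I) := by rw [hI, hJ, hZ, ← hco, ← hco, ← hco]; congr 2
  have r4 : Z * Z = 1 := by
    rw [hZ, ← hco]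
    have : (QuaternionGroup.a 2 : QuaternionGroup 2) * QuaternionGroup.a 2 = 1 := by decide
    rw [this, map_one]; rfl
  have r5 : Z ≠ 1 := by
    intro h
    have h3 : (e.symm (QuaternionGroup.a 2) : R) = 1 := Subtype.ext h
    have h4 : (QuaternionGroup.a 2 : QuaternionGroup 2) = 1 := by
      rw [← e.apply_symm_apply (QuaternionGroup.a 2), h3, map_one]
    exact absurd h4 (by decide)
  have hZsl : Z ∈ Cfsg.Geo.specialLinear (Fin 2) F := by
    have : Z = I * J * I⁻¹ * J⁻¹ := by
      rw [r3]; group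
    rw [this, Cfsg.Geo.specialLinear, MonoidHom.mem_ker, map_mul, map_mul, map_mul, map_inv, map_inv, mul_comm (GeneralLinearGroup.det I)]
    group
  obtain ⟨z, hz⟩ := exists_lift hZsl
  have hinj : Function.Injective (Matrix.SpecialLinearGroup.toGL : SL2 F → GL (Fin 2) F) := by
    intro a b hab
    apply Subtype.ext
    exact congrArg Units.val hab
  have hzz : z * z = 1 := by
    apply hinj
    rw [map_mul, hz, r4, map_one]
  have hz1 : z ≠ 1 := by
    rintro rfl
    rw [map_one] at hz
    exact r5 hz.symm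
  have hzm : z = m1 := inv_unique h2 hzz hz1
  have hZv : (Z : Matrix (Fin 2) (Fin 2) F) = -1 := by
    rw [← hz, hzm]
    change (m1 : SL2 F).1 = -1
    ext i j
    fin_cases i <;> fin_cases j <;> simp [m1]
  have q1 : (I : Matrix (Fin 2) (Fin 2) F) * (I : Matrix (Fin 2) (Fin 2) F) = -1 := by rw [← Units.val_mul, r1, hZv]
  have q2 : (J : Matrix (Fin 2) (Fin 2) F) * (J : Matrix (Fin 2) (Fin 2) F) = -1 := by rw [← Units.val_mul, r2, hZv]
  have q3 : (I : Matrix (Fin 2) (Fin 2) F) * (J : Matrix (Fin 2) (Fin 2) F) = - ((J : Matrix (Fin 2) (Fin 2) F) * (I : Matrix (Fin 2) (Fin 2) F)) := by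
    rw [← Units.val_mul, r3, Units.val_mul, hZv, Units.val_mul, neg_one_mul]
  have key : ∀ A B : Matrix (Fin 2) (Fin 2) F, A * A = -1 → B * B = -1 → A * B = - (B * A) → A.det = 1 := by
    intro A B hA hB hAB
    have e1 : A = B * A * B := by
      have : B * A * B = B * (A * B) := mul_assoc _ _ _
      rw [this, hAB, mul_neg, ← mul_assoc, hB, neg_one_mul, neg_neg]
    have e2 : A.trace = - A.trace := by
      nth_rewrite 1 [e1]
      rw [Matrix.trace_mul_comm, ← mul_assoc, hB, neg_one_mul, Matrix.trace_neg]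
    have e3 : A.trace = 0 := by
      have : (2 : F) * A.trace = 0 := by linear_combination e2
      exact (mul_eq_zero.1 this).resolve_left h2
    have e4 := cayley2 A
    rw [hA, e3, zero_smul, zero_sub] at e4
    have e5 := congrFun (congrFun e4 0) 0
    simp at e5
    exact e5.symm
  have hId := key _ _ q1 q2 q3
  have hJd := key _ _ q2 q1 (by rw [q3, neg_neg])
  let x : SL2 F := ⟨I.1, hId⟩
  let y : SL2 F := ⟨J.1, hJd⟩
  have hx : Matrix.SpecialLinearGroup.toGL x = I := Units.ext rfl
  have hy : Matrix.SpecialLinearGroup.toGL y = J := Units.ext rfl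
  have hm : Matrix.SpecialLinearGroup.toGL (m1 : SL2 F) = Z := by rw [← hz, hzm]
  refine ⟨x, y, ⟨?_, ?_, ?_⟩, ?_, ?_, ?_⟩
  · apply hinj; rw [map_mul, hx, r1, hm]
  · apply hinj; rw [map_mul, hy, r2, hm]
  · apply hinj; rw [map_mul, map_mul, map_mul, hx, hy, hm, r3]
  · rw [hx]; exact (e.symm _).2
  · rw [hy]; exact (e.symm _).2
  · intro K h3 h4
    rw [hx] at h3
    rw [hy] at h4
    exact R_gen e K h3 h4

/-- Elements of prime order of PSL_2(p) and the normalizer of a quaternion subgroup. Here `T = PSL_2(F)` for the field `F` with `p` elements, `p ≥ 5` prime; `R` is a subgroup of GL_2(F) isomorphic to the quaternion group of order 8 (an absolutely irreducible 2-group of symplectic type), and `H` is the subgroup of matrices of determinant 1 normalizing `R` — a subgroup of type 2^{1+2}.O₂⁻(2), isomorphic modulo scalars to A₄ or S₄ (maximality is not assumed). Ω is the set of cosets of `H` in `T`, so an element of `T` of prime order `r` (a matrix `x` of determinant 1 with `x^r` scalar,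 `x` not scalar) fixes a point of Ω exactly when some conjugate of `x` by a matrix of determinant 1 normalizes `R`. Let `r` be a prime dividing the index of `H`. Then every element of `T` of order `r` fixes a point of Ω if and only if `r = 2` or `r = 3`. -/
theorem result {F : Type*} [Field F] [Fintype F] {p : ℕ} [Fact p.Prime] [CharP F p] (hF : Fintype.card F = p) (hp : 5 ≤ p)
    (R : Subgroup (GL (Fin 2) F)) (hR : Nonempty (↥R ≃* QuaternionGroup 2))
    (r : ℕ) [Fact r.Prime]
    (hΩ : r ∣ (Cfsg.Geo.subgroupNormalizer R).relIndex (Cfsg.Geo.specialLinear (Fin 2) F)) :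
    (∀ x ∈ Cfsg.Geo.specialLinear (Fin 2) F, (∃ z : F, ((x ^ r : GL (Fin 2) F) : Matrix (Fin 2) (Fin 2) F) = z • (1 : Matrix (Fin 2) (Fin 2) F)) →
      (∀ z : F, (x : Matrix (Fin 2) (Fin 2) F) ≠ z • (1 : Matrix (Fin 2) (Fin 2) F)) →
      ∃ g ∈ Cfsg.Geo.specialLinear (Fin 2) F, g⁻¹ * x * g ∈ Cfsg.Geo.subgroupNormalizer R) ↔ (r = 2 ∨ r = 3) := by
  classical
  have hp2 : (2 : F) ≠ 0 := by
    intro h
    have h1 := (CharP.cast_eq_zero_iff F p 2).1 (by exact_mod_cast h)
    have := Nat.le_of_dvd (by norm_num) h1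
    omega
  have hp3 : (3 : F) ≠ 0 := by
    intro h
    have h1 := (CharP.cast_eq_zero_iff F p 3).1 (by exact_mod_cast h)
    have := Nat.le_of_dvd (by norm_num) h1
    omega
  have hinj : Function.Injective (Matrix.SpecialLinearGroup.toGL : SL2 F → GL (Fin 2) F) := by
    intro a b hab
    apply Subtype.ext
    exact congrArg Units.val hab
  obtain ⟨e⟩ := hR
  obtain ⟨x, y, hQ, hxR, hyR, hgen⟩ := R_data hp2 e
  haveI : Finite R := Finite.of_equiv _ e.symm.toEquiv
  have hR8 : Nat.card R = 8 := by rw [Nat.card_congr e.toEquiv, Nat.card_eq_fintype_card, QuaternionGroup.card]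
  have hRN : R ≤ Cfsg.Geo.subgroupNormalizer R := Subgroup.le_normalizer
  have hpm : ∀ s : SL2 F, (∃ z : F, ((Matrix.SpecialLinearGroup.toGL s : GL (Fin 2) F) : Matrix (Fin 2) (Fin 2) F) = z • (1 : Matrix (Fin 2) (Fin 2) F)) ↔ IsPM s := by
    intro s
    constructor
    · rintro ⟨z, hz⟩
      have h1 : s.1 = z • (1 : Matrix (Fin 2) (Fin 2) F) := hz
      refine ⟨?_, ?_, ?_⟩ <;> rw [h1] <;> simp
    · rintro ⟨h1, h3, h4⟩
      refine ⟨s.1 0 0, ?_⟩
      change s.1 = _
      ext i j
      fin_cases i <;> fin_cases j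
      · simp
      · simp [h1]
      · simp [h3]
      · simp [h4]
  have hconj : ∀ (s t : SL2 F), tr2 t ^ 2 ≠ 4 → tr2 s = tr2 t → Matrix.SpecialLinearGroup.toGL t ∈ Cfsg.Geo.subgroupNormalizer R →
      ∃ g ∈ Cfsg.Geo.specialLinear (Fin 2) F, g⁻¹ * (Matrix.SpecialLinearGroup.toGL s) * g ∈ Cfsg.Geo.subgroupNormalizer R := by
    intro s t ht hst htN
    obtain ⟨c, hc⟩ := isConj_iff.1 (conj_of_tr ht hst)
    refine ⟨Matrix.SpecialLinearGroup.toGL c, toGL_mem c, ?_⟩
    rw [← map_inv, ← map_mul, ← map_mul]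
    have : c⁻¹ * s * c = t := by rw [← hc]; group
    rw [this]; exact htN
  constructor
  · -- only r = 2, 3
    intro hall
    by_contra hcon
    push Not at hcon
    have hr := (Fact.out : r.Prime)
    have hr5 : 5 ≤ r := by
      have := hr.two_le
      by_contra h
      have h4 : r = 4 := by omega
      rw [h4] at hr
      norm_num at hr
    have hrS : r ∣ Nat.card (Cfsg.Geo.specialLinear (Fin 2) F) := hΩ.trans (Subgroup.relIndex_dvd_card _ _)
    haveI : Finite (Cfsg.Geo.specialLinear (Fin 2) F) := inferInstance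
    obtain ⟨c, hc⟩ := exists_prime_orderOf_dvd_card' r hrS
    have hcr : ((c : GL (Fin 2) F)) ^ r = 1 := by
      have := pow_orderOf_eq_one c
      rw [hc] at this
      exact congrArg Subtype.val this
    have hc1 : (c : GL (Fin 2) F) ≠ 1 := by
      intro h
      have : c = 1 := Subtype.ext h
      rw [this, orderOf_one] at hc
      omega
    have hcop2 : ∀ g : GL (Fin 2) F, g ^ r = 1 → g ^ 2 = 1 → g = 1 := by
      intro g h1 h3
      have h4 := orderOf_dvd_of_pow_eq_one h1
      have h5 := orderOf_dvd_of_pow_eq_one h3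
      rw [← orderOf_eq_one_iff]
      refine Nat.eq_one_of_dvd_coprimes ?_ h4 h5
      exact (Nat.coprime_primes hr Nat.prime_two).2 (by omega)
    obtain ⟨g, hg, hh⟩ := hall c c.2 ⟨1, by rw [hcr, one_smul]; rfl⟩ (by
      intro z hz
      obtain ⟨s, hs⟩ := exists_lift c.2
      have h1 : IsPM s := by rw [← hpm, hs]; exact ⟨z, hz⟩
      apply hc1
      apply hcop2 _ hcr
      rw [← hs, ← map_pow, pow_two, h1.sq, map_one])
    set h := g⁻¹ * (c : GL (Fin 2) F) * g with hh'
    have hhr : h ^ r = 1 := by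
      have : h = g⁻¹ * (c : GL (Fin 2) F) * g⁻¹⁻¹ := by rw [inv_inv]
      rw [this, conj_pow, hcr]; group
    have hhsl : h ∈ Cfsg.Geo.specialLinear (Fin 2) F := Subgroup.mul_mem _ (Subgroup.mul_mem _ (Subgroup.inv_mem _ hg) c.2) hg
    have hh1 : h ≠ 1 := by
      intro h1
      apply hc1
      have : (c : GL (Fin 2) F) = g * h * g⁻¹ := by rw [hh']; group
      rw [this, h1]; group
    have hN : ∀ n ∈ R, h * n * h⁻¹ ∈ R := fun n hn => (Subgroup.mem_normalizer_iff.1 hh n).1 hn
    letI : Fintype R := Fintype.ofFinite R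
    let f : Function.End R := fun n => ⟨h * n * h⁻¹, hN n n.2⟩
    have hf : ∀ k : ℕ, ∀ n : R, (((f ^ k) n : R) : GL (Fin 2) F) = h ^ k * n * (h ^ k)⁻¹ := by
      intro k
      induction k with
      | zero => intro n; simp; rfl
      | succ k ih =>
        intro n
        rw [pow_succ]
        change (((f ^ k) (f n) : R) : GL (Fin 2) F) = _
        rw [ih]
        change h ^ k * (h * n * h⁻¹) * (h ^ k)⁻¹ = _
        rw [pow_succ]; group
    have hf1 : f ^ r ^ 1 = 1 := by
      funext n
      apply Subtype.ext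
      rw [pow_one, hf, hhr]
      simp
      rfl
    have h2 := Equiv.Perm.card_fixedPoints_modEq (p := r) (n := 1) hf1
    let C : Subgroup R := (Subgroup.centralizer ({h} : Set (GL (Fin 2) F))).subgroupOf R
    have hC : ∀ n : R, n ∈ C ↔ h * n = n * h := by
      intro n
      rw [Subgroup.mem_subgroupOf, Subgroup.mem_centralizer_iff]
      simp only [Set.mem_singleton_iff, forall_eq]
    have h3 : Fintype.card f.fixedPoints = Nat.card C := by
      rw [← Nat.card_eq_fintype_card]
      apply Nat.card_congr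
      apply Equiv.subtypeEquivRight
      intro n
      rw [hC]
      change f n = n ↔ _
      constructor
      · intro h5
        have h6 : h * n * h⁻¹ = n := congrArg Subtype.val h5
        rw [mul_inv_eq_iff_eq_mul] at h6
        exact h6
      · intro h5
        apply Subtype.ext
        change h * n * h⁻¹ = n
        rw [mul_inv_eq_iff_eq_mul]; exact h5
    rw [h3, ← Nat.card_eq_fintype_card, hR8] at h2
    have hCd : Nat.card C ∣ 8 := by rw [← hR8]; exact Subgroup.card_subgroup_dvd_card C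
    -- C contains -1
    have hm1R : Matrix.SpecialLinearGroup.toGL (m1 : SL2 F) ∈ R := by
      rw [← hQ.1, map_mul]
      exact R.mul_mem hxR hxR
    obtain ⟨s, hs⟩ := exists_lift hhsl
    have hC2 : Nat.card C ≠ 1 := by
      intro h5
      have h6 : (⟨_, hm1R⟩ : R) ∈ C := by
        rw [hC, ← hs, ← map_mul, ← map_mul, m1_comm]
      have h7 : C = ⊥ := Subgroup.card_eq_one.1 h5
      rw [h7, Subgroup.mem_bot] at h6
      have h8 : Matrix.SpecialLinearGroup.toGL (m1 : SL2 F) = 1 := congrArg Subtype.val h6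
      apply m1_ne_one hp2
      apply hinj
      rw [h8, map_one]
    have hC8 : Nat.card C = 8 := by
      have h5 := Nat.le_of_dvd (by norm_num) hCd
      have h6 : r ∣ 8 - Nat.card C := (Nat.modEq_iff_dvd' h5).1 h2.symm
      have h7 : Nat.card C = 2 ∨ Nat.card C = 4 ∨ Nat.card C = 8 := by
        generalize Nat.card C = m at hCd hC2 h5
        interval_cases m <;> first | omega | (revert hCd; norm_num)
      rcases h7 with h7 | h7 | h7
      · exfalso
        rw [h7] at h6
        have h8 : r ∣ 2 * 3 := h6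
        rcases hr.dvd_mul.1 h8 with h9 | h9
        · have := Nat.le_of_dvd (by norm_num) h9; omega
        · have := Nat.le_of_dvd (by norm_num) h9; omega
      · exfalso
        rw [h7] at h6
        have := Nat.le_of_dvd (by norm_num) h6; omega
      · exact h7
    have hCtop : C = ⊤ := Subgroup.eq_top_of_card_eq C (by rw [hC8, hR8])
    have hxc := (hC ⟨_, hxR⟩).1 (by rw [hCtop]; trivial)
    have hyc := (hC ⟨_, hyR⟩).1 (by rw [hCtop]; trivial)
    simp only [← hs, ← map_mul] at hxc hyc
    have hspm : IsPM s := hQ.central hp2 (hinj hxc).symm (hinj hyc).symm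
    apply hh1
    apply hcop2 _ hhr
    rw [← hs, ← map_pow, pow_two, hspm.sq, map_one]
  · rintro (rfl | rfl)
    · intro x0 hx0 hz hns
      obtain ⟨s, rfl⟩ := exists_lift hx0
      have h1 : IsPM (s * s) := by
        rw [← hpm, map_mul, ← pow_two]; exact hz
      have h3 : ¬ IsPM s := by
        rw [← hpm]; rintro ⟨z, hz⟩; exact hns z hz
      have h4 : s * s = m1 := by
        rcases isPM_cases h1 with h | h
        · exact absurd (isPM_of_sq hp2 h) h3
        · exact h
      have h5 := sq_eq_m1_iff.1 h4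
      have h6 := sq_eq_m1_iff.1 hQ.1
      exact hconj s x (tr0_ne hp2 hQ.1) (by rw [h5, h6]) (hRN hxR)
    · intro x0 hx0 hz hns
      obtain ⟨s, rfl⟩ := exists_lift hx0
      have h1 : IsPM (s * s * s) := by
        rw [← hpm, map_mul, map_mul, ← pow_two, ← pow_succ]; exact hz
      have h3 : ¬ IsPM s := by
        rw [← hpm]; rintro ⟨z, hz⟩; exact hns z hz
      have h4 := tr_of_cube h1 h3
      obtain ⟨g, hg1, hg2⟩ := pc_rot hQ hp2
      simp only at hg1 hg2
      have hgN : Matrix.SpecialLinearGroup.toGL g ∈ Cfsg.Geo.subgroupNormalizer R := by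
        haveI : Finite (R : Set (GL (Fin 2) F)) := inferInstanceAs (Finite R)
        apply Subgroup.mem_normalizer_fintype
        let K : Subgroup (GL (Fin 2) F) := R.comap (MulAut.conj (Matrix.SpecialLinearGroup.toGL g)).toMonoidHom
        have hK := hgen K (by
          change Matrix.SpecialLinearGroup.toGL g * Matrix.SpecialLinearGroup.toGL x * (Matrix.SpecialLinearGroup.toGL g)⁻¹ ∈ R
          rw [← map_inv, ← map_mul, ← map_mul, ← hg1]; exact hyR) (by
          change Matrix.SpecialLinearGroup.toGL g * Matrix.SpecialLinearGroup.toGL y * (Matrix.SpecialLinearGroup.toGL g)⁻¹ ∈ R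
          rw [← map_inv, ← map_mul, ← map_mul, ← hg2, map_mul]; exact R.mul_mem hxR hyR)
        intro n hn
        exact hK hn
      have hg3 : g * (x * y) * g⁻¹ = x := by
        have : g * (x * y) * g⁻¹ = (g * x * g⁻¹) * (g * y * g⁻¹) := by group
        rw [this, ← hg1, ← hg2]
        have h7 := hQ.2.2
        calc y * (x * y) = y * (m1 * (y * x)) := by rw [← h7]
          _ = m1 * (y * y) * x := by rw [← mul_assoc, ← m1_comm]; simp only [mul_assoc]
          _ = x := by rw [hQ.2.1, m1_mul_m1, one_mul]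
      have hgpm : ¬ IsPM g := by
        intro h
        have h7 := isPM_comm h x
        have h8 : g * x * g⁻¹ = x := by rw [h7]; group
        rw [← hg1] at h8
        exact hQ.noncomm hp2 (by rw [h8])
      have hg3pm : IsPM (g * g * g) := by
        apply hQ.central hp2
        · have : (g * g * g) * x * (g * g * g)⁻¹ = x := by
            have : (g * g * g) * x * (g * g * g)⁻¹ = g * (g * (g * x * g⁻¹) * g⁻¹) * g⁻¹ := by group
            rw [this, ← hg1, ← hg2, hg3]
          nth_rewrite 1 [← this]; group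
        · have : (g * g * g) * y * (g * g * g)⁻¹ = y := by
            have : (g * g * g) * y * (g * g * g)⁻¹ = g * (g * (g * y * g⁻¹) * g⁻¹) * g⁻¹ := by group
            rw [this, ← hg2, hg3, ← hg1]
          nth_rewrite 1 [← this]; group
      have h7 := tr_of_cube hg3pm hgpm
      have h8 : (tr2 s - tr2 g) * (tr2 s + tr2 g) = 0 := by linear_combination h4 - h7
      have hne4 : tr2 g ^ 2 ≠ 4 := by
        rw [h7]
        intro h
        apply hp3
        linear_combination -h
      rcases mul_eq_zero.1 h8 with h | h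
      · exact hconj s g hne4 (sub_eq_zero.1 h) hgN
      · have ht : tr2 (m1 * g) = - tr2 g := by
          simp only [tr2, m1_mul_apply]; ring
        refine hconj s (m1 * g) (by rw [ht, neg_sq]; exact hne4) (by rw [ht]; linear_combination h) ?_
        rw [map_mul]
        refine Subgroup.mul_mem _ (hRN ?_) hgN
        rw [← hQ.1, map_mul]
        exact R.mul_mem hxR hxR

end Cfsg.Agent.S5997
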